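import Cfsg.Agent.H20.El9
import Cfsg.Agent.S5979
import Cfsg.Agent.H29.As6

/-! Kronecker products of projective prime order (`rank_kron'`, `not_kron`) and elusivity of symplectic groups on tensor
decompositions (`symp_ten`). -/

set_option autoImplicit false
namespace H20.El
open H11 Module Polynomial Matrix Cfsg.Geo Cfsg.Agent.S5979
open H11.PForm hiding X
open scoped Kronecker

universe u
variable {F : Type u} [Field F] {κ μ : Type} [Fintype κ] [DecidableEq κ] [Fintype μ] [DecidableEq μ]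

theorem rank_kron' (A : Matrix κ κ F) (B : Matrix μ μ F) {v : κ → F} {m : ℕ}
    (hv : ∀ p : F[X], p.degree ≤ m → aeval (mE A) p v = 0 → p = 0) : Fintype.card μ * m ≤ (A ⊗ₖ B - 1).rank := by
  let φ : (μ → degreeLT F m) →ₗ[F] (κ × μ → F) :=
    { toFun := fun u x => aeval (mE A) (u x.2).1 v x.1
      map_add' := fun _ _ => by ext; simp
      map_smul' := fun _ _ => by ext; simp }
  have h : Function.Injective (mE (A ⊗ₖ B - 1) ∘ₗ φ) := by
    rw [← LinearMap.ker_eq_bot, LinearMap.ker_eq_bot']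
    intro u hu
    have h1 : ∀ s, (u s).1 = X * ∑ t, B s t • (u t).1 := fun s => by
      refine (sub_eq_zero.1 (hv _ ((degree_sub_le _ _).trans (max_le ?_ (mem_degreeLT.1 (u s).2).le)) ?_)).symm
      · have := mem_degreeLT.1 (Submodule.sum_mem _ fun t (_ : t ∈ Finset.univ) => Submodule.smul_mem _ (B s t) (u t).2)
        rw [mul_comm, degree_mul_X]
        generalize degree (∑ t, B s t • (u t).1) = n at this ⊢
        cases n with
        | bot => simp
        | coe n => exact WithBot.coe_le_coe.2 (show n + 1 ≤ m from WithBot.coe_lt_coe.1 this)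
      · ext k
        have := congrFun hu (k, s)
        simp only [LinearMap.comp_apply, mE_apply, sub_mulVec, one_mulVec, Pi.sub_apply, Pi.zero_apply] at this
        rw [map_sub, map_mul, aeval_X, map_sum, LinearMap.sub_apply, End.mul_apply, LinearMap.sum_apply, map_sum,
          Pi.sub_apply, Finset.sum_apply, Pi.zero_apply, ← this]
        congr 1
        simp [mulVec, dotProduct, φ, Fintype.sum_prod_type_right, mE_apply, Finset.mul_sum, mul_assoc, mul_left_comm]
    have h2 : ∀ (n : ℕ) s, X ^ n ∣ (u s).1 := fun n => by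
      induction n with
      | zero => simp
      | succ n ih =>
        intro s
        rw [h1, pow_succ']
        exact mul_dvd_mul_left _ (Finset.dvd_sum fun t _ => by rw [smul_eq_C_mul]; exact (ih t).mul_left _)
    exact funext fun s => Subtype.ext (eq_zero_of_dvd_of_degree_lt (h2 m s) (by simpa using mem_degreeLT.1 (u s).2))
  have h1 := Submodule.finrank_mono (LinearMap.range_comp_le_range φ (mE (A ⊗ₖ B - 1)))
  rwa [LinearMap.finrank_range_of_inj h, finrank_pi_fintype, (degreeLTEquiv F m).finrank_eq, finrank_fin_fun,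
    Finset.sum_const, smul_eq_mul] at h1

variable [Finite F]

theorem kron_bound {r : ℕ} (hr : r.Prime) (h0 : (r : F) ≠ 0) (h1 : orderOf (Nat.card F : ZMod r) ≠ 1) [Nonempty μ]
    {A : Matrix κ κ F} {B : Matrix μ μ F} (h : (A ⊗ₖ B) ^ r = 1) (hA : ∀ z : F, A ≠ z • 1) :
    orderOf (Nat.card F : ZMod r) ≤ Fintype.card κ ∧
      Fintype.card μ * (orderOf (Nat.card F : ZMod r) - 1) ≤ (A ⊗ₖ B - 1).rank := by
  classical
  obtain ⟨s⟩ := ‹Nonempty μ›
  have h2 : (A ^ r) ⊗ₖ (B ^ r) = 1 := by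
    rw [← h]
    exact Nat.rec (by simp) (fun k hk => by simp only [pow_succ, mul_kronecker_mul, hk]) r
  have h3 : (B ^ r) s s • A ^ r = 1 := Matrix.ext fun i j => by
    simpa [one_apply, mul_comm] using congrFun₂ h2 (i, s) (j, s)
  obtain ⟨d, hd⟩ : ∃ d, d ^ r = (B ^ r) s s := by
    by_contra! e; exact h1 (dvd_of_not_pow hr e)
  have h4 : mE (d • A) ^ r = 1 := by rw [← mE_pow, _root_.smul_pow, hd, h3, mE_one]
  have h5 : d ≠ 0 := by
    rintro rfl
    refine hA 0 (Matrix.ext fun i j => ?_)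
    simpa [← hd, hr.ne_zero] using congrFun₂ h3 i i
  obtain ⟨w, hw⟩ : ∃ w, (mE (d • A) - 1) w ≠ 0 := by
    by_contra! e
    refine hA d⁻¹ ?_
    rw [← mE_inj.1 ((sub_eq_zero.1 (LinearMap.ext e)).trans mE_one.symm), smul_smul, inv_mul_cancel₀ h5, one_smul]
  have := Fact.mk hr
  have h6 : aeval (mE (d • A)) (cyclotomic r F) ((mE (d • A) - 1) w) = 0 := by
    have := congrArg (aeval (mE (d • A)) · w) (cyclotomic_prime_mul_X_sub_one F r)
    simpa only [map_mul, map_sub, map_pow, aeval_X, map_one, h4, sub_self, End.mul_apply, LinearMap.zero_apply] using this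
  have h7 : ∀ p : F[X], p.degree < orderOf (Nat.card F : ZMod r) →
      aeval (mE (d • A)) p ((mE (d • A) - 1) w) = 0 → p = 0 := fun p h8 h9 => by
    by_contra h10
    have : IsCoprime p (cyclotomic r F) := isCoprime_of_irreducible_dvd (by simp [h10]) fun π k1 k2 k3 => by
      have k4 := (PhiF_spec hr h0).1 (normalize π) (mem_PhiF.2 ⟨(normalize_associated π).symm.irreducible k1,
        monic_normalize k1.ne_zero, normalize_dvd_iff.2 k3⟩)
      have k5 := natDegree_le_of_dvd (normalize_dvd_iff.2 k2) h10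
      rw [degree_eq_natDegree h10, Nat.cast_lt] at h8
      omega
    obtain ⟨a, b, k1⟩ := this
    have := congrArg (aeval (mE (d • A)) · ((mE (d • A) - 1) w)) k1
    simp only [map_add, map_mul, LinearMap.add_apply, End.mul_apply, h6, h9, map_zero, map_one, End.one_apply] at this
    exact hw (by rw [← this, add_zero])
  have h8 := orderOf_card_ne_zero hr h0
  refine ⟨not_lt.1 fun h9 => (mE (d • A)).charpoly_monic.ne_zero (h7 _ ?_ (by simp [LinearMap.aeval_self_charpoly])), ?_⟩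
  · rw [degree_eq_natDegree (mE (d • A)).charpoly_monic.ne_zero, LinearMap.charpoly_natDegree]
    simpa using h9
  · have := rank_kron' (d • A) (d⁻¹ • B) (m := orderOf (Nat.card F : ZMod r) - 1) fun p h => h7 p (h.trans_lt (by
      exact_mod_cast Nat.sub_one_lt h8))
    rwa [smul_kronecker, kronecker_smul, smul_smul, mul_inv_cancel₀ h5, one_smul] at this

omit [Finite F] in
theorem rank_sim' {V : Type u} [AddCommGroup V] [Module F V] [FiniteDimensional F V] {f : End F V} {A : Matrix κ κ F}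
    (h : Sim f (mE A)) : finrank F (LinearMap.range (f - 1)) = (A - 1).rank := by
  have := rank_sim h 1
  rwa [one_smul, one_smul] at this

omit [Finite F] in
theorem rank_two {V : Type u} [AddCommGroup V] [Module F V] [FiniteDimensional F V] [Nonempty κ] [Nonempty μ] {f : End F V}
    {A : GL κ F} {B : GL μ F} (h : Sim f (mE (A.1 ⊗ₖ B.1))) (h1 : ∀ z : F, f ≠ z • 1) :
    ((∀ z : F, A.1 ≠ z • 1) → Fintype.card μ ≤ finrank F (LinearMap.range (f - 1))) ∧
      ((∀ z : F, B.1 ≠ z • 1) → Fintype.card κ ≤ finrank F (LinearMap.range (f - 1))) ∧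
      ((∀ z : F, A.1 ≠ z • 1) ∨ ∀ z : F, B.1 ≠ z • 1) := by
  refine ⟨fun e => by simpa [rank_sim' h] using rank_kron e B 1,
    fun e => by simpa [rank_sim' (h.trans (sim_swap _ _))] using rank_kron e A 1, ?_⟩
  by_contra! e
  obtain ⟨⟨z, hz⟩, w, hw⟩ := e
  refine sim_ns h h1 (z * w) ?_
  rw [hz, hw, smul_kronecker, kronecker_smul, one_kronecker_one, smul_smul, mE_smul, mE_one]

open Classical in
omit [Finite F] in
theorem kron_count {V : Type u} [AddCommGroup V] [Module F V] [FiniteDimensional F V] {f : End F V}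
    {B : Matrix μ μ F} {z : F} (h : Sim f (mE ((z • 1 : Matrix κ κ F) ⊗ₖ B))) (hf : SS f) (Q : F[X]) :
    Fintype.card κ ∣ (ED f).count Q := by
  rw [hf.ED_eq, h.charpoly, charpoly_mE, smul_kronecker, ← kronecker_smul, charpoly_kron,
    UniqueFactorizationMonoid.normalizedFactors_pow, Multiset.count_nsmul]
  exact dvd_mul_right _ _

theorem not_kron {V : Type u} [AddCommGroup V] [Module F V] [FiniteDimensional F V] {S : PForm (sympP F) V} (hS : S.Nondeg)
    (p : ℕ) [Fact p.Prime] [CharP F p] (ha : Even (Fintype.card κ)) (ha2 : 2 ≤ Fintype.card κ) (hb : 3 ≤ Fintype.card μ)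
    (hV : 2 < finrank F V) {r : ℕ} (hr : r.Prime) (hΩ : r ∣ Nat.card S.Isom) (h : ¬ (r = 2 ∧ Fintype.card κ = 2)) :
    ∃ x : S.Isom, x ^ r = 1 ∧ (∀ z : F, iE x ≠ z • 1) ∧ ∀ (A : GL κ F) (B : GL μ F), ¬ Sim (iE x) (mE (A.1 ⊗ₖ B.1)) := by
  classical
  have : Nonempty κ := Fintype.card_pos_iff.1 (by omega)
  have : Nonempty μ := Fintype.card_pos_iff.1 (by omega)
  have key : ∀ x : S.Isom, 0 < finrank F (res x) → finrank F (res x) < Fintype.card κ → finrank F (res x) < 3 →
      (∀ z : F, iE x ≠ z • 1) ∧ ∀ (A : GL κ F) (B : GL μ F), ¬ Sim (iE x) (mE (A.1 ⊗ₖ B.1)) := fun x h1 h2 h3 =>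
    ⟨ns_res h1 (by omega), fun A B h4 => by
      obtain ⟨h5, h6, h7⟩ := rank_two h4 (ns_res h1 (by omega))
      exact h7.elim (fun h => ((h5 h).trans_lt (h3.trans_le hb)).false) fun h => ((h6 h).trans_lt h2).false⟩
  by_cases hrp : r = p
  · subst hrp
    obtain ⟨x, h1, h2⟩ := exists_transv r hS (by omega)
    exact ⟨x, h1, key x (by omega) (by omega) (by omega)⟩
  have h2 := natCast_ne_zero_of_prime (F := F) p hr hrp
  by_cases hr2 : r = 2
  · subst hr2
    obtain ⟨W, h9, h10⟩ := hm_symp.nd hS (k := 2) dvd_rfl (by omega)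
    obtain ⟨x, h11, h12⟩ := exists_inv hS (by exact_mod_cast h2) h9
    exact ⟨x, h11, key x (by omega) (by omega) (by omega)⟩
  have h9 : ¬ r ∣ Nat.card F := fun h => hrp ((dvd_card_iff p hr).1 h)
  obtain ⟨d, hd⟩ := hm_symp.dvd hS
  rw [symp_card_Isom _ hS hd] at hΩ
  obtain ⟨j, k1, k2⟩ := (Prime.dvd_finset_prod_iff hr.prime _).1 ((hr.dvd_mul.1 hΩ).resolve_left
    fun h => h9 (hr.dvd_of_dvd_pow h))
  have k3 := Nat.le_of_dvd (by omega) (c_dvd_symp rfl rfl k2)
  have A := ar_symp hr hr2 h9 h2 rfl rfl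
  obtain ⟨x, k7, k8, k9, k10, -⟩ := A.exists_res hS one_pos (by simp at k1; omega)
  have k4 := ns_odd hS (hr.odd_of_ne_two hr2) k7 k8
  refine ⟨x, k7, k4, fun B C h3 => ?_⟩
  obtain ⟨k5, -, -, -, k6⟩ := A.spec hS k7
  obtain ⟨Q, hQ⟩ := Multiset.card_pos_iff_exists_mem.1 (k6 k8)
  have k11 : (ED (iE x)).count Q = 1 := by
    rw [← Multiset.count_eq_one_of_mem (k10 rfl) hQ, nED, Multiset.count_filter_of_pos (Multiset.of_mem_filter hQ)]
  have h4 : ∀ z : F, B.1 ≠ z • 1 := fun z hz => by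
    have := Nat.le_of_dvd one_pos (k11 ▸ kron_count (hz ▸ h3) k5 Q)
    omega
  have h5 : ∀ z : F, C.1 ≠ z • 1 := fun z hz => by
    have := Nat.le_of_dvd one_pos (k11 ▸ kron_count (hz ▸ h3.trans (sim_swap _ _)) k5 Q)
    omega
  have h6 := (rank_two h3 k4).1 h4
  change _ ≤ finrank F (res x) at h6
  by_cases hi : orderOf (Nat.card F : ZMod r) = 1
  · simp [k9, hi] at h6
    omega
  have e : ∀ {ι : Type} [Fintype ι] [DecidableEq ι] {M : Matrix ι ι F}, Sim (iE x) (mE M) →
      M ^ r = 1 ∧ (M - 1).rank = finrank F (res x) := fun h =>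
    ⟨mE_inj.1 (by rw [mE_pow, sim_pow h (pow_one' k7), one_smul, mE_one]), (rank_sim' h).symm⟩
  obtain ⟨k12, k13⟩ := kron_bound hr h2 hi (e h3).1 h4
  obtain ⟨k14, k15⟩ := kron_bound hr h2 hi (e (h3.trans (sim_swap _ _))).1 h5
  rw [(e h3).2, k9] at k13
  rw [(e (h3.trans (sim_swap _ _))).2, k9] at k15
  have := A.ipos
  generalize orderOf (Nat.card F : ZMod r) = i at *
  obtain ⟨i, rfl⟩ : ∃ j, i = j + 2 := ⟨i - 2, by omega⟩
  simp only [show i + 2 - 1 = i + 1 from rfl, Nat.even_iff] at ha k13 k15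
  split_ifs at k13 k15 with h
  · nlinarith
  · have : i + 3 ≤ Fintype.card κ := by omega
    have : 1 ≤ i := by omega
    nlinarith

open Classical in
omit [Finite F] in
theorem exists_sym_inv {f : (μ → F) → (μ → F) → F} (hf : IsSymmetricForm f) (h2 : (2 : F) ≠ 0) {k : ℕ}
    (hk : k ≤ Fintype.card μ) : ∃ B : Matrix μ μ F, B ^ 2 = 1 ∧ (∀ u v, f (B *ᵥ u) (B *ᵥ v) = f u v) ∧
      ∃ t, H2.Eu.Eig (mE B) t ∧ t.count 1 = k := by
  have := invertibleOfNonzero h2
  obtain ⟨v, hv⟩ := LinearMap.BilinForm.exists_orthogonal_basis (B := H29.bilinOf hf.bilinear) ⟨hf.symm⟩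
  let s : Fin (finrank F (μ → F)) → F := fun j => if j.1 < k then 1 else -1
  have h1 : ∀ j, s j * s j = 1 := fun j => by simp only [s]; split_ifs <;> simp
  obtain ⟨B, hB⟩ := mE_surj (v.equivFun.symm.conj (mE (diagonal s)))
  have h3 : ∀ j, mE B (v j) = s j • v j := fun j => v.equivFun.injective (by
    ext i
    simp [hB, LinearEquiv.conj_apply, mE_apply, mulVec_diagonal, Finsupp.single_apply, eq_comm])
  refine ⟨B, mE_inj.1 (v.ext fun j => by simp [mE_pow, mE_one, sq, h3, smul_smul, h1, -mE_apply]), fun u w => ?_, ?_⟩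
  · refine congr($(show (H29.bilinOf hf.bilinear).compl₁₂ (mE B) (mE B) = H29.bilinOf hf.bilinear from
      v.ext fun i => v.ext fun j => ?_) u w)
    rw [LinearMap.compl₁₂_apply, h3, h3, map_smul, map_smul, LinearMap.smul_apply, smul_smul]
    by_cases h : i = j
    · rw [h, h1, one_smul]
    · rw [show H29.bilinOf hf.bilinear (v i) (v j) = 0 from hv h, smul_zero]
  · refine ⟨_, (H2.Eu.eig_diag s).of_sim (hB ▸ (sim_conj _ _).symm), ?_⟩
    have h4 : (1 : F) ≠ -1 := fun h => h2 (by linear_combination h)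
    rw [Multiset.count_map, ← Finset.filter_val, Finset.card_val, Finset.filter_congr (q := fun j => j.1 < k) fun j _ => by
      simp only [s]; split_ifs with h <;> simp [h, h4], Fin.card_filter_val_lt]
    simpa using hk

theorem symp_ten (p : ℕ) [Fact p.Prime] [CharP F p] (h2 : (2 : F) ≠ 0) {d a b : ℕ} (hab : 2 * d = a * b) (ha : Even a)
    (ha2 : 2 ≤ a) (hb : 3 ≤ b) {e : (Fin d ⊕ Fin d) ≃ Fin a × Fin b} {P : GL (Fin d ⊕ Fin d) F}
    {f₁ : (Fin a → F) → (Fin a → F) → F} {f₂ : (Fin b → F) → (Fin b → F) → F} (hf₁ : IsSymplecticForm f₁)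
    (hf₂ : IsSymmetricForm f₂) (hT : IsTensorFormStructure id (Cfsg.sympForm d F) f₁ f₂ e P) {r : ℕ} (hr : r.Prime)
    (hΩ : r ∣ ((tensorProductSubgroup a b e P).comap (H29.toGL (stdSymp d F))).index) :
    (∀ x : (stdSymp d F).Isom, (∃ z : F, iE x ^ r = z • 1) → (∀ z : F, iE x ≠ z • 1) →
      ∃ g, g⁻¹ * x * g ∈ (tensorProductSubgroup a b e P).comap (H29.toGL (stdSymp d F))) ↔ r = 2 ∧ a = 2 := by
  classical
  have hS := stdSymp_nondeg (F := F) d
  have hn := finrank_sum_fun (F := F) d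
  have h1 : ∀ {y : (stdSymp d F).Isom} {M}, (H29.toGL _ y).1 = H29.Φ (H29.coordT e P) M → Sim (mE M) (iE y) := fun h =>
    ⟨H29.coordT e P, fun x => by rw [mE_apply, ← H29.Φ_mulVec, ← h, H29.toGL_mulVec]; rfl⟩
  constructor
  · intro H
    by_contra h
    obtain ⟨x, h3, h4, h5⟩ := not_kron (κ := Fin a) (μ := Fin b) hS p (by simpa) (by simpa) (by simpa) (by nlinarith) hr
      (hΩ.trans (Subgroup.index_dvd_card _)) (by simpa using h)
    obtain ⟨g, hg⟩ := H x ⟨_, pow_one' h3⟩ h4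
    obtain ⟨A, B, h6⟩ := H29.mem_tensorProductSubgroup.1 hg
    exact h5 A B ((isim_iff_isConj.2 (isConj_iff.2 ⟨g⁻¹, by rw [inv_inv]⟩)).sim.trans (h1 h6).symm)
  rintro ⟨rfl, rfl⟩
  obtain ⟨c, -, hc⟩ := hT
  have key : ∀ (A : Matrix (Fin 2) (Fin 2) F) (B : Matrix (Fin b) (Fin b) F), (∀ u v, f₁ (A *ᵥ u) (A *ᵥ v) = f₁ u v) →
      (∀ u v, f₂ (B *ᵥ u) (B *ᵥ v) = f₂ u v) → IsUnit A → IsUnit B →
      ∃ y ∈ (tensorProductSubgroup 2 b e P).comap (H29.toGL (stdSymp d F)), Sim (mE (A ⊗ₖ B)) (iE y) := by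
    rintro _ _ k1 k2 ⟨A, rfl⟩ ⟨B, rfl⟩
    rw [H29.eq_fm_of_bilin hf₁.bilinear] at k1
    rw [H29.eq_fm_of_bilin hf₂.bilinear] at k2
    simp only [H29.fm_mulVec] at k1 k2
    obtain ⟨y, hy⟩ := (H29.mem_range_toGL (stdSymp d F) (H29.ΦU (H29.coordT e P) (H29.kronU A B))).2
      (symp_isIsom fun u v => by
        obtain ⟨u, rfl⟩ := (H29.coordT e P).surjective u
        obtain ⟨v, rfl⟩ := (H29.coordT e P).surjective v
        simp only [H29.coe_ΦU, H29.Φ_mulVec]
        simp only [H29.coordT_apply, stdSymp_h, hc]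
        congr 1
        refine (H29.fm_mulVec (σ := RingHom.id F) _ _ _ _).trans ?_
        show H29.fm _ ((A.1 ⊗ₖ B.1)ᵀ * _ * (A.1 ⊗ₖ B.1)) _ _ = _
        rw [← kroneckerMap_transpose, ← mul_kronecker_mul, ← mul_kronecker_mul]
        exact congrArg₂ (fun M N => H29.fm (RingHom.id F) (M ⊗ₖ N) u v) (H29.fm_ext k1) (H29.fm_ext k2))
    have k3 : (H29.toGL _ y).1 = H29.Φ (H29.coordT e P) (A.1 ⊗ₖ B.1) := by rw [hy]; rfl
    exact ⟨y, H29.mem_tensorProductSubgroup.2 ⟨A, B, k3⟩, h1 k3⟩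
  refine two_all hS h2 (fun x k1 _ => ?_) ?_
  · obtain ⟨k, k3⟩ := symp_even _ (hS.nondeg_res (ss_of_pow_eq_one (m := 2) (by exact_mod_cast h2)
      (by rw [← iE_pow, k1, iE_one]))) rfl
    have k4 := finrank_fix hS x
    obtain ⟨B, k5, k6, t, k7, k8⟩ := exists_sym_inv hf₂ h2 (k := b - k) (by simp)
    obtain ⟨y, k9, k10⟩ := key 1 B (by simp) k6 isUnit_one (IsUnit.of_pow_eq_one k5 two_ne_zero)
    have k11 : iE y ^ 2 = 1 := by
      simpa using sim_pow k10 (r := 2) (z := 1) (by rw [← mE_pow, sq, ← mul_kronecker_mul, ← sq B, k5]; simp [mE_one])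
    have k12 := (H2.Eu.Eig.of_charpoly (s := t + t) (ss_of_pow_eq_one (m := 2) (by exact_mod_cast h2) k11) (by
      rw [← k10.charpoly, charpoly_mE, charpoly_kron, ← charpoly_mE, k7.charpoly]; simp [sq])).finrank_ker 1
    have k13 := (iE y - 1).finrank_range_add_finrank_ker
    rw [one_smul, Multiset.count_add] at k12
    rw [k12, hn, k8] at k13
    exact ⟨y, k9, iE_inj.1 (by rw [iE_pow, k11, iE_one]), (show _ = 2 * d - (b - k + (b - k)) from eq_tsub_of_add_eq k13).trans (by omega)⟩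
  · obtain ⟨g, hg⟩ := exists_sqneg (S := sympS (H29.bilinOf hf₁.bilinear) hf₁.alternating) fun x h =>
      by_contra fun hx => ((hf₁.nondegenerate x hx).2).elim fun y hy => hy (h y)
    obtain ⟨A, hA⟩ := mE_surj (iE g)
    have k1 : A ^ 2 = (-1 : F) • 1 := mE_inj.1 (by rw [mE_pow, hA, hg, mE_smul, mE_one])
    obtain ⟨y, k2, k3⟩ := key A 1 (fun u v => by rw [← mE_apply, ← mE_apply, hA]; exact isom_h g u v) (by simp)
      (IsUnit.of_pow_eq_one (n := 2 * 2) (by rw [pow_mul, k1]; simp) (by simp)) isUnit_one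
    exact ⟨y, k2, sim_pow k3 (by
      rw [← mE_pow, sq, ← mul_kronecker_mul, ← sq, k1, mul_one, smul_kronecker, one_kronecker_one, mE_smul, mE_one])⟩

end H20.El
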