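import Cfsg.Agent.H20.El1

/-! Elusivity engine: the reduction `lin_iff` for `SL_n(q)`, the unipotent case `unip_iff`, arithmetic
lemmas (`arith_sub`, `arith_two`, `part_two`). -/

set_option autoImplicit false
namespace H20.El
open H11 Module Polynomial Multiset

universe u
variable {F : Type u} [Field F] {V W : Type*} [AddCommGroup V] [Module F V] [AddCommGroup W]
  [Module F W] [FiniteDimensional F V] [FiniteDimensional F W]

theorem lin_iff [Finite F] {r : ℕ} [hr : Fact r.Prime] (h0 : (r : F) ≠ 0) {n : ℕ} (hn : finrank F V = n) (hV : 0 < n)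
    {Φ : End F V → Prop} (hΦ : ∀ f (c : F), c ≠ 0 → Φ f → Φ (c • f)) {Ψ : Multiset ℕ → Prop}
    (h : ∀ g, SS g → (Φ g ↔ Ψ (JT g))) (h1 : Ψ (replicate n 1)) {q i : ℕ} (hq : Nat.card F = q)
    (hi : orderOf (q : ZMod r) = i) :
    (∀ f : End F V, LinearMap.det f = 1 → (∃ z : F, f ^ r = z • 1) → (∀ z : F, f ≠ z • 1) → Φ f) ↔
      (i = 1 → ¬ Good r n q → ∀ s, s * r = n → Ψ (replicate s r)) ∧
      (2 ≤ i → ∀ e s, 0 < s → e + s * i = n → Ψ (replicate e 1 + replicate s i)) := by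
  subst hn hq hi
  constructor
  · refine fun H => ⟨fun hi hb s hs => ?_, fun hi e s hs he => ?_⟩
    · obtain ⟨g, z, h2, h3, h4, h5⟩ := exists_bad hi hV hb
      obtain ⟨h6, s', -, h7, h8, -⟩ := irr_spec hr.out.ne_zero h5 h3
      obtain rfl : s' = s := Nat.eq_of_mul_eq_mul_right hr.out.pos (h7.trans hs.symm)
      exact h8 ▸ (h g h6).1 (H g h2 ⟨z, h3⟩ h4)
    · obtain ⟨P, hP⟩ := exists_mem_PhiF hr.out h0
      obtain ⟨g, h2, h3, h4, -, h5⟩ := exists_jt hr.out h0 hi hs he hP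
      exact h5 ▸ (h g (ss_of_pow_eq_one h0 h3)).1 (H g h2 ⟨1, by simpa using h3⟩ h4)
  · rintro ⟨H1, H2⟩
    refine all_of hr.out hΦ (fun g h2 h3 => ?_) fun g z h2 h3 h4 _ => ?_
    · obtain ⟨h4, e, s, h5, h6⟩ := jt_of_pow hr.out h0 h2
      have h7 := JT_sum g
      have h8 := orderOf_card_ne_zero hr.out h0
      rw [h5] at h7
      simp only [Multiset.sum_add, sum_replicate, smul_eq_mul, mul_one] at h7
      rw [h g h4, h5]
      by_cases h9 : orderOf (Nat.card F : ZMod r) = 1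
      · rw [h9, mul_one] at h7
        rwa [h9, ← replicate_add, h7]
      · exact H2 (by omega) e s (h6 (ne_one_of h3)) h7
    · obtain ⟨h5, h6⟩ := bad_of h2 h3 h4 hV
      obtain ⟨h7, s, -, h8, h9, -⟩ := irr_spec hr.out.ne_zero h2 h3
      exact (h g h7).2 (h9 ▸ H1 h5 h6 s h8)

theorem mod_lt_of {i n m : ℕ} (hc : ∃ j, n - m < j ∧ j ≤ n ∧ i ∣ j) : i ≤ n ∧ n % i < m := by
  obtain ⟨j, h1, h2, k, rfl⟩ := hc
  obtain ⟨l, rfl⟩ := Nat.exists_eq_add_of_le h2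
  have := Nat.mod_le l i
  have : i ≤ i * k := Nat.le_mul_of_pos_right _ (Nat.pos_of_mul_pos_left (show 0 < i * k by omega))
  rw [Nat.mul_add_mod]; omega

theorem exists_le_div {i n e s : ℕ} (hi : 0 < i) (h : e + s * i = n) :
    ∃ a, e = n % i + a * i ∧ n / i = s + a := by
  subst h
  refine ⟨e / i, ?_, ?_⟩
  · rw [Nat.add_mul_mod_self_right, mul_comm, Nat.mod_add_div]
  · rw [Nat.add_mul_div_right _ _ hi, add_comm]

theorem eq_of_small {i n e s : ℕ} (he : e < i) (h : e + s * i = n) : e = n % i ∧ s = n / i := by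
  obtain ⟨a, h1, h2⟩ := exists_le_div (by omega) h
  rcases a with _ | a
  · omega
  · rw [add_mul] at h1; omega

theorem arith_sub {i n m : ℕ} (hi : 0 < i) (hm : m ≤ n) (hc : i ≤ n ∧ n % i < m) :
    (∀ e s, 0 < s → e + s * i = n → ∃ e' ≤ e, ∃ s' ≤ s, e' + s' * i = m) ↔ i ≤ m ∧ m % i ≤ n % i := by
  have h1 := Nat.mod_lt n hi
  constructor
  · intro h
    obtain ⟨e', h2, s', -, h3⟩ := h (n % i) (n / i) (Nat.div_pos hc.1 hi) (Nat.mod_add_div' n i)
    obtain ⟨rfl, rfl⟩ := eq_of_small (by omega) h3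
    refine ⟨not_lt.1 fun h4 => ?_, h2⟩
    rw [Nat.mod_eq_of_lt h4] at h2; omega
  · rintro ⟨-, h2⟩ e s - h3
    obtain ⟨a, h4, h5⟩ := exists_le_div hi h3
    have h6 := Nat.mod_add_div' m i
    by_cases h7 : m / i ≤ s
    · exact ⟨_, by omega, _, h7, h6⟩
    · have : s * i ≤ m / i * i := Nat.mul_le_mul_right _ (by omega)
      exact ⟨m - s * i, by omega, s, le_rfl, by omega⟩

theorem arith_two {i n m : ℕ} (hi : 0 < i) (hm : 2 * m ≤ n) (hc : i ≤ n ∧ n % i < 2 * m) :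
    (∀ e s, 0 < s → e + s * i = n → ∃ e₁ e₂ s₁ s₂, e₁ + e₂ ≤ e ∧ s₁ + s₂ ≤ s ∧ e₁ + s₁ * i = m ∧ e₂ + s₂ * i = m) ↔
      i ≤ m ∧ 2 * (m % i) ≤ n % i := by
  have h1 := Nat.mod_lt n hi
  constructor
  · intro h
    obtain ⟨e₁, e₂, s₁, s₂, h2, -, h3, h4⟩ := h (n % i) (n / i) (Nat.div_pos hc.1 hi) (Nat.mod_add_div' n i)
    obtain ⟨rfl, -⟩ := eq_of_small (by omega) h3
    obtain ⟨rfl, -⟩ := eq_of_small (by omega) h4
    refine ⟨not_lt.1 fun h4 => ?_, by omega⟩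
    rw [Nat.mod_eq_of_lt h4] at h2; omega
  · rintro ⟨-, h2⟩ e s - h3
    obtain ⟨a, h4, h5⟩ := exists_le_div hi h3
    have h6 := Nat.mod_add_div' m i
    by_cases h7 : 2 * (m / i) ≤ s
    · exact ⟨_, _, _, _, by omega, by omega, h6, h6⟩
    · have h8 : s / 2 * i ≤ m / i * i := Nat.mul_le_mul_right _ (by omega)
      have h9 : (s - s / 2) * i ≤ m / i * i := Nat.mul_le_mul_right _ (by omega)
      have h10 : s / 2 * i + (s - s / 2) * i = s * i := by rw [← add_mul]; congr 1; omega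
      exact ⟨m - s / 2 * i, m - (s - s / 2) * i, s / 2, s - s / 2, by omega, by omega, by omega, by omega⟩

theorem flag_rep_iff {b e s m n : ℕ} (h : e + s * b = n) (hm : m ≤ n) :
    (∃ ν μ, ν + μ ≤ replicate e 1 + replicate s b ∧ ν.sum = m ∧ (ν + μ).sum = n - m) ↔
      ∃ e₁ e₂ s₁ s₂, e₁ + e₂ ≤ e ∧ s₁ + s₂ ≤ s ∧ e₁ + s₁ * b = m ∧ e₂ + s₂ * b = m := by
  constructor
  · rintro ⟨ν, μ, h1, h2, h3⟩
    obtain ⟨e', h4, s', h5, h6⟩ := le_rep_iff.1 h1
    obtain ⟨e₁, h7, s₁, h8, h9⟩ := le_rep_iff.1 (h6 ▸ Multiset.le_add_right ν μ)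
    rw [h6] at h3
    rw [h9] at h2
    obtain ⟨t, rfl⟩ := Nat.exists_eq_add_of_le h5
    simp [add_mul] at h h2 h3
    exact ⟨e₁, e - e', s₁, t, by omega, by omega, h2, by omega⟩
  · rintro ⟨e₁, e₂, s₁, s₂, h1, h2, h3, h4⟩
    obtain ⟨t, rfl⟩ := Nat.exists_eq_add_of_le h2
    obtain ⟨d, rfl⟩ := Nat.exists_eq_add_of_le h1
    refine ⟨replicate e₁ 1 + replicate s₁ b, replicate d 1 + replicate t b,
      le_rep_iff.2 ⟨e₁ + d, by omega, s₁ + t, by omega, by simp only [replicate_add]; abel⟩, by simpa, ?_⟩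
    simp [add_mul] at h ⊢
    omega

theorem sum_rep_iff' {r s m : ℕ} (hr : 0 < r) (hm : m ≤ s * r) : (∃ ν ≤ replicate s r, ν.sum = m) ↔ r ∣ m := by
  have := sum_rep_iff (b := r) (e := 0) (s := s) (m := m)
  simp only [replicate_zero, zero_add] at this
  rw [this]
  constructor
  · rintro ⟨e', h1, s', -, rfl⟩
    obtain rfl : e' = 0 := by omega
    simp
  · rintro ⟨k, rfl⟩
    exact ⟨0, le_rfl, k, Nat.le_of_mul_le_mul_right (by rwa [mul_comm]) hr, by simp [mul_comm]⟩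

/-- the common shape of the criteria for `SL_n(q)` -/
theorem lin_fin {r n m q i : ℕ} [hr : Fact r.Prime] (hi : i ≠ 0) {A : ℕ → Prop} {B C : Prop}
    (hA : ∀ s, s * r = n → (A s ↔ r ∣ m)) (hB : 2 ≤ i → (B ↔ C)) :
    (i = 1 → ¬ Good r n q → ∀ s, s * r = n → A s) ∧ (2 ≤ i → B) ↔
      (i = 1 ∧ (r ∣ m ∨ Good r n q)) ∨ (2 ≤ i ∧ C) := by
  by_cases h : i = 1
  · simp only [h, true_and, forall_true_left, Nat.not_ofNat_le_one, false_and, or_false, IsEmpty.forall_iff, and_true]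
    refine ⟨fun h1 => ?_, fun h1 h2 s hs => (hA s hs).2 (h1.resolve_right h2)⟩
    by_contra h2
    rw [not_or] at h2
    obtain ⟨s, hs⟩ := dvd_of_bad h2.2
    exact h2.1 ((hA s (by rw [hs, mul_comm])).1 (h1 h2.2 s (by rw [hs, mul_comm])))
  · have h1 : 2 ≤ i := by omega
    simp [h, h1, hB h1]

theorem unip_all (p : ℕ) [hp : Fact p.Prime] [CharP F p] [Finite F] {Φ : End F V → Prop}
    (hΦ : ∀ f (c : F), c ≠ 0 → Φ f → Φ (c • f)) :
    (∀ f : End F V, LinearMap.det f = 1 → (∃ z : F, f ^ p = z • 1) → (∀ z : F, f ≠ z • 1) → Φ f) ↔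
      ∀ f : End F V, Unip f → (∀ k ∈ JT f, k ≤ p) → JT f ≠ replicate (finrank F V) 1 → Φ f := by
  have key : ∀ f : End F V, Unip f → (f ^ p = 1 ↔ ∀ k ∈ JT f, k ≤ p) := fun f hf => by
    have := pow_char_pow_eq_one_iff p (f := f) (j := 1)
    rw [pow_one] at this
    rw [this, hf.pow_eq_zero_iff]
  constructor
  · intro h f h1 h2 h3
    obtain ⟨k, h4, h5⟩ : ∃ k ∈ JT f, k ≠ 1 := by
      by_contra h4
      push Not at h4
      have h5 := eq_replicate_card.2 h4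
      have h6 := JT_sum f
      rw [h5, sum_replicate, smul_eq_mul, mul_one] at h6
      exact h3 (h6 ▸ h5)
    obtain ⟨P, h6, rfl⟩ := mem_map.1 h4
    exact h f h1.det ⟨1, by simpa using (key f h1).2 h2⟩
      (not_scalar_of_mem h6 (by have := JT_pos h4; omega))
  · refine fun h => all_of hp.out hΦ (fun g h1 h2 => h g (unip_of_pow p h1) ((key g (unip_of_pow p h1)).1 h1)
      fun h3 => ne_one_of h2 ?_) fun g z h1 => ?_
    · have := (unip_of_pow p h1).pow_eq_zero_iff (m := 1)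
      rw [pow_one, sub_eq_zero] at this
      exact this.2 fun k hk => (eq_of_mem_replicate (h3 ▸ hk)).le
    · obtain ⟨c, hc⟩ := surjective_frobenius F p z
      exact absurd hc (not_pow_of_irr hp.out.two_le h1 c)

theorem unip_iff (p : ℕ) [hp : Fact p.Prime] [CharP F p] [Finite F] {n : ℕ} (hn : finrank F V = n)
    {Φ : End F V → Prop} (hΦ : ∀ f (c : F), c ≠ 0 → Φ f → Φ (c • f)) {Ψ : Multiset ℕ → Prop}
    (h : ∀ g, Unip g → (Φ g ↔ Ψ (JT g))) (h1 : Ψ (replicate n 1)) :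
    (∀ f : End F V, LinearMap.det f = 1 → (∃ z : F, f ^ p = z • 1) → (∀ z : F, f ≠ z • 1) → Φ f) ↔
      ∀ μ : Multiset ℕ, (∀ a ∈ μ, 0 < a ∧ a ≤ p) → μ.sum = n → Ψ μ := by
  subst hn
  rw [unip_all p hΦ]
  refine ⟨fun H μ h2 h3 => ?_, fun H f h2 h3 _ => (h f h2).2 (H _ (fun a ha => ⟨JT_pos ha, h3 a ha⟩) (JT_sum f))⟩
  by_cases h4 : μ = replicate (finrank F V) 1
  · exact h4 ▸ h1
  · obtain ⟨f, h5, rfl⟩ := exists_JT (F := F) (V := V) (fun k hk => (h2 k hk).1) h3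
    exact (h f h5).1 (H f h5 (fun k hk => (h2 k hk).2) h4)

theorem eq_rep_two {μ : Multiset ℕ} (h : ∀ a ∈ μ, 0 < a ∧ a ≤ 2) : ∃ e s, μ = replicate e 1 + replicate s 2 := by
  induction μ using Multiset.induction_on with
  | empty => exact ⟨0, 0, rfl⟩
  | cons a μ ih =>
    obtain ⟨e, s, rfl⟩ := ih fun b hb => h b (mem_cons_of_mem hb)
    have := h a (mem_cons_self _ _)
    obtain rfl | rfl : a = 1 ∨ a = 2 := by omega
    · exact ⟨e + 1, s, by simp [replicate_succ]⟩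
    · exact ⟨e, s + 1, by simp [replicate_succ]⟩

theorem part_two {n m : ℕ} (hm : m ≤ n) :
    (∀ μ : Multiset ℕ, (∀ a ∈ μ, 0 < a ∧ a ≤ 2) → μ.sum = n → ∃ ν ≤ μ, ν.sum = m) ↔ Odd n ∨ Even m := by
  simp only [Nat.odd_iff, Nat.even_iff]
  constructor
  · intro h
    obtain ⟨e', h1, s', -, h2⟩ := sum_rep_iff.1 (h (replicate (n % 2) 1 + replicate (n / 2) 2)
      (fun a ha => by rcases mem_add.1 ha with ha | ha <;> simp [eq_of_mem_replicate ha]) (by simp; omega))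
    omega
  · intro h μ h1 h2
    obtain ⟨e, s, rfl⟩ := eq_rep_two h1
    simp at h2
    exact sum_rep_iff.2 ⟨m - min s (m / 2) * 2, by omega, min s (m / 2), by omega, by omega⟩

end H20.El
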