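import Cfsg.Agent.H20.El2
import Cfsg.Prelude.Def_GeometricClasses

/-! Elusivity engine: decompositions permuted by a map with scalar `r`-th power (`HD`, closure lemmas
`HD.one`, `HD.sup`, `HD.map`, `hd_cyc`; the elementary divisors of such a map `ed_of_dec`). -/

set_option autoImplicit false
namespace H20.El
open H11 Module Polynomial Multiset

universe u
variable {F : Type u} [Field F] {V W : Type*} [AddCommGroup V] [Module F V] [AddCommGroup W]
  [Module F W] [FiniteDimensional F V] [FiniteDimensional F W]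

/-- elementary divisors of the companion matrix of `X ^ r - z` -/
noncomputable def eE (r : ℕ) (z : F) : Multiset F[X] := ED (xmul F (Blk (X ^ r - C z)))

theorem dg_eE (r : ℕ) (z : F) : dg (eE r z) = r := by rw [eE, dg_ED, finrank_blk, natDegree_X_pow_sub_C]

theorem eE_irr {r : ℕ} (hr : r ≠ 0) {z : F} (h : Irreducible (X ^ r - C z)) : eE r z = {X ^ r - C z} :=
  ED_blk (PP.of_irr (monic_X_pow_sub_C z hr) h)

theorem eE_char (p : ℕ) [hp : Fact p.Prime] [CharP F p] : eE p (1 : F) = {(X - 1) ^ p} := by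
  have h : (X ^ p - C 1 : F[X]) = (X - 1) ^ p := by rw [sub_pow_char, one_pow, C_1]
  rw [← h]
  exact ED_blk (h ▸ pp_X_sub_one_pow hp.out.pos)

theorem eE_one {r : ℕ} (hr : r.Prime) (h0 : (r : F) ≠ 0) : eE r (1 : F) = (X - 1) ::ₘ (PhiF F r).val := by
  classical
  have := Fact.mk hr
  have h1 : (X ^ r - C 1 : F[X]).Monic := monic_X_pow_sub_C _ hr.ne_zero
  have h2 : Squarefree (X ^ r - C 1 : F[X]) := (separable_X_pow_sub_C (1 : F) h0 one_ne_zero).squarefree
  have h3 : SS (xmul F (Blk (X ^ r - C (1 : F)))) := ss_of_squarefree h2 ((aeval_blk_eq_zero h1.ne_zero).2 dvd_rfl)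
  refine (Nodup.ext ?_ ?_).2 fun P => ?_
  · rw [eE, h3.ED_eq, charpoly_blk h1]
    exact (UniqueFactorizationMonoid.squarefree_iff_nodup_normalizedFactors h1.ne_zero).1 h2
  · exact nodup_cons.2 ⟨X_sub_one_notMem_PhiF hr h0, (PhiF F r).nodup⟩
  · rw [eE, h3.ED_eq, charpoly_blk h1, mem_cons, Finset.mem_val, mem_PhiF' hr h0,
      Polynomial.mem_normalizedFactors_iff h1.ne_zero, C_1]
    by_cases h : P = X - 1
    · simpa [h, monic_X_sub_one, irreducible_X_sub_one] using sub_dvd_pow_sub_pow (X : F[X]) 1 r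
    · simp [h]

theorem ED_std_rep (a : ℕ) (Q : F[X]) : ED (std (replicate a Q)) = a • ED (xmul F (Blk Q)) := by
  induction a with
  | zero => exact ED_eq_zero (std (0 : Multiset F[X]))
  | succ a ih => rw [replicate_succ, sim_iff_ED.1 (sim_std_cons _ _), ED_prodMap, ih, succ_nsmul']

theorem hasED_cyc {f : End F V} {r a : ℕ} (hr : r ≠ 0) {z : F} (h : f ^ r = z • 1) {D U : Submodule F V}
    (hD : finrank F D = a) (hU : finrank F U = r * a) (h1 : D ≤ U) (h2 : ∀ x ∈ U, f x ∈ U)
    (h3 : ∀ A : Submodule F V, D ≤ A → (∀ x ∈ A, f x ∈ A) → U ≤ A) : HasED f U (a • eE r z) := by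
  classical
  have hQ : (X ^ r - C z : F[X]) ≠ 0 := (monic_X_pow_sub_C z hr).ne_zero
  let ev : Blk (X ^ r - C z) →ₐ[F] End F V := Ideal.Quotient.liftₐ _ (aeval f) fun p hp => by
    rw [if_neg hQ, Ideal.mem_span_singleton] at hp
    obtain ⟨k, rfl⟩ := hp
    simp [h, Algebra.algebraMap_eq_smul_one]
  have hev : ∀ p, ev (Ideal.Quotient.mk _ p) = aeval f p := fun _ => rfl
  let b := finBasisOfFinrankEq F D hD
  let φ : (Fin a → Blk (X ^ r - C z)) →ₗ[F] V :=
    ∑ i, LinearMap.applyₗ (b i : V) ∘ₗ ev.toLinearMap ∘ₗ LinearMap.proj i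
  have hφ : ∀ x, φ x = ∑ i, ev (x i) (b i) := fun x => by simp [φ]
  have hc : ∀ x, φ (xmul F _ x) = f (φ x) := fun x => by
    simp only [hφ, _root_.map_sum]
    refine Finset.sum_congr rfl fun i _ => ?_
    obtain ⟨p, hp⟩ := Ideal.Quotient.mk_surjective (x i)
    change ev ((X : F[X]) • x i) _ = _
    rw [← hp, show (X : F[X]) • (Ideal.Quotient.mk _ p : Blk (X ^ r - C z)) = Ideal.Quotient.mk _ (X * p) from rfl,
      hev, hev]
    simp
  have hr' : LinearMap.range φ = U := by
    refine le_antisymm ?_ (h3 _ ?_ ?_)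
    · rintro _ ⟨x, rfl⟩
      rw [hφ]
      refine U.sum_mem fun i _ => ?_
      obtain ⟨p, hp⟩ := Ideal.Quotient.mk_surjective (x i)
      have := aeval_intertwine (f := f.restrict h2) (g := f) (e := U.subtype) (fun _ => rfl) p ⟨b i, h1 (b i).2⟩
      rw [← hp, hev]
      exact (show _ = aeval f p (b i) from this) ▸ Subtype.property _
    · intro x hx
      rw [show x = ∑ i, b.repr ⟨x, hx⟩ i • (b i : V) by
        simpa only [Submodule.coe_sum, Submodule.coe_smul] using congrArg Subtype.val (b.sum_repr ⟨x, hx⟩).symm]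
      refine Submodule.sum_mem _ fun i _ => Submodule.smul_mem _ _ ⟨Pi.single i 1, ?_⟩
      rw [hφ, Finset.sum_eq_single i (fun j _ hj => by simp [hj]) (by simp)]
      simp
    · rintro _ ⟨x, rfl⟩
      exact ⟨_, hc x⟩
  have hi : Function.Injective φ := by
    have := φ.finrank_range_add_finrank_ker
    rw [hr', hU, finrank_pi_fintype] at this
    simp only [finrank_blk, natDegree_X_pow_sub_C, Finset.sum_const, Finset.card_univ, Fintype.card_fin,
      smul_eq_mul] at this
    rw [← LinearMap.ker_eq_bot, ← Submodule.finrank_eq_zero]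
    linarith
  have := HasED.range hi hc
  rwa [hr', sim_iff_ED.1 (sim_pi_std fun _ : Fin a => X ^ r - C z), map_const', ED_std_rep, Finset.card_val,
    Finset.card_univ, Fintype.card_fin] at this

theorem finrank_biSup {ι : Type*} {D : ι → Submodule F V} (hi : iSupIndep D) {a : ℕ}
    (hd : ∀ j, finrank F (D j) = a) (A : Finset ι) : finrank F (⨆ j ∈ A, D j : Submodule F V) = A.card * a := by
  classical
  induction A using Finset.induction_on with
  | empty => simp
  | insert j A hj ih =>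
    have := Submodule.finrank_sup_add_finrank_inf_eq (D j) (⨆ j ∈ A, D j)
    have h1 : Disjoint (D j) (⨆ j ∈ A, D j) := by simpa using hi.disjoint_biSup (y := A) hj
    rw [h1.eq_bot, finrank_bot, ih, hd] at this
    rw [Finset.iSup_insert, Finset.card_insert_of_notMem hj]
    linarith

theorem ed_of_dec {f : End F V} {r a : ℕ} (hr : r.Prime) (ha : 0 < a) {z : F} (hz : z ≠ 0) (h : f ^ r = z • 1)
    {ι : Type*} [Fintype ι] {D : ι → Submodule F V} (hi : iSupIndep D) (hd : ∀ j, finrank F (D j) = a)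
    (ht : iSup D = ⊤) {σ : Equiv.Perm ι} (hσ : ∀ j, (D j).map f = D (σ j)) :
    ∃ (T : Finset ι) (k : ℕ) (M : ι → Multiset F[X]), (∀ j ∈ T, HasED f (D j) (M j)) ∧
      T.card + r * k = Fintype.card ι ∧ ED f = (k * a) • eE r z + ∑ j ∈ T, M j := by
  classical
  have h1 : ∀ m j, (D j).map (f ^ m) = D ((σ ^ m) j) := fun m j => by
    induction m with
    | zero => simp [End.one_eq_id]
    | succ m ih => rw [pow_succ', pow_succ', End.mul_eq_comp, Submodule.map_comp, ih, hσ]; rfl
  have h2 : ∀ j, (σ ^ r) j = j := fun j => hi.injective (fun j hj => by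
      have := hd j; rw [hj, finrank_bot] at this; omega) (by
    rw [← h1, h, Submodule.map_smul _ _ _ hz, End.one_eq_id, Submodule.map_id])
  have key : ∀ A : Finset ι, (∀ j ∈ A, σ j ∈ A) → ∃ (T : Finset ι) (k : ℕ) (M : ι → Multiset F[X]), T ⊆ A ∧
      (∀ j ∈ T, HasED f (D j) (M j)) ∧ T.card + r * k = A.card ∧
      HasED f (⨆ j ∈ A, D j) ((k * a) • eE r z + ∑ j ∈ T, M j) := by
    intro A
    induction A using Finset.strongInduction with
    | H A ih =>
    intro hA
    rcases A.eq_empty_or_nonempty with rfl | ⟨j, hj⟩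
    · exact ⟨∅, 0, fun _ => 0, by simp, by simp, by simp, by simpa using hasED_bot f⟩
    have hsub : ∀ O : Finset ι, (∀ i, σ i ∈ O → i ∈ O) → ∀ i ∈ A \ O, σ i ∈ A \ O := fun O hO i hi => by
      rw [Finset.mem_sdiff] at hi ⊢
      exact ⟨hA i hi.1, fun h => hi.2 (hO i h)⟩
    have hdj : ∀ O : Finset ι, O ⊆ A → Disjoint (⨆ j ∈ O, D j) (⨆ j ∈ A \ O, D j) ∧
        (⨆ j ∈ O, D j) ⊔ (⨆ j ∈ A \ O, D j) = ⨆ j ∈ A, D j := fun O hO =>
      ⟨by simpa only [Finset.mem_coe] using (hi.disjoint_biSup_biSup (s := O) (t := (A \ O : Finset ι))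
          (Finset.disjoint_coe.2 Finset.disjoint_sdiff)),
        by rw [← Finset.iSup_union, Finset.union_sdiff_of_subset hO]⟩
    by_cases h3 : σ j = j
    · obtain ⟨T, k, M, h4, h5, h6, h7⟩ := ih (A \ {j}) (Finset.sdiff_ssubset (by simpa) (by simp))
        (hsub _ fun i hi => by
          rw [Finset.mem_singleton] at hi ⊢
          exact σ.injective (hi.trans h3.symm))
      obtain ⟨s, hs⟩ := hasED_of (f := f) (U := D j) (map_le_iff.1 (by rw [hσ, h3]))
      have hjT : j ∉ T := fun h => by simpa using h4 h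
      have h8 := hdj {j} (by simpa)
      refine ⟨insert j T, k, Function.update M j s, Finset.insert_subset hj (h4.trans Finset.sdiff_subset),
        fun i hi => ?_, ?_, ?_⟩
      · rcases Finset.mem_insert.1 hi with rfl | hi'
        · simpa
        · rw [Function.update_of_ne (ne_of_mem_of_not_mem hi' hjT)]; exact h5 i hi'
      · have := Finset.card_sdiff_add_card_eq_card (Finset.singleton_subset_iff.2 hj)
        rw [Finset.card_singleton] at this
        rw [Finset.card_insert_of_notMem hjT]; omega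
      · rw [← h8.2, Finset.sum_insert hjT, Function.update_self, Finset.sum_update_of_notMem hjT, add_left_comm]
        exact HasED.sup h8.1 (by simpa) h7
    · let O := (Finset.range r).image fun m => (σ ^ m) j
      have hO : ∀ m, (σ ^ m) j ∈ O := fun m => Finset.mem_image.2 ⟨m % r, Finset.mem_range.2 (Nat.mod_lt _ hr.pos), by
        conv_rhs => rw [← Nat.mod_add_div m r, pow_add, pow_mul, Equiv.Perm.mul_apply,
          Equiv.Perm.pow_apply_eq_self_of_apply_eq_self (h2 j)]⟩
      have hOA : O ⊆ A := fun i hi => by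
        obtain ⟨m, -, rfl⟩ := Finset.mem_image.1 hi
        induction m with
        | zero => exact hj
        | succ m ih => rw [pow_succ']; exact hA _ (ih (hO m))
      have hc : O.card = r := by
        have := Fact.mk hr
        have h9 : Function.minimalPeriod σ j = r := Function.minimalPeriod_eq_prime (by
          change σ^[r] j = j
          rw [← Equiv.Perm.coe_pow]; exact h2 j) h3
        rw [Finset.card_image_of_injOn, Finset.card_range]
        intro x hx y hy hxy
        simp only [Equiv.Perm.coe_pow] at hxy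
        exact Function.iterate_injOn_Iio_minimalPeriod (by simpa [h9] using hx) (by simpa [h9] using hy) hxy
      obtain ⟨T, k, M, h4, h5, h6, h7⟩ := ih (A \ O) (Finset.sdiff_ssubset hOA ⟨_, hO 0⟩)
        (hsub _ fun i hi => by
          obtain ⟨m, -, hm⟩ := Finset.mem_image.1 hi
          have := hO (r - 1 + m)
          rwa [pow_add, Equiv.Perm.mul_apply, hm, ← Equiv.Perm.mul_apply, ← pow_succ,
            Nat.sub_add_cancel hr.pos, h2] at this)
      have h8 := hdj O hOA
      refine ⟨T, k + 1, M, h4.trans Finset.sdiff_subset, h5, ?_, ?_⟩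
      · have := Finset.card_sdiff_add_card_eq_card hOA
        rw [mul_add]; omega
      · rw [← h8.2, add_mul, one_mul, add_nsmul, add_comm _ (a • _), add_assoc]
        refine HasED.sup h8.1 (hasED_cyc hr.ne_zero h (hd j) (by rw [finrank_biSup hi hd, hc])
          (le_iSup₂_of_le (f := fun i (_ : i ∈ O) => D i) j (hO 0) le_rfl) (map_le_iff.1 ?_) fun B h9 h10 => ?_) h7
        · simp only [Submodule.map_iSup, hσ]
          refine iSup₂_le fun i hi => le_iSup₂_of_le (f := fun i (_ : i ∈ O) => D i) (σ i) ?_ le_rfl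
          obtain ⟨m, -, rfl⟩ := Finset.mem_image.1 hi
          simpa [pow_succ'] using hO (m + 1)
        · refine iSup₂_le fun i hi => ?_
          obtain ⟨m, -, rfl⟩ := Finset.mem_image.1 hi
          rw [← h1]
          rintro _ ⟨x, hx, rfl⟩
          exact End.pow_apply_mem_of_forall_mem m h10 x (h9 hx)
  obtain ⟨T, k, M, -, h4, h5, h6⟩ := key Finset.univ fun _ _ => Finset.mem_univ _
  simp only [Finset.mem_univ, iSup_pos, ht] at h6
  exact ⟨T, k, M, h4, h5, h6.eq_top⟩

/-- `U` is a direct sum of `t` subspaces of dimension `a` (with property `N`, pairwise `B`-orthogonal) permuted by `f` -/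
def HD (f : End F V) (a : ℕ) (N : Submodule F V → Prop) (B : V → V → Prop) (U : Submodule F V) (t : ℕ) : Prop :=
  ∃ (ι : Type) (_ : Fintype ι) (D : ι → Submodule F V), Fintype.card ι = t ∧ (∀ j, finrank F (D j) = a) ∧
    iSupIndep D ∧ iSup D = U ∧ (∀ j, N (D j)) ∧ (∀ j j', j ≠ j' → ∀ u ∈ D j, ∀ v ∈ D j', B u v) ∧
    ∃ σ : Equiv.Perm ι, ∀ j, (D j).map f = D (σ j)

namespace HD
variable {f : End F V} {a : ℕ} {N : Submodule F V → Prop} {B : V → V → Prop} {U U' : Submodule F V} {t t' : ℕ}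

omit [FiniteDimensional F V] in
theorem zero : HD f a N B ⊥ 0 :=
  ⟨Empty, inferInstance, Empty.elim, rfl, by simp, iSupIndep_subsingleton _, by simp, by simp, by simp, 1, by simp⟩

theorem one (hf : Function.Injective f) (h1 : ∀ x ∈ U, f x ∈ U) (h2 : finrank F U = a) (h3 : N U) :
    HD f a N B U 1 :=
  ⟨Unit, inferInstance, fun _ => U, rfl, fun _ => h2, iSupIndep_subsingleton _, by simp, fun _ => h3, by simp, 1,
    fun _ => Submodule.eq_of_le_of_finrank_eq (map_le_iff.2 h1) (Submodule.equivMapOfInjective f hf U).finrank_eq.symm⟩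

omit [FiniteDimensional F V] in
theorem sup (hd : Disjoint U U') (hB : ∀ u ∈ U, ∀ v ∈ U', B u v ∧ B v u) (h : HD f a N B U t)
    (h' : HD f a N B U' t') : HD f a N B (U ⊔ U') (t + t') := by
  obtain ⟨ι, _, D, rfl, h1, h2, rfl, h3, h4, σ, h5⟩ := h
  obtain ⟨κ, _, E, rfl, k1, k2, rfl, k3, k4, τ, k5⟩ := h'
  refine ⟨ι ⊕ κ, inferInstance, Sum.elim D E, by simp, Sum.forall.2 ⟨h1, k1⟩, ?_, iSup_sum, by simp [h3, k3], ?_,
    σ.sumCongr τ, by simp [h5, k5]⟩
  · rintro (i | i)
    · refine ((h2 i).disjoint_sup_right_of_disjoint_sup_left (hd.mono_left (sup_le (le_iSup _ _)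
        (iSup₂_le fun j _ => le_iSup _ _)))).mono_right (iSup₂_le ?_)
      rintro (j | j) hj
      · exact le_sup_of_le_left (le_iSup₂_of_le (f := fun j (_ : j ≠ i) => D j) j (by simpa using hj) le_rfl)
      · exact le_sup_of_le_right (le_iSup E j)
    · refine ((k2 i).disjoint_sup_right_of_disjoint_sup_left (hd.symm.mono_left (sup_le (le_iSup _ _)
        (iSup₂_le fun j _ => le_iSup _ _)))).mono_right (iSup₂_le ?_)
      rintro (j | j) hj
      · exact le_sup_of_le_right (le_iSup D j)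
      · exact le_sup_of_le_left (le_iSup₂_of_le (f := fun j (_ : j ≠ i) => E j) j (by simpa using hj) le_rfl)
  · rintro (i | i) (j | j) hij u hu v hv
    · exact h4 i j (by simpa using hij) u hu v hv
    · exact (hB u (le_iSup D i hu) v (le_iSup E j hv)).1
    · exact (hB v (le_iSup D j hv) u (le_iSup E i hu)).2
    · exact k4 i j (by simpa using hij) u hu v hv

omit [FiniteDimensional F V] [FiniteDimensional F W] in
theorem map {g : End F W} {N' : Submodule F W → Prop} {B' : W → W → Prop} {e : V →ₗ[F] W}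
    (he : Function.Injective e) (hc : ∀ x, e (f x) = g (e x)) (hN : ∀ A, N A → N' (A.map e))
    (hB : ∀ u v, B u v → B' (e u) (e v)) (h : HD f a N B U t) : HD g a N' B' (U.map e) t := by
  obtain ⟨ι, _, D, rfl, h1, h2, rfl, h3, h4, σ, h5⟩ := h
  refine ⟨ι, inferInstance, fun j => (D j).map e, rfl,
    fun j => (Submodule.equivMapOfInjective e he _).finrank_eq.symm.trans (h1 j), fun j => ?_,
    (Submodule.map_iSup _ _).symm, fun j => hN _ (h3 j), ?_, σ, fun j => ?_⟩
  · simp only [← Submodule.map_iSup]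
    exact Submodule.disjoint_map he (h2 j)
  · rintro j j' hj _ ⟨u, hu, rfl⟩ _ ⟨v, hv, rfl⟩
    exact hB _ _ (h4 j j' hj u hu v hv)
  · dsimp only
    rw [← h5, ← Submodule.map_comp, ← Submodule.map_comp]
    exact congrArg (Submodule.map · _) (LinearMap.ext fun x => (hc x).symm)

omit [FiniteDimensional F V] in
theorem smul (h : HD f a N B U t) {c : F} (hc : c ≠ 0) : HD (c • f) a N B U t := by
  obtain ⟨ι, _, D, h0, h1, h2, h6, h3, h4, σ, h5⟩ := h
  exact ⟨ι, _, D, h0, h1, h2, h6, h3, h4, σ, fun j => by rw [Submodule.map_smul _ _ _ hc, h5]⟩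

end HD

theorem hd_iff {ι : Type} [Fintype ι] [DecidableEq ι] {f : End F (ι → F)} {a t : ℕ} (ha : 0 < a) (ht : 2 ≤ t)
    {N : Submodule F (ι → F) → Prop} {B : (ι → F) → (ι → F) → Prop} :
    (∃ D : Fin t → Submodule F (ι → F), (Cfsg.Geo.IsMDecomposition a D ∧ (∀ j, N (D j)) ∧
      (∀ j j', j ≠ j' → ∀ u ∈ D j, ∀ v ∈ D j', B u v)) ∧ ∃ σ : Equiv.Perm (Fin t), ∀ j, (D j).map f = D (σ j)) ↔
    HD f a N B ⊤ t := by
  constructor
  · rintro ⟨D, ⟨h1, h2, h3⟩, h4⟩
    exact ⟨Fin t, inferInstance, D, by simp, h1.finrank_eq, h1.indep, h1.iSup_eq_top, h2, h3, h4⟩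
  · rintro ⟨κ, _, D, h0, h1, h2, h6, h3, h4, σ, h5⟩
    let e := (Fintype.equivFinOfCardEq h0).symm
    exact ⟨D ∘ e, ⟨⟨ht, ha, fun j => h1 _, h2.comp e.injective, (e.iSup_comp).trans h6⟩, fun j => h3 _,
      fun j j' h => h4 _ _ (e.injective.ne h)⟩, e.symm.permCongr σ, fun j => by simp [h5]⟩

theorem hd_iff' {ι : Type} [Fintype ι] [DecidableEq ι] {f : End F (ι → F)} {a t : ℕ} (ha : 0 < a) (ht : 2 ≤ t) :
    (∃ D : Fin t → Submodule F (ι → F), Cfsg.Geo.IsMDecomposition a D ∧
      ∃ σ : Equiv.Perm (Fin t), ∀ j, (D j).map f = D (σ j)) ↔ HD f a (fun _ => True) (fun _ _ => True) ⊤ t := by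
  simp [← hd_iff ha ht]

theorem HD.ed {f : End F V} {r a t : ℕ} (hr : r.Prime) (ha : 0 < a) {z : F} (hz : z ≠ 0) (h : f ^ r = z • 1)
    {N : Submodule F V → Prop} {B : V → V → Prop} (H : HD f a N B ⊤ t) :
    ∃ (k : ℕ) (L : Multiset (Multiset F[X])), (∀ s ∈ L, dg s = a ∧ ∃ U, N U ∧ HasED f U s) ∧
      L.card + r * k = t ∧ ED f = (k * a) • eE r z + L.sum := by
  obtain ⟨κ, _, D, rfl, h1, h2, h6, h3, -, σ, h5⟩ := H
  obtain ⟨T, k, M, h7, h8, h9⟩ := ed_of_dec hr ha hz h h2 h1 h6 h5
  refine ⟨k, T.val.map M, fun s hs => ?_, by simpa using h8, h9⟩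
  obtain ⟨j, hj, rfl⟩ := mem_map.1 hs
  exact ⟨(h7 j hj).finrank_eq.symm.trans (h1 j), _, h3 j, h7 j hj⟩

theorem hd_cyc {f : End F V} {r a : ℕ} (hr : r.Prime) (ha : 0 < a) {z : F} (hz : z ≠ 0) {U : Submodule F V}
    (h : HasED f U (a • eE r z)) : HD f a (fun _ => True) (fun _ _ => True) U r := by
  classical
  have := Fact.mk hr
  let w : ZMod r → F := fun k => if k = 0 then z else 1
  have hw : ∀ k, w k ≠ 0 := fun k => by simp only [w]; split_ifs <;> simp [hz]
  let g : End F (ZMod r → Fin a → F) := LinearMap.pi fun k => w k • LinearMap.proj (k - 1)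
  have hg : ∀ v k, g v k = w k • v (k - 1) := fun _ _ => rfl
  have h1 : ∀ (m : ℕ) v k, (g ^ m) v k = (∏ j ∈ Finset.range m, w (k - j)) • v (k - m) := fun m => by
    induction m with
    | zero => simp
    | succ m ih =>
      intro v k
      rw [pow_succ, End.mul_apply, ih, hg, Finset.prod_range_succ, smul_smul, sub_sub, Nat.cast_succ]
  have h2 : g ^ r = z • 1 := by
    refine LinearMap.ext fun v => funext fun k => ?_
    rw [h1, Finset.prod_eq_single k.val (fun j hj hjk => if_neg fun h => hjk ?_) (fun h => absurd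
      (Finset.mem_range.2 k.val_lt) h)]
    · simp [w]
    · rw [sub_eq_zero.1 h, ZMod.val_cast_of_lt (Finset.mem_range.1 hj)]
  let D : ZMod r → Submodule F (ZMod r → Fin a → F) := fun k => LinearMap.range (LinearMap.single F _ k)
  have d1 : ∀ k, finrank F (D k) = a := fun k => by
    rw [LinearMap.finrank_range_of_inj (Pi.single_injective (M := fun _ : ZMod r => Fin a → F) k)]; simp
  have d2 : iSupIndep D := fun k => by
    have := LinearMap.disjoint_single_single F (fun _ : ZMod r => Fin a → F) {k} {j | j ≠ k} (by simp)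
    simpa using this
  have d3 : iSup D = ⊤ := LinearMap.iSup_range_single F _
  have d4 : ∀ k, (D k).map g = D (Equiv.addRight 1 k) := fun k => by
    have : g ∘ₗ LinearMap.single F _ k = w (k + 1) • LinearMap.single F (fun _ : ZMod r => Fin a → F) (k + 1) := by
      refine LinearMap.ext fun v => funext fun j => ?_
      by_cases hj : j = k + 1
      · simp [hg, hj]
      · simp [hg, Pi.single_eq_of_ne hj, Pi.single_eq_of_ne (show j - 1 ≠ k from fun h => hj (sub_eq_iff_eq_add.1 h))]
    rw [← LinearMap.range_comp, this, LinearMap.range_smul _ _ (hw _)]; rfl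
  obtain ⟨T, k, M, h3, h4, h5⟩ := ed_of_dec hr ha hz h2 d2 d1 d3 d4
  obtain rfl : T = ∅ := Finset.eq_empty_of_forall_notMem fun j hj => by
    have h6 := (h3 j hj).map_le
    rw [d4] at h6
    have h7 := d2.pairwiseDisjoint (show Equiv.addRight 1 j ≠ j by simp)
    have := d1 (Equiv.addRight 1 j)
    rw [h7.eq_bot_of_le h6, finrank_bot] at this
    omega
  obtain rfl : k = 1 := by simpa [hr.ne_zero] using h4
  obtain ⟨hU, h6⟩ := h
  obtain ⟨e, he⟩ := sim_iff_ED.2 (h5.trans (by simpa using h6.symm) : ED g = ED (f.restrict hU))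
  have := HD.map (N := fun _ => True) (B := fun _ _ => True) (g := f) (N' := fun _ => True) (B' := fun _ _ => True)
    (e := U.subtype ∘ₗ e.toLinearMap) (U.subtype_injective.comp e.injective) (fun x => congrArg Subtype.val (he x))
    (fun _ _ => trivial) (fun _ _ _ => trivial) ⟨ZMod r, inferInstance, D, ZMod.card r, d1, d2, d3,
      fun _ => trivial, fun _ _ _ _ _ _ _ => trivial, _, d4⟩
  simpa [Submodule.map_comp] using this

theorem invol_comb {a : ℕ} {P : ℕ → ℕ → ℕ → Prop} (h0 : P 0 0 0) (ha : 0 < a)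
    (h1 : ∀ k f t k' f', 2 * k' + f' = a → P k f t → P (k' + k) (f' + f) (t + 1))
    (h2 : ∀ k f t, P k f t → P (a + k) f (t + 2)) (t : ℕ) : ∀ k f, 2 * k + f = a * t → P k f t := by
  induction t using Nat.strong_induction_on with
  | _ t ih =>
  intro k f h
  rcases t with _ | _ | t
  · obtain ⟨rfl, rfl⟩ : k = 0 ∧ f = 0 := by omega
    exact h0
  · exact h1 0 0 0 k f (by omega) h0
  · simp only [mul_add] at h
    by_cases h3 : a ≤ k
    · obtain ⟨k, rfl⟩ := Nat.exists_eq_add_of_le h3
      exact h2 _ _ _ (ih t (by omega) _ _ (by omega))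
    · have := h1 (k - min k (a / 2)) (f - (a - 2 * min k (a / 2))) (t + 1) (min k (a / 2))
        (a - 2 * min k (a / 2)) (by omega) (ih _ (by omega) _ _ (by rw [mul_add]; omega))
      convert this using 1 <;> omega

theorem dist_comb {a i : ℕ} {P : ℕ → ℕ → ℕ → Prop} (h0 : P 0 0 0) (hi : 0 < i)
    (h1 : ∀ e s t e' s', e' + s' * i = a → P e s t → P (e' + e) (s' + s) (t + 1)) (t : ℕ) :
    ∀ e s, e + s * i = a * t → s ≤ t * (a / i) → P e s t := by
  induction t with
  | zero =>
    intro e s h h'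
    obtain ⟨rfl, rfl⟩ : e = 0 ∧ s = 0 := by omega
    exact h0
  | succ t ih =>
    intro e s h h'
    have h2 := Nat.mod_add_div' a i
    rw [mul_add] at h
    rw [add_mul] at h'
    by_cases h3 : s ≤ a / i
    · have h4 : s * i ≤ a / i * i := Nat.mul_le_mul_right _ h3
      have := h1 (a * t) 0 t (a - s * i) s (by omega) (ih _ _ (by simp) (by simp))
      convert this using 1 <;> omega
    · obtain ⟨s, rfl⟩ := Nat.exists_eq_add_of_le (not_le.1 h3).le
      have h4 : s * i ≤ t * (a / i) * i := Nat.mul_le_mul_right _ (by omega)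
      have h5 : t * (a / i) * i ≤ a * t := by rw [mul_assoc, mul_comm a]; exact Nat.mul_le_mul_left _ (by omega)
      rw [add_mul] at h
      have := h1 (e - a % i) s t (a % i) (a / i) h2 (ih _ _ (by omega) (by omega))
      convert this using 1
      omega

/-- linear decompositions with all parts fixed -/
theorem hd_dist {f : End F V} (hf : Function.Injective f) {a i : ℕ} (hi : 0 < i) {t e s : ℕ} (h : e + s * i = a * t)
    (h' : s ≤ t * (a / i)) {U : Submodule F V} {M : Multiset F[X]} (hU : HasED f U M)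
    (hM : M.map natDegree = replicate e 1 + replicate s i) : HD f a (fun _ => True) (fun _ _ => True) U t := by
  refine dist_comb (P := fun e s t => ∀ U M, HasED f U M → M.map natDegree = replicate e 1 + replicate s i →
    HD f a (fun _ => True) (fun _ _ => True) U t) (fun U M h1 h2 => ?_) hi (fun e s t e' s' h1 ih U M h2 h3 => ?_)
    t e s h h' U M hU hM
  · have := h1.finrank_eq
    rw [dg, h2] at this
    obtain rfl : U = ⊥ := Submodule.finrank_eq_zero.1 this
    exact HD.zero
  · rw [replicate_add, replicate_add, add_add_add_comm] at h3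
    obtain ⟨M₁, M₂, rfl, h4, h5⟩ := exists_add_map h3
    obtain ⟨A, B, h6, rfl, h7, h8⟩ := h2.exists_split
    rw [add_comm t]
    exact (HD.one hf h7.inv (by rw [h7.finrank_eq, dg, h4]; simpa) trivial).sup h6 (by simp) (ih _ _ h8 h5)

theorem hd_cycs {f : End F V} {r a : ℕ} (hr : r.Prime) (ha : 0 < a) {z : F} (hz : z ≠ 0) {t : ℕ} {M : Multiset F[X]}
    (h : ∀ U, HasED f U M → HD f a (fun _ => True) (fun _ _ => True) U t) (k : ℕ) :
    ∀ U, HasED f U ((k * a) • eE r z + M) → HD f a (fun _ => True) (fun _ _ => True) U (r * k + t) := by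
  induction k with
  | zero => simpa using h
  | succ k ih =>
    intro U hU
    rw [add_mul, one_mul, add_comm _ a, add_nsmul, add_assoc] at hU
    obtain ⟨A, B, h6, rfl, h7, h8⟩ := hU.exists_split
    rw [mul_add, mul_one, add_comm _ r, add_assoc]
    exact (hd_cyc hr ha hz h7).sup h6 (by simp) (ih _ h8)

theorem hd_invol {f : End F V} (hf : Function.Injective f) {a : ℕ} (ha : 0 < a) {z : F} (hz : z ≠ 0) {P Q : F[X]}
    (hP : P.natDegree = 1) (hQ : eE 2 z = {Q}) {t k e : ℕ} (h : 2 * k + e = a * t) :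
    ∀ U, HasED f U (replicate k Q + replicate e P) → HD f a (fun _ => True) (fun _ _ => True) U t := by
  have hQ' : Q.natDegree = 2 := by simpa [hQ] using dg_eE 2 z
  refine invol_comb (P := fun k e t => ∀ U, HasED f U (replicate k Q + replicate e P) →
    HD f a (fun _ => True) (fun _ _ => True) U t) (fun U h1 => ?_) ha (fun k e t k' e' h1 ih U h2 => ?_)
    (fun k e t ih U h2 => ?_) t k e h
  · obtain rfl : U = ⊥ := Submodule.finrank_eq_zero.1 h1.finrank_eq
    exact HD.zero
  · rw [replicate_add, replicate_add, add_add_add_comm] at h2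
    obtain ⟨A, B, h6, rfl, h7, h8⟩ := h2.exists_split
    rw [add_comm t]
    exact (HD.one hf h7.inv (by rw [h7.finrank_eq]; simp [hP, hQ']; omega) trivial).sup h6 (by simp) (ih _ h8)
  · rw [add_comm t]
    exact hd_cycs Nat.prime_two ha hz ih 1 U (by simpa [hQ, nsmul_singleton, replicate_add, add_assoc] using h2)

omit [FiniteDimensional F V] in
open Pointwise in
theorem card_dvd_of_trans {G X : Type*} [Group G] [MulAction G X] (p : X → Prop)
    (h1 : ∀ x y, p x → p y → ∃ g : G, g • x = y) (h2 : ∀ (g : G) x, p x → p (g • x)) (h3 : Nat.card {x // p x} ≠ 0) :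
    Nat.card {x // p x} ∣ Nat.card G := by
  obtain ⟨⟨x, hx⟩⟩ := (Nat.card_ne_zero.1 h3).1
  rw [card_eq_orbit_mul x p fun y => ⟨h1 x y hx, by rintro ⟨g, rfl⟩; exact h2 g x hx⟩]
  exact Dvd.intro _ rfl

theorem fact_dvd_card {X : Type*} {t : ℕ} (p : (Fin t → X) → Prop)
    (h1 : ∀ D (σ : Equiv.Perm (Fin t)), p D → p (D ∘ σ)) (h2 : ∀ D, p D → Function.Injective D) :
    t.factorial ∣ Nat.card {D // p D} := by
  let A : MulAction (Equiv.Perm (Fin t)) {D // p D} :=
    { smul σ D := ⟨D.1 ∘ (σ⁻¹ :), h1 _ _ D.2⟩, one_smul _ := rfl, mul_smul _ _ _ := rfl }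
  rw [Nat.card_congr (MulAction.selfEquivOrbitsQuotientProd (G := Equiv.Perm (Fin t)) (X := {D // p D}) fun D =>
    eq_bot_iff.2 fun σ hσ => ?_), Nat.card_prod, Nat.card_eq_fintype_card (α := Equiv.Perm _), Fintype.card_perm,
    Fintype.card_fin]
  · exact Dvd.intro_left _ rfl
  · exact inv_eq_one.1 (Equiv.ext fun j => h2 _ D.2 (congrFun (congrArg Subtype.val hσ) j))

theorem dvd_of_dvd_div {r N k : ℕ} (h : k ∣ N) (h' : r ∣ N / k) : r ∣ N := h'.trans (Nat.div_dvd_of_dvd h)

theorem exists_glue {ι : Type*} [Finite ι] {D : ι → Submodule F V} {E : ι → Submodule F W} (h1 : iSupIndep D)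
    (h2 : iSup D = ⊤) (h3 : iSupIndep E) (h4 : iSup E = ⊤) (e : ∀ j, D j ≃ₗ[F] E j) :
    ∃ g : V ≃ₗ[F] W, (∀ j (x : D j), g x = e j x) ∧ ∀ j, (D j).map g.toLinearMap = E j := by
  classical
  have k1 := DirectSum.isInternal_submodule_of_iSupIndep_of_iSup_eq_top h1 h2
  have k2 := DirectSum.isInternal_submodule_of_iSupIndep_of_iSup_eq_top h3 h4
  let g := (k1.collectedBasis fun j => finBasis F (D j)).equiv
    (k2.collectedBasis fun j => (finBasis F (D j)).map (e j)) (Equiv.refl _)
  have k3 : ∀ j (x : D j), g x = e j x := fun j x => by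
    have : g.toLinearMap ∘ₗ (D j).subtype = (E j).subtype ∘ₗ (e j).toLinearMap := (finBasis F (D j)).ext fun i => by
      simpa using Basis.equiv_apply (k1.collectedBasis fun j => finBasis F (D j)) ⟨j, i⟩
        (k2.collectedBasis fun j => (finBasis F (D j)).map (e j)) (Equiv.refl _)
    exact congr($this x)
  refine ⟨g, k3, fun j => le_antisymm ?_ fun y hy => ⟨_, ((e j).symm ⟨y, hy⟩).2, by simp [k3]⟩⟩
  rintro _ ⟨x, hx, rfl⟩
  exact (show _ = _ from k3 j ⟨x, hx⟩) ▸ (e j _).2

open Cfsg.Geo in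
theorem mdec_comp {ι : Type} [Fintype ι] [DecidableEq ι] {a t : ℕ} {D : Fin t → Submodule F (ι → F)}
    (h : IsMDecomposition a D) (σ : Equiv.Perm (Fin t)) : IsMDecomposition a (D ∘ σ) :=
  ⟨h.1, h.2, fun _ => h.3 _, h.4.comp σ.injective, σ.iSup_comp.trans h.5⟩

open Cfsg.Geo in
theorem mdec_inj {ι : Type} [Fintype ι] [DecidableEq ι] {a t : ℕ} {D : Fin t → Submodule F (ι → F)}
    (h : IsMDecomposition a D) : Function.Injective D :=
  h.4.injective fun j hj => by have := h.3 j; rw [hj, finrank_bot] at this; exact h.2.ne this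

open Cfsg.Geo in
theorem mdec_map {ι : Type} [Fintype ι] [DecidableEq ι] {a t : ℕ} {D : Fin t → Submodule F (ι → F)}
    (h : IsMDecomposition a D) (g : (ι → F) ≃ₗ[F] (ι → F)) : IsMDecomposition a fun j => (D j).map g.toLinearMap :=
  ⟨h.1, h.2, fun j => (LinearEquiv.finrank_map_eq g _).trans (h.3 j), h.4.map_orderIso (Submodule.orderIsoMapComap g),
    by rw [← Submodule.map_iSup, h.5]; simp⟩

open Cfsg.Geo Pointwise in
theorem ord_le_of_mdec [Finite F] {n a t r : ℕ} (hr : r.Prime) (hq : ¬ r ∣ Nat.card F) (h : n = a * t) (ha : 0 < a)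
    (ht : 2 ≤ t) (hΩ : r ∣ Nat.card {D : Fin t → Submodule F (Fin n → F) // IsMDecomposition a D} / t.factorial) :
    orderOf (Nat.card F : ZMod r) ≤ n := by
  have h1 := dvd_of_dvd_div (fact_dvd_card (IsMDecomposition a) (fun _ σ h => mdec_comp h σ) fun _ => mdec_inj) hΩ
  obtain ⟨D, hD, -⟩ := (hd_iff' (f := (1 : End F (Fin n → F))) ha ht).2 (hd_dist (fun _ _ h => h) one_pos
    (e := n) (s := 0) (by simpa) (by simp) (hasED_top _) (by
      obtain ⟨k, h2⟩ := ED_eq_nED (1 : End F (Fin n → F))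
      have := finrank_eq_nED h2
      simp [nED_one] at this h2
      simp [h2, natDegree_X_sub_one, this]))
  have h2 := card_dvd_of_trans (G := (Fin n → F) ≃ₗ[F] (Fin n → F))
    (fun D : Fin t → Submodule F (Fin n → F) => IsMDecomposition a D) (fun D E hD hE => by
      obtain ⟨g, -, hg⟩ := exists_glue hD.4 hD.5 hE.4 hE.5 fun j =>
        LinearEquiv.ofFinrankEq _ _ ((hD.3 j).trans (hE.3 j).symm)
      exact ⟨g, funext hg⟩) (fun g D hD => mdec_map hD g) (Nat.card_ne_zero.2 ⟨⟨⟨D, hD⟩⟩, inferInstance⟩)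
  rw [card_gl, finrank_fin_fun] at h2
  obtain ⟨j, h3, h4, h5⟩ := ord_of_dvd (k := 0) hr Finite.one_lt_card hq (Nat.zero_le n) (by simpa [gO] using h2) h1
  exact (Nat.le_of_dvd h3 h5).trans h4

theorem inj_of_pow {f : End F V} {r : ℕ} (hr : r ≠ 0) {z : F} (hz : z ≠ 0) (h : f ^ r = z • 1) :
    Function.Injective f := by
  refine ((End.isUnit_iff f).1 ((isUnit_pow_iff hr).1 ?_)).1
  rw [h]
  exact IsUnit.of_mul_eq_one (z⁻¹ • 1) (by simp [smul_smul, hz])

theorem ne_zero_of_irr {r : ℕ} (hr : 2 ≤ r) {z : F} (h : Irreducible (X ^ r - C z)) : z ≠ 0 :=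
  (not_pow_of_irr hr h 0).symm ∘ fun h => by simp [h, show r ≠ 0 by omega]

theorem sum_eq_of_small {c a : ℕ} {L : Multiset (Multiset F[X])} {P Q : F[X]} (hP : P.natDegree = 1)
    (hQ : Q.natDegree = c) (hL : ∀ s ∈ L, dg s = a) : ∀ {e s : ℕ}, e < c → L.sum = replicate e P + replicate s Q →
    e = L.card * (a % c) ∧ s = L.card * (a / c) := by
  classical
  induction L using Multiset.induction_on with
  | empty =>
    intro e s _ h
    have := congrArg card h
    simp at this ⊢
    omega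
  | cons M L ih =>
    intro e s he h
    rw [sum_cons] at h
    have h0 : ∀ M ≤ replicate e P + replicate s Q, ∃ e' ≤ e, ∃ s' ≤ s, M = replicate e' P + replicate s' Q :=
      fun M h => by
      obtain ⟨e', h1, h2⟩ := le_replicate_iff.1 (inter_le_right (s := M) (t := .replicate e P))
      obtain ⟨s', h3, h4⟩ := le_replicate_iff.1 (show M - .replicate e P ≤ .replicate s Q from
        Multiset.sub_le_iff_le_add.2 (by rwa [add_comm]))
      exact ⟨e', h1, s', h3, by rw [← h2, ← h4, add_comm, Multiset.sub_add_inter]⟩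
    obtain ⟨e', h1, s', h2, rfl⟩ := h0 M (h ▸ Multiset.le_add_right _ _)
    obtain ⟨e, rfl⟩ := Nat.exists_eq_add_of_le h1
    obtain ⟨s, rfl⟩ := Nat.exists_eq_add_of_le h2
    rw [replicate_add, replicate_add, add_add_add_comm, add_right_inj] at h
    have h3 := hL _ (mem_cons_self _ _)
    simp only [dg_add, dg_replicate, hP, hQ, mul_one] at h3
    obtain ⟨h4, h5⟩ := eq_of_small (by omega) h3
    obtain ⟨h6, h7⟩ := ih (fun s hs => hL s (mem_cons_of_mem hs)) (by omega) h
    simp only [card_cons, add_mul]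
    omega

end H20.El
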