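import Cfsg.Agent.H20.El3
import Cfsg.Agent.H11.Shp
import Cfsg.Agent.H11.TSub

/-! Elusivity engine for isometry groups: invariant non-degenerate / totally singular subspaces and elementary
divisors (`ED_pair`, `ts_le`, `nd_dual`, `Rg.nd`, `Rg.ts`), the splitting `fixSp ⊥ res` (`ts_iff`, `nd_split`),
self-dual multisets of cyclotomic factors (`nd_shape`, `ts_shape`, `exists_shape`). -/

set_option autoImplicit false
namespace H20.El
open H11 Module Polynomial Multiset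
open H11.PForm hiding X

universe u
variable {F : Type u} [Field F] {V W : Type*} [AddCommGroup V] [Module F V] [AddCommGroup W]
  [Module F W] [FiniteDimensional F V] [FiniteDimensional F W] {σ : F →+* F}

theorem ED_pair [Finite F] (hσ : ∀ a, σ (σ a) = a) {B : V →ₛₗ[σ] W →ₗ[F] F} (hB : ∀ u, (∀ v, B u v = 0) → u = 0)
    (hd : finrank F V = finrank F W) {f : End F V} {g : End F W} (hg : IsUnit g)
    (h : ∀ x y, B (f x) (g y) = B x y) : ED f = (ED g).map (dualP σ) := by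
  obtain ⟨A, hA⟩ := exists_gl_sim (ι := Fin (finrank F W)) hg (by simp)
  rw [← sim_iff_ED.1 hA, ← ED_dG hσ, ← sim_iff_ED]
  obtain ⟨e, he⟩ := hA
  obtain ⟨a, ha⟩ := exists_rep hσ stdHerm_sep (B' := B.compl₂ e.toLinearMap)
  have h0 : ∀ x, (A.1.map σ).transpose.mulVec ((dG σ A).1.mulVec x) = x := fun x => by
    rw [Matrix.mulVec_mulVec, show (A.1.map σ).transpose * _ = _ from (dG σ A).inv_mul, Matrix.one_mulVec]
  have h1 : Function.Injective a := (injective_iff_map_eq_zero _).2 fun x hx => hB x fun y => by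
    obtain ⟨y, rfl⟩ := e.surjective y
    simpa [hx] using (ha x y).symm
  refine ⟨LinearMap.linearEquivOfInjective a h1 (by simpa), fun x => sep_ext (σ := σ) stdHerm_sep fun y => ?_⟩
  obtain ⟨y, rfl⟩ := ((End.isUnit_iff _).1 (isUnit_mE_gl A)).2 y
  change stdHerm σ _ (a _) _ = stdHerm σ _ (Matrix.mulVec _ (a x)) (Matrix.mulVec _ y)
  rw [ha, stdHerm_mulVec hσ, h0, ha]
  change B (f x) (e (A.1.mulVec y)) = B x (e y)
  rw [show e (A.1.mulVec y) = g (e y) from he y, h]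

theorem exists_dbl (P : FParam σ) {B : V →ₛₗ[σ] V →ₗ[F] F} (h1 : ∀ u, (∀ v, B u v = 0) → u = 0) {f f' : End F V}
    (h2 : ∀ x y, B (f x) (f' y) = B x y) : ∃ T : PForm P (V × V), T.Nondeg ∧
      T.TS (LinearMap.range (LinearMap.inl F V V)) ∧ T.TS (LinearMap.range (LinearMap.inr F V V)) ∧
      ∃ g : T.Isom, iE g = f.prodMap f' := by
  let T : PForm P (V × V) := ⟨LinearMap.mk₂'ₛₗ σ (RingHom.id F) (fun x y => B x.1 y.2 + P.ε * σ (B y.1 x.2))
    (fun _ _ _ => by simp; ring) (fun _ _ _ => by simp; ring) (fun _ _ _ => by simp; ring)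
    (fun _ _ _ => by simp [P.σσ]; ring),
    fun x => B x.1 x.2, fun x y => by simp [P.σσ, P.σε, mul_add, ← mul_assoc, P.εε, add_comm],
    fun x y => by convert P.sub_mem (B y.1 x.2) using 1; simp; ring, fun a x => by simp [mul_comm, mul_left_comm],
    fun _ => rfl⟩
  have e : ∀ x y, T.h x y = B x.1 y.2 + P.ε * σ (B y.1 x.2) := fun _ _ => rfl
  have hT : T.Nondeg := fun x hx => Prod.ext (h1 _ fun v => by simpa [e] using hx (0, v))
    ((forall_dual_apply_eq_zero_iff F _).1 fun φ => by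
    obtain ⟨u, rfl⟩ := exists_eq_of_sepLeft P.σσ B h1 φ
    simpa [e, P.ε_ne_zero] using hx (u, 0))
  refine ⟨T, hT, ⟨?_, ?_⟩, ⟨?_, ?_⟩,
    mkIsom hT (f.prodMap f') ⟨fun x y => by simp [e, h2], fun x => by simp [T, h2]⟩, rfl⟩
  · rintro _ ⟨x, rfl⟩; simp [Sing, T]
  · rintro _ ⟨x, rfl⟩ _ ⟨y, rfl⟩; simp [e]
  · rintro _ ⟨x, rfl⟩; simp [Sing, T]
  · rintro _ ⟨x, rfl⟩ _ ⟨y, rfl⟩; simp [e]

theorem exists_hyp [Finite F] (P : FParam σ) {f : End F V} (hf : IsUnit f) :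
    ∃ (n : ℕ) (T : PForm P ((Fin n → F) × (Fin n → F))) (g : T.Isom) (A B : Submodule F _), T.Nondeg ∧ T.Polar A B ∧
      HasED (iE g) A (ED f) ∧ HasED (iE g) B ((ED f).map (dualP σ)) := by
  obtain ⟨A, hA⟩ := exists_gl_sim (ι := Fin (finrank F V)) hf (by simp)
  have h0 : ∀ x, (A.1.map σ).transpose.mulVec ((dG σ A).1.mulVec x) = x := fun x => by
    rw [Matrix.mulVec_mulVec, show (A.1.map σ).transpose * _ = _ from (dG σ A).inv_mul, Matrix.one_mulVec]
  obtain ⟨T, h1, h2, h3, g, h4⟩ := exists_dbl P (B := stdHerm σ (Fin (finrank F V))) stdHerm_sep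
    (f := mE (dG σ A).1) (f' := mE A.1) fun x y => by simp only [mE_apply, stdHerm_mulVec P.σσ, h0]
  refine ⟨_, T, g, _, _, h1, ⟨h3, h2, LinearMap.isCompl_range_inl_inr.symm⟩, ?_, ?_⟩
  · rw [← sim_iff_ED.1 hA]
    exact HasED.range LinearMap.inr_injective fun x => by simp [h4]
  · rw [← sim_iff_ED.1 hA, ← ED_dG P.σσ]
    exact HasED.range LinearMap.inl_injective fun x => by simp [h4]

variable {P : FParam σ} {S : PForm P V} {T : PForm P W}

omit [FiniteDimensional F V] [FiniteDimensional F W] in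
theorem ts_map {e : V →ₗ[F] W} (he : IsIsom S T e) {U : Submodule F V} (h : S.TS U) : T.TS (U.map e) := by
  refine ⟨?_, ?_⟩
  · rintro _ ⟨x, hx, rfl⟩; exact (he.sing_iff x).2 (h.sing x hx)
  · rintro _ ⟨x, hx, rfl⟩ _ ⟨y, hy, rfl⟩; rw [he.h_eq]; exact h.h_eq hy hx

omit [FiniteDimensional F V] [FiniteDimensional F W] in
theorem nd_map {e : V →ₗ[F] W} (he : IsIsom S T e) {U : Submodule F V} (h : (S.restrict U).Nondeg) :
    (T.restrict (U.map e)).Nondeg := by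
  rw [restrict_nondeg_iff'] at h ⊢
  rintro _ ⟨x, hx, rfl⟩ h1
  rw [h x hx fun y hy => by rw [← he.h_eq]; exact h1 _ ⟨y, hy, rfl⟩, _root_.map_zero]

omit [FiniteDimensional F V] in
theorem nd_top (hS : S.Nondeg) : (S.restrict ⊤).Nondeg := (eqv_restrict_top S).symm.nondeg hS

omit [FiniteDimensional F V] in
theorem isIsom_subtype (U : Submodule F V) : IsIsom (S.restrict U) S U.subtype := ⟨fun _ _ => rfl, fun _ => by simp⟩

omit [FiniteDimensional F V] [FiniteDimensional F W] in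
theorem isIsom_inl : IsIsom S (S.prod T) (LinearMap.inl F V W) := (oSum_prod S T).isom1

omit [FiniteDimensional F V] [FiniteDimensional F W] in
theorem isIsom_inr : IsIsom T (S.prod T) (LinearMap.inr F V W) := (oSum_prod S T).isom2

omit [FiniteDimensional F V] in
theorem ts_sup {A B : Submodule F V} (hA : S.TS A) (hB : S.TS B) (h : B ≤ S.perp A) : S.TS (A ⊔ B) := by
  refine ⟨fun x hx => ?_, ?_⟩
  · obtain ⟨a, ha, b, hb, rfl⟩ := Submodule.mem_sup.1 hx
    exact (hA.sing a ha).add (hB.sing b hb) (h hb a ha)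
  · rw [perp_sup]
    exact sup_le (le_inf hA.le_perp (S.le_perp_comm.1 h)) (le_inf h hB.le_perp)

omit [FiniteDimensional F V] in
theorem eqv_sup {A B : Submodule F V} (hd : Disjoint A B) (h : B ≤ S.perp A) :
    Eqv ((S.restrict A).prod (S.restrict B)) (S.restrict (A ⊔ B)) := by
  let φ : (A × B) →ₗ[F] (A ⊔ B : Submodule F V) := (A.subtype.coprod B.subtype).codRestrict _ fun x =>
    Submodule.add_mem_sup x.1.2 x.2.2
  have hφ : ∀ x, (φ x : V) = x.1 + x.2 := fun _ => rfl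
  refine ⟨LinearEquiv.ofBijective φ ⟨(injective_iff_map_eq_zero _).2 fun x hx => ?_, fun y => ?_⟩, fun x y => ?_,
    fun x => ?_⟩
  · have h1 : (x.1 : V) = -x.2 := eq_neg_of_add_eq_zero_left (by simpa [hφ] using congrArg Subtype.val hx)
    have h2 : (x.1 : V) = 0 := Submodule.disjoint_def.1 hd _ x.1.2 (h1 ▸ B.neg_mem x.2.2)
    exact Prod.ext (Subtype.ext h2) (Subtype.ext (by simpa [h2] using h1))
  · obtain ⟨a, ha, b, hb, e⟩ := Submodule.mem_sup.1 y.2
    exact ⟨(⟨a, ha⟩, ⟨b, hb⟩), Subtype.ext e⟩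
  · change S.h (x.1 + x.2) (y.1 + y.2) = S.h x.1 y.1 + S.h x.2 y.2
    simp [h y.2.2 _ x.1.2, S.h_swap_zero (h x.2.2 _ y.1.2)]
  · change S.q (x.1 + x.2) - (S.q x.1 + S.q x.2) ∈ P.Λ
    simpa [h x.2.2 _ x.1.2, sub_sub] using S.q_add x.1 x.2

omit [FiniteDimensional F V] in
theorem disj_of_nd {A B : Submodule F V} (hA : (S.restrict A).Nondeg) (h : B ≤ S.perp A) : Disjoint A B :=
  ((S.restrict_nondeg_iff A).1 hA).mono_right h

omit [FiniteDimensional F V] in
theorem nd_sup {A B : Submodule F V} (hA : (S.restrict A).Nondeg) (hB : (S.restrict B).Nondeg) (h : B ≤ S.perp A) :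
    (S.restrict (A ⊔ B)).Nondeg := (eqv_sup (disj_of_nd hA h) h).nondeg (hA.prod hB)

omit [FiniteDimensional F V] in
theorem nd_of_sup {A B : Submodule F V} (h0 : (S.restrict (A ⊔ B)).Nondeg) (h : B ≤ S.perp A) :
    (S.restrict A).Nondeg := by
  rw [restrict_nondeg_iff'] at h0 ⊢
  refine fun x hx h1 => h0 x (Submodule.mem_sup_left hx) fun y hy => ?_
  obtain ⟨a, ha, b, hb, rfl⟩ := Submodule.mem_sup.1 hy
  simp [h1 a ha, h hb x hx]

theorem finrank_sup {A B : Submodule F V} (h : Disjoint A B) :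
    finrank F (A ⊔ B : Submodule F V) = finrank F A + finrank F B := by
  have := Submodule.finrank_sup_add_finrank_inf_eq A B
  rwa [h.eq_bot, finrank_bot, add_zero] at this

theorem isUnit_restrict {f : End F V} (hf : IsUnit f) {U : Submodule F V} (h : ∀ x ∈ U, f x ∈ U) :
    IsUnit (f.restrict h) :=
  (LinearMap.isUnit_iff_ker_eq_bot _).2 (LinearMap.ker_eq_bot.2 fun _ _ hxy =>
    Subtype.ext (((End.isUnit_iff _).1 hf).1 (congrArg Subtype.val hxy)))

variable [Finite F]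

theorem dual_of_pair (hS : S.Nondeg) {g : S.Isom} {U U' : Submodule F V} {s t : Multiset F[X]}
    (h : HasED (iE g) U s) (h' : HasED (iE g) U' t) (hc : IsCompl (S.perp U) U') : t = s.map (dualP σ) := by
  obtain ⟨h, rfl⟩ := h
  obtain ⟨h', rfl⟩ := h'
  have h1 := hS.finrank_perp U
  have h2 := Submodule.finrank_add_eq_of_isCompl hc
  exact ED_pair P.σσ (B := (S.h.comp U'.subtype).compl₂ U.subtype) (fun u hu => Subtype.ext
    (Submodule.disjoint_def.1 hc.disjoint _ (S.mem_perp'.2 fun x hx => hu ⟨x, hx⟩) u.2)) (by omega)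
    (isUnit_restrict (isUnit_iE g) _) fun x y => isom_h g _ _

theorem ts_le (hS : S.Nondeg) {g : S.Isom} (hg : SS (iE g)) {U : Submodule F V} {s : Multiset F[X]} (hU : S.TS U)
    (h : HasED (iE g) U s) : s + s.map (dualP σ) ≤ ED (iE g) := by
  have h1 : ∀ x ∈ S.perp U, iE g x ∈ S.perp U := perp_inv h.inv
  obtain ⟨U', h2, h3⟩ := ss_compl hg h1
  obtain ⟨t, ht⟩ := hasED_of h1
  obtain ⟨t', ht'⟩ := hasED_of h3
  rw [ht.add h2 ht', dual_of_pair hS h ht' h2]
  exact add_le_add_left (h.mono hg ht hU.le_perp) _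

theorem nd_dual {g : S.Isom} {U : Submodule F V} {s : Multiset F[X]} (hU : (S.restrict U).Nondeg)
    (h : HasED (iE g) U s) : s.map (dualP σ) = s := by
  obtain ⟨h, rfl⟩ := h
  exact (dl_iff_ED P.σσ (isUnit_iE (rst g U h))).1 (hU.dl _)

theorem ED_dual (hS : S.Nondeg) (g : S.Isom) : (ED (iE g)).map (dualP σ) = ED (iE g) :=
  (dl_iff_ED P.σσ (isUnit_iE g)).1 (hS.dl _)

omit [Finite F] in
theorem nd_le {g : S.Isom} {U : Submodule F V} {s : Multiset F[X]} (hU : (S.restrict U).Nondeg)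
    (h : HasED (iE g) U s) : ∃ t, HasED (iE g) (S.perp U) t ∧ ED (iE g) = s + t := by
  obtain ⟨t, ht⟩ := hasED_of (f := iE g) (perp_inv h.inv)
  exact ⟨t, ht, h.add (S.isCompl_perp hU) ht⟩

/-- `g` is determined by its elementary divisors, and self-dual parts have models -/
def Rg (g : S.Isom) : Prop :=
  (∀ s ≤ ED (iE g), s.map (dualP σ) = s → ∃ T : PForm P (Std s), T.Nondeg ∧ ∃ k : T.Isom, iE k = std s) ∧
  ∀ (W : Type u) [AddCommGroup W] [Module F W] [FiniteDimensional F W] (T : PForm P W) (k : T.Isom), T.Nondeg →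
    Sim (iE g) (iE k) → ISim g k

omit [Finite F] in
theorem isUnit_std {f : End F V} (hf : IsUnit f) {s : Multiset F[X]} (h : s ≤ ED f) : IsUnit (std s) :=
  isUnit_iff_ED.2 fun Q hQ => isUnit_iff_ED.1 hf Q (mem_of_le h (by rwa [ED_std fun R hR => pp_ED f R (mem_of_le h hR)] at hQ))

theorem dl_std {f : End F V} (hf : IsUnit f) {s : Multiset F[X]} (h : s ≤ ED f) (hσ : ∀ a, σ (σ a) = a)
    (hd : s.map (dualP σ) = s) : Dl σ (std s) :=
  (dl_iff_ED hσ (isUnit_std hf h)).2 (by rwa [ED_std fun R hR => pp_ED f R (mem_of_le h hR)])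

theorem rg_unit {hσ : ∀ a, σ (σ a) = a} (hne : σ ≠ RingHom.id F) {S : PForm (unitP σ hσ) V} (hS : S.Nondeg)
    (g : S.Isom) : Rg g :=
  ⟨fun _ h1 h2 => (dl_std (isUnit_iE g) h1 hσ h2).unit_exists hσ hne, fun _ _ _ _ _ _ hT h => unit_isim hne hS hT h⟩

theorem rg_of_isUnit (hS : S.Nondeg) {g : S.Isom} (h : IsUnit (iE g * iE g - 1)) : Rg g := by
  refine ⟨fun s h1 h2 => (dl_std (isUnit_iE g) h1 P.σσ h2).exists_isom P ?_,
    fun _ _ _ _ _ _ hT h' => isim_of_isUnit hS hT h' h⟩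
  have h3 : ∀ {V : Type u} [AddCommGroup V] [Module F V] (f : End F V), f * f - 1 = aeval f (X * X - 1 : F[X]) :=
    fun f => by simp
  have h4 : iE g * iE g - 1 = aeval (iE g) (X * X - 1 : F[X]) := by simp
  rw [h4, isUnit_aeval_iff, charpoly_eq_prod_ED] at h
  rw [h3, isUnit_aeval_iff, charpoly_std fun R hR => (pp_ED _ R (mem_of_le h1 hR)).monic]
  exact h.of_isCoprime_of_dvd_right (prod_dvd_prod_of_le h1)

theorem dual_sub {s t : Multiset F[X]} (h : (s + t).map (dualP σ) = s + t) (h' : s.map (dualP σ) = s) :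
    t.map (dualP σ) = t := by rwa [Multiset.map_add, h', add_right_inj] at h

theorem Rg.ext (hS : S.Nondeg) {g : S.Isom} (h : Rg g) {W : Type u} [AddCommGroup W] [Module F W]
    [FiniteDimensional F W] {T : PForm P W} (hT : T.Nondeg) (k : T.Isom) (h1 : ED (iE k) ≤ ED (iE g)) :
    ∃ e : W →ₗ[F] V, IsIsom T S e ∧ Function.Injective e ∧ ∀ x, e (iE k x) = iE g (e x) := by
  obtain ⟨t, ht⟩ := Multiset.le_iff_exists_add.1 h1
  obtain ⟨R, hR, l, hl⟩ := h.1 t (ht ▸ Multiset.le_add_left _ _) (dual_sub (ht ▸ ED_dual hS g) (ED_dual hT k))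
  obtain ⟨e, h2, h3⟩ := (h.2 _ _ (prodI T R (k, l)) (hT.prod hR) (by
    rw [sim_iff_ED, iE_prodI, ED_prodMap, hl, ED_std fun Q hQ => pp_ED (iE g) Q (by simp [ht, hQ]), ht])).symm
  exact ⟨e.toLinearMap ∘ₗ LinearMap.inl F _ _, h2.comp isIsom_inl, e.injective.comp LinearMap.inl_injective,
    fun x => by simpa using h3 (x, 0)⟩

theorem Rg.nd (hS : S.Nondeg) {g : S.Isom} (h : Rg g) {s : Multiset F[X]} (h1 : s ≤ ED (iE g))
    (h2 : s.map (dualP σ) = s) : ∃ U, (S.restrict U).Nondeg ∧ HasED (iE g) U s := by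
  obtain ⟨T, hT, k, hk⟩ := h.1 s h1 h2
  have h3 : ED (iE k) = s := by rw [hk, ED_std fun Q hQ => pp_ED _ Q (mem_of_le h1 hQ)]
  obtain ⟨e, h4, h5, h6⟩ := h.ext hS hT k (h3.le.trans h1)
  generalize hU : Submodule.map e ⊤ = U
  have h7 := (hasED_top _).map h5 h6
  have h8 := nd_map h4 (nd_top hT)
  rw [hU] at h7 h8
  exact ⟨U, h8, h3 ▸ h7⟩

theorem Rg.ts' (hS : S.Nondeg) {g : S.Isom} (h : Rg g) {s : Multiset F[X]} (h1 : s + s.map (dualP σ) ≤ ED (iE g)) :
    ∃ U U', S.TS U ∧ S.TS U' ∧ Disjoint U U' ∧ HasED (iE g) U s ∧ HasED (iE g) U' (s.map (dualP σ)) := by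
  have h0 := (Multiset.le_add_right _ _).trans h1
  obtain ⟨n, T, k, A, B, hT, h2, h3, h4⟩ := exists_hyp P (isUnit_std (isUnit_iE g) h0)
  rw [ED_std fun Q hQ => pp_ED _ Q (mem_of_le h0 hQ)] at h3 h4
  obtain ⟨e, h5, h6, h7⟩ := h.ext hS hT k ((h3.add h2.compl h4).le.trans h1)
  exact ⟨_, _, ts_map h5 h2.ts1, ts_map h5 h2.ts2, Submodule.disjoint_map h6 h2.compl.disjoint, h3.map h6 h7,
    h4.map h6 h7⟩

theorem Rg.ts (hS : S.Nondeg) {g : S.Isom} (h : Rg g) {s : Multiset F[X]} (h1 : s + s.map (dualP σ) ≤ ED (iE g)) :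
    ∃ U, S.TS U ∧ HasED (iE g) U s := by
  obtain ⟨U, -, h2, -, -, h3, -⟩ := h.ts' hS h1
  exact ⟨U, h2, h3⟩

theorem Rg.ts_iff (hS : S.Nondeg) {g : S.Isom} (h : Rg g) (hg : SS (iE g)) {m : ℕ} :
    (∃ U : Submodule F V, finrank F U = m ∧ S.TS U ∧ U.map (iE g) ≤ U) ↔ ∃ s, s + s.map (dualP σ) ≤ ED (iE g) ∧ dg s = m := by
  constructor
  · rintro ⟨U, rfl, h1, h2⟩
    obtain ⟨s, hs⟩ := hasED_of (map_le_iff.1 h2)
    exact ⟨s, ts_le hS hg h1 hs, hs.finrank_eq.symm⟩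
  · rintro ⟨s, h1, rfl⟩
    obtain ⟨U, h2, h3⟩ := h.ts hS h1
    exact ⟨U, h3.finrank_eq, h2, h3.map_le⟩

theorem Rg.nd_iff (hS : S.Nondeg) {g : S.Isom} (h : Rg g) {m : ℕ} :
    (∃ U : Submodule F V, finrank F U = m ∧ (S.restrict U).Nondeg ∧ U.map (iE g) ≤ U) ↔
      ∃ s ≤ ED (iE g), s.map (dualP σ) = s ∧ dg s = m := by
  constructor
  · rintro ⟨U, rfl, h1, h2⟩
    obtain ⟨s, hs⟩ := hasED_of (map_le_iff.1 h2)
    obtain ⟨t, -, ht⟩ := nd_le h1 hs
    exact ⟨s, ht ▸ Multiset.le_add_right _ _, nd_dual h1 hs, hs.finrank_eq.symm⟩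
  · rintro ⟨s, h1, h0, rfl⟩
    obtain ⟨U, h2, h3⟩ := h.nd hS h1 h0
    exact ⟨U, h3.finrank_eq, h2, h3.map_le⟩

section Split
omit [Finite F]

omit [FiniteDimensional F V] in
theorem res_le_perp (g : S.Isom) : res g ≤ S.perp (fixSp g) := fun _ hu _ hx => h_res_of_fix hx hu

omit [FiniteDimensional F V] in
theorem res_inv' (g : S.Isom) : ∀ x ∈ res g, iE g x ∈ res g := res_inv (Commute.refl g)

theorem split_inv {g : S.Isom} (hg : SS (iE g)) {U : Submodule F V} (hU : ∀ x ∈ U, iE g x ∈ U) :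
    U ⊓ fixSp g ⊔ U ⊓ res g = U := by
  refine le_antisymm (sup_le inf_le_left inf_le_left) fun x hx => ?_
  have h1 := (hg.restrict hU).disjoint (X - 1)
  have h2 := (aeval ((iE g).restrict hU) (X - 1 : F[X])).finrank_range_add_finrank_ker
  have h3 := Submodule.eq_top_of_finrank_eq ((finrank_sup h1).trans h2)
  obtain ⟨_, ⟨a, rfl⟩, b, hb, e⟩ := Submodule.mem_sup.1 (h3 ▸ Submodule.mem_top (x := (⟨x, hx⟩ : U)))
  rw [← show _ = x from congrArg Subtype.val e, Submodule.coe_add, add_comm]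
  refine Submodule.add_mem_sup ⟨b.2, ?_⟩ ⟨Subtype.property _, a, by simp⟩
  simpa [sub_eq_zero, Subtype.ext_iff, mem_fixSp] using hb

theorem nd_fix (hS : S.Nondeg) {g : S.Isom} (hg : SS (iE g)) : (S.restrict (fixSp g)).Nondeg :=
  hS.perp_res g ▸ hS.restrict_perp (hS.nondeg_res hg)

theorem finrank_fix (hS : S.Nondeg) (g : S.Isom) : finrank F (fixSp g) + finrank F (res g) = finrank F V := by
  rw [← hS.perp_res, add_comm, hS.finrank_perp]

theorem hasED_res (hS : S.Nondeg) {g : S.Isom} (hg : SS (iE g)) : HasED (iE g) (res g) (nED (iE g)) := by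
  obtain ⟨s, hs⟩ := hasED_of (res_inv' g)
  obtain ⟨t, ht, h⟩ := nd_le (hS.nondeg_res hg) hs
  have h1 : t = replicate t.card (X - 1) := eq_replicate_card.2 fun Q hQ => by
    obtain ⟨h2, rfl⟩ := ht
    have h3 : aeval ((iE g).restrict h2) (X - 1 : F[X]) = 0 := by
      ext x
      simpa [sub_eq_zero, mem_fixSp] using (hS.perp_res g ▸ x.2 : x.1 ∈ fixSp g)
    exact eq_of_monic_of_associated (pp_ED _ Q hQ).monic monic_X_sub_one
      (((hg.restrict h2) Q hQ).associated_of_dvd irreducible_X_sub_one (aeval_eq_zero_iff_ED.1 h3 Q hQ))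
  rw [nED_of_ED (a := t.card) (s := s) (fun h2 => ?_) (by rw [h, add_comm, ← h1])]
  · exact hs
  · obtain ⟨h3, rfl⟩ := hs
    refine isUnit_sub_one_iff.1 (isUnit_sub_one_iff_fix.2 fun x hx => Subtype.ext ?_) _ h2 dvd_rfl
    exact Submodule.disjoint_def.1 (hS.nondeg_res_iff.1 (hS.nondeg_res hg)) _ x.2 (congrArg Subtype.val hx)

omit [FiniteDimensional F V] in
theorem hasTS_iff {U : Submodule F V} {k : ℕ} :
    (S.restrict U).HasTS k ↔ ∃ A ≤ U, S.TS A ∧ finrank F A = k := by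
  constructor
  · rintro ⟨A, h1, rfl⟩
    exact ⟨_, Submodule.map_subtype_le _ _, ts_map (isIsom_subtype U) h1, Submodule.finrank_map_subtype_eq _ _⟩
  · rintro ⟨A, h1, h2, rfl⟩
    exact ⟨A.comap U.subtype, ⟨fun x hx => h2.sing x hx, fun x hx y hy => h2.h_eq hy hx⟩,
      (Submodule.comapSubtypeEquivOfLe h1).finrank_eq⟩

theorem ts_split (hS : S.Nondeg) {g : S.Isom} (hg : SS (iE g)) {m : ℕ} :
    (∃ U : Submodule F V, finrank F U = m ∧ S.TS U ∧ U.map (iE g) ≤ U) ↔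
      ∃ e, (S.restrict (fixSp g)).HasTS e ∧ ∃ B ≤ res g, S.TS B ∧ B.map (iE g) ≤ B ∧ e + finrank F B = m := by
  have h0 := hS.nondeg_res_iff.1 (hS.nondeg_res hg)
  constructor
  · rintro ⟨U, rfl, h1, h2⟩
    refine ⟨_, hasTS_iff.2 ⟨U ⊓ fixSp g, inf_le_right, h1.mono inf_le_left, rfl⟩, U ⊓ res g, inf_le_right,
      h1.mono inf_le_left, map_le_iff.2 fun x hx => ⟨map_le_iff.1 h2 x hx.1, res_inv' g x hx.2⟩, ?_⟩
    rw [← finrank_sup (h0.symm.mono inf_le_right inf_le_right), split_inv hg (map_le_iff.1 h2)]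
  · rintro ⟨e, h1, B, h2, h3, h4, rfl⟩
    obtain ⟨A, h5, h6, rfl⟩ := hasTS_iff.1 h1
    refine ⟨A ⊔ B, finrank_sup (h0.symm.mono h5 h2), ts_sup h6 h3 (h2.trans ((res_le_perp g).trans (S.perp_anti h5))), ?_⟩
    rw [Submodule.map_sup]
    exact sup_le_sup (map_le_iff.2 fun x hx => (show iE g x = x from h5 hx).symm ▸ hx) h4

theorem nd_split {g : S.Isom} (hg : SS (iE g)) {U : Submodule F V} (h1 : (S.restrict U).Nondeg)
    (h2 : U.map (iE g) ≤ U) : ∃ A ≤ fixSp g, ∃ B ≤ res g, A ⊔ B = U ∧ B ≤ S.perp A ∧ (S.restrict A).Nondeg ∧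
      (S.restrict B).Nondeg ∧ B.map (iE g) ≤ B := by
  have h3 := split_inv hg (map_le_iff.1 h2)
  have h4 : U ⊓ res g ≤ S.perp (U ⊓ fixSp g) := inf_le_right.trans ((res_le_perp g).trans (S.perp_anti inf_le_right))
  exact ⟨_, inf_le_right, _, inf_le_right, h3, h4, nd_of_sup (h3.symm ▸ h1) h4,
    nd_of_sup (by rw [sup_comm, h3]; exact h1) (S.le_perp_comm.1 h4),
    map_le_iff.2 fun x hx => ⟨map_le_iff.1 h2 x hx.1, res_inv' g x hx.2⟩⟩

theorem nd_join {g : S.Isom} {A B : Submodule F V} (hA : A ≤ fixSp g) (hB : B ≤ res g) (h4 : B.map (iE g) ≤ B) :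
    B ≤ S.perp A ∧ (A ⊔ B).map (iE g) ≤ A ⊔ B := by
  refine ⟨hB.trans ((res_le_perp g).trans (S.perp_anti hA)), ?_⟩
  rw [Submodule.map_sup]
  exact sup_le_sup (map_le_iff.2 fun x hx => (show iE g x = x from hA hx).symm ▸ hx) h4

end Split

theorem rg_res (hS : S.Nondeg) {g : S.Isom} {r : ℕ} (hr : Odd r) (h0 : (r : F) ≠ 0) (h : g ^ r = 1) :
    Rg (rst g (res g) (res_inv' g)) := by
  have hg : SS (iE g) := ss_of_pow_eq_one h0 (by rw [← iE_pow, h, iE_one])
  refine rg_of_isUnit (hS.nondeg_res hg) (isUnit_sq_sub_one hr ?_ (isUnit_sub_one_iff_fix.2 fun x hx => Subtype.ext ?_))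
  · rw [← iE_pow]
    ext x
    exact (rst_pow g _ _ r x).trans (by simp [h])
  · exact Submodule.disjoint_def.1 (hS.nondeg_res_iff.1 (hS.nondeg_res hg)) _ x.2 (congrArg Subtype.val hx)

theorem res_nd (hS : S.Nondeg) {g : S.Isom} {r : ℕ} (hr : Odd r) (h0 : (r : F) ≠ 0) (h : g ^ r = 1)
    {s : Multiset F[X]} (h1 : s ≤ nED (iE g)) (h2 : s.map (dualP σ) = s) :
    ∃ B ≤ res g, (S.restrict B).Nondeg ∧ HasED (iE g) B s := by
  have hg : SS (iE g) := ss_of_pow_eq_one h0 (by rw [← iE_pow, h, iE_one])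
  obtain ⟨B, h3, h4⟩ := (rg_res hS hr h0 h).nd (hS.nondeg_res hg) ((hasED_res hS hg).2 ▸ h1) h2
  exact ⟨_, Submodule.map_subtype_le _ _, nd_map (isIsom_subtype _) h3,
    h4.map (res g).subtype_injective fun _ => rfl⟩

theorem ts_iff (hS : S.Nondeg) {g : S.Isom} {r : ℕ} (hr : Odd r) (h0 : (r : F) ≠ 0) (h : g ^ r = 1) {m : ℕ} :
    (∃ U : Submodule F V, finrank F U = m ∧ S.TS U ∧ U.map (iE g) ≤ U) ↔
      ∃ e s, (S.restrict (fixSp g)).HasTS e ∧ s + s.map (dualP σ) ≤ nED (iE g) ∧ e + dg s = m := by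
  have hg : SS (iE g) := ss_of_pow_eq_one h0 (by rw [← iE_pow, h, iE_one])
  have h1 := (hasED_res hS hg).2
  rw [ts_split hS hg]
  constructor
  · rintro ⟨e, h2, B, h3, h4, h5, rfl⟩
    obtain ⟨s, hs⟩ := hasED_of (map_le_iff.1 h5)
    exact ⟨e, s, h2, h1 ▸ ts_le (hS.nondeg_res hg) (g := rst g (res g) (res_inv' g)) (hg.restrict (res_inv' g))
      ⟨fun x hx => h4.sing x hx, fun x hx y hy => h4.h_eq hy hx⟩ (hs.comap (res_inv' g) h3), by rw [hs.finrank_eq]⟩
  · rintro ⟨e, s, h2, h3, rfl⟩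
    obtain ⟨B, h4, h5⟩ := (rg_res hS hr h0 h).ts (hS.nondeg_res hg) (h1 ▸ h3)
    have h6 := h5.map (g := iE g) (res g).subtype_injective fun _ => rfl
    exact ⟨e, h2, _, Submodule.map_subtype_le _ _, ts_map (isIsom_subtype _) h4, h6.map_le, by rw [h6.finrank_eq]⟩

/-! ### shapes -/
omit [Finite F]

theorem exists_le_card {α : Type*} {s : Multiset α} {k : ℕ} (h : k ≤ s.card) : ∃ t ≤ s, t.card = k := by
  obtain ⟨t, h1, h2⟩ := exists_le_map (φ := fun _ => ()) (s := s) (ν := replicate k ())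
    (by rw [map_const']; exact (replicate_le_replicate _).2 h)
  exact ⟨t, h1, by simpa using congrArg card h2⟩

theorem exists_two {α : Type*} (s : Multiset α) : ∃ u v, s = u + u + v ∧ v.Nodup := by
  classical
  induction s using Multiset.induction_on with
  | empty => exact ⟨0, 0, rfl, nodup_zero⟩
  | cons a s ih =>
    obtain ⟨u, v, rfl, h⟩ := ih
    by_cases ha : a ∈ v
    · obtain ⟨v, rfl⟩ := exists_cons_of_mem ha
      exact ⟨a ::ₘ u, v, by simp only [← singleton_add]; abel, (nodup_cons.1 h).2⟩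
    · exact ⟨u, a ::ₘ v, by simp only [← singleton_add]; abel, nodup_cons.2 ⟨ha, h⟩⟩

theorem le_of_two {α : Type*} {s u v : Multiset α} (hv : v.Nodup) (h : s + s ≤ u + u + v) : s ≤ u := by
  classical
  refine le_iff_count.2 fun a => ?_
  have h1 := le_iff_count.1 h a
  have h2 := nodup_iff_count_le_one.1 hv a
  simp only [count_add] at h1
  omega

theorem exists_pairs {α : Type*} {φ : α → α} {s : Multiset α} (h : ∀ a ∈ s, φ a ≠ a ∧ φ (φ a) = a)
    (hd : s.map φ = s) : ∃ u, s = u + u.map φ := by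
  induction hn : s.card using Nat.strong_induction_on generalizing s with
  | _ n ih =>
  rcases s.empty_or_exists_mem with rfl | ⟨a, ha⟩
  · exact ⟨0, rfl⟩
  obtain ⟨t, rfl⟩ := exists_cons_of_mem ha
  obtain ⟨t, rfl⟩ := exists_cons_of_mem ((mem_cons.1 (hd ▸ mem_map_of_mem φ ha)).resolve_left (h a ha).1)
  obtain ⟨u, rfl⟩ := ih t.card (by simp [← hn]) (fun b hb => h b (by simp [hb]))
    (by rwa [map_cons, map_cons, (h a ha).2, cons_swap, cons_inj_right, cons_inj_right] at hd) rfl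
  exact ⟨a ::ₘ u, by simp [cons_swap]⟩

section Shape
variable {α : Type*} {φ : α → α} {A : Finset α} {b : Prop} (hb : ∀ a ∈ A, φ a = a ↔ b)
  (hφ : ∀ a ∈ A, φ a ∈ A ∧ φ (φ a) = a)
include hb

theorem map_self (h : b) {s : Multiset α} (hs : ∀ a ∈ s, a ∈ A) : s.map φ = s :=
  (map_congr rfl fun a ha => (hb a (hs a ha)).2 h).trans (map_id' s)

theorem ts_le_card {u v s : Multiset α} (hu : ∀ a ∈ u, a ∈ A) (hv : ∀ a ∈ v, a ∈ A) (h1 : v.Nodup)
    (h2 : ¬ b → v = 0) (h : s + s.map φ ≤ u + u.map φ + v) : s.card ≤ u.card := by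
  by_cases h3 : b
  · rw [map_self hb h3 hu] at h
    rw [map_self hb h3 fun a ha => by
      have := mem_of_le h (mem_add.2 (.inl ha))
      simp only [mem_add, or_self] at this
      exact this.elim (hu a) (hv a)] at h
    exact card_le_card (le_of_two h1 h)
  · have := card_le_card h
    simp [h2 h3] at this
    omega

include hφ

theorem exists_uv {s : Multiset α} (hs : ∀ a ∈ s, a ∈ A) (hd : s.map φ = s) :
    ∃ u v, s = u + u.map φ + v ∧ v.Nodup ∧ (¬ b → v = 0) := by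
  by_cases h : b
  · obtain ⟨u, v, rfl, h1⟩ := exists_two s
    exact ⟨u, v, by rw [map_self hb h fun a ha => hs a (by simp [ha])], h1, fun h' => absurd h h'⟩
  · obtain ⟨u, rfl⟩ := exists_pairs (fun a ha => ⟨fun h' => h ((hb a (hs a ha)).1 h'), (hφ a (hs a ha)).2⟩) hd
    exact ⟨u, 0, by simp, nodup_zero, fun _ => rfl⟩

theorem ts_shape {s : Multiset α} (hs : ∀ a ∈ s, a ∈ A) (hd : s.map φ = s) :
    ∃ w o, o ≤ A.card ∧ (¬ b → o = 0) ∧ s.card = 2 * w + o ∧ ∀ k, (∃ t, t + t.map φ ≤ s ∧ t.card = k) ↔ k ≤ w := by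
  obtain ⟨u, v, rfl, h1, h2⟩ := exists_uv hb hφ hs hd
  have hv : ∀ a ∈ v, a ∈ A := fun a ha => hs a (by simp [ha])
  refine ⟨u.card, v.card, card_le_card ((le_iff_subset h1).2 hv), fun h => by simp [h2 h], by simp; omega,
    fun k => ⟨?_, fun h => ?_⟩⟩
  · rintro ⟨t, h3, rfl⟩
    exact ts_le_card hb (fun a ha => hs a (by simp [ha])) hv h1 h2 h3
  · obtain ⟨t, h3, h4⟩ := exists_le_card h
    exact ⟨t, (add_le_add h3 (map_le_map h3)).trans (Multiset.le_add_right _ _), h4⟩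

theorem exists_shape (hA : A.Nonempty) {w o : ℕ} (h1 : o ≤ A.card) (h2 : ¬ b → o = 0) :
    ∃ s : Multiset α, (∀ a ∈ s, a ∈ A) ∧ s.map φ = s ∧ s.card = 2 * w + o ∧
      ∀ t, t + t.map φ ≤ s → t.card ≤ w := by
  obtain ⟨a, ha⟩ := hA
  obtain ⟨B, h3, rfl⟩ := Finset.exists_subset_card_eq h1
  have h4 : ¬ b → B.val = 0 := fun h => by simpa using h2 h
  have h5 : ∀ x ∈ replicate w a, x ∈ A := fun x hx => eq_of_mem_replicate hx ▸ ha
  refine ⟨replicate w a + (replicate w a).map φ + B.val, fun x hx => ?_, ?_, by simp; omega, fun t ht => by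
    simpa using ts_le_card hb h5 (fun x hx => h3 hx) B.nodup h4 ht⟩
  · simp only [mem_add, map_replicate] at hx
    rcases hx with (hx | hx) | hx
    exacts [h5 x hx, eq_of_mem_replicate hx ▸ (hφ a ha).1, h3 hx]
  · by_cases h : b
    · simp [map_self hb h fun x hx => h3 hx, (hb a ha).2 h]
    · simp [h4 h, (hφ a ha).2, add_comm]

open Classical in
theorem nd_shape {s : Multiset α} (hs : ∀ a ∈ s, a ∈ A) (hd : s.map φ = s) :
    ∃ t, s.card = t * (if b then 1 else 2) ∧ ∀ k ≤ t, ∃ s' ≤ s, s'.map φ = s' ∧ s'.card = k * (if b then 1 else 2) := by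
  by_cases h : b
  · refine ⟨s.card, by simp [h], fun k hk => ?_⟩
    obtain ⟨t, h1, h2⟩ := exists_le_card hk
    exact ⟨t, h1, map_self hb h fun a ha => hs a (mem_of_le h1 ha), by simp [h, h2]⟩
  · obtain ⟨u, v, rfl, -, h2⟩ := exists_uv hb hφ hs hd
    refine ⟨u.card, by simp [h, h2 h, mul_two], fun k hk => ?_⟩
    obtain ⟨t, h1, h3⟩ := exists_le_card hk
    refine ⟨_, (add_le_add h1 (map_le_map h1)).trans (Multiset.le_add_right _ _), ?_, by simp [h, h3, mul_two]⟩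
    rw [Multiset.map_add, Multiset.map_map, add_comm, map_congr (f := φ ∘ φ) (g := id) rfl fun a ha =>
      (hφ a (hs a (by simp [mem_of_le h1 ha]))).2, Multiset.map_id]

end Shape

end H20.El
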