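import Cfsg.Agent.H20.El4

/-! Elusivity engine for symplectic and unitary groups (`Hm P δ`: spaces classified by the dimension, `Ar`: the
arithmetic data of an odd prime `r`): `ts_all`, `nd_all`, `hd_all` (elements of order `r` fixing totally singular or
non-degenerate subspaces or orthogonal decompositions), `pair_ex`. -/

set_option autoImplicit false
namespace H20.El
open H11 Module Polynomial Multiset
open H11.PForm hiding X

universe u
variable {F : Type u} [Field F] {σ : F →+* F}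

theorem arith_ts {n m i N c : ℕ} {b : Prop} (hi : 0 < i) (hN : 0 < N) (h1 : b → c = i) (h2 : ¬ b → c = 2 * i)
    (hm : 2 * m ≤ n) (H : n % c < 2 * m) :
    (∀ e w o, o ≤ N → (¬ b → o = 0) → 0 < 2 * w + o → e + (2 * w + o) * i = n →
      ∃ e' w', 2 * e' ≤ e ∧ w' ≤ w ∧ e' + w' * i = m) ↔
    i ≤ m ∧ 2 * (m % i) ≤ n % c ∧ (¬ b ∨ N + 2 * (m / i) ≤ n / i) := by
  have hm' := Nat.mod_add_div' m i
  have hm2 := Nat.mod_lt m hi
  have key : ∀ e' w', e' < i → e' + w' * i = m → e' = m % i ∧ w' = m / i := fun e' w' h3 h4 => by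
    subst h4
    rw [Nat.add_mul_mod_self_right, Nat.mod_eq_of_lt h3, Nat.add_mul_div_right _ _ hi, Nat.div_eq_of_lt h3]
    simp
  have hc : 0 < c := by by_cases h : b <;> simp [h1, h2, h, hi]
  have hn := Nat.mod_add_div' n c
  have hn2 := Nat.mod_lt n hc
  have hT : 0 < n / c := Nat.pos_of_ne_zero fun h => by simp [h] at hn; omega
  constructor
  · intro h
    by_cases hb : b
    · obtain rfl := h1 hb
      have k2 : ∀ w o, o ≤ N → 2 * w + o = n / c → c ≤ m ∧ 2 * (m % c) ≤ n % c ∧ m / c ≤ w := fun w o h3 h4 => by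
        obtain ⟨e', w', h5, h6, h7⟩ := h (n % c) w o h3 (by simp [hb]) (by omega) (by rw [h4, hn])
        obtain ⟨rfl, rfl⟩ := key e' w' (by omega) h7
        exact ⟨not_lt.1 fun h => by rw [Nat.mod_eq_of_lt h] at h5; omega, h5, h6⟩
      obtain ⟨h3, h4, -⟩ := k2 (n / c / 2) (n / c % 2) (by omega) (by omega)
      have h5 := Nat.div_pos h3 hi
      refine ⟨h3, h4, .inr (not_lt.1 fun h6 => ?_)⟩
      by_cases h7 : n / c ≤ N
      · have := (k2 0 _ h7 (by simp)).2.2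
        omega
      rcases Nat.even_or_odd' (n / c - N) with ⟨w, hw | hw⟩
      · have := (k2 w N le_rfl (by omega)).2.2
        omega
      obtain ⟨e', w', h8, h9, h10⟩ := h (n % c + c) w N le_rfl (by simp [hb]) (by omega)
        (by rw [show n / c = 2 * w + N + 1 by omega, add_mul] at hn; omega)
      have : (w' + 1) * c ≤ m / c * c := Nat.mul_le_mul_right _ (by omega)
      rw [add_mul] at this
      omega
    · obtain rfl := h2 hb
      obtain ⟨e', w', h5, h6, h7⟩ := h (n % (2 * i)) (n / (2 * i)) 0 (by simp) (by simp) (by omega)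
        (by rw [add_zero, mul_comm 2 (n / _), mul_assoc, hn])
      obtain ⟨rfl, rfl⟩ := key e' w' (by omega) h7
      exact ⟨not_lt.1 fun h => by rw [Nat.mod_eq_of_lt h] at h5; omega, h5, .inl hb⟩
  · rintro ⟨h3, h4, h5⟩ e w o h6 h7 - h8
    by_cases h9 : m / i ≤ w
    · refine ⟨_, _, h4.trans ?_, h9, hm'⟩
      by_cases hb : b
      · rw [h1 hb, ← h8, Nat.add_mul_mod_self_right]
        exact Nat.mod_le _ _
      · rw [h2 hb, ← h8, h7 hb, add_zero, mul_comm 2 w, mul_assoc, Nat.add_mul_mod_self_right]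
        exact Nat.mod_le _ _
    have h10 : w * i ≤ m / i * i := Nat.mul_le_mul_right _ (by omega)
    refine ⟨m - w * i, w, ?_, le_rfl, by omega⟩
    rw [add_mul, mul_assoc] at h8
    by_cases hb : b
    · obtain rfl := h1 hb
      have := Nat.mul_le_mul_right c (show o + 2 * (m / c) ≤ n / c by simp [hb] at h5; omega)
      rw [add_mul, mul_assoc] at this
      omega
    · simp [h7 hb] at h8
      omega

/-- non-degenerate `P`-spaces are classified by their dimension, any multiple of `δ` -/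
structure Hm (P : FParam σ) (δ : ℕ) : Prop where
  eqv : ∀ {V W : Type u} [AddCommGroup V] [Module F V] [FiniteDimensional F V] [AddCommGroup W] [Module F W]
    [FiniteDimensional F W] {S : PForm P V} {T : PForm P W}, S.Nondeg → T.Nondeg → finrank F V = finrank F W → Eqv S T
  ex : ∀ k, δ ∣ k → ∃ T : PForm P (Fin k → F), T.Nondeg
  dvd : ∀ {V : Type u} [AddCommGroup V] [Module F V] [FiniteDimensional F V] {S : PForm P V}, S.Nondeg → δ ∣ finrank F V
  two : δ ∣ 2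

theorem hm_symp : Hm (sympP F) 2 := ⟨fun hS hT h => symp_eqv _ hS hT h rfl, by
  rintro _ ⟨k, rfl⟩
  let e : (Fin (2 * k) → F) ≃ₗ[F] (Fin k ⊕ Fin k → F) := .ofFinrankEq _ _ (by simp [two_mul])
  exact ⟨(stdSymp k F).comap e.toLinearMap, IsIsom.nondeg (f := e.symm) ⟨by simp, by simp⟩ (stdSymp_nondeg k)⟩,
  fun hS => (symp_even _ hS rfl).two_dvd, dvd_rfl⟩

theorem hm_unit [Finite F] {hσ : ∀ a, σ (σ a) = a} (hne : σ ≠ RingHom.id F) : Hm (unitP σ hσ) 1 :=
  ⟨fun hS hT h => unit_eqv hne _ hS hT h rfl, fun k _ => ⟨_, stdUnit_nondeg hσ hne (Fin k)⟩, fun _ => one_dvd _,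
    one_dvd _⟩

variable {V W : Type u} [AddCommGroup V] [Module F V] [AddCommGroup W] [Module F W] [FiniteDimensional F V]
  [FiniteDimensional F W] {P : FParam σ} {S : PForm P V} {T : PForm P W} {δ : ℕ}

namespace Hm
variable (H : Hm P δ) (hS : S.Nondeg)
include H hS

theorem compl (hT : T.Nondeg) (h : finrank F W ≤ finrank F V) :
    ∃ U : Submodule F V, (S.restrict U).Nondeg ∧ Eqv (T.prod (S.restrict U)) S := by
  obtain ⟨R, hR⟩ := H.ex _ (Nat.dvd_sub (H.dvd hS) (H.dvd hT))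
  obtain ⟨U, h1, -, h2⟩ := compl_of_eqv hR (H.eqv (hT.prod hR) hS (by simp [h]))
  exact ⟨U, h1, h2⟩

theorem emb (hT : T.Nondeg) (h : finrank F W ≤ finrank F V) :
    ∃ e : W →ₗ[F] V, IsIsom T S e ∧ Function.Injective e := by
  obtain ⟨U, -, e, he⟩ := H.compl hS hT h
  exact ⟨e.toLinearMap ∘ₗ LinearMap.inl F _ _, he.comp isIsom_inl, e.injective.comp LinearMap.inl_injective⟩

theorem nd {k : ℕ} (h : δ ∣ k) (h' : k ≤ finrank F V) : ∃ U : Submodule F V, (S.restrict U).Nondeg ∧ finrank F U = k := by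
  obtain ⟨R, hR⟩ := H.ex _ h
  obtain ⟨e, h1, h2⟩ := H.emb hS hR (by simpa)
  exact ⟨_, nd_map h1 (nd_top hR), by rw [Submodule.map_top, LinearMap.finrank_range_of_inj h2]; simp⟩

omit hS in
theorem nd' {A : Submodule F V} (hA : (S.restrict A).Nondeg) {k : ℕ} (h : δ ∣ k) (h' : k ≤ finrank F A) :
    ∃ U ≤ A, (S.restrict U).Nondeg ∧ finrank F U = k := by
  obtain ⟨U, h1, h2⟩ := H.nd hA h h'
  exact ⟨_, Submodule.map_subtype_le _ _, nd_map (isIsom_subtype _) h1, (Submodule.finrank_map_subtype_eq _ _).trans h2⟩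

theorem polar [Finite F] {k : ℕ} (h : 2 * k ≤ finrank F V) : ∃ A B : Submodule F V, S.TS A ∧ S.TS B ∧ Disjoint A B ∧
    finrank F A = k ∧ finrank F B = k := by
  obtain ⟨n, T, g, A, B, hT, h1, h2, -⟩ := exists_hyp P (f := (1 : End F (Fin k → F))) isUnit_one
  have h3 := h2.finrank_eq
  have h4 := h1.finrank_eq hT
  rw [dg_ED, finrank_fin_fun] at h3
  obtain ⟨e, h5, h6⟩ := H.emb hS hT (by omega)
  exact ⟨_, _, ts_map h5 h1.ts1, ts_map h5 h1.ts2, Submodule.disjoint_map h6 h1.compl.disjoint,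
    (LinearEquiv.finrank_eq (Submodule.equivMapOfInjective e h6 A)).symm.trans h3,
    (LinearEquiv.finrank_eq (Submodule.equivMapOfInjective e h6 B)).symm.trans (h4.1.trans h3)⟩

theorem ts_iff [Finite F] {k : ℕ} : S.HasTS k ↔ 2 * k ≤ finrank F V := by
  refine ⟨?_, fun h => ?_⟩
  · rintro ⟨U, h, rfl⟩
    obtain ⟨X, -, -, h1, -⟩ := h.exists_compl hS
    omega
  · obtain ⟨A, -, h1, -, -, h2, -⟩ := H.polar hS h
    exact ⟨A, h1, h2⟩

theorem trans {A B : Submodule F V} (hA : (S.restrict A).Nondeg) (hB : (S.restrict B).Nondeg)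
    (h : finrank F A = finrank F B) : ∃ g : S.Isom, A.map (iE g) = B := by
  obtain ⟨e, he⟩ := H.eqv hA hB h
  obtain ⟨g, hg⟩ := hS.witt_subspace A (B.subtype ∘ₗ e.toLinearMap) (B.subtype_injective.comp e.injective)
    ((isIsom_subtype B).comp he)
  refine ⟨g, Submodule.eq_of_le_of_finrank_eq ?_ ((LinearEquiv.finrank_map_eq g.1 A).trans h)⟩
  rintro _ ⟨x, hx, rfl⟩
  exact (hg ⟨x, hx⟩).symm ▸ (e ⟨x, hx⟩).2

theorem card_nd {A : Submodule F V} (hA : (S.restrict A).Nondeg) :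
    Nat.card {U : Submodule F V // finrank F U = finrank F A ∧ (S.restrict U).Nondeg} *
      (Nat.card (S.restrict A).Isom * Nat.card (S.restrict (S.perp A)).Isom) = Nat.card S.Isom := by
  letI : MulAction S.Isom (Submodule F V) :=
    { smul := fun g U => U.map (g.1 : V →ₗ[F] V)
      one_smul := fun U => Submodule.map_id U
      mul_smul := fun g g' U => Submodule.map_comp (g'.1 : V →ₗ[F] V) (g.1 : V →ₗ[F] V) U }
  rw [card_eq_orbit_mul (G := S.Isom) A (fun U => finrank F U = finrank F A ∧ (S.restrict U).Nondeg) fun U =>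
    ⟨fun h => H.trans hS hA h.2 h.1.symm, by
      rintro ⟨g, rfl⟩; exact ⟨LinearEquiv.finrank_map_eq g.1 A, nd_map (isom_isIsom g) hA⟩⟩, ← Nat.card_prod,
    ← Nat.card_congr (stabEquivProd hA).toEquiv,
    show S.stab A = MulAction.stabilizer S.Isom A from Subgroup.ext fun _ => mem_stab_iff_map]

end Hm

theorem card_polar [Finite F] (hS : S.Nondeg) {A B : Submodule F V} (h : S.Polar A B) :
    Nat.card {x : Submodule F V × Submodule F V // S.Polar x.1 x.2} *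
      (Nat.card F ^ (finrank F A).choose 2 * gO (Nat.card F) (finrank F A)) = Nat.card S.Isom := by
  letI : MulAction S.Isom (Submodule F V × Submodule F V) :=
    { smul := fun g U => (U.1.map (g.1 : V →ₗ[F] V), U.2.map (g.1 : V →ₗ[F] V))
      one_smul := fun U => Prod.ext (Submodule.map_id _) (Submodule.map_id _)
      mul_smul := fun g g' U => Prod.ext (Submodule.map_comp (g'.1 : V →ₗ[F] V) (g.1 : V →ₗ[F] V) _)
        (Submodule.map_comp (g'.1 : V →ₗ[F] V) (g.1 : V →ₗ[F] V) _) }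
  obtain ⟨e, -⟩ := h.exists_equiv hS
  rw [card_eq_orbit_mul (G := S.Isom) (A, B) (fun x => S.Polar x.1 x.2) fun U => ⟨fun h' => ?_, ?_⟩, ← card_gl,
    ← Nat.card_congr e.toEquiv, show S.stab A ⊓ S.stab B = MulAction.stabilizer S.Isom (A, B) from
      Subgroup.ext fun _ => (and_congr mem_stab_iff_map mem_stab_iff_map).trans (Prod.mk.injEq ..).symm.to_iff]
  · have h1 := h.finrank_eq hS
    have h2 := h'.finrank_eq hS
    obtain ⟨g, h3, h4, h5⟩ := h.exists_isom hS hS h' (LinearEquiv.ofFinrankEq _ _ (by omega))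
    refine ⟨⟨g, h3⟩, Prod.ext (Submodule.eq_of_le_of_finrank_eq ?_
      ((LinearEquiv.finrank_map_eq g A).trans (by omega))) h5⟩
    rintro _ ⟨x, hx, rfl⟩
    exact (h4 ⟨x, hx⟩).symm ▸ Subtype.property _
  · rintro ⟨g, rfl⟩
    exact ⟨h.ts1.map g, h.ts2.map g, (Submodule.orderIsoMapComap g.1).isCompl h.compl⟩

/-- the arithmetic data of an odd prime `r` -/
structure Ar (P : FParam σ) (δ r i c : ℕ) (b : Prop) : Prop where
  hm : Hm P δ
  hr : r.Prime
  hr2 : r ≠ 2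
  h0 : (r : F) ≠ 0
  hi : i = orderOf (Nat.card F : ZMod r)
  hb : ∀ Q ∈ PhiF F r, dualP σ Q = Q ↔ b
  h1 : b → c = i
  h2 : ¬ b → c = 2 * i
  hδ : δ ∣ c
  ord : ∀ {V W : Type u} [AddCommGroup V] [Module F V] [FiniteDimensional F V] [AddCommGroup W] [Module F W]
    [FiniteDimensional F W] {S : PForm P V} {T : PForm P W}, S.Nondeg → T.Nondeg → finrank F W ≤ finrank F V →
    ∀ N, r ∣ N → N * Nat.card T.Isom ∣ Nat.card S.Isom → ∃ j, finrank F W < j ∧ j ≤ finrank F V ∧ c ∣ j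

variable [Finite F]

namespace Ar
variable {r i c : ℕ} {b : Prop} (A : Ar P δ r i c b)
include A

theorem odd : Odd r := A.hr.odd_of_ne_two A.hr2

theorem ipos : 0 < i := Nat.pos_of_ne_zero (A.hi ▸ orderOf_card_ne_zero A.hr A.h0)

theorem cpos : 0 < c := by by_cases h : b <;> simp [A.h1, A.h2, h, A.ipos]

theorem dg_eq {s : Multiset F[X]} (hs : ∀ Q ∈ s, Q ∈ PhiF F r) : dg s = s.card * i :=
  A.hi ▸ sum_natDegree_PhiF A.hr A.h0 hs

theorem card_phi : (PhiF F r).card = (r - 1) / i := by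
  rw [← (PhiF_spec A.hr A.h0).2, ← A.hi, Nat.mul_div_cancel _ A.ipos]

theorem dual : ∀ Q ∈ PhiF F r, dualP σ Q ∈ PhiF F r ∧ dualP σ (dualP σ Q) = Q :=
  fun _ => dualP_mem_PhiF P.σσ A.hr A.h0

open Classical in
theorem c_eq : c = (if b then 1 else 2) * i := by by_cases h : b <;> simp [A.h1, A.h2, h]

theorem spec (hS : S.Nondeg) {g : S.Isom} (h : g ^ r = 1) : SS (iE g) ∧ (∀ Q ∈ nED (iE g), Q ∈ PhiF F r) ∧
    (nED (iE g)).map (dualP σ) = nED (iE g) ∧ finrank F (fixSp g) + dg (nED (iE g)) = finrank F V ∧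
    (g ≠ 1 → 0 < (nED (iE g)).card) := by
  have h1 : iE g ^ r = 1 := by rw [← iE_pow, h, iE_one]
  have hg : SS (iE g) := ss_of_pow_eq_one A.h0 h1
  exact ⟨hg, mem_PhiF_of_pow A.hr A.h0 h1, (hS.dl g).map_nED P.σσ hg, (hasED_res hS hg).finrank_eq ▸ finrank_fix hS g,
    fun h2 => card_pos.2 fun h3 => h2 (isom_ext fun x => congr($(nED_eq_zero.1 h3) x))⟩

theorem exists_g (hS : S.Nondeg) {s : Multiset F[X]} (hs : ∀ Q ∈ s, Q ∈ PhiF F r) (hd : s.map (dualP σ) = s)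
    (h : s.card * i ≤ finrank F V) : ∃ g : S.Isom, g ^ r = 1 ∧ nED (iE g) = s ∧ (0 < s.card → g ≠ 1) := by
  obtain ⟨g, hg⟩ := (hS.real_iff_le (fun _ _ hT h => A.hm.compl hS hT h) A.hr A.hr2 A.h0 s hs hd).2 (A.hi ▸ h)
  refine ⟨g, isom_ext fun x => ?_, hg, ?_⟩
  · have := pow_eq_one_of_nED (hg ▸ hs)
    rw [← iE_pow] at this
    exact congr($this x)
  · rintro h1 rfl
    rw [iE_one, nED_one] at hg
    simp [← hg] at h1

theorem ts_all (hS : S.Nondeg) {m n : ℕ} (hn : finrank F V = n) (hm : 2 * m ≤ n)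
    (hΩ : r ∣ Nat.card {U : Submodule F V // finrank F U = m ∧ S.TS U}) :
    (∀ g : S.Isom, g ^ r = 1 → g ≠ 1 → ∃ U : Submodule F V, finrank F U = m ∧ S.TS U ∧ U.map (iE g) ≤ U) ↔
    i ≤ m ∧ 2 * (m % i) ≤ n % c ∧ (¬ b ∨ (r - 1) / i + 2 * (m / i) ≤ n / i) := by
  subst hn
  obtain ⟨Q, hQ⟩ := exists_mem_PhiF A.hr A.h0
  obtain ⟨U, hU, rfl⟩ := (A.hm.ts_iff hS).2 hm
  obtain ⟨X, h1, -, h2, h3⟩ := exists_card_fix_TS _ hS hU rfl
  have h4 := hS.card_TS_mul_card_stab hU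
  rw [hU.card_stab hS rfl, h3] at h4
  have h5 := mod_lt_of (i := c) (n := finrank F V) (m := 2 * finrank F U) (by
    simpa [← h2] using A.ord hS h1 (by omega) _ hΩ (h4 ▸ Nat.mul_dvd_mul_left _ ((Dvd.intro_left _ rfl).mul_left _)))
  rw [← A.card_phi, ← arith_ts A.ipos (Finset.card_pos.2 ⟨Q, hQ⟩) A.h1 A.h2 hm h5.2]
  constructor
  · intro h e w o h6 h7 h8 h9
    obtain ⟨s, k1, k2, k3, k4⟩ := exists_shape A.hb A.dual ⟨Q, hQ⟩ h6 h7
    obtain ⟨g, k5, rfl, k6⟩ := A.exists_g hS k1 k2 (k3 ▸ Nat.le.intro ((add_comm _ _).trans h9))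
    obtain ⟨hg, -, -, k7, -⟩ := A.spec hS k5
    obtain ⟨e', t, k8, k9, k10⟩ := (ts_iff hS A.odd A.h0 k5).1 (h g k5 (k6 (by omega)))
    rw [A.hm.ts_iff (nd_fix hS hg)] at k8
    rw [A.dg_eq k1, k3] at k7
    rw [A.dg_eq fun Q hQ => k1 Q (mem_of_le k9 (by simp [hQ]))] at k10
    exact ⟨e', _, by omega, k4 t k9, k10⟩
  · intro h g hg h6
    obtain ⟨k1, k2, k3, k4, k5⟩ := A.spec hS hg
    obtain ⟨w, o, k6, k7, k8, k9⟩ := ts_shape A.hb A.dual k2 k3
    rw [A.dg_eq k2, k8] at k4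
    obtain ⟨e', w', l1, l2, l3⟩ := h _ w o k6 k7 (k8 ▸ k5 h6) k4
    obtain ⟨t, l4, rfl⟩ := (k9 w').2 l2
    exact (ts_iff hS A.odd A.h0 hg).2 ⟨e', t, (A.hm.ts_iff (nd_fix hS k1)).2 l1, l4,
      by rw [A.dg_eq fun Q hQ => k2 Q (mem_of_le l4 (by simp [hQ])), l3]⟩

theorem exists_nd (hS : S.Nondeg) {g : S.Isom} (h : g ^ r = 1) {e : ℕ} (h1 : δ ∣ e) (h2 : e ≤ finrank F (fixSp g))
    {s : Multiset F[X]} (h3 : s ≤ nED (iE g)) (h4 : s.map (dualP σ) = s) :
    ∃ U, (S.restrict U).Nondeg ∧ HasED (iE g) U (replicate e (X - 1) + s) := by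
  obtain ⟨B, k1, k2, k3⟩ := res_nd hS A.odd A.h0 h h3 h4
  obtain ⟨C, k4, k5, rfl⟩ := A.hm.nd' (nd_fix hS (A.spec hS h).1) h1 h2
  have k6 := (nd_join k4 k1 k3.map_le).1
  have k7 : ∀ x ∈ C, iE g x ∈ C := fun x hx => (show iE g x = x from k4 hx).symm ▸ hx
  obtain ⟨a, k8⟩ := ED_eq_nED ((iE g).restrict k7)
  have k9 := finrank_eq_nED k8
  rw [(nED_eq_zero (f := (iE g).restrict k7)).2 (LinearMap.ext fun x => Subtype.ext (k4 x.2))] at k8 k9
  exact ⟨_, nd_sup k5 k2 k6, HasED.sup (disj_of_nd k5 k6) ⟨k7, by simpa [k9] using k8⟩ k3⟩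

theorem shape {s : Multiset F[X]} (hs : ∀ Q ∈ s, Q ∈ PhiF F r) (hd : s.map (dualP σ) = s) :
    ∃ t, dg s = t * c ∧ ∀ k ≤ t, ∃ s' ≤ s, s'.map (dualP σ) = s' ∧ dg s' = k * c := by
  obtain ⟨t, h1, h2⟩ := nd_shape A.hb A.dual hs hd
  refine ⟨t, by rw [A.dg_eq hs, h1, A.c_eq, mul_assoc], fun k hk => ?_⟩
  obtain ⟨s', h3, h4, h5⟩ := h2 k hk
  exact ⟨s', h3, h4, by rw [A.dg_eq fun Q hQ => hs Q (mem_of_le h3 hQ), h5, A.c_eq, mul_assoc]⟩

theorem exists_unit : ∃ (Q : F[X]) (u : Multiset F[X]), Q ∈ u ∧ u.Nodup ∧ (∀ R ∈ u, R ∈ PhiF F r) ∧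
    u.map (dualP σ) = u ∧ u.card * i = c ∧ ∀ s : Multiset F[X], s.map (dualP σ) = s → (∀ R ∈ s, R ∈ u) →
      ∃ k : ℕ, s = k • u := by
  classical
  obtain ⟨Q, hQ⟩ := exists_mem_PhiF A.hr A.h0
  by_cases h : b
  · exact ⟨Q, {Q}, by simp, by simp, by simpa, by simpa using (A.hb Q hQ).2 h, by simp [A.h1 h],
      fun s _ hs => ⟨s.card, by simpa [nsmul_singleton] using eq_replicate_card.2 (by simpa using hs)⟩⟩
  have h1 : dualP σ Q ≠ Q := fun h' => h ((A.hb Q hQ).1 h')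
  have h2 := A.dual Q hQ
  refine ⟨Q, {Q, dualP σ Q}, by simp, by simp [h1.symm], by simp [hQ, h2.1], by simpa [h2.2] using pair_comm _ _,
    by simp [A.h2 h], fun s hd hs => ?_⟩
  obtain ⟨v, rfl⟩ := exists_pairs (φ := dualP σ) (s := s) (fun R hR => by
    rcases (by simpa using hs R hR : R = Q ∨ R = dualP σ Q) with rfl | rfl <;> simp [h1, h2.2, h1.symm]) hd
  refine ⟨v.card, ?_⟩
  have h3 : ∀ R ∈ v, R = Q ∨ R = dualP σ Q := fun R hR => by simpa using hs R (by simp [hR])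
  clear hs hd
  induction v using Multiset.induction_on with
  | empty => simp
  | cons R v ih =>
    rw [map_cons, card_cons, succ_nsmul, ← ih fun R hR => h3 R (by simp [hR])]
    rcases h3 R (by simp) with rfl | rfl <;> simp only [h2.2, insert_eq_cons, ← singleton_add] <;> abel

theorem nd_all (hS : S.Nondeg) {m n : ℕ} (hn : finrank F V = n) (hm : m ≤ n) (hδ : δ ∣ m)
    (hΩ : r ∣ Nat.card {U : Submodule F V // finrank F U = m ∧ (S.restrict U).Nondeg}) :
    (∀ g : S.Isom, g ^ r = 1 → g ≠ 1 →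
      ∃ U : Submodule F V, finrank F U = m ∧ (S.restrict U).Nondeg ∧ U.map (iE g) ≤ U) ↔ c ≤ m ∧ m % c ≤ n % c := by
  subst hn
  obtain ⟨U, hU, rfl⟩ := A.hm.nd hS hδ hm
  have h1 := hS.finrank_perp U
  have h5 := mod_lt_of (i := c) (n := finrank F V) (m := finrank F U) (by
    simpa [← h1] using A.ord hS (hS.restrict_perp hU) (by omega) _ hΩ
      (A.hm.card_nd hS hU ▸ Nat.mul_dvd_mul_left _ (Dvd.intro_left _ rfl)))
  rw [← arith_sub A.cpos hm h5]
  constructor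
  · intro h e t h2 h3
    obtain ⟨Q, u, hQ, -, k1, k2, k3, -⟩ := A.exists_unit
    have k4 : ∀ R ∈ t • u, R ∈ PhiF F r := fun R hR => k1 R (mem_of_mem_nsmul hR)
    have k0 : (t • u).card * i = t * c := by rw [card_nsmul, mul_assoc, k3]
    obtain ⟨g, k5, k6, k7⟩ := A.exists_g hS k4 (by rw [map_nsmul, k2]) (by omega)
    obtain ⟨hg, -, -, k8, -⟩ := A.spec hS k5
    obtain ⟨Y, l1, l2, l3⟩ := h g k5 (k7 (Nat.pos_of_mul_pos_right (k0 ▸ Nat.mul_pos h2 A.cpos)))
    obtain ⟨C, l4, B, l5, rfl, l6, l7, l8, l9⟩ := nd_split hg l2 l3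
    obtain ⟨s, hs⟩ := hasED_of (map_le_iff.1 l9)
    have l10 := hs.mono hg (hasED_res hS hg) l5
    obtain ⟨t', l11, -⟩ := A.shape (fun R hR => k4 R (mem_of_le (k6 ▸ l10) hR)) (nd_dual l8 hs)
    have l12 := dg_mono l10
    rw [k6, A.dg_eq k4, k0] at k8 l12
    rw [finrank_sup (disj_of_nd l7 l6), hs.finrank_eq, l11] at l1
    exact ⟨_, (Submodule.finrank_mono l4).trans (by omega), t', Nat.le_of_mul_le_mul_right (l11 ▸ l12) A.cpos, l1⟩
  · intro h g hg h6
    obtain ⟨k1, k2, k3, k4, k5⟩ := A.spec hS hg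
    obtain ⟨t, k6, k7⟩ := A.shape k2 k3
    obtain ⟨e', l1, t', l2, l3⟩ := h _ t (Nat.pos_of_mul_pos_right (k6 ▸ A.dg_eq k2 ▸ Nat.mul_pos (k5 h6) A.ipos))
      (k6 ▸ k4)
    obtain ⟨s, l4, l5, l6⟩ := k7 t' l2
    obtain ⟨Y, l7, l8⟩ := A.exists_nd hS hg ((Nat.dvd_add_left (A.hδ.mul_left t')).1 (l3 ▸ hδ)) l1 l4 l5
    exact ⟨Y, by simp [l8.finrank_eq, l6, l3, natDegree_X_sub_one], l7, l8.map_le⟩

theorem hd_of {a : ℕ} (ha : δ ∣ a) {t e s : ℕ} (h : e + s * c = a * t) (h' : s ≤ t * (a / c)) (hS : S.Nondeg)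
    {g : S.Isom} (hg : g ^ r = 1) (h1 : finrank F V = a * t) (h2 : dg (nED (iE g)) = s * c) :
    HD (iE g) a (fun U => (S.restrict U).Nondeg) (fun u v => S.h u v = 0) ⊤ t := by
  classical
  refine dist_comb (P := fun e s t => ∀ (V : Type u) [AddCommGroup V] [Module F V] [FiniteDimensional F V]
    (S : PForm P V) (g : S.Isom), S.Nondeg → g ^ r = 1 → finrank F V = e + s * c → dg (nED (iE g)) = s * c →
    HD (iE g) a (fun U => (S.restrict U).Nondeg) (fun u v => S.h u v = 0) ⊤ t) (fun V _ _ _ S g _ _ h _ => ?_) A.cpos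
    (fun e s t e' s' h1 ih V _ _ _ S g hS hg h3 h4 => ?_) t e s h h' V S g hS hg (h1.trans h.symm) h2
  · rw [Submodule.finrank_eq_zero.1 (show finrank F (⊤ : Submodule F V) = 0 by simpa using h)]
    exact HD.zero
  obtain ⟨k1, k2, k3, k4, -⟩ := A.spec hS hg
  obtain ⟨t', k6, k7⟩ := A.shape k2 k3
  obtain ⟨M, l4, l5, l6⟩ := k7 s' (by have := Nat.eq_of_mul_eq_mul_right A.cpos (k6.symm.trans h4); omega)
  obtain ⟨Y, l7, l8⟩ := A.exists_nd hS hg ((Nat.dvd_add_left (A.hδ.mul_left s')).1 (h1 ▸ ha)) (by omega) l4 l5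
  have l9 : finrank F Y = a := by simp [l8.finrank_eq, l6, h1, natDegree_X_sub_one]
  obtain ⟨R, ⟨m1, rfl⟩, m2⟩ := nd_le l7 l8
  have m3 := congrArg (fun s => dg (s.filter (· ≠ X - 1))) m2
  have m4 : M.filter (· ≠ X - 1) = M := filter_eq_self.2 fun Q hQ => (mem_filter.1 (mem_of_le l4 hQ)).2
  have m5 := hS.finrank_perp Y
  simp only [filter_add, dg_add, m4, filter_eq_nil.2 fun Q (hQ : Q ∈ replicate e' (X - 1 : F[X])) =>
    not_not.2 (eq_of_mem_replicate hQ)] at m3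
  have m6 := (ih _ _ (rst g _ m1) (hS.restrict_perp l7) (isom_ext fun x => Subtype.ext
    ((rst_pow g _ _ r x).trans (by simp [hg]))) (by rw [add_mul] at h3; omega) (by
      change dg (nED _) = _ + dg (nED (iE (rst g _ m1))) at m3
      rw [h4, l6, add_mul] at m3
      simpa using m3.symm)).map (g := iE g) (N' := fun U => (S.restrict U).Nondeg) (B' := fun u v => S.h u v = 0)
    (S.perp Y).subtype_injective (fun _ => rfl) (fun _ h => nd_map (isIsom_subtype _) h) fun _ _ h => h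
  rw [Submodule.map_subtype_top] at m6
  rw [add_comm t, ← (S.isCompl_perp l7).sup_eq_top]
  exact (HD.one g.1.injective l8.inv l9 l7).sup (S.isCompl_perp l7).disjoint
    (fun u hu v hv => ⟨hv u hu, S.h_swap_zero (hv u hu)⟩) m6

theorem hd_key (hS : S.Nondeg) {a t : ℕ} (ha : 0 < a) (h : ∀ g : S.Isom, g ^ r = 1 → g ≠ 1 →
      HD (iE g) a (fun U => (S.restrict U).Nondeg) (fun u v => S.h u v = 0) ⊤ t) {e s : ℕ} (hs : 0 < s)
    (he : e + s * c = finrank F V) : ∃ (k : ℕ) (L : Multiset (ℕ × ℕ)), (∀ x ∈ L, x.1 + x.2 * c = a) ∧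
      L.card + r * k = t ∧ e = k * a + (L.map (·.1)).sum ∧ s = k * a + (L.map (·.2)).sum := by
  classical
  obtain ⟨Q, u, hQ, k0, k1, k2, k3, ku⟩ := A.exists_unit
  have k4 : ∀ R ∈ s • u, R ∈ PhiF F r := fun R hR => k1 R (mem_of_mem_nsmul hR)
  have k9 : (s • u).card * i = s * c := by rw [card_nsmul, mul_assoc, k3]
  obtain ⟨g, k5, k6, k7⟩ := A.exists_g hS k4 (by rw [Multiset.map_nsmul, k2]) (by omega)
  obtain ⟨k, L, h1, h2, h3⟩ := (h g k5 (k7 (Nat.pos_of_mul_pos_right (k9 ▸ Nat.mul_pos hs A.cpos)))).ed A.hr ha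
    one_ne_zero (by rw [← iE_pow, k5, iE_one, one_smul])
  obtain ⟨e', h4⟩ := ED_eq_nED (iE g)
  have h5 := finrank_eq_nED h4
  rw [k6] at h4 h5
  obtain rfl : e' = e := by change _ = _ + dg _ at h5; rw [A.dg_eq k4] at h5; omega
  have h6 := X_sub_one_notMem_PhiF A.hr A.h0
  have h7 : X - 1 ∉ u := fun h => h6 (k1 _ h)
  have h8 : Q ≠ X - 1 := fun h => h7 (h ▸ hQ)
  rw [h4, eE_one A.hr A.h0] at h3
  have h9 : ∀ R, count R L.sum = (L.map (count R)).sum := fun R => map_multiset_sum (countAddMonoidHom R) L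
  refine ⟨k, L.map fun M => (M.count (X - 1), M.count Q), fun x hx => ?_, by simpa, ?_, ?_⟩
  · obtain ⟨M, hM, rfl⟩ := mem_map.1 hx
    obtain ⟨l1, U, l2, l3⟩ := h1 M hM
    have l4 := nd_dual l2 l3
    have l5 : M = replicate (M.count (X - 1)) (X - 1) + M.filter (· ≠ X - 1) := by
      rw [← filter_eq', filter_add_not]
    obtain ⟨y, hy⟩ := ku (M.filter (· ≠ X - 1)) (dual_sub (l5 ▸ l4) (by simp [dualP_X_sub_one])) fun R hR => by
      have : R ∈ replicate e' (X - 1) + s • u := h3 ▸ mem_add.2 (.inr (mem_join.2 ⟨M, hM, (mem_filter.1 hR).1⟩))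
      exact (mem_add.1 this).elim (fun h => absurd (eq_of_mem_replicate h) (mem_filter.1 hR).2) mem_of_mem_nsmul
    have l6 := congrArg (count Q) hy
    rw [l5, hy, dg_add, A.dg_eq fun R hR => k1 R (mem_of_mem_nsmul hR), card_nsmul, mul_assoc, k3] at l1
    simpa [natDegree_X_sub_one, show count Q M = y by simpa [h8, count_eq_one_of_mem k0 hQ] using l6] using l1
  · have := congrArg (count (X - 1)) h3
    rw [Multiset.map_map]
    rwa [count_add, count_add, count_nsmul, count_nsmul, count_replicate_self, count_cons_self, count_eq_zero.2 h7,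
      count_eq_zero.2 h6, h9, mul_zero, add_zero, zero_add, mul_one] at this
  · simpa [h9, count_replicate, h8, h8.symm, count_eq_one_of_mem k0 hQ, count_eq_one_of_mem (PhiF F r).nodup (k1 Q hQ)]
      using congrArg (count Q) h3

theorem hd_all (hS : S.Nondeg) {a t n : ℕ} (hn : finrank F V = n) (h : n = a * t) (ha : δ ∣ a) (ha2 : 2 ≤ a)
    (hc : c ≤ n) : (∀ g : S.Isom, g ^ r = 1 → g ≠ 1 →
      HD (iE g) a (fun U => (S.restrict U).Nondeg) (fun u v => S.h u v = 0) ⊤ t) ↔ c ≤ a ∧ n % c = t * (a % c) := by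
  have h1 := Nat.mod_add_div' n c
  have h2 := Nat.mod_add_div' a c
  have h3 := Nat.div_pos hc A.cpos
  have h4 := Nat.mod_lt n A.cpos
  constructor
  · intro H
    have z : ∀ L : Multiset (ℕ × ℕ), (∀ x ∈ L, x.1 + x.2 * c = a) → a < c → (L.map (·.2)).sum = 0 := fun L hL h =>
      sum_eq_zero fun y hy => by
        obtain ⟨x, hx, rfl⟩ := mem_map.1 hy
        have := hL x hx
        by_contra h5
        have := Nat.le_mul_of_pos_left c (Nat.pos_of_ne_zero h5)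
        omega
    obtain ⟨k, L, k1, k2, k3, k4⟩ := A.hd_key hS (by omega) H h3 (h1.trans hn.symm)
    rcases k.eq_zero_or_pos with rfl | hk
    · refine ⟨not_lt.1 fun h5 => by rw [z L k1 h5] at k4; omega, ?_⟩
      rw [k3, map_congr rfl (g := fun _ => a % c) fun x hx => ?_]
      · simp [← k2]
      · have := single_le_sum (s := L.map (·.1)) (by simp) _ (mem_map_of_mem _ hx)
        rw [← k1 x hx, Nat.add_mul_mod_self_right, Nat.mod_eq_of_lt (by omega)]
    have h5 := Nat.le_mul_of_pos_left a hk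
    rw [z L k1 (by omega)] at k4
    obtain ⟨k', L', l1, -, -, l4⟩ := A.hd_key hS (by omega) H (e := n % c + c) (s := n / c - 1) (by omega)
      (by rw [Nat.sub_mul]; have := Nat.le_mul_of_pos_left c h3; omega)
    rw [z L' l1 (by omega)] at l4
    have : a ∣ 1 := by
      rw [show 1 = k * a - k' * a by omega, ← Nat.sub_mul]; exact Dvd.intro_left _ rfl
    have := Nat.dvd_one.1 this
    omega
  · rintro ⟨h5, h6⟩ g hg -
    obtain ⟨-, k2, k3, k4, -⟩ := A.spec hS hg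
    obtain ⟨s, k6, -⟩ := A.shape k2 k3
    rw [k6, hn] at k4
    obtain ⟨x, -, h7⟩ := exists_le_div A.cpos k4
    refine A.hd_of ha (k4.trans h) ?_ hS hg (hn.trans h) k6
    have : n / c * c = t * (a / c) * c := by
      have := congrArg (t * ·) h2
      simp only [mul_add, mul_comm t a, ← mul_assoc] at this
      omega
    have := Nat.eq_of_mul_eq_mul_right A.cpos this
    omega

end Ar

theorem ED_polar (hS : S.Nondeg) {g : S.Isom} {U U' : Submodule F V} (h : S.Polar U U') (h1 : U.map (iE g) ≤ U)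
    (h2 : U'.map (iE g) ≤ U') : ∃ s, ED (iE g) = s + s.map (dualP σ) := by
  obtain ⟨s, hs⟩ := hasED_of (map_le_iff.1 h1)
  obtain ⟨t, ht⟩ := hasED_of (map_le_iff.1 h2)
  have h3 := hS.finrank_perp U
  have h4 := h.finrank_eq hS
  exact ⟨s, dual_of_pair hS hs ht (Submodule.eq_of_le_of_finrank_eq h.ts1.le_perp (by omega) ▸ h.compl) ▸
    hs.add h.compl ht⟩

open Classical in
theorem even_of_polar (hS : S.Nondeg) {g : S.Isom} {U U' : Submodule F V} (h : S.Polar U U') (h1 : U.map (iE g) ≤ U)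
    (h2 : U'.map (iE g) ≤ U') (h3 : ∀ Q ∈ ED (iE g), dualP σ Q = Q) (Q : F[X]) : Even ((ED (iE g)).count Q) := by
  obtain ⟨s, hs⟩ := ED_polar hS h h1 h2
  rw [hs, (map_congr rfl fun R hR => h3 R (by simp [hs, hR])).trans (map_id' s), count_add]
  exact ⟨_, rfl⟩

omit [Finite F] [FiniteDimensional F V] in
theorem not_swap {f : End F V} {r : ℕ} (hr : Odd r) {z : F} (hz : z ≠ 0) (h : f ^ r = z • 1) {U U' : Submodule F V}
    (h1 : U.map f ≤ U') (h2 : U'.map f ≤ U) : U ≤ U' := fun x hx => by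
  obtain ⟨k, rfl⟩ := hr
  have h3 : ∀ k, (f ^ (2 * k)) x ∈ U := fun k => by
    induction k with
    | zero => simpa
    | succ k ih => rw [mul_add, add_comm, pow_add]; exact h2 ⟨_, h1 ⟨_, ih, rfl⟩, by simp [sq]⟩
  have h4 := h1 ⟨_, h3 k, rfl⟩
  rw [← End.mul_apply, ← pow_succ', h] at h4
  simpa [U'.smul_mem_iff hz] using h4

theorem Ar.no_pair {r i c : ℕ} {b : Prop} (A : Ar P δ r i c b) (hb : b) (hS : S.Nondeg) {g : S.Isom} (hg : g ^ r = 1)
    (h1 : (nED (iE g)).Nodup) (h2 : g ≠ 1) {z : F} (hz : z ≠ 0) {U U' : Submodule F V} (h : S.Polar U U') :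
    ¬ ((U.map (z • iE g) = U ∧ U'.map (z • iE g) = U') ∨ (U.map (z • iE g) = U' ∧ U'.map (z • iE g) = U)) := by
  classical
  obtain ⟨-, k2, -, k4, k5⟩ := A.spec hS hg
  obtain ⟨Q, hQ⟩ := card_pos_iff_exists_mem.1 (k5 h2)
  simp only [Submodule.map_smul _ _ _ hz]
  rintro (⟨h3, h4⟩ | ⟨h3, h4⟩)
  · obtain ⟨a, h5⟩ := ED_eq_nED (iE g)
    have := even_of_polar hS h h3.le h4.le (fun R hR => (mem_add.1 (h5 ▸ hR)).elim
      (fun h => by rw [eq_of_mem_replicate h, dualP_X_sub_one]) fun h => (A.hb R (k2 R h)).2 hb) Q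
    simp [h5, count_replicate, (mem_filter.1 hQ).2.symm, count_eq_one_of_mem h1 hQ] at this
  · have h5 := not_swap A.odd one_ne_zero (by rw [← iE_pow, hg, iE_one, one_smul]) h3.le h4.le
    have h6 := h.finrank_eq hS
    rw [h.compl.disjoint.eq_bot_of_le h5, finrank_bot] at h6
    have := Nat.mul_pos (k5 h2) A.ipos
    rw [A.dg_eq k2] at k4
    omega

end H20.El
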