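import Cfsg.Agent.H20.El5
import Cfsg.Agent.H11.Uni2
import Cfsg.Agent.H11.Inv2

/-! Elusivity engine: reduction modulo scalars (`cop_all`), irreducible `X ^ r - z` (`irr_ts`, `irr_nd`), the symplectic
data (`ar_symp`, `sp_all`, counts) and elements of symplectic groups with scalar square (`PD`: decomposition in invariant
planes and swapped pairs of planes, `symp_ts_two`, `symp_nd_two`, `symp_hd_two`, `symp_pair_two`), `symp_nd_unip`. -/

set_option autoImplicit false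
namespace H20.El
open H11 Module Polynomial Multiset
open H11.PForm hiding X

universe u
variable {F : Type u} [Field F] {σ : F →+* F} {V W : Type u} [AddCommGroup V] [Module F V] [AddCommGroup W]
  [Module F W] [FiniteDimensional F V] [FiniteDimensional F W] {P : FParam σ} {S : PForm P V} {T : PForm P W} {δ : ℕ}

section
omit [FiniteDimensional F V]

theorem iE_inj {g k : S.Isom} : iE g = iE k ↔ g = k := ⟨fun h => isom_ext fun x => congr($h x), congrArg _⟩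

theorem iE_scal (c : normOne σ) (g : S.Isom) : iE (S.scal c * g) = (c.1 : F) • iE g := rfl

theorem exists_scal (hS : S.Nondeg) {g : S.Isom} {z : F} (h : iE g = z • 1) : ∃ c, g = S.scal c := by
  obtain ⟨c, hc⟩ := (hS.mem_scal_range g).2 ⟨z, fun x => congr($h x)⟩
  exact ⟨c, hc.symm⟩

theorem scal_comm (c : normOne σ) (g : S.Isom) : Commute (S.scal c) g := isom_ext fun x => by simp

theorem norm_of (hS : S.Nondeg) (hV : 0 < finrank F V) {g : S.Isom} {z : F} (h : iE g = z • 1) : σ z * z = 1 := by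
  have := nontrivial_of_finrank_pos hV
  obtain ⟨x, hx⟩ := exists_ne (0 : V)
  obtain ⟨y, hy⟩ := hS.exists_h_eq_one hx
  have := isom_h g x y
  rw [show g.1 x = z • x from congr($h x), show g.1 y = z • y from congr($h y)] at this
  simpa [hy, mul_comm] using this

theorem nd_iff' {f : V → V → F} (hf : ∀ u v, f u v = 0 ↔ S.h u v = 0) {U : Submodule F V} :
    (∀ u ∈ U, u ≠ 0 → ∃ v ∈ U, f u v ≠ 0) ↔ (S.restrict U).Nondeg := by
  simp only [restrict_nondeg_iff', ne_eq, hf]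
  refine forall₂_congr fun u _ => not_imp_comm.trans (by simp)

theorem cop_all [Finite F] (hS : S.Nondeg) {r : ℕ} (hr : (Nat.card (normOne σ)).Coprime r) {Φ : End F V → Prop}
    (hΦ : ∀ f (c : F), c ≠ 0 → Φ f → Φ (c • f)) :
    (∀ g : S.Isom, (∃ z : F, iE g ^ r = z • 1) → (∀ z : F, iE g ≠ z • 1) → Φ (iE g)) ↔
      ∀ g : S.Isom, g ^ r = 1 → g ≠ 1 → Φ (iE g) := by
  constructor
  · refine fun h g h1 h2 => h g ⟨1, by rw [← iE_pow, h1, iE_one, one_smul]⟩ fun z hz => h2 ?_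
    obtain ⟨c, rfl⟩ := exists_scal hS hz
    have h3 : S.scal c ^ Nat.card (normOne σ) = 1 := by rw [← map_pow, pow_card_eq_one', map_one]
    simpa [hr.gcd_eq_one] using pow_gcd_eq_one.2 ⟨h3, h1⟩
  · rintro h g ⟨z, h1⟩ h2
    obtain ⟨c, hc⟩ := exists_scal hS ((iE_pow g r).trans h1)
    obtain ⟨d, rfl⟩ := (powCoprime hr).surjective c
    have := hΦ _ _ d.1.ne_zero (h (S.scal d⁻¹ * g) (by
      rw [(scal_comm _ _).mul_pow, hc, ← map_pow, ← map_mul]; simp) fun h3 => h2 d.1 (by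
      rw [map_inv, inv_mul_eq_one] at h3; rw [← h3]; rfl))
    rwa [← iE_scal, ← mul_assoc, ← map_mul, mul_inv_cancel, map_one, one_mul] at this

end

theorem dualP_pow_sub {r : ℕ} (hr : r ≠ 0) {z : F} (h : σ z * z = 1) : dualP σ (X ^ r - C z) = X ^ r - C z := by
  have h1 : σ z ≠ 0 := left_ne_zero_of_mul_eq_one h
  ext i
  rw [coeff_dualP, natDegree_X_pow_sub_C]
  simp only [coeff_sub, coeff_X_pow, coeff_C, hr.symm, if_false]
  split_ifs <;> first | omega | simp [h1, ← eq_inv_of_mul_eq_one_right h, (mul_comm _ _).trans h]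

theorem Hm.transport (H : Hm P δ) (hS : S.Nondeg) (hT : T.Nondeg) (h : finrank F W = finrank F V) (k : T.Isom) :
    ∃ g : S.Isom, ISim k g := by
  obtain ⟨e, he⟩ := H.eqv hT hS h
  exact ⟨isomCongr e he k, e, he, fun x => by simp⟩

theorem eig_polar {g : S.Isom} {μ : F} (h : iE g ^ 2 = μ ^ 2 • 1) (h2 : (2 : F) ≠ 0) (h3 : σ μ * μ = -1) :
    S.Polar (End.eigenspace (iE g) μ) (End.eigenspace (iE g) (-μ)) := by
  have h0 : μ ≠ 0 := by rintro rfl; simp at h3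
  have key : ∀ ν, σ ν * ν = -1 → S.TS (End.eigenspace (iE g) ν) := fun ν hν => by
    have k : ∀ x ∈ End.eigenspace (iE g) ν, g.1 x = ν • x := fun x hx => End.mem_eigenspace_iff.1 hx
    refine ⟨fun x hx => ?_, fun x hx y hy => ?_⟩
    · have h4 := P.Λ.sub_mem (S.q_smul ν x) (k x hx ▸ isom_q g x)
      have h5 := P.conj_mem 2⁻¹ _ (P.Λ.add_mem h4 h4)
      have h6 : σ 2 = 2 := map_ofNat σ 2
      change S.q x ∈ P.Λ
      convert h5 using 1
      rw [map_inv₀, h6]; field_simp; linear_combination (2 * S.q x) * hν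
    · have := isom_h g y x
      rw [k x hx, k y hy, h_smul_left, h_smul_right, ← mul_assoc, hν] at this
      exact (mul_eq_zero.1 (show 2 * S.h y x = 0 by linear_combination -this)).resolve_left h2
  refine ⟨key μ h3, key _ (by simpa using h3), Submodule.disjoint_def.2 fun x h4 h5 => ?_,
    codisjoint_iff.2 (Submodule.eq_top_iff'.2 fun x => ?_)⟩
  · rw [End.mem_eigenspace_iff] at h4 h5
    have : (2 * μ) • x = 0 := by rw [two_mul, add_smul]; nth_rw 1 [← h4]; rw [h5]; simp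
    simpa [h2, h0] using this
  · have h4 : iE g (iE g x) = μ ^ 2 • x := congr($h x)
    refine Submodule.mem_sup.2 ⟨(2 * μ)⁻¹ • (μ • x + iE g x), Submodule.smul_mem _ _ ?_,
      (2 * μ)⁻¹ • (μ • x - iE g x), Submodule.smul_mem _ _ ?_, ?_⟩
    · rw [End.mem_eigenspace_iff, _root_.map_add, h4, map_smul]; module
    · rw [End.mem_eigenspace_iff, map_sub, h4, map_smul]; module
    · rw [← smul_add, add_add_sub_cancel, ← add_smul, ← two_mul, smul_smul, inv_mul_cancel₀ (mul_ne_zero h2 h0), one_smul]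

theorem eig_inv {f : End F V} {μ : F} {U : Submodule F V} (h : U ≤ End.eigenspace f μ) : U.map f ≤ U :=
  map_le_iff.2 fun x hx => End.mem_eigenspace_iff.1 (h hx) ▸ U.smul_mem _ hx

theorem exists_sub_le {U : Submodule F V} {m : ℕ} (h : m ≤ finrank F U) : ∃ A ≤ U, finrank F A = m := by
  obtain ⟨A, hA⟩ := exists_sub h
  exact ⟨_, Submodule.map_subtype_le U A, (Submodule.finrank_map_subtype_eq _ _).trans hA⟩

theorem eig_ts (hS : S.Nondeg) {g : S.Isom} {μ : F} (h : iE g ^ 2 = μ ^ 2 • 1) (h2 : (2 : F) ≠ 0) (h3 : σ μ * μ = -1)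
    {m : ℕ} (hm : 2 * m ≤ finrank F V) : ∃ U : Submodule F V, finrank F U = m ∧ S.TS U ∧ U.map (iE g) ≤ U := by
  have h4 := eig_polar h h2 h3
  obtain ⟨A, h5, h6⟩ := exists_sub_le (m := m) (U := End.eigenspace (iE g) μ) (by have := h4.finrank_eq hS; omega)
  exact ⟨A, h6, h4.ts1.mono h5, eig_inv h5⟩

theorem res_neg {g : S.Isom} (h : iE g ^ 2 = 1) : res g ≤ End.eigenspace (iE g) (-1) := by
  rintro _ ⟨x, rfl⟩
  have h4 : g.1 (g.1 x) = x := congr($h x)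
  simp [End.mem_eigenspace_iff, h4]

variable [Finite F]

theorem irr_dvd {f : End F V} {r : ℕ} (hr : r ≠ 0) {z : F} (hz : Irreducible (X ^ r - C z)) (h : f ^ r = z • 1)
    {U : Submodule F V} (hU : U.map f ≤ U) : r ∣ finrank F U := by
  obtain ⟨h1, s, -, h2, h3, -⟩ := irr_spec hr hz h
  exact (sum_rep_iff' (Nat.pos_of_ne_zero hr) (h2 ▸ U.finrank_le)).1 (h3 ▸ (inv_iff h1).1 ⟨U, rfl, hU⟩)

theorem irr_ts (hS : S.Nondeg) {g : S.Isom} (hg : Rg g) {r : ℕ} (hr : r ≠ 0) {z : F} (hz : Irreducible (X ^ r - C z))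
    (h : iE g ^ r = z • 1) (h0 : σ z * z = 1) {m : ℕ} (hm : 2 * m ≤ finrank F V) (h1 : r ∣ m) :
    ∃ U : Submodule F V, finrank F U = m ∧ S.TS U ∧ U.map (iE g) ≤ U := by
  obtain ⟨h2, s, h3, h4, -⟩ := irr_spec hr hz h
  obtain ⟨k, rfl⟩ := h1
  refine (hg.ts_iff hS h2).2 ⟨replicate k (X ^ r - C z), ?_, by simp [natDegree_X_pow_sub_C, mul_comm]⟩
  rw [h3, map_replicate, dualP_pow_sub hr h0, ← replicate_add, replicate_le_replicate]
  exact Nat.le_of_mul_le_mul_right (by rw [h4]; linarith) (Nat.pos_of_ne_zero hr)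

theorem irr_nd (hS : S.Nondeg) {g : S.Isom} (hg : Rg g) {r : ℕ} (hr : r ≠ 0) {z : F} (hz : Irreducible (X ^ r - C z))
    (h : iE g ^ r = z • 1) (h0 : σ z * z = 1) {m : ℕ} (hm : m ≤ finrank F V) (h1 : r ∣ m) :
    ∃ U : Submodule F V, finrank F U = m ∧ (S.restrict U).Nondeg ∧ U.map (iE g) ≤ U := by
  obtain ⟨h2, s, h3, h4, -⟩ := irr_spec hr hz h
  obtain ⟨k, rfl⟩ := h1
  refine (hg.nd_iff hS).2 ⟨replicate k (X ^ r - C z), ?_, by rw [map_replicate, dualP_pow_sub hr h0],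
    by simp [natDegree_X_pow_sub_C, mul_comm]⟩
  rw [h3, replicate_le_replicate]
  exact Nat.le_of_mul_le_mul_right (by rw [h4]; linarith) (Nat.pos_of_ne_zero hr)

theorem irr_dl {r : ℕ} (hr : 2 ≤ r) (hσ : ∀ a, σ (σ a) = a) {z : F} (hz : Irreducible (X ^ r - C z)) (h0 : σ z * z = 1)
    {f : End F V} (h : f ^ r = z • 1) : Dl σ f := by
  obtain ⟨h2, s, h3, -⟩ := irr_spec (by omega) hz h
  refine h2.dl_of_ED hσ ((isUnit_pow_iff (by omega : r ≠ 0)).1 (h ▸ ?_)) (by rw [h3, map_replicate, dualP_pow_sub (by omega) h0])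
  exact IsUnit.smul (Units.mk0 z (right_ne_zero_of_mul_eq_one h0)) isUnit_one

omit [Finite F] in
theorem sim_pow {f : End F V} {g : End F W} (h : Sim f g) {r : ℕ} {z : F} (h1 : f ^ r = z • 1) : g ^ r = z • 1 := by
  obtain ⟨e, he⟩ := h.pow r
  ext y
  obtain ⟨x, rfl⟩ := e.surjective y
  simp [← he, h1]

omit [Finite F] in
theorem sim_ns {f : End F V} {g : End F W} (h : Sim f g) (h1 : ∀ z : F, f ≠ z • 1) (z : F) : g ≠ z • 1 :=
  fun h2 => h1 z (by simpa using sim_pow h.symm (r := 1) (by simpa using h2))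

theorem Ar.le_of_dvd {r i c : ℕ} {b : Prop} (A : Ar P δ r i c b) (hS : S.Nondeg) (h : r ∣ Nat.card S.Isom) :
    c ≤ finrank F V := by
  have : Unique (S.restrict ⊥).Isom := ⟨⟨1⟩, fun _ => isom_ext fun _ => Subsingleton.elim _ _⟩
  obtain ⟨j, h1, h2, h3⟩ := A.ord hS (T := S.restrict ⊥) (fun _ _ => Subsingleton.elim _ _) (by simp) _ h (by simp)
  exact (Nat.le_of_dvd (by omega) h3).trans h2

open Cfsg.Geo in
theorem Ar.hd_ord {ι : Type} [Fintype ι] [DecidableEq ι] {S : PForm P (ι → F)} {r i c : ℕ} {b : Prop}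
    (A : Ar P δ r i c b) (hS : S.Nondeg) {a t : ℕ} (h : finrank F (ι → F) = a * t) (ha : δ ∣ a) (ha0 : 0 < a) (ht : 2 ≤ t)
    (hΩ : r ∣ Nat.card {D : Fin t → Submodule F (ι → F) // IsMDecomposition a D ∧ (∀ j, (S.restrict (D j)).Nondeg) ∧
      ∀ j j', j ≠ j' → ∀ u ∈ D j, ∀ v ∈ D j', S.h u v = 0} / t.factorial) : c ≤ finrank F (ι → F) := by
  letI : MulAction S.Isom (Submodule F (ι → F)) :=
    { smul := fun g U => U.map (iE g)
      one_smul := fun U => Submodule.map_id U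
      mul_smul := fun g g' U => Submodule.map_comp (iE g') (iE g) U }
  have h1 := dvd_of_dvd_div (fact_dvd_card _ (fun _ σ h => ⟨mdec_comp h.1 σ, fun _ => h.2.1 _,
    fun j j' hj => h.2.2 _ _ (σ.injective.ne hj)⟩) fun _ h => mdec_inj h.1) hΩ
  obtain ⟨D, hD, -⟩ := (hd_iff ha0 ht).2 (A.hd_of ha (e := a * t) (s := 0) (by simp) (by simp) hS (one_pow r) h
    (by simp [iE_one, nED_one]))
  refine A.le_of_dvd hS (h1.trans (card_dvd_of_trans (G := S.Isom) _ (fun D E hD hE => ?_) (fun g D hD =>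
    ⟨mdec_map hD.1 g.1, fun j => nd_map (isom_isIsom g) (hD.2.1 j), ?_⟩) (Nat.card_ne_zero.2 ⟨⟨⟨D, hD⟩⟩, inferInstance⟩)))
  · choose e he using fun j => A.hm.eqv (hD.2.1 j) (hE.2.1 j) ((hD.1.3 j).trans (hE.1.3 j).symm)
    obtain ⟨g, h2, hg⟩ := exists_glue hD.1.4 hD.1.5 hE.1.4 hE.1.5 e
    refine ⟨⟨g, isIsom_of_span g.toLinearMap (s := ⋃ j, D j) (by rw [← hD.1.5, Submodule.iSup_eq_span]) ?_ ?_⟩,
      funext hg⟩
    · simp only [Set.mem_iUnion]
      rintro x ⟨j, hx⟩ y ⟨k, hy⟩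
      rw [show g.toLinearMap x = _ from h2 j ⟨x, hx⟩, show g.toLinearMap y = _ from h2 k ⟨y, hy⟩]
      by_cases hj : j = k
      · subst hj; exact (he j).h_eq ⟨x, hx⟩ ⟨y, hy⟩
      · rw [hD.2.2 j k hj x hx y hy, hE.2.2 j k hj _ (Subtype.property _) _ (Subtype.property _)]
    · simp only [Set.mem_iUnion]
      rintro x ⟨j, hx⟩
      rw [show g.toLinearMap x = _ from h2 j ⟨x, hx⟩]
      exact (he j).q_eq ⟨x, hx⟩
  · rintro j j' hj _ ⟨u, hu, rfl⟩ _ ⟨v, hv, rfl⟩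
    exact (isom_h g u v).trans (hD.2.2 j j' hj u hu v hv)

/-- involutions: totally singular subspaces -/
theorem Hm.ts_inv (H : Hm P δ) (hS : S.Nondeg) (h2 : (2 : F) ≠ 0) {g : S.Isom} (h : iE g ^ 2 = 1) {m : ℕ} :
    (∃ U : Submodule F V, finrank F U = m ∧ S.TS U ∧ U.map (iE g) ≤ U) ↔
      m ≤ finrank F (fixSp g) / 2 + finrank F (res g) / 2 := by
  have hg : SS (iE g) := ss_of_pow_eq_one (by exact_mod_cast h2) h
  rw [ts_split hS hg]
  constructor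
  · rintro ⟨e, h3, B, h4, h5, -, rfl⟩
    have := (H.ts_iff (nd_fix hS hg)).1 h3
    have := (H.ts_iff (hS.nondeg_res hg)).1 (hasTS_iff.2 ⟨B, h4, h5, rfl⟩)
    omega
  · intro h3
    obtain ⟨B, h4, h5, h6⟩ := hasTS_iff.1 ((H.ts_iff (hS.nondeg_res hg) (k := m - finrank F (fixSp g) / 2)).2 (by omega))
    exact ⟨min m (finrank F (fixSp g) / 2), (H.ts_iff (nd_fix hS hg)).2 (by omega), B, h4, h5,
      eig_inv (h4.trans (res_neg h)), by omega⟩

theorem ch2 (m : ℕ) : 2 * m.choose 2 + m = m * m := by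
  induction m with
  | zero => rfl
  | succ m ih => rw [Nat.choose_succ_succ', Nat.choose_one_right]; linarith

/-! ### symplectic groups -/

theorem sp_all {d r : ℕ} {Φ : End F (Fin d ⊕ Fin d → F) → Prop} :
    (∀ x : Matrix.symplecticGroup (Fin d) F,
      (∃ z : F, (x ^ r).1 = z • (1 : Matrix _ _ F)) →
      (∀ z : F, x.1 ≠ z • (1 : Matrix _ _ F)) → Φ (Matrix.toLin' x.1)) ↔
    ∀ g : (stdSymp d F).Isom, (∃ z : F, iE g ^ r = z • 1) → (∀ z : F, iE g ≠ z • 1) → Φ (iE g) := by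
  rw [(spEquiv d F).surjective.forall]
  refine forall_congr' fun x => ?_
  simp only [iE_spEquiv, ← mE_one, ← mE_smul, ← mE_pow, mE_inj, Ne]
  rfl

theorem gO_sq (q m : ℕ) : ∏ i ∈ Finset.range m, (q ^ (2 * (i + 1)) - 1) = gO (q ^ 2) m := by simp only [gO, pow_mul]

theorem cop_symp {r : ℕ} (h : Odd r ∨ (2 : F) = 0) : (Nat.card (normOne (RingHom.id F))).Coprime r := by
  rw [card_normOne_id]
  rcases h with h | h
  · exact (Nat.coprime_two_left.2 h).coprime_dvd_left (Nat.gcd_dvd_left _ _)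
  · have := (two_eq_zero_iff_pow (F := F) le_rfl).1 h
    rw [pow_one] at this
    have h1 : 1 < Nat.card F := Finite.one_lt_card
    rw [show Nat.gcd 2 (Nat.card F - 1) = 1 from Nat.coprime_two_left.2 (Nat.odd_iff.2 (by omega))]
    simp

theorem ar_symp {r : ℕ} (hr : r.Prime) (hr2 : r ≠ 2) (h0 : ¬ r ∣ Nat.card F) (h0' : (r : F) ≠ 0) {i c : ℕ}
    (hi : i = orderOf (Nat.card F : ZMod r)) (hc : c = if Even i then i else 2 * i) : Ar (sympP F) 2 r i c (Even i) := by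
  refine ⟨hm_symp, hr, hr2, h0', hi, fun Q hQ => hi ▸ dualP_id_eq_self_iff hr hr2 h0' hQ, fun h => by simp [hc, h],
    fun h => by simp [hc, h], by rw [hc]; split_ifs with h <;> simp [← even_iff_two_dvd, h], ?_⟩
  intro V W _ _ _ _ _ _ S T hS hT h N h1 h2
  obtain ⟨m, hm⟩ := hm_symp.dvd hS
  obtain ⟨k, hk⟩ := hm_symp.dvd hT
  have hq : 1 < Nat.card F := Finite.one_lt_card
  rw [symp_card_Isom m hS hm, symp_card_Isom k hT hk, gO_sq, gO_sq] at h2
  obtain ⟨j, h3, h4, h5⟩ := ord_of_dvd (a := m ^ 2) hr (Nat.one_lt_pow two_ne_zero hq)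
    (fun h => h0 (hr.dvd_of_dvd_pow h)) (show k ≤ m by omega) (((Nat.mul_dvd_mul_left _ (Dvd.intro_left _ rfl)).trans
      h2).trans (Nat.mul_dvd_mul_right (by rw [← pow_mul]; exact pow_dvd_pow _ (by omega)) _)) h1
  rw [ord_dvd_iff (by positivity), ← pow_mul, ← ord_dvd_iff (by omega), ← hi] at h5
  refine ⟨2 * j, by omega, by omega, ?_⟩
  rw [hc]
  split_ifs with h6
  exacts [h5, Nat.mul_dvd_mul_left 2 ((Nat.coprime_two_right.2 (Nat.not_even_iff_odd.1 h6)).dvd_of_dvd_mul_left h5)]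

section Symp
variable {S : PForm (sympP F) V}

omit [Finite F] [FiniteDimensional F V] in
theorem symp_ts_iff {U : Submodule F V} : (∀ x ∈ U, ∀ y ∈ U, S.h x y = 0) ↔ S.TS U :=
  ⟨symp_ts, fun h _ hx _ hy => h.h_eq hx hy⟩

theorem symp_ts_card (hS : S.Nondeg) {m r : ℕ} (hm : 2 * m ≤ finrank F V) (hr : r.Prime) (h : r ∣ Nat.card F) :
    ¬ r ∣ Nat.card {U : Submodule F V // finrank F U = m ∧ S.TS U} := fun hΩ => by
  obtain ⟨U, hU, rfl⟩ := (hm_symp.ts_iff hS).2 hm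
  obtain ⟨d, hd⟩ := hm_symp.dvd hS
  have h1 := hS.card_TS_mul_card_stab hU
  have hq : 0 < Nat.card F := Nat.card_pos
  have h2 := prod_sub_mul (Nat.card F) (le_refl (finrank F U))
  rw [Nat.sub_self, show gO (Nat.card F) 0 = 1 from rfl, mul_one] at h2
  rw [hU.card_stab hS rfl, hU.symp_card_fix hS hd rfl, symp_card_Isom d hS hd, gO_sq, gO_sq, h2] at h1
  obtain ⟨k, rfl⟩ := Nat.exists_eq_add_of_le (show finrank F U ≤ d by omega)
  generalize finrank F U = m at *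
  have h3 : (m + k) ^ 2 = m.choose 2 + (m * (m + 1) / 2 + 2 * m * k) + k ^ 2 := by
    have := ch2 m
    rw [add_sq, sq m, mul_add m m]
    omega
  refine not_dvd_gO hr (pow_pos hq 2) (dvd_pow h two_ne_zero) (m + k) (hΩ.trans ⟨gO (Nat.card F) m * gO (Nat.card F ^ 2) k,
    Nat.eq_of_mul_eq_mul_left (pow_pos hq ((m + k) ^ 2)) ?_⟩)
  rw [← h1, h3, Nat.add_sub_cancel_left]
  ring

theorem symp_polar (hS : S.Nondeg) {d : ℕ} (hd : finrank F V = 2 * d) :
    Nat.card {x : Submodule F V × Submodule F V // S.Polar x.1 x.2} =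
      Nat.card F ^ (d + 1).choose 2 * ∏ j ∈ Finset.range d, (Nat.card F ^ (j + 1) + 1) := by
  obtain ⟨A, B, h1, h2, h3, h4, h5⟩ := hm_symp.polar hS hd.ge
  have h6 := card_polar hS ⟨h1, h2, h3, codisjoint_iff.2 (Submodule.eq_top_of_finrank_eq (by
    rw [finrank_sup h3]; omega))⟩
  have hq : 1 < Nat.card F := Finite.one_lt_card
  rw [symp_card_Isom d hS hd, h4, show d ^ 2 = (d + 1).choose 2 + d.choose 2 by
    rw [sq, ← ch2 d, Nat.choose_succ_succ', Nat.choose_one_right]; ring] at h6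
  refine Nat.eq_of_mul_eq_mul_right (Nat.mul_pos (pow_pos (by omega) _) (gO_pos hq d)) (h6.trans ?_)
  rw [mul_mul_mul_comm, ← pow_add, gO, ← Finset.prod_mul_distrib]
  refine congrArg _ (Finset.prod_congr rfl fun j _ => ?_)
  rw [mul_comm 2, pow_mul, ← Nat.sq_sub_sq, one_pow]

omit [Finite F]

theorem nd_induction {P : FParam σ} {S : PForm P V} {g : S.Isom} {At C : Submodule F V → Prop} (h0 : C ⊥)
    (h1 : ∀ A U, At A → U ≤ S.perp A → C U → C (A ⊔ U))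
    (h2 : ∀ U, (S.restrict U).Nondeg → U.map (iE g) ≤ U → U ≠ ⊥ →
      ∃ A ≤ U, At A ∧ (S.restrict A).Nondeg ∧ A.map (iE g) ≤ A ∧ A ≠ ⊥) (U : Submodule F V)
    (hU : (S.restrict U).Nondeg) (hg : U.map (iE g) ≤ U) : C U := by
  induction hn : finrank F U using Nat.strong_induction_on generalizing U with
  | _ n ih =>
  by_cases h : U = ⊥
  · exact h ▸ h0
  obtain ⟨A, h3, h4, h5, h6, h7⟩ := h2 U hU hg h
  have h8 : A ⊔ S.perp A ⊓ U = U := by rw [← sup_inf_assoc_of_le _ h3, (S.isCompl_perp h5).sup_eq_top, top_inf_eq]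
  have h9 := finrank_sup (disj_of_nd h5 (inf_le_left (b := U)))
  have := Submodule.finrank_eq_zero.not.2 h7
  rw [h8] at h9
  exact h8 ▸ h1 _ _ h4 inf_le_left (ih _ (by omega) _
    (nd_of_sup (by rw [sup_comm, h8]; exact hU) (S.le_perp_comm.1 inf_le_left))
    (map_le_iff.2 fun x hx => ⟨perp_inv (map_le_iff.1 h6) x hx.1, map_le_iff.1 hg x hx.2⟩) rfl)

/-- `U` is the sum of two orthogonal non-degenerate subspaces interchanged by `g` -/
def Sw {P : FParam σ} {S : PForm P V} (g : S.Isom) (n : ℕ) (U : Submodule F V) : Prop :=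
  ∃ D : Submodule F V, (S.restrict D).Nondeg ∧ finrank F D = n ∧ D.map (iE g) ≤ S.perp D ∧
    (D.map (iE g)).map (iE g) = D ∧ D ⊔ D.map (iE g) = U

/-- orthogonal sums of `k` swapped pairs of planes and `f` invariant planes -/
inductive PD {P : FParam σ} {S : PForm P V} (g : S.Isom) : Submodule F V → ℕ → ℕ → Prop
  | zero : PD g ⊥ 0 0
  | pl {A U k f} : (S.restrict A).Nondeg → finrank F A = 2 → A.map (iE g) ≤ A → U ≤ S.perp A → PD g U k f →
      PD g (A ⊔ U) k (f + 1)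
  | sw {A U k f} : Sw g 2 A → U ≤ S.perp A → PD g U k f → PD g (A ⊔ U) (k + 1) f

section PD
variable {P : FParam σ} {S : PForm P V} {g : S.Isom} {U : Submodule F V} {k f n : ℕ}

theorem nd_bot : (S.restrict ⊥).Nondeg := fun _ _ => Subsingleton.elim _ _

theorem Sw.spec (h : Sw g n U) : (S.restrict U).Nondeg ∧ U.map (iE g) ≤ U ∧ finrank F U = 2 * n := by
  obtain ⟨D, h1, rfl, h2, h3, rfl⟩ := h
  exact ⟨nd_sup h1 (nd_map (isom_isIsom g) h1) h2, by rw [Submodule.map_sup, h3, sup_comm],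
    by rw [finrank_sup (disj_of_nd h1 h2), LinearEquiv.finrank_map_eq g.1, two_mul]⟩

theorem Sw.hd (h : Sw g n U) : HD (iE g) n (fun U => (S.restrict U).Nondeg) (fun u v => S.h u v = 0) U 2 := by
  obtain ⟨D, h1, rfl, h2, h3, rfl⟩ := h
  refine ⟨Bool, inferInstance, fun b => cond b D (D.map (iE g)), rfl,
    Bool.forall_bool.2 ⟨LinearEquiv.finrank_map_eq g.1 D, rfl⟩,
    (iSupIndep_pair (i := true) (j := false) (by simp) (by decide)).2 (disj_of_nd h1 h2), iSup_bool_eq,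
    Bool.forall_bool.2 ⟨nd_map (isom_isIsom g) h1, h1⟩, ?_, Equiv.boolNot, Bool.forall_bool.2 ⟨h3, rfl⟩⟩
  simp only [Bool.forall_bool]
  exact ⟨⟨by simp, fun _ u hu v hv => S.h_swap_zero (h2 hu v hv)⟩, fun _ u hu v hv => h2 hv u hu, by simp⟩

theorem PD.spec (h : PD g U k f) : (S.restrict U).Nondeg ∧ U.map (iE g) ≤ U ∧ finrank F U = 2 * (2 * k + f) := by
  induction h with
  | zero => exact ⟨nd_bot, by simp, by simp⟩
  | pl h1 h2 h3 h4 _ ih => exact ⟨nd_sup h1 ih.1 h4, by rw [Submodule.map_sup]; exact sup_le_sup h3 ih.2.1,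
      by rw [finrank_sup (disj_of_nd h1 h4)]; omega⟩
  | sw h1 h4 _ ih => exact ⟨nd_sup h1.spec.1 ih.1 h4, by rw [Submodule.map_sup]; exact sup_le_sup h1.spec.2.1 ih.2.1,
      by rw [finrank_sup (disj_of_nd h1.spec.1 h4), h1.spec.2.2]; omega⟩

theorem PD.split (h : PD g U k f) : ∀ k₁ k₂ f₁ f₂, k = k₁ + k₂ → f = f₁ + f₂ →
    ∃ A B, A ⊔ B = U ∧ B ≤ S.perp A ∧ PD g A k₁ f₁ ∧ PD g B k₂ f₂ := by
  have a1 : ∀ {A B C : Submodule F V}, B ⊔ C ≤ S.perp A → C ≤ S.perp B → C ≤ S.perp (A ⊔ B) ∧ A ⊔ C ≤ S.perp B :=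
    fun h h' => ⟨S.perp_sup _ _ ▸ le_inf (le_sup_right.trans h) h', sup_le (S.le_perp_comm.1 (le_sup_left.trans h)) h'⟩
  induction h with
  | zero => exact fun _ _ _ _ h h' => ⟨⊥, ⊥, by simp, by simp, by convert PD.zero <;> omega, by convert PD.zero <;> omega⟩
  | pl h1 h2 h3 h4 _ ih =>
    rintro k₁ k₂ (_ | f₁) f₂ rfl h
    · obtain ⟨A, B, rfl, h5, h6, h7⟩ := ih k₁ k₂ 0 _ rfl (zero_add _).symm
      exact ⟨A, _, sup_left_comm .., (a1 h4 h5).2, h6, (h.trans (zero_add _)) ▸ h7.pl h1 h2 h3 (le_sup_right.trans h4)⟩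
    · obtain ⟨A, B, rfl, h5, h6, h7⟩ := ih k₁ k₂ f₁ f₂ rfl (by omega)
      exact ⟨_, B, sup_assoc .., (a1 h4 h5).1, h6.pl h1 h2 h3 (le_sup_left.trans h4), h7⟩
  | sw h1 h4 _ ih =>
    rintro (_ | k₁) k₂ f₁ f₂ h rfl
    · obtain ⟨A, B, rfl, h5, h6, h7⟩ := ih 0 _ f₁ f₂ (zero_add _).symm rfl
      exact ⟨A, _, sup_left_comm .., (a1 h4 h5).2, h6, (h.trans (zero_add _)) ▸ h7.sw h1 (le_sup_right.trans h4)⟩
    · obtain ⟨A, B, rfl, h5, h6, h7⟩ := ih k₁ k₂ f₁ f₂ (by omega) rfl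
      exact ⟨_, B, sup_assoc .., (a1 h4 h5).1, h6.sw h1 (le_sup_left.trans h4), h7⟩

theorem PD.sw0 (h : PD g U k f) (hf : f = 0) : Sw g (2 * k) U := by
  induction h with
  | zero => exact ⟨⊥, nd_bot, by simp⟩
  | pl => omega
  | sw h1 h4 _ ih =>
    obtain ⟨D, a1, a2, a3, a4, rfl⟩ := h1
    obtain ⟨E, b1, b2, b3, b4, rfl⟩ := ih hf
    rw [perp_sup, le_inf_iff, sup_le_iff, sup_le_iff] at h4
    refine ⟨D ⊔ E, nd_sup a1 b1 h4.1.1, by rw [finrank_sup (disj_of_nd a1 h4.1.1)]; omega, ?_,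
      by simp only [Submodule.map_sup, a4, b4], by rw [Submodule.map_sup, sup_sup_sup_comm]⟩
    rw [Submodule.map_sup, perp_sup]
    exact sup_le (le_inf a3 (S.le_perp_comm.1 h4.2.1)) (le_inf h4.1.2 b3)

theorem PD.hd (h : PD g U k f) {a t : ℕ} (ha : 0 < a) (ht : 2 * k + f = a * t) :
    HD (iE g) (2 * a) (fun U => (S.restrict U).Nondeg) (fun u v => S.h u v = 0) U t := by
  refine invol_comb (P := fun k f t => ∀ U, PD g U k f →
    HD (iE g) (2 * a) (fun U => (S.restrict U).Nondeg) (fun u v => S.h u v = 0) U t) (fun U h => ?_) ha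
    (fun k f t k' f' h1 ih U h => ?_) (fun k f t ih U h => ?_) t k f ht U h
  · rw [Submodule.finrank_eq_zero.1 h.spec.2.2]
    exact HD.zero
  · obtain ⟨A, B, rfl, h2, h3, h4⟩ := h.split _ _ _ _ rfl rfl
    exact add_comm t 1 ▸ (HD.one g.1.injective (map_le_iff.1 h3.spec.2.1) (h1 ▸ h3.spec.2.2) h3.spec.1).sup
      (disj_of_nd h3.spec.1 h2) (fun u hu v hv => ⟨h2 hv u hu, S.h_swap_zero (h2 hv u hu)⟩) (ih _ h4)
  · obtain ⟨A, B, rfl, h2, h3, h4⟩ := h.split _ _ 0 _ rfl (zero_add _).symm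
    exact add_comm t 2 ▸ (h3.sw0 rfl).hd.sup
      (disj_of_nd h3.spec.1 h2) (fun u hu v hv => ⟨h2 hv u hu, S.h_swap_zero (h2 hv u hu)⟩) (ih _ h4)

end PD

omit [FiniteDimensional F V] in
theorem symp_hyp {v w : V} (h : S.h v w = 1) : S.IsHyp v w := ⟨symp_sing _ _, symp_sing _ _, h⟩

omit [FiniteDimensional F V] in
theorem symp_swap (x y : V) : S.h x y = - S.h y x := by simpa [sympP] using S.symm y x

theorem symp_step {g : S.Isom} {z : F} (h : iE g ^ 2 = z • 1) {U : Submodule F V} (hU : (S.restrict U).Nondeg)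
    (hg : U.map (iE g) ≤ U) (h0 : U ≠ ⊥) : ∃ v ∈ U, ∃ w ∈ U, S.IsHyp v w ∧
      ((((2 : F) ≠ 0 → z ≠ 1) ∧ iE g v ∈ F ∙ w ∧ iE g w ∈ F ∙ v) ∨ (z = 1 ∧ iE g v ∈ F ∙ v ∧ iE g w ∈ F ∙ w) ∨
        ((2 : F) = 0 ∧ Sw g 2 (Submodule.span F {v, w} ⊔ (Submodule.span F {v, w}).map (iE g)))) := by
  have h1 : ∀ x, g.1 (g.1 x) = z • x := fun x => congr($h x)
  have h2 : ∀ x y, S.h x (g.1 y) = z * S.h (g.1 x) y := fun x y => by rw [← isom_h g, h1, h_smul_right]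
  have h3 : ∀ x ∈ U, g.1 x ∈ U := map_le_iff.1 hg
  have ex : ∀ x ∈ U, x ≠ 0 → ∃ y ∈ U, S.h x y = 1 := fun x hx hx0 => by
    obtain ⟨y, hy, h⟩ := (nd_iff' fun _ _ => Iff.rfl).2 hU x hx hx0
    exact ⟨(S.h x y)⁻¹ • y, U.smul_mem _ hy, by simp [h]⟩
  by_cases ha : ∀ v ∈ U, S.h v (g.1 v) = 0
  swap
  · push Not at ha
    obtain ⟨v, hv, h4⟩ := ha
    refine ⟨v, hv, (S.h v (g.1 v))⁻¹ • g.1 v, U.smul_mem _ (h3 v hv), symp_hyp (by simp [h4]), .inl ⟨?_,
      Submodule.mem_span_singleton.2 ⟨S.h v (g.1 v), by simp [smul_smul, h4]⟩,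
      Submodule.mem_span_singleton.2 ⟨_, by simp [h1, smul_smul]; rfl⟩⟩⟩
    rintro h5 rfl
    have := h2 v v
    rw [symp_swap (g.1 v)] at this
    exact mul_ne_zero h5 h4 (by linear_combination this)
  have h4 : ∀ u ∈ U, ∀ w ∈ U, S.h u (g.1 w) = S.h (g.1 u) w := fun u hu w hw => by
    have := ha _ (U.add_mem hu hw)
    simp [ha u hu, ha w hw] at this
    rw [symp_swap (g.1 u)]
    linear_combination this
  obtain ⟨u, hu, hu0⟩ := U.exists_mem_ne_zero_of_ne_bot h0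
  obtain rfl : z = 1 := by
    obtain ⟨y, hy, h5⟩ := ex _ (h3 u hu) (by simpa)
    simpa [h4 u hu y hy, h5] using (h2 u y).symm
  by_cases h5 : (2 : F) = 0
  · by_cases h6 : ∀ w ∈ U, g.1 w = w
    · obtain ⟨y, hy, h7⟩ := ex u hu hu0
      exact ⟨u, hu, y, hy, symp_hyp h7, .inr (.inl ⟨rfl, by simp [h6 u hu], by simp [h6 y hy]⟩)⟩
    push Not at h6
    obtain ⟨w, hw, h6⟩ := h6
    obtain ⟨y, hy, h7⟩ := ex _ (U.sub_mem (h3 w hw) hw) (sub_ne_zero.2 h6)
    have h8 : w + S.h w y • (g.1 w - w) ∈ U := U.add_mem hw (U.smul_mem _ (U.sub_mem (h3 w hw) hw))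
    generalize hx : w + (1 - S.h w y) • (g.1 w - w) = x
    have hx' : x ∈ U := hx ▸ U.add_mem hw (U.smul_mem _ (U.sub_mem (h3 w hw) hw))
    have h9 : S.h x y = 1 := by rw [← hx, _root_.map_add, LinearMap.add_apply, h_smul_left, h7]; simp
    have h10 : S.h x (g.1 y) = 0 := by
      have := h4 w hw y hy
      simp only [map_sub, LinearMap.sub_apply] at h7
      simp [← hx]
      linear_combination (S.h w y) * this + (S.h w y) * h7 + (S.h w y) * h5
    have H := symp_hyp h9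
    refine ⟨x, hx', y, hy, H, .inr (.inr ⟨h5, _, H.nondeg, H.finrank_span, ?_, ?_, rfl⟩)⟩
    · rw [Submodule.map_span_le]
      simp [mem_perp_pair, ha x hx', ha y hy, h10, symp_swap y (g.1 x), ← h4 x hx' y hy]
    · rw [← Submodule.map_comp, ← End.mul_eq_comp, ← sq, h, one_smul, End.one_eq_id, Submodule.map_id]
  obtain ⟨v, hv, hv0, e, h6, h7⟩ : ∃ v ∈ U, v ≠ 0 ∧ ∃ e : F, e * e = 1 ∧ g.1 v = e • v := by
    by_cases h6 : u + g.1 u = 0
    · exact ⟨u, hu, hu0, -1, by simp, by simpa using (neg_eq_of_add_eq_zero_right h6).symm⟩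
    · exact ⟨_, U.add_mem hu (h3 u hu), h6, 1, by simp, by simp [h1, add_comm]⟩
  obtain ⟨y, hy, h8⟩ := ex v hv hv0
  refine ⟨v, hv, (2 : F)⁻¹ • (y + e • g.1 y), U.smul_mem _ (U.add_mem hy (U.smul_mem _ (h3 y hy))), symp_hyp ?_,
    .inr (.inl ⟨rfl, Submodule.mem_span_singleton.2 ⟨e, h7.symm⟩, Submodule.mem_span_singleton.2 ⟨e, ?_⟩⟩)⟩
  · simp [h4 v hv y hy, h7, h8, h6]
    field_simp; norm_num
  · simp [h1, smul_smul, mul_left_comm e, h6, add_comm, mul_comm e]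

theorem exists_PD {g : S.Isom} {z : F} (h : iE g ^ 2 = z • 1) (hS : S.Nondeg) :
    ∃ k f, PD g ⊤ k f ∧ ((2 : F) ≠ 0 → k = 0) := by
  refine nd_induction (g := g) (C := fun U => ∃ k f, PD g U k f ∧ ((2 : F) ≠ 0 → k = 0))
    (At := fun A => ((S.restrict A).Nondeg ∧ finrank F A = 2 ∧ A.map (iE g) ≤ A) ∨ ((2 : F) = 0 ∧ Sw g 2 A))
    ⟨0, 0, .zero, by simp⟩ ?_ (fun U h1 h2 h3 => ?_) ⊤ (nd_top hS) le_top
  · rintro A U (⟨h1, h2, h3⟩ | ⟨h1, h2⟩) h4 ⟨k, f, h5, h6⟩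
    exacts [⟨_, _, h5.pl h1 h2 h3 h4, h6⟩, ⟨_, _, h5.sw h2 h4, fun h => absurd h1 h⟩]
  obtain ⟨v, hv, w, hw, H, h4⟩ := symp_step h h1 h2 h3
  have h5 : Submodule.span F {v, w} ≤ U := Submodule.span_le.2 (by simp [Set.insert_subset_iff, hv, hw])
  have h6 : F ∙ v ≤ Submodule.span F {v, w} := Submodule.span_mono (by simp)
  have h7 : F ∙ w ≤ Submodule.span F {v, w} := Submodule.span_mono (by simp)
  have h8 : Submodule.span F {v, w} ≠ ⊥ := by simp [H.e_ne]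
  rcases h4 with ⟨-, h9, h10⟩ | ⟨-, h9, h10⟩ | ⟨h9, h10⟩
  · have : (Submodule.span F {v, w}).map (iE g) ≤ _ := Submodule.map_span_le _ _ _ |>.2 (by simpa using ⟨h7 h9, h6 h10⟩)
    exact ⟨_, h5, .inl ⟨H.nondeg, H.finrank_span, this⟩, H.nondeg, this, h8⟩
  · have : (Submodule.span F {v, w}).map (iE g) ≤ _ := Submodule.map_span_le _ _ _ |>.2 (by simpa using ⟨h6 h9, h7 h10⟩)
    exact ⟨_, h5, .inl ⟨H.nondeg, H.finrank_span, this⟩, H.nondeg, this, h8⟩
  · exact ⟨_, sup_le h5 ((Submodule.map_mono h5).trans h2), .inr ⟨h9, h10⟩, h10.spec.1, h10.spec.2.1,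
      fun h => h8 (sup_eq_bot_iff.1 h).1⟩

theorem symp_hd_two (hS : S.Nondeg) {g : S.Isom} {z : F} (h : iE g ^ 2 = z • 1) {a t : ℕ} (ha : 0 < a) (ha' : Even a)
    (ht : finrank F V = a * t) : HD (iE g) a (fun U => (S.restrict U).Nondeg) (fun u v => S.h u v = 0) ⊤ t := by
  obtain ⟨k, f, h1, -⟩ := exists_PD h hS
  obtain ⟨a, rfl⟩ := ha'.two_dvd
  have := h1.spec.2.2
  rw [finrank_top, ht, mul_assoc] at this
  exact h1.hd (by omega) (by omega)

theorem symp_nd_two (hS : S.Nondeg) {g : S.Isom} {z : F} (h : iE g ^ 2 = z • 1) {m : ℕ} (hm : Even m)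
    (hm' : m ≤ finrank F V) (h2 : (2 : F) ≠ 0 ∨ finrank F V % 4 = 2 ∨ m % 4 = 0) :
    ∃ U : Submodule F V, finrank F U = m ∧ (S.restrict U).Nondeg ∧ U.map (iE g) ≤ U := by
  obtain ⟨k, f, h1, h3⟩ := exists_PD h hS
  obtain ⟨a, rfl⟩ := hm.two_dvd
  have := h1.spec.2.2
  rw [finrank_top] at this
  obtain ⟨k', h4, h5, h6⟩ : ∃ k' ≤ k, 2 * k' ≤ a ∧ a - 2 * k' ≤ f := ⟨min k (a / 2), by simp, by omega, by
    rcases h2 with h2 | h2
    · have := h3 h2; omega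
    · omega⟩
  obtain ⟨A, -, -, -, h7, -⟩ := h1.split k' (k - k') (a - 2 * k') (f - (a - 2 * k')) (by omega) (by omega)
  exact ⟨A, h7.spec.2.2.trans (by omega), h7.spec.1, h7.spec.2.1⟩

theorem symp_pair_two (hS : S.Nondeg) (h2 : (2 : F) ≠ 0) {g : S.Isom} {z : F} (h : iE g ^ 2 = z • 1) :
    ∃ A B, S.Polar A B ∧ ((A.map (iE g) = A ∧ B.map (iE g) = B) ∨ (A.map (iE g) = B ∧ B.map (iE g) = A)) := by
  obtain ⟨A, B, h1, h3, h4, h5, h6, h7⟩ := nd_induction (g := g) (C := fun U => ∃ A B, S.TS A ∧ S.TS B ∧ A ⊔ B = U ∧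
      finrank F A + finrank F B ≤ finrank F U ∧ (z = 1 → A.map (iE g) ≤ A ∧ B.map (iE g) ≤ B) ∧
      (z ≠ 1 → A.map (iE g) ≤ B ∧ B.map (iE g) ≤ A))
    (At := fun A => ∃ v w, S.IsHyp v w ∧ A = (F ∙ v) ⊔ (F ∙ w) ∧ (z = 1 → iE g v ∈ F ∙ v ∧ iE g w ∈ F ∙ w) ∧
      (z ≠ 1 → iE g v ∈ F ∙ w ∧ iE g w ∈ F ∙ v))
    ⟨⊥, ⊥, symp_ts (by simp), symp_ts (by simp), by simp⟩ (by
      rintro _ _ ⟨v, w, H, rfl, a1, a2⟩ a3 ⟨A, B, b1, b2, rfl, b3, b4, b5⟩
      have c0 : Submodule.span F {v, w} = _ := Submodule.span_insert v {w}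
      have c1 := finrank_sup (disj_of_nd (c0 ▸ H.nondeg) a3)
      have c2 := Submodule.finrank_add_le_finrank_add_finrank (F ∙ v) A
      have c3 := Submodule.finrank_add_le_finrank_add_finrank (F ∙ w) B
      have c4 := c0 ▸ H.finrank_span
      have c5 : ∀ x : V, S.TS (F ∙ x) := fun x => ⟨fun _ _ => symp_sing _ _,
        (Submodule.span_singleton_le_iff_mem _ _).2 (S.mem_perp_singleton.2 (symp_h_self _ _))⟩
      rw [finrank_span_singleton H.e_ne] at c2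
      rw [finrank_span_singleton H.f_ne] at c3
      rw [perp_sup, le_inf_iff, sup_le_iff, sup_le_iff] at a3
      refine ⟨_, _, ts_sup (c5 v) b1 a3.1.1, ts_sup (c5 w) b2 a3.2.2, sup_sup_sup_comm .., by omega,
        fun h => ?_, fun h => ?_⟩ <;> simp only [Submodule.map_sup, Submodule.map_span, Set.image_singleton] <;>
        constructor <;> refine sup_le_sup ((Submodule.span_singleton_le_iff_mem _ _).2 ?_) ?_
      exacts [(a1 h).1, (b4 h).1, (a1 h).2, (b4 h).2, (a2 h).1, (b5 h).1, (a2 h).2, (b5 h).2]) (fun U h1 h3 h4 => by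
      obtain ⟨v, hv, w, hw, H, h5⟩ := symp_step h h1 h3 h4
      have h6 := @Submodule.mem_sup_left _ _ _ _ _ (F ∙ v) (F ∙ w)
      have h7 := @Submodule.mem_sup_right _ _ _ _ _ (F ∙ v) (F ∙ w)
      have c0 : Submodule.span F {v, w} = _ := Submodule.span_insert v {w}
      refine ⟨(F ∙ v) ⊔ (F ∙ w), by simp [hv, hw], ⟨v, w, H, rfl, ?_⟩, c0 ▸ H.nondeg, ?_,
        by simp [H.e_ne]⟩
      · tauto
      · simp only [Submodule.map_sup, Submodule.map_span, Set.image_singleton, sup_le_iff,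
          Submodule.span_singleton_le_iff_mem]
        rcases h5 with h5 | h5 | h5
        exacts [⟨h7 h5.2.1, h6 h5.2.2⟩, ⟨h6 h5.2.1, h7 h5.2.2⟩, absurd h5.1 h2]) ⊤ (nd_top hS) le_top
  have h8 := Submodule.finrank_sup_add_finrank_inf_eq A B
  have hp : S.Polar A B := ⟨h1, h3, disjoint_iff.2 (Submodule.finrank_eq_zero.1 (by rw [h4] at h8; omega)),
    codisjoint_iff.2 h4⟩
  have h9 := (hp.finrank_eq hS).1
  have e : ∀ {X Y : Submodule F V}, finrank F X = finrank F Y → X.map (iE g) ≤ Y → X.map (iE g) = Y := fun h h' =>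
    Submodule.eq_of_le_of_finrank_eq h' ((LinearEquiv.finrank_map_eq g.1 _).trans h)
  by_cases hz : z = 1
  exacts [⟨A, B, hp, .inl ⟨e rfl (h6 hz).1, e rfl (h6 hz).2⟩⟩, ⟨A, B, hp, .inr ⟨e h9.symm (h7 hz).1, e h9 (h7 hz).2⟩⟩]

theorem symp_bad_two (hS : S.Nondeg) (h2 : (2 : F) = 0) {d : ℕ} (hd : finrank F V = 2 * d) (h0 : 0 < d) (he : Even d) :
    ∃ g : S.Isom, g ^ 2 = 1 ∧ g ≠ 1 ∧
      ∀ U : Submodule F V, (S.restrict U).Nondeg → U.map (iE g) ≤ U → 4 ∣ finrank F U := by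
  have : CharP F 2 := CharTwo.of_one_ne_zero_of_two_eq_zero one_ne_zero h2
  obtain ⟨W, h1, rfl⟩ := hS.symp_exists_ts d hd.ge
  obtain ⟨g, h3, h4, rfl⟩ := hS.exists_alt h1 he
  have h5 := finrank_fix hS g
  have h6 : res g = fixSp g := Submodule.eq_of_le_of_finrank_eq h3 (by omega)
  refine ⟨g, (sq g).trans (quad_iff_mul_self.1 h3), ?_, fun U hU hg => ?_⟩
  · rintro rfl
    rw [show res (1 : S.Isom) = ⊥ from LinearMap.range_eq_bot.2 (sub_self _), finrank_bot] at h0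
    omega
  have h7 := map_le_iff.1 hg
  have h8 : res (rst g U h7) = fixSp (rst g U h7) := le_antisymm
    (quad_iff.2 fun x => Subtype.ext (quad_iff.1 h3 x)) fun x hx => by
      obtain ⟨y, hy⟩ : x.1 ∈ res g := h6 ▸ congrArg Subtype.val hx
      obtain ⟨a, ha, b, hb, rfl⟩ := exists_decomp hU y
      have h9 : g.1 b - b = x - (g.1 a - a) := by rw [← hy]; simp; abel
      refine ⟨⟨a, ha⟩, Subtype.ext (Eq.symm (sub_eq_zero.1 (h9 ▸ ?_)))⟩
      exact Submodule.disjoint_def.1 (S.isCompl_perp hU).disjoint _ (h9 ▸ U.sub_mem x.2 (U.sub_mem (h7 a ha) ha))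
        (Submodule.sub_mem _ (perp_inv h7 b hb) hb)
  have h9 := finrank_fix hU (rst g U h7)
  obtain ⟨k, hk⟩ := Alt.even hU (g := rst g U h7) fun x => h4 x
  rw [← h8] at h9
  omega

variable [Finite F]

theorem symp_ts_two (hS : S.Nondeg) (h2 : (2 : F) ≠ 0) {m : ℕ} (hm : 2 * m ≤ finrank F V) (h0 : 0 < m) :
    (∀ g : S.Isom, (∃ z : F, iE g ^ 2 = z • 1) → (∀ z : F, iE g ≠ z • 1) →
      ∃ U : Submodule F V, finrank F U = m ∧ S.TS U ∧ U.map (iE g) ≤ U) ↔ Even m ∨ Nat.card F % 4 = 1 := by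
  have := Fintype.ofFinite F
  have h1 : (¬ ∃ c : F, c ^ 2 = -1) ↔ Nat.card F % 4 = 3 := by
    rw [Nat.card_eq_fintype_card, ← not_not (a := _ = 3), ← ne_eq, ← FiniteField.isSquare_neg_one_iff]
    simp [IsSquare, sq, eq_comm]
  have h3 := (two_eq_zero_iff_pow (F := F) le_rfl).not.1 h2
  have h4 : ∀ f : End F V, f ^ 2 = (-1 : F) • 1 → IsUnit (f * f - 1) := fun f h => by
    rw [← sq, h]
    convert IsUnit.smul (Units.mk0 (-2) (neg_ne_zero.2 h2)) (isUnit_one (M := End F V)) using 1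
    simp only [Units.smul_mk0]; module
  rw [pow_one] at h3
  constructor
  · intro h
    by_contra h5
    rw [not_or] at h5
    have h6 := X_pow_sub_C_irreducible_of_prime Nat.prime_two (not_exists.1 (h1.2 (by omega)))
    obtain ⟨d, hd⟩ := hm_symp.dvd hS
    obtain ⟨f, h7, h8⟩ := exists_irr (V := V) le_rfl h6 (s := d) (by omega) (by omega)
    obtain ⟨T, hT, k, rfl⟩ := (irr_dl le_rfl (fun _ => rfl) h6 (by simp) h7).exists_isom (sympP F) (h4 f h7)
    obtain ⟨g, hg⟩ := hm_symp.transport hS hT rfl k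
    obtain ⟨U, rfl, -, h9⟩ := h g ⟨_, sim_pow hg.sim h7⟩ (sim_ns hg.sim h8)
    exact h5.1 (even_iff_two_dvd.2 (irr_dvd two_ne_zero h6 (sim_pow hg.sim h7) h9))
  rintro h g ⟨z, h5⟩ -
  rcases mul_self_eq_one_iff.1 (norm_of hS (by omega) ((iE_pow g 2).trans h5)) with rfl | rfl
  · have hg : SS (iE g) := ss_of_pow_eq_one (m := 2) (by exact_mod_cast h2) (by simpa using h5)
    have := hm_symp.dvd (nd_fix hS hg)
    have := hm_symp.dvd (hS.nondeg_res hg)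
    have := finrank_fix hS g
    exact (hm_symp.ts_inv hS h2 (by simpa using h5)).2 (by omega)
  by_cases h6 : ∃ c : F, c ^ 2 = -1
  · obtain ⟨c, hc⟩ := h6
    exact eig_ts hS (μ := c) (hc ▸ h5) h2 (by simpa [sq] using hc) hm
  exact irr_ts hS (rg_of_isUnit hS (h4 _ h5)) two_ne_zero (X_pow_sub_C_irreducible_of_prime Nat.prime_two
    (not_exists.1 h6)) h5 (by simp) hm (h.resolve_right (by have := h1.1 h6; omega)).two_dvd

theorem uj_split {P : FParam (RingHom.id F)} (h2 : (2 : F) ≠ 0) {μ : Multiset ℕ} (h0 : ∀ k ∈ μ, 0 < k) {x : Mo P}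
    (hx : x ∈ UJ P μ) {ν : Multiset ℕ} (h1 : ν ≤ μ) (h3 : ∀ i, ¬ gd P i → Even (ν.count i)) :
    ∃ y ∈ UJ P ν, ∃ z, x = y + z := by
  induction hn : μ.card using Nat.strong_induction_on generalizing μ ν x with
  | _ n ih =>
  by_cases h : μ = 0
  · subst h
    exact ⟨x, le_zero.1 h1 ▸ hx, x, (add_of_JD h2 hx x).symm⟩
  obtain ⟨d, μ, rfl, h4⟩ := exists_max_cons h h0
  subst hn
  by_cases hd : gd P (d + 1)
  · obtain ⟨t, h5, h6⟩ := exists_vl h2 (by simpa using h4) hd hx (by simp)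
    obtain ⟨r, hr, x, hx', rfl⟩ := peelG h2 h4 hx h6 h5
    by_cases h7 : d + 1 ∈ ν
    · obtain ⟨ν, rfl⟩ := exists_cons_of_mem h7
      obtain ⟨y, hy, z, rfl⟩ := ih _ (by simp) (fun k hk => h0 k (by simp [hk])) hx' ((cons_le_cons_iff _).1 h1)
        (fun i hi => by simpa [show i ≠ d + 1 from fun h => hi (h ▸ hd)] using h3 i hi) rfl
      exact ⟨r + y, UJ.add (μ := {d + 1}) (Rs.JD hr) hy, z, (add_assoc ..).symm⟩
    · obtain ⟨y, hy, z, rfl⟩ := ih _ (by simp) (fun k hk => h0 k (by simp [hk])) hx'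
        ((le_cons_of_notMem h7).1 h1) h3 rfl
      exact ⟨y, hy, r + z, add_left_comm ..⟩
  have h8 : ∀ s : Multiset ℕ, Even (((d + 1) ::ₘ s).count (d + 1)) → d + 1 ∈ s := fun s h => by
    by_contra h'
    simp [count_eq_zero.2 h'] at h
  obtain ⟨r, hr, x, hx', rfl⟩ := peelB h2 h4 hd hx
  obtain ⟨μ, rfl⟩ := exists_cons_of_mem (h8 _ (UJ.even h2 hd hx))
  rw [erase_cons_head] at hx'
  by_cases h7 : d + 1 ∈ ν
  · obtain ⟨ν, rfl⟩ := exists_cons_of_mem h7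
    obtain ⟨ν, rfl⟩ := exists_cons_of_mem (h8 _ (h3 _ hd))
    obtain ⟨y, hy, z, rfl⟩ := ih _ (by simp) (fun k hk => h0 k (by simp [hk])) hx'
      ((cons_le_cons_iff _).1 ((cons_le_cons_iff _).1 h1))
      (fun i hi => by
        have := h3 i hi
        by_cases h : i = d + 1 <;> simpa [h, Nat.even_add_one] using this) rfl
    exact ⟨r + y, by simpa using UJ.add (μ := {d + 1, d + 1}) (Hs.JD hr) hy, z, (add_assoc ..).symm⟩
  · obtain ⟨y, hy, z, rfl⟩ := ih _ (by simp) (fun k hk => h0 k (by simp [hk])) hx'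
      ((le_cons_of_notMem h7).1 ((le_cons_of_notMem h7).1 h1)) h3 rfl
    exact ⟨y, hy, r + z, add_left_comm ..⟩

theorem nd_of_unip {P : FParam (RingHom.id F)} {S : PForm P V} (hS : S.Nondeg) (h2 : (2 : F) ≠ 0) {g : S.Isom}
    (hg : Unip (iE g)) {ν : Multiset ℕ} (h1 : ν ≤ JT (iE g)) (h3 : ∀ i, ¬ gd P i → Even (ν.count i)) :
    ∃ U : Submodule F V, finrank F U = ν.sum ∧ (S.restrict U).Nondeg ∧ U.map (iE g) ≤ U := by
  obtain ⟨⟨y⟩, hy, ⟨z⟩, h⟩ := uj_split h2 (fun _ => JT_pos) (x := cls hS g) hg.JD_eq h1 h3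
  obtain ⟨e, h4, h5⟩ := ((cls_eq hS (y.nd.prod z.nd)).1 h).symm
  have h6 := HasED.range (f := iE y.g) (g := iE g) (e := e.toLinearMap ∘ₗ LinearMap.inl F _ _)
    (e.injective.comp LinearMap.inl_injective) fun x => by simpa using h5 (x, 0)
  exact ⟨_, by rw [h6.finrank_eq, ← (unip_of_JD hy).2]; rfl,
    by rw [← Submodule.map_top]; exact nd_map (S := y.S) (h4.comp isIsom_inl) (nd_top y.nd), h6.map_le⟩

theorem jt_rst_le {P : FParam σ} {S : PForm P V} {g : S.Isom} {U : Submodule F V} (hU : (S.restrict U).Nondeg)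
    (h : ∀ x ∈ U, g.1 x ∈ U) : JT (iE (rst g U h)) ≤ JT (iE g) := by
  obtain ⟨t, -, ht⟩ := nd_le hU (g := g) ⟨h, rfl⟩
  exact map_le_map (ht ▸ Multiset.le_add_right _ _)

omit [Finite F] in
theorem pow_char_iff (p : ℕ) [Fact p.Prime] [CharP F p] {P : FParam σ} {S : PForm P V} {g : S.Isom} :
    g ^ p = 1 ↔ Unip (iE g) ∧ ∀ k ∈ JT (iE g), k ≤ p := by
  have := pow_char_pow_eq_one_iff p (f := iE g) (j := 1)
  rw [← iE_inj, iE_pow, iE_one]
  rw [pow_one] at this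
  exact ⟨fun h => ⟨unip_of_pow p h, (unip_of_pow p h).pow_eq_zero_iff.1 (this.1 h)⟩,
    fun h => this.2 (h.1.pow_eq_zero_iff.2 h.2)⟩

omit [Finite F] in
theorem JT_one : JT (1 : End F V) = replicate (finrank F V) 1 := by
  obtain ⟨k, h2⟩ := ED_eq_nED (1 : End F V)
  have := finrank_eq_nED h2
  simp [nED_one] at this h2
  simp [JT, h2, natDegree_X_sub_one, this]

theorem symp_nd_unip (p : ℕ) [Fact p.Prime] [CharP F p] (hS : S.Nondeg) (h2 : (2 : F) ≠ 0) {m n : ℕ}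
    (hn : finrank F V = n) (hm : m ≤ n) (he : Even m) : (∀ g : S.Isom, g ^ p = 1 → g ≠ 1 →
      ∃ U : Submodule F V, finrank F U = m ∧ (S.restrict U).Nondeg ∧ U.map (iE g) ≤ U) ↔
    ∀ μ : Multiset ℕ, (∀ a ∈ μ, 0 < a ∧ a ≤ p) → (∀ a, Odd a → Even (μ.count a)) → μ.sum = n →
      ∃ ν ≤ μ, ν.sum = m ∧ ∀ a, Odd a → Even (ν.count a) := by
  constructor
  · intro h μ h1 h3 h4
    by_cases h5 : μ = replicate n 1
    · exact ⟨replicate m 1, h5 ▸ (replicate_le_replicate _).2 hm, by simp, fun a _ => by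
        rw [count_replicate]; split_ifs <;> simp [he]⟩
    obtain ⟨W, _, _, _, T, k, hT, h6, rfl⟩ := md_symp (F := F) (fun k hk => (h1 k hk).1) h3
    obtain ⟨g, hg⟩ := hm_symp.transport hS hT (by rw [← JT_sum (iE k), h4, hn]) k
    have h7 : JT (iE k) = JT (iE g) := congrArg _ (sim_iff_ED.1 hg.sim)
    have h8 : g ^ p = 1 := iE_inj.1 (by
      simpa [iE_pow, iE_one] using sim_pow hg.sim (z := 1) (by
        rw [← iE_pow, (pow_char_iff p).2 ⟨h6, fun k hk => (h1 k hk).2⟩, iE_one, one_smul]))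
    obtain ⟨U, rfl, h9, h10⟩ := h g h8 (by rintro rfl; exact h5 (by rw [h7, iE_one, JT_one, hn]))
    exact ⟨_, h7 ▸ jt_rst_le h9 (map_le_iff.1 h10), JT_sum _, fun a =>
      symp_par h9 (((pow_char_iff p).1 h8).1.restrict (map_le_iff.1 h10))⟩
  · intro h g h1 _
    obtain ⟨h3, h4⟩ := (pow_char_iff p).1 h1
    obtain ⟨ν, h5, rfl, h6⟩ := h _ (fun a ha => ⟨JT_pos ha, h4 a ha⟩) (fun a => symp_par hS h3) ((JT_sum _).trans hn)
    refine nd_of_unip hS h2 h3 h5 fun i hi => ?_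
    rcases i with _ | i
    · rw [count_eq_zero.2 fun h => (JT_pos (mem_of_le h5 h)).false]; simp
    · exact h6 _ (by simpa [gd_symp h2, Nat.odd_add_one] using hi)

theorem symp_pair_ex (hS : S.Nondeg) (hq : Odd (Nat.card F)) {r : ℕ} (hr : r.Prime) (hr2 : r ≠ 2) (h0 : ¬ r ∣ Nat.card F)
    (h0' : (r : F) ≠ 0) (hV : 0 < finrank F V)
    (hΩ : r ∣ Nat.card {x : Submodule F V × Submodule F V // S.Polar x.1 x.2} / 2) :
    ∃ g : S.Isom, g ^ r = 1 ∧ g ≠ 1 ∧ ∀ A B, S.Polar A B →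
      ¬ ((A.map (iE g) = A ∧ B.map (iE g) = B) ∨ (A.map (iE g) = B ∧ B.map (iE g) = A)) := by
  obtain ⟨d, hd⟩ := hm_symp.dvd hS
  rw [symp_polar hS hd] at hΩ
  have h9 : 2 ∣ ∏ j ∈ Finset.range d, (Nat.card F ^ (j + 1) + 1) := (hq.pow (n := 0 + 1)).add_one.two_dvd.trans
    (Finset.dvd_prod_of_mem (fun j => Nat.card F ^ (j + 1) + 1) (Finset.mem_range.2 (by omega)))
  obtain ⟨j, h1, h2⟩ := (Prime.dvd_finset_prod_iff hr.prime _).1 ((hr.dvd_mul.1 (dvd_of_dvd_div (h9.mul_left _)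
    hΩ)).resolve_left fun h => h0 (hr.dvd_of_dvd_pow h))
  have h3 : (Nat.card F : ZMod r) ^ (j + 1) = -1 := by
    simpa [add_eq_zero_iff_eq_neg] using (ZMod.natCast_eq_zero_iff _ _).2 h2
  have A := ar_symp hr hr2 h0 h0' rfl rfl
  have h4 := (exists_pow_eq_neg_one_iff hr hr2 A.ipos.ne').1 ⟨_, h3⟩
  have h5 := Nat.le_of_dvd (by omega) (orderOf_dvd_of_pow_eq_one (show (Nat.card F : ZMod r) ^ ((j + 1) * 2) = 1 by
    simp [pow_mul, h3]))
  obtain ⟨Q, hQ⟩ := exists_mem_PhiF hr h0'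
  obtain ⟨g, h6, h7, h8⟩ := A.exists_g hS (s := {Q}) (by simpa) (by simpa using (A.hb Q hQ).2 h4)
    (by simp at h1 ⊢; omega)
  exact ⟨g, h6, h8 (by simp), fun U W h => by
    simpa using A.no_pair h4 hS h6 (by simp [h7]) (h8 (by simp)) one_ne_zero h⟩

end Symp

end H20.El
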