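import Cfsg.Agent.H20.El6
import Cfsg.Agent.H29.TSDec

/-! Elusivity engine for special unitary groups: `UA S r Φ` (all elements of determinant one and projective order `r`
satisfy `Φ`), `cop_su`, `su_of`, `ar_unit`, the cases `r ∣ q + 1` (`unit_ts_one`, `unit_nd_one`, `unit_ts_two`,
`unit_nd_two`), `unit_nd_unip`, polar pairs (`unit_pair`), and the transfer `conj_all` to matrix groups. -/

set_option autoImplicit false
namespace H20.El
open H11 Module Polynomial Multiset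
open H11.PForm hiding X

universe u
variable {F : Type u} [Field F] {σ : F →+* F} {V W : Type u} [AddCommGroup V] [Module F V] [AddCommGroup W]
  [Module F W] [FiniteDimensional F V] [FiniteDimensional F W] {P : FParam σ} {S : PForm P V} {T : PForm P W} {δ : ℕ}

/-- all isometries of determinant one and projective order `r` satisfy `Φ` -/
def UA (S : PForm P V) (r : ℕ) (Φ : End F V → Prop) : Prop :=
  ∀ g : S.Isom, LinearMap.det (iE g) = 1 → (∃ z : F, iE g ^ r = z • 1) → (∀ z : F, iE g ≠ z • 1) → Φ (iE g)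

theorem pow_one' {g : S.Isom} {r : ℕ} (h : g ^ r = 1) : iE g ^ r = (1 : F) • 1 := by rw [← iE_pow, h, iE_one, one_smul]

theorem UA.scal {r : ℕ} {Φ : End F V → Prop} (hΦ : ∀ f (c : F), c ≠ 0 → Φ f → Φ (c • f)) (h : UA S r Φ) {g : S.Isom}
    (h1 : g ^ r = 1) (c : normOne σ) (h2 : (c.1 : F) ^ finrank F V * LinearMap.det (iE g) = 1) (h3 : ∀ z : F, iE g ≠ z • 1) :
    Φ (iE g) := by
  have := hΦ _ _ (inv_ne_zero c.1.ne_zero) (h (S.scal c * g) (by rwa [iE_scal, LinearMap.det_smul]) ⟨(c.1 : F) ^ r, by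
    rw [iE_scal, _root_.smul_pow, pow_one' h1, one_smul]⟩ fun z hz => h3 ((c.1 : F)⁻¹ * z) (by
      rw [mul_smul, ← hz, iE_scal, smul_smul, inv_mul_cancel₀ c.1.ne_zero, one_smul]))
  rwa [iE_scal, smul_smul, inv_mul_cancel₀ c.1.ne_zero, one_smul] at this

theorem su_of (hS : S.Nondeg) {r : ℕ} {Φ : End F V → Prop} (hΦ : ∀ f (c : F), c ≠ 0 → Φ f → Φ (c • f))
    (h1 : ∀ (g : S.Isom) (c : normOne σ), g ^ r = 1 → (c.1 : F) ^ finrank F V * LinearMap.det (iE g) = 1 → g ≠ 1 → Φ (iE g))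
    (h2 : ∀ (g : S.Isom) (z : normOne σ), (∀ c, c ^ r ≠ z) → iE g ^ r = (z.1 : F) • 1 → LinearMap.det (iE g) = 1 →
      Φ (iE g)) : UA S r Φ := by
  rintro g h3 ⟨z, h4⟩ h5
  obtain ⟨c, hc⟩ := exists_scal hS ((iE_pow g r).trans h4)
  by_cases h : ∃ d, d ^ r = c
  · obtain ⟨d, rfl⟩ := h
    have e : S.scal d * (S.scal d⁻¹ * g) = g := by simp
    have := hΦ _ _ d.1.ne_zero (h1 (S.scal d⁻¹ * g) d (by
      rw [(scal_comm _ _).mul_pow, hc, ← map_pow, ← map_mul]; simp) (by rwa [← LinearMap.det_smul, ← iE_scal, e])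
      fun h3 => h5 d.1 (by rw [← e, h3]; rfl))
    rwa [← iE_scal, e] at this
  · exact h2 g c (not_exists.1 h) (by rw [← iE_pow, hc]; rfl) h3

theorem cop_su [Finite F] (hS : S.Nondeg) {r : ℕ} (hr : (Nat.card (normOne σ)).Coprime r) {Φ : End F V → Prop}
    (hΦ : ∀ f (c : F), c ≠ 0 → Φ f → Φ (c • f)) : UA S r Φ ↔ ∀ g : S.Isom, g ^ r = 1 → g ≠ 1 → Φ (iE g) := by
  refine ⟨fun h g h1 h2 => h g ?_ ⟨_, pow_one' h1⟩ fun z hz => h2 ?_, fun h g _ => (cop_all hS hr hΦ).2 h g⟩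
  · have h3 : (⟨_, hS.det_mem_normOne g⟩ : normOne σ) = 1 := by
      simpa [hr.gcd_eq_one] using pow_gcd_eq_one.2 ⟨pow_card_eq_one' (x := (⟨_, hS.det_mem_normOne g⟩ : normOne σ)),
        Subtype.ext (show S.detHom g ^ r = 1 by rw [← map_pow, h1, map_one])⟩
    rw [det_iE, show S.detHom g = 1 from congrArg Subtype.val h3, Units.val_one]
  · obtain ⟨c, rfl⟩ := exists_scal hS hz
    have h3 : S.scal c ^ Nat.card (normOne σ) = 1 := by rw [← map_pow, pow_card_eq_one', map_one]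
    simpa [hr.gcd_eq_one] using pow_gcd_eq_one.2 ⟨h3, h1⟩

theorem hasED_eig {f : End F V} {μ : F} {U : Submodule F V} (h : U ≤ End.eigenspace f μ) :
    HasED f U (replicate (finrank F U) (X - C μ)) := by
  have h1 := map_le_iff.1 (eig_inv h)
  obtain ⟨-, s, h2, h3, -⟩ := irr_spec (g := f.restrict h1) (z := μ) one_ne_zero (by simpa using irreducible_X_sub_C μ)
    (by ext x; simpa using End.mem_eigenspace_iff.1 (h x.2))
  exact ⟨h1, by simpa [← h3] using h2⟩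

theorem det_two {f : End F V} {a b : ℕ} {x y : F} (h : ED f = replicate a (X - C x) + replicate b (X - C y)) :
    LinearMap.det f = x ^ a * y ^ b := by
  rw [det_eq_ED, ← dg_ED f, h]
  simp [neg_pow x, neg_pow y, pow_add]
  ring_nf
  simp [mul_comm a, mul_comm b, pow_mul]

theorem ns_two {f : End F V} {a b : ℕ} {x y : F} (h : ED f = replicate a (X - C x) + replicate b (X - C y))
    (ha : a ≠ 0) (hb : b ≠ 0) (h' : x ≠ y) (z : F) : f ≠ z • 1 :=
  not_scalar_of_two (h ▸ mem_add.2 (.inl (mem_replicate.2 ⟨ha, rfl⟩))) (h ▸ mem_add.2 (.inr (mem_replicate.2 ⟨hb, rfl⟩)))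
    (fun h => h' (C_injective (sub_right_injective h))) z

theorem ED_inv (hS : S.Nondeg) (h2 : (2 : F) ≠ 0) {g : S.Isom} (h : g ^ 2 = 1) :
    ED (iE g) = replicate (finrank F (fixSp g)) (X - C 1) + replicate (finrank F (res g)) (X - C (-1)) := by
  have h1 : iE g ^ 2 = 1 := by rw [← iE_pow, h, iE_one]
  have h3 := S.isCompl_perp (hS.nondeg_res (ss_of_pow_eq_one (by exact_mod_cast h2) h1))
  rw [hS.perp_res] at h3
  exact (hasED_eig fun x hx => End.mem_eigenspace_iff.2 (by simpa [mem_fixSp] using hx)).add h3.symm (hasED_eig (res_neg h1))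

theorem ED_eig (hS : S.Nondeg) {g : S.Isom} {μ : F} (h : iE g ^ 2 = μ ^ 2 • 1) (h2 : (2 : F) ≠ 0) (h3 : σ μ * μ = -1) :
    ∃ k, finrank F V = 2 * k ∧ ED (iE g) = replicate k (X - C μ) + replicate k (X - C (-μ)) := by
  have h4 := eig_polar h h2 h3
  have h5 := h4.finrank_eq hS
  exact ⟨_, h5.2.symm, by simpa [h5.1] using (hasED_eig le_rfl).add h4.compl (hasED_eig le_rfl)⟩

theorem exists_eig [Finite F] (H : Hm P δ) (hS : S.Nondeg) {μ : F} (h3 : σ μ * μ = -1) {k : ℕ}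
    (h : finrank F V = 2 * k) : ∃ g : S.Isom, iE g ^ 2 = μ ^ 2 • 1 := by
  have h0 : μ ≠ 0 := by rintro rfl; simp at h3
  obtain ⟨A, B, h1, h2, h4, h5, h6⟩ := H.polar hS h.ge
  have hp : S.Polar A B := ⟨h1, h2, h4, codisjoint_iff.2 (Submodule.eq_top_of_finrank_eq (by
    rw [finrank_sup h4]; omega))⟩
  obtain ⟨g, ⟨-, h7⟩, h8⟩ := hp.exists_ext hS (LinearEquiv.smulOfNeZero F A μ h0)
  have h9 : ∀ y ∈ B, g.1 y = -μ • y := fun y hy => sub_eq_zero.1 (hp.eq_zero hS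
    (B.sub_mem ((h7 y).1 hy) (B.smul_mem _ hy)) fun u hu => by
      have := isom_h g u y
      rw [show g.1 u = μ • u from h8 ⟨u, hu⟩, h_smul_left] at this
      simp
      linear_combination -μ * this + S.h u (g.1 y) * h3)
  refine ⟨g, LinearMap.ext fun x => ?_⟩
  obtain ⟨a, ha, b, hb, rfl⟩ := hp.exists_add x
  simp [sq, show g.1 a = μ • a from h8 ⟨a, ha⟩, h9 b hb, smul_smul]

theorem neg_iff [Finite F] (h2 : (2 : F) ≠ 0) {n : ℕ} (hn : n ≠ 0) (he : 2 ∣ Nat.card (normOne σ)) :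
    (∃ c : normOne σ, (c.1 : F) ^ n = -1) ↔ ¬ padicValNat 2 (Nat.card (normOne σ)) ≤ padicValNat 2 n := by
  have hN : Nat.card (normOne σ) ≠ 0 := Nat.card_pos.ne'
  have e : ∀ (c : normOne σ) k, c ^ k = 1 ↔ (c.1 : F) ^ k = 1 := fun c k => by simp [Subtype.ext_iff, Units.ext_iff]
  constructor
  · rintro ⟨c, hc⟩ h
    have h3 := (e c _).1 (orderOf_dvd_iff_pow_eq_one.1 ((orderOf_dvd_natCard c).trans (show _ ∣ n * ordCompl[2] _ by
      conv_lhs => rw [← Nat.ordProj_mul_ordCompl_eq_self (Nat.card (normOne σ)) 2]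
      exact Nat.mul_dvd_mul_right (Nat.factorization_def _ Nat.prime_two ▸ (padicValNat_dvd_iff_le hn).2 h) _)))
    rw [pow_mul, hc, (Nat.not_even_iff_odd.1 fun h => Nat.not_dvd_ordCompl Nat.prime_two hN h.two_dvd).neg_one_pow] at h3
    exact h2 (by linear_combination -h3)
  · intro h
    obtain ⟨γ, hγ⟩ := IsCyclic.exists_ofOrder_eq_natCard (α := normOne σ)
    have h3 := orderOf_pow_orderOf_div (hγ ▸ hN) (hγ ▸ (padicValNat_dvd_iff_le hN).2 (not_le.1 h))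
    refine ⟨_, (sq_eq_one_iff.1 ?_).resolve_left fun h4 => pow_succ_padicValNat_not_dvd (p := 2) hn
      (h3 ▸ orderOf_dvd_iff_pow_eq_one.2 ((e _ _).2 h4))⟩
    rw [← pow_mul, ← e, ← orderOf_dvd_iff_pow_eq_one, h3, pow_succ]
    exact Nat.mul_dvd_mul_right pow_padicValNat_dvd _

theorem no_pair' [Finite F] (hS : S.Nondeg) {g : S.Isom} {r : ℕ} (hr : r.Prime) (hg : g ^ r = 1)
    (h1 : ∀ Q ∈ ED (iE g), dualP σ Q = Q) {Q : F[X]} {s : Multiset F[X]} (h2 : ED (iE g) = Q ::ₘ s) (h2' : Q ∉ s)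
    (h4 : 4 ≤ finrank F V) {U U' : Submodule F V} (h : S.Polar U U') :
    ¬ ((U.map (iE g) = U ∧ U'.map (iE g) = U') ∨ (U.map (iE g) = U' ∧ U'.map (iE g) = U)) := by
  classical
  have h6 := h.finrank_eq hS
  rintro (⟨h3, h5⟩ | ⟨h3, h5⟩)
  · simpa [h2, count_eq_zero.2 h2'] using even_of_polar hS h h3.le h5.le h1 Q
  rcases hr.eq_two_or_odd' with rfl | h7
  · have := congrArg (count Q) (hasED_cyc two_ne_zero (pow_one' hg) (D := U) (U := ⊤) rfl (by simp [h6.2]) le_top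
      (by simp) fun A h8 h9 => h.compl.sup_eq_top ▸ sup_le h8 (h3 ▸ (Submodule.map_mono h8).trans (map_le_iff.2 h9))).eq_top
    rw [h2, count_cons_self, count_eq_zero.2 h2', count_nsmul] at this
    have := Nat.eq_one_of_mul_eq_one_right this.symm
    omega
  · rw [h.compl.disjoint.eq_bot_of_le (not_swap h7 one_ne_zero (pow_one' hg) h3.le h5.le), finrank_bot] at h6
    omega

theorem Ar.exists_inv [Finite F] {r c : ℕ} {b : Prop} (A : Ar P δ r 1 c b) (hb : b) (hS : S.Nondeg) {k : ℕ}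
    (h1 : 2 * k ≤ r - 1) (h2 : 2 * k ≤ finrank F V) : ∃ g : S.Isom, g ^ r = 1 ∧ LinearMap.det (iE g) = 1 ∧
      (nED (iE g)).Nodup ∧ (nED (iE g)).card = 2 * k := by
  have h3 := fun Q => dualP_mem_PhiF (σ := RingHom.id F) (P := Q) (fun _ => rfl) A.hr A.h0
  obtain ⟨u, hu⟩ := exists_pairs (φ := dualP (RingHom.id F)) (s := (PhiF F r).val) (fun Q hQ => ⟨by
    rw [ne_eq, dualP_id_eq_self_iff A.hr A.hr2 A.h0 hQ, ← A.hi]; simp, (h3 Q hQ).2⟩)
    ((Nodup.ext ((PhiF F r).nodup.map_on fun x hx y hy h => by rw [← (h3 x hx).2, h, (h3 y hy).2])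
      (PhiF F r).nodup).2 fun Q => ⟨fun h => by obtain ⟨R, hR, rfl⟩ := mem_map.1 h; exact (h3 R hR).1,
        fun h => mem_map.2 ⟨_, (h3 Q h).1, (h3 Q h).2⟩⟩)
  have h4 := congrArg card hu
  rw [Finset.card_val, A.card_phi, card_add, card_map, Nat.div_one] at h4
  obtain ⟨t, h5, rfl⟩ := exists_le_card (s := u) (k := k) (by omega)
  have h6 : t + t.map (dualP (RingHom.id F)) ≤ (PhiF F r).val := hu ▸ add_le_add h5 (map_le_map h5)
  obtain ⟨g, h7, h8, -⟩ := A.exists_g hS (fun Q hQ => mem_of_le h6 hQ) (map_self A.hb hb fun Q hQ => mem_of_le h6 hQ)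
    (by simp; omega)
  refine ⟨g, h7, ?_, h8 ▸ nodup_of_le h6 (PhiF F r).nodup, by simp [h8, two_mul]⟩
  obtain ⟨a, h9⟩ := ED_eq_nED (iE g)
  have h10 := ((dl_iff_ED (σ := RingHom.id F) (fun _ => rfl) (isUnit_iE g)).2 (by
    rw [h9, h8, Multiset.map_add, Multiset.map_add, map_replicate, dualP_X_sub_one, Multiset.map_map, add_comm t,
      map_congr (f := dualP _ ∘ dualP _) (g := id) rfl fun Q hQ => (h3 Q (mem_of_le h6 (by simp [hQ]))).2, Multiset.map_id])).det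
    fun _ => rfl
  obtain ⟨j, hj⟩ := A.odd
  have h11 : LinearMap.det (iE g) ^ r = 1 := by rw [← map_pow, ← iE_pow, h7, iE_one, map_one]
  rwa [hj, pow_succ, pow_mul, sq, (RingHom.id_apply _ ▸ h10 :), one_pow, one_mul] at h11

/-- `f` permutes the members of a polar pair -/
def Pr (S : PForm P V) (f : End F V) : Prop :=
  ∃ A B, S.Polar A B ∧ ((A.map f = A ∧ B.map f = B) ∨ (A.map f = B ∧ B.map f = A))

omit [FiniteDimensional F V] in
theorem Pr.smul (f : End F V) (c : F) (hc : c ≠ 0) (h : Pr S f) : Pr S (c • f) := by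
  simpa only [Pr, Submodule.map_smul _ _ _ hc] using h

theorem pr_of {g : S.Isom} {A B : Submodule F V} (h : S.Polar A B) (h1 : A.map (iE g) ≤ A) (h2 : B.map (iE g) ≤ B) :
    Pr S (iE g) := ⟨A, B, h, .inl ⟨Submodule.eq_of_le_of_finrank_eq h1 (LinearEquiv.finrank_map_eq g.1 _),
      Submodule.eq_of_le_of_finrank_eq h2 (LinearEquiv.finrank_map_eq g.1 _)⟩⟩

theorem Hm.polar' [Finite F] (H : Hm P δ) {U : Submodule F V} (hU : (S.restrict U).Nondeg) (h : finrank F U % 2 = 0) :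
    ∃ A B : Submodule F V, S.TS A ∧ S.TS B ∧ 2 * finrank F A = finrank F U ∧ 2 * finrank F B = finrank F U ∧
      A ⊔ B = U ∧ A ≤ U ∧ B ≤ U := by
  obtain ⟨A, B, h1, h2, h3, h4, h5⟩ := H.polar hU (k := finrank F U / 2) (by omega)
  exact ⟨_, _, ts_map (isIsom_subtype U) h1, ts_map (isIsom_subtype U) h2,
    by rw [Submodule.finrank_map_subtype_eq]; omega, by rw [Submodule.finrank_map_subtype_eq]; omega,
    by rw [← Submodule.map_sup, Submodule.eq_top_of_finrank_eq (S := A ⊔ B) (by rw [finrank_sup h3]; omega),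
      Submodule.map_subtype_top], Submodule.map_subtype_le _ _, Submodule.map_subtype_le _ _⟩

section Conj
variable {ι : Type} [Fintype ι] [DecidableEq ι] {S : PForm P (ι → F)}

theorem mE_toGL (g : S.Isom) : mE (H29.toGL S g).1 = iE g := H29.toLin'_toGL S g

theorem conj_all {K : Subgroup S.Isom} {G M : Subgroup (GL ι F)} (hG : G = K.map (H29.toGL S)) {r : ℕ} :
    (∀ x ∈ G, (∃ z : F, (x ^ r).1 = z • (1 : Matrix ι ι F)) → (∀ z : F, x.1 ≠ z • (1 : Matrix ι ι F)) →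
      ∃ g ∈ G, g⁻¹ * x * g ∈ M) ↔ ∀ x ∈ K, (∃ z : F, iE x ^ r = z • 1) → (∀ z : F, iE x ≠ z • 1) →
        ∃ g ∈ K, g⁻¹ * x * g ∈ M.comap (H29.toGL S) := by
  subst hG
  simp only [Subgroup.mem_map, forall_exists_index, and_imp, forall_apply_eq_imp_iff₂, exists_exists_and_eq_and,
    ← mE_toGL, ← mE_one, ← mE_smul, ← mE_pow, mE_inj, Ne, Subgroup.mem_comap, map_mul, map_inv, Units.val_pow_eq_pow_val]

theorem su_eq' {hσ : ∀ a, σ (σ a) = a} {hne : σ ≠ RingHom.id F} {q : ℕ} (hq : ∀ x, σ x = x ^ q) {n : ℕ} :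
    Cfsg.GU n F q ⊓ Cfsg.Geo.specialLinear (Fin n) F =
      (stdUnit hσ hne (Fin n)).SIsom.map (H29.toGL (stdUnit hσ hne (Fin n))) := by
  ext g
  constructor
  · rintro ⟨h1, h2⟩
    exact ⟨guEquiv hσ hne hq n ⟨g, h1⟩, (det_guEquiv hσ hne hq n _).trans h2, glEquiv.symm_apply_apply g⟩
  · rintro ⟨g, h1, rfl⟩
    exact ⟨((guEquiv hσ hne hq n).symm g).2, (H29.det_toGL _ g).trans h1⟩

theorem su_all {hσ : ∀ a, σ (σ a) = a} {hne : σ ≠ RingHom.id F} {q : ℕ} (hq : ∀ x, σ x = x ^ q) {n r : ℕ}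
    {Φ : End F (Fin n → F) → Prop} : (∀ x : Matrix.SpecialLinearGroup (Fin n) F, x ∈ Cfsg.SU n F q →
      (∃ z : F, (x ^ r).1 = z • (1 : Matrix _ _ F)) → (∀ z : F, x.1 ≠ z • (1 : Matrix _ _ F)) → Φ (Matrix.toLin' x.1)) ↔
    UA (stdUnit hσ hne (Fin n)) r Φ := by
  have h : UA (stdUnit hσ hne (Fin n)) r Φ ↔ ∀ g : (stdUnit hσ hne (Fin n)).SIsom, (∃ z : F, iE g.1 ^ r = z • 1) →
      (∀ z : F, iE g.1 ≠ z • 1) → Φ (iE g.1) := by
    simp only [UA, Subtype.forall, SIsom, MonoidHom.mem_ker, det_iE, Units.val_eq_one]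
  rw [h, (suEquiv hσ hne hq n).surjective.forall, Subtype.forall]
  refine forall₂_congr fun x _ => ?_
  simp only [iE_suEquiv, ← mE_one, ← mE_smul, ← mE_pow, mE_inj, Ne]
  rfl

end Conj

section Unit
variable [Finite F] {hσ : ∀ a, σ (σ a) = a} (hne : σ ≠ RingHom.id F) {S : PForm (unitP σ hσ) V} {q : ℕ}
  (hF : Nat.card F = q ^ 2)
include hne hF

omit hne in
theorem two_le_q : 2 ≤ q := by
  have : 1 < Nat.card F := Finite.one_lt_card
  by_contra h
  interval_cases q <;> simp_all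

/-- the part of the order of `GU n q` prime to `q` -/
def uO (q n : ℕ) : ℕ := ∏ i ∈ Finset.range n, (if Even i then q ^ (i + 1) + 1 else q ^ (i + 1) - 1)

omit hne hF in
theorem dvd_term {r q j : ℕ} (hq : 0 < q) :
    (r ∣ if Even j then q ^ (j + 1) + 1 else q ^ (j + 1) - 1) ↔ (-q : ZMod r) ^ (j + 1) = 1 := by
  rw [← ZMod.natCast_eq_zero_iff]
  split_ifs with h
  · simp [h.add_one.neg_pow, add_eq_zero_iff_eq_neg, neg_eq_iff_eq_neg]
  · simp [Nat.cast_sub (Nat.one_le_pow _ _ hq), (Nat.not_even_iff_odd.1 h).add_one.neg_pow, sub_eq_zero]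

omit hne hF in
theorem c_dvd {r : ℕ} (hr : r.Prime) (hr2 : r ≠ 2) {x : ZMod r} {i c j : ℕ} (hi : i = orderOf x)
    (hc : c = if i % 4 = 0 then i else if i % 4 = 2 then i / 2 else 2 * i) (h : (-x) ^ j = 1) :
    c ∣ j ∧ (Odd j → i % 4 = 2) := by
  have := Fact.mk hr
  rcases Nat.even_or_odd j with h1 | h1
  · have h2 : i ∣ j := hi ▸ orderOf_dvd_of_pow_eq_one (by rwa [h1.neg_pow] at h)
    refine ⟨?_, fun h => absurd h1 (by simpa)⟩
    rw [hc]
    split_ifs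
    exacts [h2, (Nat.div_dvd_of_dvd (by omega)).trans h2,
      Nat.Coprime.mul_dvd_of_dvd_of_dvd (Nat.coprime_two_left.2 (Nat.odd_iff.2 (by omega))) h1.two_dvd h2]
  rw [h1.neg_pow, neg_eq_iff_eq_neg] at h
  obtain ⟨k, hk⟩ : i ∣ j * 2 := hi ▸ orderOf_dvd_of_pow_eq_one (by simp [pow_mul, h])
  have h3 : ¬ i ∣ j := fun h3 => by
    rw [hi, orderOf_dvd_iff_pow_eq_one, h] at h3
    exact natCast_ne_zero_of_prime (F := ZMod r) r Nat.prime_two hr2.symm (by push_cast; linear_combination -h3)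
  have h4 : ¬ 2 ∣ k := by rintro ⟨k, rfl⟩; exact h3 ⟨k, by linarith⟩
  obtain ⟨l, rfl⟩ := (Nat.prime_two.dvd_mul.1 ⟨j, by rw [← hk, mul_comm]⟩ : 2 ∣ i ∨ _).resolve_right h4
  obtain rfl : j = l * k := by linarith
  have := Nat.odd_iff.1 (Nat.odd_mul.1 h1).1
  have h5 : 2 * l % 4 = 2 := by omega
  simp [hc, h5]

theorem ar_unit (p : ℕ) [hp : Fact p.Prime] [CharP F p] (hq : ∀ x, σ x = x ^ q) {r : ℕ} (hr : r.Prime) (hr2 : r ≠ 2)
    (hrp : r ≠ p) {i b c : ℕ} (hi : i = orderOf (q : ZMod r)) (hb : b = if Even i then i / 2 else i)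
    (hc : c = if i % 4 = 0 then i else if i % 4 = 2 then i / 2 else 2 * i) : Ar (unitP σ hσ) 1 r b c (i % 4 = 2) := by
  have h0 := natCast_ne_zero_of_prime (F := F) p hr hrp
  have h1 : orderOf (Nat.card F : ZMod r) = i / i.gcd 2 := by rw [hF, Nat.cast_pow, orderOf_pow' _ two_ne_zero, hi]
  have h2 : i ≠ 0 := fun h => orderOf_card_ne_zero hr h0 (by simp [h1, h])
  have hq2 := two_le_q hF
  refine ⟨hm_unit hne, hr, hr2, h0, ?_, fun Q hQ => ?_, fun h => ?_, fun h => ?_, one_dvd _, ?_⟩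
  · rw [h1, hb]
    split_ifs with h
    · rw [Nat.gcd_eq_right h.two_dvd]
    · simp [(Nat.coprime_two_right.2 (Nat.not_even_iff_odd.1 h)).gcd_eq_one]
  · have := Fintype.ofFinite F
    obtain ⟨k, -, hk⟩ := FiniteField.card F p
    obtain ⟨e, -, rfl⟩ := (Nat.dvd_prime_pow hp.out).1 (show q ∣ p ^ k.1 from
      hk ▸ Nat.card_eq_fintype_card (α := F) ▸ hF ▸ dvd_pow_self _ two_ne_zero)
    rw [dualP_eq_self_iff hσ p hq hr h0 hQ, hF, Nat.cast_pow, exists_pow_eq_neg_iff hr hr2 (hi ▸ h2), hi]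
  · simp [hc, hb, h, show Even i from Nat.even_iff.2 (by have := h; omega)]
  · rw [hc, hb]
    simp only [Nat.even_iff]
    split_ifs <;> omega
  intro V W _ _ _ _ _ _ S T hS hT h N h3 h4
  rw [unit_card_Isom hne hF _ hS rfl, unit_card_Isom hne hF _ hT rfl, guOrd, guOrd,
    ← Finset.prod_range_mul_prod_Ico _ h, ← mul_assoc, mul_left_comm (q ^ _), mul_comm (N * _)] at h4
  obtain ⟨j, h5, h6⟩ := (Prime.dvd_finset_prod_iff hr.prime _).1 ((hr.dvd_mul.1 ((h3.mul_right _).trans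
    (Nat.dvd_of_mul_dvd_mul_left (Nat.pos_of_mul_pos_left (guOrd_pos hq2 _)) h4))).resolve_left fun h =>
      hrp ((dvd_card_iff (F := F) p hr).1 (hF ▸ dvd_pow (hr.dvd_of_dvd_pow h) two_ne_zero)))
  rw [Finset.mem_Ico] at h5
  exact ⟨j + 1, by omega, by omega, (c_dvd hr hr2 hi hc ((dvd_term (by omega)).1 h6)).1⟩

omit hne hF in
theorem not_dvd_uO {r : ℕ} (hr : r.Prime) (hq : 0 < q) (h : r ∣ q) (n : ℕ) : ¬ r ∣ uO q n := fun h1 => by
  have := Fact.mk hr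
  obtain ⟨j, -, h2⟩ := (Prime.dvd_finset_prod_iff hr.prime _).1 h1
  simpa [(ZMod.natCast_eq_zero_iff _ _).2 h] using (dvd_term hq).1 h2

theorem unit_ts_card (hS : S.Nondeg) {m r : ℕ} (hm : 2 * m ≤ finrank F V) (hr : r.Prime) (h : r ∣ q) :
    ¬ r ∣ Nat.card {U : Submodule F V // finrank F U = m ∧ S.TS U} := fun hΩ => by
  obtain ⟨U, hU, rfl⟩ := ((hm_unit hne).ts_iff hS).2 hm
  have h1 := hS.card_TS_mul_card_stab hU
  have hq : 0 < q := by have := two_le_q hF; omega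
  have h2 := prod_sub_mul (q ^ 2) (le_refl (finrank F U))
  rw [Nat.sub_self, show gO (q ^ 2) 0 = 1 from rfl, mul_one] at h2
  rw [hU.unit_card_stab hne hS hF rfl rfl, unit_card_Isom hne hF _ hS rfl, h2, guOrd, guOrd, ← Nat.choose_two_right,
    ← Nat.choose_two_right] at h1
  obtain ⟨l, hl⟩ := Nat.exists_eq_add_of_le hm
  rw [hl] at h1
  generalize finrank F U = k at *
  have h3 : (2 * k + l).choose 2 = k * (k + 2 * l) + 2 * k.choose 2 + l.choose 2 := by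
    linarith [ch2 k, ch2 l, ch2 (2 * k + l)]
  refine not_dvd_uO hr hq h (2 * k + l) (hΩ.trans ⟨gO (q ^ 2) k * uO q l,
    Nat.eq_of_mul_eq_mul_left (pow_pos hq ((2 * k + l).choose 2)) ?_⟩)
  rw [uO, ← h1, h3, Nat.add_sub_cancel_left, show 2 * (2 * k + l) - 3 * k = k + 2 * l by omega, uO]
  ring

omit hne hF in
theorem ord_two {r : ℕ} (hr : r.Prime) (hr2 : r ≠ 2) : orderOf (q : ZMod r) = 2 ↔ r ∣ q + 1 := by
  have := Fact.mk hr
  have h1 : (-1 : ZMod r) ≠ 1 := fun h =>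
    natCast_ne_zero_of_prime (F := ZMod r) r Nat.prime_two hr2.symm (by push_cast; linear_combination -h)
  rw [← ZMod.natCast_eq_zero_iff, orderOf_eq_prime_iff, sq_eq_one_iff, Nat.cast_succ, add_eq_zero_iff_eq_neg]
  exact ⟨fun h => h.1.resolve_left h.2, fun h => ⟨.inr h, h ▸ h1⟩⟩

omit hF in
theorem exists_unit_isom (hS : S.Nondeg) {f : End F V} (h : Dl σ f) : ∃ g : S.Isom, Sim f (iE g) := by
  obtain ⟨T, hT, k, rfl⟩ := h.unit_exists hσ hne
  obtain ⟨g, hg⟩ := (hm_unit hne).transport hS hT rfl k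
  exact ⟨g, hg.sim⟩

theorem unit_one (hq : ∀ x, σ x = x ^ q) (hS : S.Nondeg) {r : ℕ} [hr : Fact r.Prime] (hr2 : r ≠ 2) (h : r ∣ q + 1)
    (hV : 0 < finrank F V) {Φ : End F V → Prop} (hΦ : ∀ f (c : F), c ≠ 0 → Φ f → Φ (c • f)) {A B : Prop}
    (hA : A → ∀ g : S.Isom, g ^ r = 1 → g ≠ 1 → Φ (iE g)) (hA' : UA S r Φ → A)
    (hB : ∀ (g : S.Isom) (z : F), Irreducible (X ^ r - C z) → iE g ^ r = z • 1 → σ z * z = 1 → (Φ (iE g) ↔ B)) :
    UA S r Φ ↔ A ∧ (B ∨ padicValNat r (finrank F V) ≤ padicValNat r (q + 1)) := by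
  obtain ⟨j, hj⟩ := hr.out.odd_of_ne_two hr2
  have h1 : ∀ z : normOne σ, (∀ c, c ^ r ≠ z) → Irreducible (X ^ r - C (z.1 : F)) := fun z hz =>
    X_pow_sub_C_irreducible_of_prime hr.out fun c hc => by
      have h2 : (σ c * c) ^ r = 1 := by rw [mul_pow, ← map_pow, hc]; exact z.2
      have h3 : (σ c * c) ^ 2 = 1 := by
        obtain ⟨l, hl⟩ := h
        have : σ (σ c * c) * (σ c * c) = 1 := by rw [hq (_ * _), ← pow_succ, hl, pow_mul, h2, one_pow]
        rwa [map_mul, hσ, mul_comm c, ← sq] at this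
      rw [hj, pow_succ, pow_mul, h3, one_pow, one_mul] at h2
      exact hz ⟨Units.mk0 c (right_ne_zero_of_mul_eq_one h2), h2⟩ (Subtype.ext (Units.ext hc))
  have h2 : ∀ s, s * r = finrank F V → ((∃ w : normOne σ, (∀ c, c ^ r ≠ w) ∧ w ^ s = 1) ↔
      ¬ padicValNat r (finrank F V) ≤ padicValNat r (q + 1)) := fun s hs => by
    have : s ≠ 0 := by rintro rfl; omega
    rw [cyc_iff (card_normOne_unit hσ hne hF ▸ h) this, card_normOne_unit hσ hne hF, ← hs,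
      padicValNat.mul this hr.out.ne_zero, padicValNat_self]
    omega
  have h3 : ∀ z : F, (-1) ^ (r + 1) * z = z := fun z => by rw [(Odd.add_one ⟨j, hj⟩).neg_one_pow, one_mul]
  refine ⟨fun H => ⟨hA' H, or_iff_not_imp_right.2 fun h4 => ?_⟩, fun ⟨a, b⟩ =>
    su_of hS hΦ (fun g _ h4 _ => hA a g h4) fun g z h4 h5 h6 => (hB g _ (h1 z h4) h5 z.2).2 (b.resolve_right ?_)⟩
  · obtain ⟨s, hs⟩ := dvd_of_one_le_padicValNat (show 1 ≤ padicValNat r (finrank F V) by omega)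
    rw [mul_comm] at hs
    obtain ⟨z, h5, h6⟩ := (h2 s hs.symm).2 h4
    obtain ⟨f, h7, h8⟩ := exists_irr (V := V) hr.out.two_le (h1 z h5) (Nat.pos_of_mul_pos_right (hs ▸ hV)) hs.symm
    obtain ⟨g, hg⟩ := exists_unit_isom hne hS (irr_dl hr.out.two_le hσ (h1 z h5) z.2 h7)
    obtain ⟨-, s', -, h9, -, h10⟩ := irr_spec hr.out.ne_zero (h1 z h5) (sim_pow hg h7)
    obtain rfl := Nat.eq_of_mul_eq_mul_right hr.out.pos (h9.trans hs)
    exact (hB g _ (h1 z h5) (sim_pow hg h7) z.2).1 (H g (by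
      rw [h10, h3]; simpa using congrArg (fun x : normOne σ => (x.1 : F)) h6) ⟨_, sim_pow hg h7⟩ (sim_ns hg h8))
  · obtain ⟨-, s, -, h9, -, h10⟩ := irr_spec hr.out.ne_zero (h1 z h4) h5
    exact (h2 s h9).1 ⟨z, h4, Subtype.ext (Units.ext (by simpa [h3, h6] using h10.symm))⟩

omit hne hF in
theorem ns_of_two {P : FParam σ} {S : PForm P V} {g : S.Isom} (h1 : (nED (iE g)).Nodup) (h2 : 2 ≤ (nED (iE g)).card)
    (z : F) : iE g ≠ z • 1 := by
  classical
  obtain ⟨Q, hQ, R, hR, h⟩ := Finset.one_lt_card.1 (show 1 < (⟨_, h1⟩ : Finset F[X]).card from h2)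
  exact not_scalar_of_two (mem_filter.1 hQ).1 (mem_filter.1 hR).1 h z

omit hne hF in
theorem Ar.ts_nec {P : FParam σ} {S : PForm P V} {r c : ℕ} {b : Prop} (A : Ar P δ r 1 c b) (hb : b) (hS : S.Nondeg)
    {m : ℕ} (h0 : 0 < m) (hm : 2 * m ≤ finrank F V)
    (h : UA S r fun f => ∃ U : Submodule F V, finrank F U = m ∧ S.TS U ∧ U.map f ≤ U) :
    r - 1 + 2 * m ≤ finrank F V := by
  by_contra h1
  obtain ⟨j, hj⟩ := A.odd
  obtain ⟨g, h2, h3, h4, h5⟩ := A.exists_inv hb hS (k := (finrank F V - 2 * m) / 2 + 1) (by omega) (by omega)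
  obtain ⟨k1, k2, -, k4, -⟩ := A.spec hS h2
  obtain ⟨e, s, h6, h7, h8⟩ := (ts_iff hS A.odd A.h0 h2).1 (h g h3 ⟨_, pow_one' h2⟩ (ns_of_two h4 (by omega)))
  rw [map_self A.hb hb fun Q hQ => k2 Q (mem_of_le h7 (by simp [hQ]))] at h7
  rw [le_zero.1 (le_of_two (s := s) (u := 0) h4 (by simpa using h7))] at h8
  rw [A.dg_eq k2] at k4
  have := (A.hm.ts_iff (nd_fix hS k1)).1 h6
  simp at h8
  omega

omit hF in
theorem exists_refl (hS : S.Nondeg) (h2 : (2 : F) ≠ 0) (hV : 0 < finrank F V) :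
    ∃ g : S.Isom, g ^ 2 = 1 ∧ finrank F (res g) = 1 ∧ LinearMap.det (iE g) = -1 := by
  have := nontrivial_of_finrank_pos hV
  obtain ⟨v, hv⟩ := hS.unit_exists_h_ne hne
  obtain ⟨g, h3, h4, h5⟩ := exists_det_eq_of_ne hv ⟨-1, by simp [mem_normOne]⟩
  have h6 : g ^ 2 = 1 := isom_ext_perp (nondeg_singleton hv) (fun x hx => by
    obtain ⟨a, rfl⟩ := Submodule.mem_span_singleton.1 hx
    simp [sq, h5]) fun x hx => by simp [sq, h3 x hx]
  have h7 := det_two (ED_inv hS h2 h6)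
  have h8 := Submodule.finrank_mono (show _ ≤ fixSp g from h3)
  have h9 := finrank_perp_singleton hv
  have h10 := finrank_fix hS g
  rw [det_iE, h4] at h7
  refine ⟨g, h6, not_ne_iff.1 fun h => h2 ?_, by rw [det_iE, h4]; rfl⟩
  simp [show finrank F (res g) = 0 by omega] at h7
  linear_combination -h7

section Two
variable (h2 : (2 : F) ≠ 0)
include h2

omit hne in
theorem odd_q : q % 2 = 1 := by
  have := (two_eq_zero_iff_pow (F := F) le_rfl).not.1 h2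
  rw [pow_one, hF, Nat.pow_mod] at this
  rcases Nat.mod_two_eq_zero_or_one q with h | h <;> simp_all

omit hne in
theorem exists_mu (hq : ∀ x, σ x = x ^ q) {z : normOne σ} (hz : ∀ c, c ^ 2 ≠ z) : ∃ μ : F, μ ^ 2 = z.1 ∧ σ μ * μ = -1 := by
  have := Fintype.ofFinite F
  obtain ⟨k, hk⟩ := Nat.odd_iff.2 (odd_q hF h2)
  have h3 : σ z.1 * z.1 = 1 := z.2
  obtain ⟨μ, hμ⟩ := (FiniteField.isSquare_iff (fun h => h2 (by exact_mod_cast h ▸ ringChar.Nat.cast_ringChar))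
    z.1.ne_zero).2 (by
      rw [← Nat.card_eq_fintype_card, hF, show q ^ 2 / 2 = (q + 1) * k by rw [hk]; ring_nf; omega, pow_mul, pow_succ,
        ← hq, h3, one_pow])
  refine ⟨μ, by rw [hμ, sq], (sq_eq_one_iff.1 ?_).resolve_left fun h => hz
    ⟨Units.mk0 μ (right_ne_zero_of_mul_eq_one h), h⟩ (Subtype.ext (Units.ext (by simp [hμ, sq])))⟩
  rw [← h3, hμ, map_mul]; ring

include hσ in
theorem neg_iff' {n : ℕ} (hn : n ≠ 0) :
    (∃ c : normOne σ, (c.1 : F) ^ n = -1) ↔ ¬ padicValNat 2 (q + 1) ≤ padicValNat 2 n := by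
  rw [← card_normOne_unit hσ hne hF, neg_iff h2 hn (by rw [card_normOne_unit hσ hne hF]; have := odd_q hF h2; omega)]

omit hF in
theorem even_res (hS : S.Nondeg) {g : S.Isom} (h : g ^ 2 = 1) {c : normOne σ}
    (h3 : (c.1 : F) ^ finrank F V * LinearMap.det (iE g) = 1) (h4 : ¬ ∃ c : normOne σ, (c.1 : F) ^ finrank F V = -1) :
    finrank F (res g) % 2 = 0 := by
  refine Nat.even_iff.1 (Nat.not_odd_iff_even.1 fun h5 => h4 ⟨c, ?_⟩)
  rw [det_two (ED_inv hS h2 h), h5.neg_one_pow] at h3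
  linear_combination -h3

theorem unit_ts_two (hq : ∀ x, σ x = x ^ q) (hS : S.Nondeg) {m : ℕ} (h0 : 0 < m) (hm : 2 * m ≤ finrank F V) :
    (UA S 2 fun f => ∃ U : Submodule F V, finrank F U = m ∧ S.TS U ∧ U.map f ≤ U) ↔
      2 * m < finrank F V ∨ padicValNat 2 (q + 1) ≤ padicValNat 2 (finrank F V) := by
  have hΦ := fun (f : End F V) (c : F) (_ : c ≠ 0)
    (⟨U, h, h', h3⟩ : ∃ U : Submodule F V, finrank F U = m ∧ S.TS U ∧ U.map f ≤ U) =>
    (⟨U, h, h', map_smul_le c h3⟩ : ∃ U : Submodule F V, finrank F U = m ∧ S.TS U ∧ U.map (c • f) ≤ U)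
  have h3 := neg_iff' hne hF h2 (hσ := hσ) (show finrank F V ≠ 0 by omega)
  refine ⟨fun h => or_iff_not_imp_right.2 fun h4 => ?_, fun h => su_of hS hΦ (fun g c h4 h5 _ => ?_) fun g z h4 h5 _ => ?_⟩
  · obtain ⟨c, hc⟩ := h3.2 h4
    obtain ⟨g, h5, h6, h7⟩ := exists_refl hne hS h2 (by omega)
    have h8 := finrank_fix hS g
    have := ((hm_unit hne).ts_inv hS h2 (by simpa using pow_one' h5)).1 (h.scal hΦ h5 c (by simp [hc, h7])
      (ns_two (ED_inv hS h2 h5) (by omega) (by omega) fun h => h2 (by linear_combination h)))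
    omega
  · have h8 := finrank_fix hS g
    refine ((hm_unit hne).ts_inv hS h2 (by simpa using pow_one' h4)).2 ?_
    rcases h with h | h
    · omega
    · have := even_res hne h2 hS h4 h5 (h3.not.2 (not_not.2 h))
      omega
  · obtain ⟨μ, h6, h7⟩ := exists_mu hF h2 hq h4
    exact eig_ts hS (h6 ▸ h5) h2 h7 hm

include hσ in
theorem bad_two (hq : ∀ x, σ x = x ^ q) {k : ℕ} (hk : k ≠ 0) : (∃ μ : F, σ μ * μ = -1 ∧ μ ^ k * (-μ) ^ k = 1) ↔
    ¬ (padicValNat 2 (2 * k) ≤ padicValNat 2 (q + 1) ∧ q % 4 = 3) := by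
  have h3 := odd_q hF h2
  have h4 := cyc_iff (G := normOne σ) (r := 2) (by rw [card_normOne_unit hσ hne hF]; omega) hk
  have h5 : (∃ c : normOne σ, (c.1 : F) ^ 2 = -1) ↔ q % 4 = 3 := by
    rw [neg_iff' hne hF h2 (hσ := hσ) two_ne_zero, padicValNat_self, not_le, ← Nat.succ_le_iff,
      ← padicValNat_dvd_iff_le (by omega)]
    change 4 ∣ _ ↔ _
    omega
  rw [card_normOne_unit hσ hne hF] at h4
  rw [padicValNat.mul two_ne_zero hk, padicValNat_self]
  let m : normOne σ := ⟨-1, by simp [mem_normOne]⟩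
  constructor
  · rintro ⟨μ, h6, h7⟩ ⟨h8, h9⟩
    obtain ⟨d, hd⟩ := h5.2 h9
    have h10 : σ (-μ ^ 2) * -μ ^ 2 = 1 := by simp only [map_neg, map_pow]; linear_combination (σ μ * μ - 1) * h6
    have := h4.1 ⟨⟨Units.mk0 _ (right_ne_zero_of_mul_eq_one h10), h10⟩, fun c hc => h2 (by
      have h11 : μ ^ 2 = ((d * c).1 : F) ^ 2 := by
        have : (c.1 : F) ^ 2 = -μ ^ 2 := by simpa using congrArg (fun x : normOne σ => (x.1 : F)) hc
        simp [mul_pow, hd, this]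
      have h12 : σ (d * c).1 * (d * c).1 = 1 := (d * c).2
      rcases sq_eq_sq_iff_eq_or_eq_neg.1 h11 with rfl | rfl
      · linear_combination h6 - h12
      · rw [map_neg] at h6; linear_combination h6 - h12), Subtype.ext (Units.ext (by simpa [← mul_pow, sq] using h7))⟩
    omega
  · intro h
    obtain ⟨w, h6, h7⟩ : ∃ w : normOne σ, (∀ c, c ^ 2 ≠ m * w) ∧ w ^ k = 1 := by
      by_cases h8 : q % 4 = 3
      · obtain ⟨d, hd⟩ := h5.2 h8
        obtain ⟨w, h6, h7⟩ := h4.2 (by omega)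
        exact ⟨w, fun c hc => h6 (d * c) (Subtype.ext (Units.ext (by
          have : (c.1 : F) ^ 2 = -w.1 := by simpa [m] using congrArg (fun x : normOne σ => (x.1 : F)) hc
          simp [mul_pow, hd, this]))), h7⟩
      · exact ⟨1, fun c hc => h8 (h5.1 ⟨c, by simpa [m] using congrArg (fun x : normOne σ => (x.1 : F)) hc⟩), one_pow k⟩
    obtain ⟨μ, h8, h9⟩ := exists_mu hF h2 hq h6
    refine ⟨μ, h9, ?_⟩
    rw [← mul_pow, mul_neg, ← sq, h8]
    simpa [m] using congrArg (fun x : normOne σ => (x.1 : F)) h7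

theorem unit_nd_two (hq : ∀ x, σ x = x ^ q) (hS : S.Nondeg) {m : ℕ} (h0 : 0 < finrank F V) (hm : m ≤ finrank F V) :
    (UA S 2 fun f => ∃ U : Submodule F V, finrank F U = m ∧ (S.restrict U).Nondeg ∧ U.map f ≤ U) ↔
      Odd (finrank F V) ∨ Even m ∨ (padicValNat 2 (finrank F V) ≤ padicValNat 2 (q + 1) ∧ q % 4 = 3) := by
  refine ⟨fun h => ?_, fun h => su_of hS (fun f c _ ⟨U, h, h', h3⟩ => ⟨U, h, h', map_smul_le c h3⟩)
    (fun g c h4 _ _ => ?_) fun g z h4 h5 h6 => ?_⟩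
  · by_contra h3
    simp only [not_or, Nat.not_odd_iff_even] at h3
    obtain ⟨k, hk⟩ := h3.1.two_dvd
    obtain ⟨μ, h4, h5⟩ := (bad_two hne hF h2 (hσ := hσ) hq (by omega)).2 (hk ▸ h3.2.2)
    obtain ⟨g, hg⟩ := exists_eig (hm_unit hne) hS h4 hk
    obtain ⟨k', h6, h7⟩ := ED_eig hS hg h2 h4
    obtain rfl : k' = k := by omega
    obtain ⟨U, rfl, h8, h9⟩ := h g ((det_two h7).trans h5) ⟨_, hg⟩ (ns_two h7 (by omega) (by omega) fun h => by
        have : μ = 0 := (mul_eq_zero.1 (show 2 * μ = 0 by linear_combination h)).resolve_left h2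
        simp [this] at h4)
    obtain ⟨l, h10, -⟩ := ED_eig h8 (g := rst g U (map_le_iff.1 h9)) (LinearMap.ext fun x => Subtype.ext congr($hg x))
      h2 h4
    exact h3.2.1 (h10 ▸ even_two_mul l)
  · have h5 : iE g ^ 2 = 1 := by simpa using pow_one' h4
    have hg : SS (iE g) := ss_of_pow_eq_one (m := 2) (by exact_mod_cast h2) h5
    have := finrank_fix hS g
    obtain ⟨A, a1, a2, a3⟩ := (hm_unit hne).nd' (nd_fix hS hg) (one_dvd _) (min_le_right m _)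
    obtain ⟨B, b1, b2, b3⟩ := (hm_unit hne).nd' (hS.nondeg_res hg) (one_dvd (m - finrank F (fixSp g))) (by omega)
    obtain ⟨h6, h7⟩ := nd_join a1 b1 (eig_inv (b1.trans (res_neg h5)))
    exact ⟨_, by rw [finrank_sup (disj_of_nd a2 h6)]; omega, nd_sup a2 b2 h6, h7⟩
  obtain ⟨μ, h7, h8⟩ := exists_mu hF h2 hq h4
  obtain ⟨k, h9, h10⟩ := ED_eig hS (h7 ▸ h5) h2 h8
  rcases h with h | ⟨j, rfl⟩ | h
  · exact absurd h (by simp [h9])
  · have h11 : (σ μ)⁻¹ = -μ := inv_eq_of_mul_eq_one_right (by linear_combination -h8)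
    have h12 : μ ≠ 0 := by rintro rfl; simp at h8
    refine ((rg_unit hne hS g).nd_iff hS).2 ⟨replicate j (X - C μ) + replicate j (X - C (-μ)), (add_le_add
      ((replicate_le_replicate _).2 (by omega)) ((replicate_le_replicate _).2 (by omega))).trans h10.ge, ?_, by simp [-map_neg]⟩
    rw [Multiset.map_add, map_replicate, map_replicate, dualP_X_sub_C h12, dualP_X_sub_C (neg_ne_zero.2 h12), map_neg σ,
      inv_neg, h11, neg_neg, add_comm]
  · exact absurd (h9 ▸ h) ((bad_two hne hF h2 (hσ := hσ) hq (by omega)).1 ⟨μ, h8, (det_two h10).symm.trans h6⟩)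

theorem unit_pair_two (hq : ∀ x, σ x = x ^ q) (hS : S.Nondeg) {k : ℕ} (h0 : 2 ≤ k) (hk : finrank F V = 2 * k) :
    UA S 2 (Pr S) ↔ padicValNat 2 (q + 1) ≤ padicValNat 2 (finrank F V) := by
  have h3 := neg_iff' hne hF h2 (hσ := hσ) (show finrank F V ≠ 0 by omega)
  refine ⟨fun h => not_not.1 fun h4 => ?_, fun h => su_of hS Pr.smul (fun g c h4 h5 _ => ?_) fun g z h4 h5 _ => ?_⟩
  · obtain ⟨c, hc⟩ := h3.2 h4
    obtain ⟨g, h5, h6, h7⟩ := exists_refl hne hS h2 (by omega)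
    have h8 := finrank_fix hS g
    have h9 := ED_inv hS h2 h5
    have h10 : (1 : F) ≠ -1 := fun h => h2 (by linear_combination h)
    obtain ⟨A, B, h11, h12⟩ := h.scal Pr.smul h5 c (by simp [hc, h7]) (ns_two h9 (by omega) (by omega) h10)
    rw [h6, add_comm] at h9
    exact no_pair' hS Nat.prime_two h5 (fun Q hQ => by
      rcases mem_add.1 (h9 ▸ hQ) with h | h <;> rw [eq_of_mem_replicate h, dualP_X_sub_C (by simp)] <;> simp)
      (h9.trans (by rw [replicate_one, singleton_add]))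
      (fun h => h10 (C_injective (sub_right_injective (eq_of_mem_replicate h))).symm) (by omega) h11 h12
  · have h8 := finrank_fix hS g
    have h6 := even_res hne h2 hS h4 h5 (h3.not.2 (not_not.2 h))
    have h5 : iE g ^ 2 = 1 := by simpa using pow_one' h4
    have hg : SS (iE g) := ss_of_pow_eq_one (m := 2) (by exact_mod_cast h2) h5
    obtain ⟨A, B, a1, a2, a3, a4, a5, a6, a7⟩ := (hm_unit hne).polar' (nd_fix hS hg) (by omega)
    obtain ⟨C, D, b1, b2, b3, b4, b5, b6, b7⟩ := (hm_unit hne).polar' (hS.nondeg_res hg) (by omega)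
    have e : ∀ {A C}, A ≤ fixSp g → C ≤ res g → _ := fun h h' => nd_join h h' (eig_inv (h'.trans (res_neg h5)))
    have c2 := Submodule.finrank_add_le_finrank_add_finrank A C
    have c3 := Submodule.finrank_add_le_finrank_add_finrank B D
    have c4 : A ⊔ C ⊔ (B ⊔ D) = ⊤ := by
      rw [sup_sup_sup_comm, a5, b5, sup_comm, ← hS.perp_res, (S.isCompl_perp (hS.nondeg_res hg)).sup_eq_top]
    have c5 := Submodule.finrank_sup_add_finrank_inf_eq (A ⊔ C) (B ⊔ D)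
    rw [c4, finrank_top] at c5
    exact pr_of ⟨ts_sup a1 b1 (e a6 b6).1, ts_sup a2 b2 (e a7 b7).1, disjoint_iff.2 (Submodule.finrank_eq_zero.1
      (by omega)), codisjoint_iff.2 c4⟩ (e a6 b6).2 (e a7 b7).2
  · obtain ⟨μ, h6, h7⟩ := exists_mu hF h2 hq h4
    exact pr_of (eig_polar (h6 ▸ h5) h2 h7) (eig_inv le_rfl) (eig_inv le_rfl)

end Two

omit hF in
theorem exists_unip (hS : S.Nondeg) {μ : Multiset ℕ} (h1 : ∀ k ∈ μ, 0 < k) (h2 : μ.sum = finrank F V) :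
    ∃ g : S.Isom, Unip (iE g) ∧ JT (iE g) = μ := by
  obtain ⟨f, h3, rfl⟩ := exists_JT h1 h2
  obtain ⟨g, hg⟩ := exists_unit_isom hne hS (h3.dl hσ)
  exact ⟨g, hg.unip h3, congrArg (Multiset.map _) (sim_iff_ED.1 hg).symm⟩

omit hF in
theorem unit_nd_unip (p : ℕ) [Fact p.Prime] [CharP F p] (hS : S.Nondeg) {m n : ℕ}
    (hn : finrank F V = n) (hm : m ≤ n) : (∀ g : S.Isom, g ^ p = 1 → g ≠ 1 →
      ∃ U : Submodule F V, finrank F U = m ∧ (S.restrict U).Nondeg ∧ U.map (iE g) ≤ U) ↔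
    ∀ μ : Multiset ℕ, (∀ a ∈ μ, 0 < a ∧ a ≤ p) → μ.sum = n → ∃ ν ≤ μ, ν.sum = m := by
  constructor
  · intro h μ h1 h4
    by_cases h5 : μ = replicate n 1
    · exact ⟨replicate m 1, h5 ▸ (replicate_le_replicate _).2 hm, by simp⟩
    obtain ⟨g, h6, rfl⟩ := exists_unip hne hS (fun k hk => (h1 k hk).1) (h4.trans hn.symm)
    obtain ⟨U, rfl, h9, h10⟩ := h g ((pow_char_iff p).2 ⟨h6, fun k hk => (h1 k hk).2⟩)
      (by rintro rfl; exact h5 (by rw [iE_one, JT_one, hn]))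
    exact ⟨_, jt_rst_le h9 (map_le_iff.1 h10), JT_sum _⟩
  · intro h g h1 _
    obtain ⟨h3, h4⟩ := (pow_char_iff p).1 h1
    obtain ⟨ν, h5, rfl⟩ := h _ (fun a ha => ⟨JT_pos ha, h4 a ha⟩) ((JT_sum _).trans hn)
    exact ((rg_unit hne hS g).nd_iff hS).2 ⟨ν.map fun k => (X - 1) ^ k, h3.ED_eq ▸ map_le_map h5,
      by simp [dualP_pow, dualP_X_sub_one], by simp [dg, natDegree_X_sub_one]⟩

omit hne hF in
theorem uO_two (q k : ℕ) : uO q (2 * k) = gO (q ^ 2) k * ∏ j ∈ Finset.range k, (q ^ (2 * j + 1) + 1) := by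
  induction k with
  | zero => rfl
  | succ k ih =>
    rw [mul_add, uO, Finset.prod_range_succ, Finset.prod_range_succ, ← uO, ih, gO_succ, Finset.prod_range_succ,
      if_pos (by simp), if_neg (by simp), ← pow_mul]
    ring_nf

theorem unit_pair (p : ℕ) [hp : Fact p.Prime] [CharP F p] (hq : ∀ x, σ x = x ^ q) (hS : S.Nondeg) {k : ℕ} (h0 : 2 ≤ k)
    (hk : finrank F V = 2 * k) {r : ℕ} (hr : r.Prime)
    (hΩ : r ∣ Nat.card {x : Submodule F V × Submodule F V // S.Polar x.1 x.2}) :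
    UA S r (Pr S) ↔ r = 2 ∧ Odd q ∧ padicValNat 2 (q + 1) ≤ padicValNat 2 (finrank F V) := by
  have hq2 := two_le_q hF
  have h1 : r ∣ q ↔ r = p := by rw [← dvd_card_iff (F := F) p hr, hF, hr.prime.dvd_pow_iff_dvd two_ne_zero]
  have h2 : ¬ r ∣ q + 1 → (Nat.card (normOne σ)).Coprime r := fun h =>
    card_normOne_unit hσ hne hF ▸ (hr.coprime_iff_not_dvd.2 h).symm
  by_cases hrp : r = p
  · refine iff_of_false (fun h => ?_) fun ⟨a, b, _⟩ => by have : 2 ∣ q := a ▸ h1.2 hrp; have := Nat.odd_iff.1 b; omega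
    subst hrp
    obtain ⟨g, h3, h4⟩ := exists_unip hne hS (μ := 2 ::ₘ replicate (2 * k - 2) 1)
      (by simp [mem_replicate]) (by simp; omega)
    have h5 : g ^ r = 1 := (pow_char_iff r).2 ⟨h3, by have := hr.two_le; simp [h4, mem_replicate]; omega⟩
    obtain ⟨A, B, h6, h7⟩ := (cop_su hS (h2 fun h => hr.one_lt.ne' (Nat.dvd_one.1 ((Nat.dvd_add_right (h1.2 rfl)).1 h)))
      Pr.smul).1 h g h5 (by
        rintro rfl
        have : 2 ∈ JT (iE (1 : S.Isom)) := by simp [h4]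
        simp [iE_one, JT_one, mem_replicate] at this)
    have h8 := h3.ED_eq
    rw [h4, map_cons, map_replicate] at h8
    exact no_pair' hS hr h5 (fun Q hQ => by
      obtain ⟨j, -, rfl⟩ := mem_map.1 (h3.ED_eq ▸ hQ); rw [dualP_pow, dualP_X_sub_one]) h8
      (fun h => by simpa [natDegree_X_sub_one] using congrArg natDegree (eq_of_mem_replicate h)) (by omega) h6 h7
  have h3 := natCast_ne_zero_of_prime (F := F) p hr hrp
  by_cases hr2 : r = 2
  · subst hr2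
    simp [unit_pair_two hne hF (by exact_mod_cast h3) hq hS h0 hk, Nat.odd_iff, odd_q hF (by exact_mod_cast h3)]
  refine iff_of_false (fun h => ?_) fun h => hr2 h.1
  obtain ⟨A, B, a1, a2, a3, a4, a5⟩ := (hm_unit hne).polar hS hk.ge
  have h6 := card_polar hS ⟨a1, a2, a3, codisjoint_iff.2 (Submodule.eq_top_of_finrank_eq (by
    rw [finrank_sup a3]; omega))⟩
  rw [unit_card_Isom hne hF _ hS hk, a4, hF, guOrd, ← uO, uO_two, ← mul_assoc, mul_left_comm (q ^ _),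
    mul_comm (_ * _)] at h6
  obtain ⟨j, h7, h8⟩ := (Prime.dvd_finset_prod_iff hr.prime _).1 ((hr.dvd_mul.1 ((hΩ.mul_right _).trans
    (Nat.eq_of_mul_eq_mul_left (gO_pos (Nat.one_lt_pow two_ne_zero hq2) _) h6).dvd)).resolve_left fun h =>
      hrp (h1.1 (hr.dvd_of_dvd_pow h)))
  obtain ⟨h9, h10⟩ := c_dvd (x := (q : ZMod r)) hr hr2 rfl rfl ((dvd_term (q := q) (j := 2 * j) (by omega)).1 (by simpa using h8))
  have A := ar_unit hne hF (hσ := hσ) p hq hr hr2 hrp rfl rfl rfl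
  have hb := h10 (by simp)
  suffices ∃ g : S.Isom, g ^ r = 1 ∧ g ≠ 1 ∧ (nED (iE g)).Nodup ∧ Pr S (iE g) by
    obtain ⟨g, k1, k2, k3, U, W, k4, k5⟩ := this
    exact A.no_pair hb hS k1 k3 k2 one_ne_zero k4 (by simpa using k5)
  by_cases h11 : r ∣ q + 1
  · rw [(ord_two hr hr2).2 h11] at A
    obtain ⟨g, k1, k2, k3, k4⟩ := Ar.exists_inv A rfl hS (k := 1) (by have := hr.two_le; omega) (by omega)
    exact ⟨g, k1, fun h => ns_of_two k3 k4.ge 1 (by simp [h, iE_one]), k3, h g k2 ⟨_, pow_one' k1⟩ (ns_of_two k3 k4.ge)⟩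
  · obtain ⟨Q, hQ⟩ := exists_mem_PhiF hr h3
    obtain ⟨g, k1, k2, k3⟩ := A.exists_g hS (s := {Q}) (by simpa) (by simpa using (A.hb Q hQ).2 hb) (by
      have := Nat.le_of_dvd (by omega) h9
      rw [A.h1 hb] at this
      simp at h7 ⊢; omega)
    exact ⟨g, k1, k3 (by simp), by simp [k2], (cop_su hS (h2 h11) Pr.smul).1 h g k1 (k3 (by simp))⟩

omit hF [Finite F] in
theorem polar_trans (hS : S.Nondeg) (hV : 0 < finrank F V) {A B C D : Submodule F V} (h : S.Polar A B) (h' : S.Polar C D) :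
    ∃ g ∈ S.SIsom, A.map (iE g) = C ∧ B.map (iE g) = D := by
  have h1 := h.finrank_eq hS
  have h2 := h'.finrank_eq hS
  obtain ⟨g, h3, h4, h5⟩ := h.exists_isom hS hS h' (LinearEquiv.ofFinrankEq _ _ (by omega))
  have h6 : A.map (g : V →ₗ[F] V) = C := Submodule.eq_of_le_of_finrank_eq
    (by rintro _ ⟨x, hx, rfl⟩; exact (h4 ⟨x, hx⟩).symm ▸ Subtype.property _)
    ((LinearEquiv.finrank_map_eq g A).trans (by omega))
  obtain ⟨c, hc, h7⟩ := exists_div_σ_eq hσ hne (hS.det_mem_normOne (⟨g, h3⟩⁻¹ : S.Isom))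
  obtain ⟨e, he, he0⟩ := A.exists_mem_ne_zero_of_ne_bot (by rintro rfl; simp at h1; omega)
  obtain ⟨f, hf, h8⟩ := h.exists_dual hS (u := fun _ : Unit => e) (fun _ => he) (.of_subsingleton () he0) fun _ => 1
  have H : S.IsHyp e f := ⟨h.ts1.sing e he, h.ts2.sing f hf, h8 ()⟩
  have h9 : ∀ x, (H.tor (Units.mk0 c hc)).1 x = x + ((c - 1) * S.h f x) • e + (((σ c)⁻¹ - 1) * S.h e x) • f := fun x => by
    obtain ⟨w, hw, h⟩ := H.exists_decomp x
    generalize S.h f x = a, S.h e x = b at h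
    subst h
    rw [show (unitP σ hσ).ε = 1 from rfl, one_mul, _root_.map_add, _root_.map_add, map_smul, map_smul, H.tor_e, H.tor_f, H.tor_perp _ hw,
      Units.val_mk0]
    module
  refine ⟨⟨g, h3⟩ * H.tor (Units.mk0 c hc), ?_, ?_, ?_⟩
  · rw [SIsom, MonoidHom.mem_ker, map_mul, mul_eq_one_iff_inv_eq, ← map_inv, Units.ext_iff, H.det_tor, ← h7]; rfl
  · rw [iE_mul, End.mul_eq_comp, Submodule.map_comp, mem_stab_iff_map.1 (mem_stab_of_le (U := A) (g := H.tor (Units.mk0 c hc))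
      fun x hx => by simp [h9, h.ts1.h_eq he hx, A.add_mem hx (A.smul_mem _ he)])]
    exact h6
  · rw [iE_mul, End.mul_eq_comp, Submodule.map_comp, mem_stab_iff_map.1 (mem_stab_of_le (U := B) (g := H.tor (Units.mk0 c hc))
      fun x hx => by simp [h9, h.ts2.h_eq hf hx, B.add_mem hx (B.smul_mem _ hf)])]
    exact h5

end Unit

theorem pr_iff {K : Subgroup S.Isom} {D : Fin 2 → Submodule F V} (h : S.Polar (D 0) (D 1))
    (hK : ∀ A B, S.Polar A B → ∃ g ∈ K, (D 0).map (iE g) = A ∧ (D 1).map (iE g) = B) {M : Subgroup S.Isom}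
    (hM : ∀ g, g ∈ M ↔ ∃ τ : Equiv.Perm (Fin 2), ∀ i, (D i).map (iE g) = D (τ i)) :
    (∀ x : S.Isom, (∃ g ∈ K, g⁻¹ * x * g ∈ M) ↔ Pr S (iE x)) ∧
      M.relIndex K ∣ Nat.card {x : Submodule F V × Submodule F V // S.Polar x.1 x.2} := by
  letI : MulAction S.Isom (Submodule F V) :=
    { smul := fun g U => U.map (iE g)
      one_smul := fun U => Submodule.map_id U
      mul_smul := fun g g' U => Submodule.map_comp (iE g') (iE g) U }
  have e : ∀ (g : S.Isom) (U : Submodule F V), U.map (iE g) = g • U := fun _ _ => rfl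
  have hP : ∀ g : S.Isom, S.Polar (g • D 0) (g • D 1) := fun g =>
    ⟨h.ts1.map g, h.ts2.map g, (Submodule.orderIsoMapComap g.1).isCompl h.compl⟩
  have hM' : ∀ g, g ∈ M ↔ (g • D 0 = D 0 ∧ g • D 1 = D 1) ∨ (g • D 0 = D 1 ∧ g • D 1 = D 0) := fun g => by
    rw [hM]
    refine ⟨fun ⟨τ, h⟩ => ?_, fun h => h.elim (fun h => ⟨1, Fin.forall_fin_two.2 h⟩)
      fun h => ⟨Equiv.swap 0 1, Fin.forall_fin_two.2 h⟩⟩
    rcases (by decide : ∀ τ : Equiv.Perm (Fin 2), (τ 0 = 0 ∧ τ 1 = 1) ∨ (τ 0 = 1 ∧ τ 1 = 0)) τ with h' | h'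
    exacts [.inl ⟨(h 0).trans (congrArg D h'.1), (h 1).trans (congrArg D h'.2)⟩,
      .inr ⟨(h 0).trans (congrArg D h'.1), (h 1).trans (congrArg D h'.2)⟩]
  simp only [e] at hK
  refine ⟨fun x => ⟨fun ⟨g, _, h1⟩ => ⟨_, _, hP g, ?_⟩, fun ⟨A, B, h1, h2⟩ => ?_⟩, ?_⟩
  · simpa only [hM', mul_smul, inv_smul_eq_iff, e] using h1
  · obtain ⟨g, h3, rfl, rfl⟩ := hK A B h1
    exact ⟨g, h3, by simpa only [hM', mul_smul, inv_smul_eq_iff, e] using h2⟩
  refine (Subgroup.relIndex_dvd_of_le_left K (show MulAction.stabilizer S.Isom (D 0, D 1) ≤ M from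
    fun g hg => (hM' g).2 (.inl (Prod.ext_iff.1 hg)))).trans (Eq.dvd ?_)
  rw [Subgroup.relIndex, show (MulAction.stabilizer S.Isom (D 0, D 1)).subgroupOf K = MulAction.stabilizer K (D 0, D 1)
    from rfl, MulAction.index_stabilizer]
  exact Nat.card_congr (Equiv.subtypeEquivRight fun ⟨A, B⟩ => ⟨by rintro ⟨g, hg⟩; cases hg; exact hP g, fun h => by
    obtain ⟨g, h3, rfl, rfl⟩ := hK A B h; exact ⟨⟨g, h3⟩, rfl⟩⟩)

end H20.El
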