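import Cfsg.Agent.H20.El7
import Cfsg.Agent.H21.Eo2
import Cfsg.Agent.H29.ExtU

/-! Elusivity of symplectic groups in characteristic two on cosets of orthogonal subgroups (`symp_orth`), the transfer
`sp_conj` from matrix groups, `fix_two` (a second fixed coset), `Ar.exists_res`. -/

set_option autoImplicit false
namespace H20.El
open H11 Module Polynomial Multiset
open H11.PForm hiding X

universe u

theorem fix_two {G : Type*} [Group G] [Finite G] {M : Subgroup G} {r : ℕ} (hr : r.Prime) (h : r ∣ M.index) {x : G}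
    (h1 : x ^ r = 1) (h2 : x ∈ M) : ∃ g, g ∉ M ∧ g⁻¹ * x * g ∈ M := by
  have := Fact.mk hr
  have h3 : IsPGroup r (Subgroup.zpowers x) := fun ⟨y, k, hk⟩ => ⟨1, Subtype.ext (by
    simp only [← hk, pow_one, SubgroupClass.coe_pow]
    rw [← zpow_natCast, ← zpow_mul, mul_comm k, zpow_mul, zpow_natCast, h1, one_zpow]; rfl)⟩
  obtain ⟨b, h4, h5⟩ := h3.exists_fixed_point_of_prime_dvd_card_of_fixed_point (G ⧸ M) h (a := ((1 : G) : G ⧸ M))
    fun ⟨y, hy⟩ => QuotientGroup.eq.2 (by simpa using Subgroup.zpowers_le.2 h2 hy)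
  obtain ⟨g, rfl⟩ := QuotientGroup.mk_surjective b
  refine ⟨g, fun h => h5 (QuotientGroup.eq.2 (by simpa)), ?_⟩
  simpa [mul_assoc] using inv_mem (QuotientGroup.eq.1 (h4 ⟨x, Subgroup.mem_zpowers x⟩))

variable {F : Type u} [Field F] {σ : F →+* F} {V W : Type u} [AddCommGroup V] [Module F V] [AddCommGroup W]
  [Module F W] [FiniteDimensional F V] [FiniteDimensional F W] {P : FParam σ} {δ : ℕ}

theorem sp_eq (d : ℕ) : Cfsg.spGL d F = (⊤ : Subgroup (stdSymp d F).Isom).map (H29.toGL (stdSymp d F)) := by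
  rw [H29.spGL_eq, H29.EGL, (stdSymp_nondeg d).symp_E_eq_top]

theorem sp_conj {d r : ℕ} {M : Subgroup (GL (Fin d ⊕ Fin d) F)} {R : Prop}
    (hΩ : r ∣ M.relIndex (Cfsg.spGL d F)) (h : r ∣ (M.comap (H29.toGL (stdSymp d F))).index →
      ((∀ x : (stdSymp d F).Isom, (∃ z : F, iE x ^ r = z • 1) → (∀ z : F, iE x ≠ z • 1) →
        ∃ g, g⁻¹ * x * g ∈ M.comap (H29.toGL (stdSymp d F))) ↔ R)) :
    (∀ x ∈ Cfsg.spGL d F, (∃ z : F, (x ^ r).1 = z • (1 : Matrix _ _ F)) → (∀ z : F, x.1 ≠ z • (1 : Matrix _ _ F)) →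
      ∃ g ∈ Cfsg.spGL d F, g⁻¹ * x * g ∈ M) ↔ R := by
  rw [sp_eq, ← Subgroup.relIndex_comap, Subgroup.relIndex_top_right] at hΩ
  simpa only [conj_all (sp_eq d), Subgroup.mem_top, true_and, true_imp_iff] using h hΩ

theorem Ar.exists_res [Finite F] {r i c : ℕ} {b : Prop} (A : Ar P δ r i c b) {S : PForm P V} (hS : S.Nondeg) {k : ℕ}
    (h0 : 0 < k) (h : k * c ≤ finrank F V) : ∃ g : S.Isom, g ^ r = 1 ∧ g ≠ 1 ∧ finrank F (res g) = k * c ∧
      (k = 1 → (nED (iE g)).Nodup) ∧ c < r := by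
  obtain ⟨Q, u, h1, h2, h3, h4, h5, -⟩ := A.exists_unit
  obtain ⟨g, h6, h7, h8⟩ := A.exists_g hS (s := k • u) (fun Q hQ => h3 Q (mem_of_mem_nsmul hQ))
    (by rw [map_nsmul, h4]) (by rwa [card_nsmul, mul_assoc, h5])
  obtain ⟨-, h9, -, h10, -⟩ := A.spec hS h6
  have h11 := finrank_fix hS g
  rw [A.dg_eq h9, h7, card_nsmul, mul_assoc, h5] at h10
  refine ⟨g, h6, h8 (by simpa [h0] using card_pos_iff_exists_mem.2 ⟨Q, h1⟩), by omega, fun h => by simpa [h7, h], ?_⟩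
  have h12 := card_le_card ((le_iff_subset h2).2 h3)
  rw [Finset.card_val, A.card_phi] at h12
  have := (Nat.mul_le_mul_right i h12).trans (Nat.div_mul_le_self _ _)
  have := A.hr.two_le
  omega

variable {S : PForm (sympP F) V}

theorem c_dvd_symp [Finite F] {r i c : ℕ} (hi : i = orderOf (Nat.card F : ZMod r)) (hc : c = if Even i then i else 2 * i)
    {j : ℕ} (h : r ∣ Nat.card F ^ (2 * j) - 1) : c ∣ 2 * j :=
  (H21.Eo.c_dvd hc).2 (hi ▸ (ord_dvd_iff Nat.card_pos).2 h)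

section Orth

/-- the stabiliser of a quadratic form -/
def oS (S : PForm (sympP F) V) (Q : V → F) : Subgroup S.Isom where
  carrier := {g | ∀ v, Q (g.1 v) = Q v}
  mul_mem' ha hb v := (ha _).trans (hb v)
  one_mem' _ := rfl
  inv_mem' {g} h v := (h _).symm.trans (congrArg Q (g.1.apply_symm_apply v))

variable {Q : QuadraticForm F V} (hQ : ∀ u v, QuadraticMap.polar Q u v = S.h u v)
include hQ

omit [FiniteDimensional F V] in
theorem q_add (u v : V) : Q (u + v) = Q u + Q v + S.h u v := by rw [← hQ, QuadraticMap.polar]; ring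

omit [FiniteDimensional F V] in
theorem card_oS : Nat.card (oS S Q) = Nat.card (orthS Q).Isom := Nat.card_congr
  { toFun := fun g => ⟨g.1.1, orth_isIsom g.2⟩
    invFun := fun g => ⟨⟨g.1, symp_isIsom fun x y => by rw [← hQ, ← hQ]; exact isom_h g x y⟩, orth_isom_q g⟩
    left_inv := fun _ => rfl
    right_inv := fun _ => rfl }

omit [FiniteDimensional F V] in
theorem oS_nondeg (hS : S.Nondeg) : (orthS Q).Nondeg := fun x h => hS x fun y => hQ x y ▸ h y

theorem oS_odd [Finite F] (hS : S.Nondeg) {d r : ℕ} (hd : finrank F V = 2 * (d + 1)) (hr : r.Prime) (hr2 : r ≠ 2)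
    (h0 : ¬ r ∣ Nat.card F) (h0' : (r : F) ≠ 0) (hΩ : r ∣ (oS S Q).index) :
    ∃ x : S.Isom, x ^ r = 1 ∧ x ≠ 1 ∧ ∀ g, g⁻¹ * x * g ∉ oS S Q := by
  have : Finite V := Module.finite_of_finite F
  have h1 := (oS S Q).card_mul_index
  have hq : 1 < Nat.card F := Finite.one_lt_card
  rw [card_oS hQ, H21.Eo.card_even (oS_nondeg hQ hS) hd, symp_card_Isom _ hS hd, H21.Eo.prod_eq_gO, gO_succ,
    mul_right_comm, mul_comm (gO _ _), ← mul_assoc, Nat.mul_left_inj (gO_pos (Nat.one_lt_pow two_ne_zero hq) _).ne',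
    ← pow_mul] at h1
  have h2 : r ∣ Nat.card F ^ (2 * (d + 1)) - 1 :=
    (hr.dvd_mul.1 (h1 ▸ hΩ.mul_left _)).resolve_left fun h => h0 (hr.dvd_of_dvd_pow h)
  have A := ar_symp hr hr2 h0 h0' rfl rfl
  obtain ⟨k, hk⟩ := c_dvd_symp rfl rfl h2
  obtain ⟨x, h3, h4, h5, -⟩ := A.exists_res hS (k := k) (Nat.pos_of_ne_zero (by rintro rfl; omega)) (by rw [mul_comm]; omega)
  refine ⟨x, h3, h4, fun g hg => ?_⟩
  obtain ⟨k, h6, h7⟩ := fix_two hr hΩ (by rw [← MulAut.conj_inv_apply, ← map_pow, h3, map_one]) hg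
  have h8 : res x = ⊤ := Submodule.eq_top_of_finrank_eq (by rw [h5, mul_comm]; omega)
  refine h6 (inv_mem_iff.1 fun v => ?_)
  obtain ⟨w, hw⟩ : g.1 v ∈ res x := h8 ▸ Submodule.mem_top
  have h9 : (g⁻¹ * x * g).1 (g⁻¹.1 w) = v + g⁻¹.1 w := by
    simp only [LinearMap.sub_apply, LinearEquiv.coe_coe, LinearMap.id_apply, sub_eq_iff_eq_add] at hw
    simp [hw]
  have h10 := hg (g⁻¹.1 w)
  have h11 := h7 (k⁻¹.1 (g⁻¹.1 w))
  generalize g⁻¹ * x * g = y, g⁻¹.1 w = u at *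
  have h12 : (k⁻¹ * y * k).1 (k⁻¹.1 u) = k⁻¹.1 v + k⁻¹.1 u := by simp [h9]
  rw [h12, q_add hQ, isom_h] at h11
  rw [h9, q_add hQ] at h10
  linear_combination h11 - h10

omit [FiniteDimensional F V] in
theorem oS_shift (h2 : (2 : F) = 0) {a : V} {t : F} (h : Q a = t ^ 2 + t) :
    ∃ g : S.Isom, ∀ v, Q (g.1 v) = Q v + S.h a v ^ 2 := by
  wlog h0 : t ≠ 0
  · exact this hQ h2 (a := a) (t := 1) (by rw [h, not_not.1 h0]; linear_combination -h2) one_ne_zero
  refine ⟨S.eich a 0 t⁻¹, fun v => ?_⟩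
  rw [eich_apply (H29.sec (by simp) _), smul_zero, add_zero, sub_eq_add_neg, ← neg_smul, q_add hQ, Q.map_smul, h,
    map_smul, symp_symm S a v]
  simp [sympP]
  field_simp
  ring

theorem oS_two [Finite F] (hS : S.Nondeg) (h2 : (2 : F) = 0) {d : ℕ} (hd : finrank F V = 2 * d) (h0 : 0 < d) :
    (∀ x : S.Isom, x ^ 2 = 1 → x ≠ 1 → ∃ g, g⁻¹ * x * g ∈ oS S Q) ↔ (orthS Q).HasTS d ∨ Odd d := by
  have : CharP F 2 := CharTwo.of_one_ne_zero_of_two_eq_zero one_ne_zero h2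
  constructor
  · intro h
    refine or_iff_not_imp_right.2 fun he => ?_
    obtain ⟨W, h1, rfl⟩ := hS.symp_exists_ts d hd.ge
    obtain ⟨x, h3, h4, rfl⟩ := hS.exists_alt h1 (Nat.not_odd_iff_even.1 he)
    obtain ⟨g, hg⟩ := h x ((sq x).trans (quad_iff_mul_self.1 h3)) (by
      rintro rfl
      rw [show res (1 : S.Isom) = ⊥ from LinearMap.range_eq_bot.2 (sub_self _), finrank_bot] at h0
      omega)
    refine ⟨(res x).map (iE g⁻¹), orth_ts_iff.2 ?_, LinearEquiv.finrank_map_eq g⁻¹.1 _⟩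
    rintro _ ⟨_, ⟨v, rfl⟩, rfl⟩
    have h5 := hg (g⁻¹.1 v)
    have h6 : (g⁻¹ * x * g).1 (g⁻¹.1 v) = g⁻¹.1 v + g⁻¹.1 (x.1 v - v) := by simp
    rw [h6, q_add hQ, isom_h, (S.h v).map_sub, h4 v, symp_h_self] at h5
    exact (by linear_combination h5 : Q (g⁻¹.1 (x.1 v - v)) = 0)
  intro h x h1 _
  have h3 : Quad x := quad_iff_mul_self.2 (sq x ▸ h1)
  let φ : Dual F V :=
    { toFun := fun v => (frobeniusEquiv F 2).symm (Q (x.1 v) - Q v)
      map_add' := fun u v => by rw [← _root_.map_add, _root_.map_add x.1, q_add hQ, q_add hQ, isom_h]; congr 1; ring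
      map_smul' := fun c v => (frobeniusEquiv F 2).injective (by
        simp only [RingEquiv.apply_symm_apply, RingHom.id_apply, smul_eq_mul, map_mul, map_smul, Q.map_smul]
        simp [frobenius_def]; ring) }
  have h4 : ∀ v, φ v ^ 2 = Q (x.1 v) - Q v := fun v => (frobeniusEquiv F 2).apply_symm_apply _
  obtain ⟨ψ, h5⟩ : φ ∈ LinearMap.range (iE x - 1).dualMap := by
    rw [LinearMap.range_dualMap_eq_dualAnnihilator_ker, Submodule.mem_dualAnnihilator]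
    intro v hv
    have : x.1 v = v := sub_eq_zero.1 hv
    exact pow_eq_zero_iff two_ne_zero |>.1 (by rw [h4, this, sub_self])
  obtain ⟨a, rfl⟩ := hS.exists_h_eq ψ
  have h6 : ∀ b ∈ fixSp x, ∀ v, Q (x.1 v) + S.h (a + b) (x.1 v) ^ 2 = Q v + S.h (a + b) v ^ 2 := fun b hb v => by
    have e1 : S.h a (x.1 v) - S.h a v = φ v := by rw [← map_sub, ← h5]; rfl
    have e2 : S.h b (x.1 v) = S.h b v := by rw [← isom_h x b v, mem_fixSp.1 hb]
    simp only [_root_.map_add, LinearMap.add_apply, e2, sub_eq_iff_eq_add.1 e1]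
    linear_combination -h4 v + (φ v ^ 2 + φ v * (S.h a v + S.h b v)) * h2
  suffices ∃ b ∈ fixSp x, ∃ g : S.Isom, ∀ v, Q (g.1 v) = Q v + S.h (a + b) v ^ 2 by
    obtain ⟨b, hb, g, hg⟩ := this
    refine ⟨g⁻¹, fun v => ?_⟩
    have := hg (g⁻¹.1 v)
    rw [inv_inv, show (g * x * g⁻¹).1 v = g.1 (x.1 (g⁻¹.1 v)) from rfl, hg, h6 b hb, ← this]
    simp
  by_cases h7 : ∃ b ∈ fixSp x, Q b + S.h a b ^ 2 ≠ 0
  · obtain ⟨b, hb, h7⟩ := h7
    obtain ⟨c, hc⟩ := (frobeniusEquiv F 2).surjective (Q a / (Q b + S.h a b ^ 2))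
    refine ⟨c • b, Submodule.smul_mem _ _ hb, oS_shift hQ h2 (t := c * S.h a b) ?_⟩
    rw [coe_frobeniusEquiv, frobenius_def, eq_div_iff h7] at hc
    rw [q_add hQ, Q.map_smul, map_smul, smul_eq_mul, smul_eq_mul]
    linear_combination -hc + (c ^ 2 * Q b) * h2
  push Not at h7
  let Q' : QuadraticForm F V := Q + QuadraticMap.sq.comp (S.h a)
  have h8 : ∀ v, Q' v = Q v + S.h a v ^ 2 := fun v => by simp [Q', sq]
  have h9 : ∀ u v, QuadraticMap.polar Q' u v = S.h u v := fun u v => by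
    rw [QuadraticMap.polar, h8, h8, h8, q_add hQ, _root_.map_add]
    linear_combination (S.h a u * S.h a v) * h2
  have h10 : (orthS Q').TS (fixSp x) := orth_ts_iff.2 fun b hb => (h8 b).trans (h7 b hb)
  have h11 := h10.two_mul_finrank_le (oS_nondeg h9 hS)
  have h12 := finrank_fix hS x
  have h13 := Submodule.finrank_mono (show res x ≤ fixSp x from h3)
  rcases h with h | h
  · obtain ⟨e, he⟩ := H21.Eo.eqv_of_pl (oS_nondeg h9 hS) (oS_nondeg hQ hS) (hd ▸ even_two_mul d) rfl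
      (iff_of_true ((H21.Eo.pl_iff hd).2 ⟨_, h10, by omega⟩) ((H21.Eo.pl_iff hd).2 h))
    refine ⟨0, zero_mem _, ⟨e, symp_isIsom fun u v => by rw [← hQ, ← h9]; exact he.h_eq u v⟩, fun v => ?_⟩
    rw [add_zero, ← h8]
    exact sub_eq_zero.1 (he.q_eq v)
  · have h14 : Alt x := fun v => by
      have e1 := h6 0 (zero_mem _) v
      have e2 := q_add h9 v (x.1 v - v)
      rw [add_sub_cancel, show Q' (x.1 v - v) = 0 from h10.sing _ (h3 _ ⟨v, rfl⟩), h8, h8, map_sub, symp_h_self] at e2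
      rw [add_zero] at e1
      linear_combination e1 - e2
    have := Nat.even_iff.1 (h14.even hS)
    have := Nat.odd_iff.1 h
    omega

theorem symp_orth [Finite F] (hS : S.Nondeg) (h2 : (2 : F) = 0) {d r : ℕ} (hd : finrank F V = 2 * d) (h0 : 0 < d)
    (hr : r.Prime) (hΩ : r ∣ (oS S Q).index) : (∀ x : S.Isom, (∃ z : F, iE x ^ r = z • 1) → (∀ z : F, iE x ≠ z • 1) →
      ∃ g, g⁻¹ * x * g ∈ oS S Q) ↔ r = 2 ∧ ((orthS Q).HasTS d ∨ Odd d) := by
  have : CharP F 2 := CharTwo.of_one_ne_zero_of_two_eq_zero one_ne_zero h2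
  have h1 : ∀ x : S.Isom, (∃ z : F, iE x = z • 1) ↔ x = 1 := fun x => ⟨fun ⟨z, hz⟩ => by
    obtain ⟨c, rfl⟩ := exists_scal hS hz
    have : (c.1 : F) ^ 2 = 1 ^ 2 := by simpa [sq] using mem_normOne.1 c.2
    rw [show c = 1 from Subtype.ext (Units.ext ((frobeniusEquiv F 2).injective this)), map_one],
    fun h => ⟨1, by simp [h, iE_one]⟩⟩
  simp only [← iE_pow, ne_eq, ← not_exists, h1]
  by_cases hr2 : r = 2
  · subst hr2
    simpa using oS_two hQ hS h2 hd h0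
  obtain ⟨d, rfl⟩ := Nat.exists_eq_add_one.2 h0
  obtain ⟨x, h3, h4, h5⟩ := oS_odd hQ hS hd hr hr2 (fun h => hr2 ((dvd_card_iff 2 hr).1 h))
    (natCast_ne_zero_of_prime 2 hr hr2) hΩ
  exact iff_of_false (fun h => (h x h3 h4).elim h5) fun h => hr2 h.1

end Orth

end H20.El
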