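import Cfsg.Agent.H20.El8
import Cfsg.Agent.H11.Res

/-! Projective involutions of symplectic groups (`two_all`), normalisers `Nm S K` of extension fields, elusivity of
symplectic groups on cosets of field extension subgroups (`symp_fld`, `symp_ufld`). -/

set_option autoImplicit false
namespace H20.El
open H11 Module Polynomial Multiset
open H11.PForm hiding X

universe u
variable {F : Type u} [Field F] {σ : F →+* F} {V : Type u} [AddCommGroup V] [Module F V] [FiniteDimensional F V]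
  {P : FParam σ}

theorem exists_inv {S : PForm P V} (hS : S.Nondeg) (h2 : (2 : F) ≠ 0) {U : Submodule F V} (hU : (S.restrict U).Nondeg) :
    ∃ g : S.Isom, g ^ 2 = 1 ∧ finrank F (res g) = finrank F U := by
  let c : normOne σ := ⟨-1, by simp [mem_normOne]⟩
  have h1 := fun x => glue_left hU (scal _ c, 1) x
  have h3 := fun x => glue_right hU (scal _ c, 1) x
  refine ⟨glue hU (scal _ c, 1), by
    rw [← map_pow, Prod.pow_mk, ← map_pow, one_pow, show c ^ 2 = 1 from Subtype.ext (by simp [c]), map_one]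
    exact map_one _, le_antisymm ?_ (Submodule.finrank_mono fun x hx => ⟨(-2 : F)⁻¹ • x, ?_⟩)⟩
  · have := Submodule.finrank_mono (show S.perp U ≤ fixSp (glue hU (scal _ c, 1)) from fun x hx => h3 ⟨x, hx⟩)
    have := finrank_fix hS (glue hU (scal _ c, 1))
    have := hS.finrank_perp U
    omega
  · have := h1 ⟨x, hx⟩
    simp only [scal_apply, c, Units.val_neg, Units.val_one, neg_smul, one_smul, Submodule.coe_neg] at this
    rw [map_smul, LinearMap.sub_apply, LinearEquiv.coe_coe, this, LinearMap.id_apply, ← neg_add', ← two_smul F,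
      ← neg_smul, smul_smul, inv_mul_cancel₀ (neg_ne_zero.2 h2), one_smul]

theorem ns_res {S : PForm P V} {g : S.Isom} (h0 : 0 < finrank F (res g)) (h1 : finrank F (res g) < finrank F V) (z : F) :
    iE g ≠ z • 1 := fun h => by
  have h2 : ∀ x, g.1 x = z • x := fun x => congr($h x)
  by_cases hz : z = 1
  · rw [res_eq_bot_iff.2 (iE_inj.1 (by rw [h, hz, one_smul, iE_one])), finrank_bot] at h0
    omega
  · rw [show res g = ⊤ from eq_top_iff.2 fun x _ => ⟨(z - 1)⁻¹ • x, by
      rw [map_smul, LinearMap.sub_apply, LinearEquiv.coe_coe, h2, LinearMap.id_apply, show z • x - x = (z - 1) • x by module, smul_smul,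
        inv_mul_cancel₀ (sub_ne_zero.2 hz), one_smul]⟩, finrank_top] at h1
    omega

theorem gO_split (Q : ℕ) {k : ℕ} (n : ℕ) : ∃ R, gO Q n = gO (Q ^ k) (n / k) * R ∧
    ∀ r : ℕ, r.Prime → r ∣ R → ∃ j ≤ n, 0 < j ∧ ¬ k ∣ j ∧ r ∣ Q ^ j - 1 := by
  induction n with
  | zero => exact ⟨1, by simp [gO], fun r hr h => absurd (Nat.dvd_one.1 h) hr.ne_one⟩
  | succ n ih =>
    obtain ⟨R, h1, h2⟩ := ih
    rw [gO_succ, Nat.succ_div, h1]
    split_ifs with h
    · refine ⟨R, ?_, fun r hr h => (h2 r hr h).imp fun j h => ⟨by omega, h.2⟩⟩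
      rw [gO_succ, ← pow_mul, show n / k + 1 = (n + 1) / k by rw [Nat.succ_div, if_pos h], Nat.mul_div_cancel' h]
      ring
    · exact ⟨_, mul_assoc _ _ _, fun r hr h' => (hr.dvd_mul.1 h').elim
        (fun h => (h2 r hr h).imp fun j h => ⟨by omega, h.2⟩) fun h' => ⟨_, le_rfl, n.succ_pos, h, h'⟩⟩

variable {S : PForm (sympP F) V}

theorem sc_sq (hS : S.Nondeg) {g : S.Isom} {z : F} (h : iE g = z • 1) : g = 1 ∨ iE g = (-1 : F) • 1 := by
  obtain ⟨c, rfl⟩ := exists_scal hS h
  rcases mul_self_eq_one_iff.1 (show (c.1 : F) * c.1 = 1 from mem_normOne.1 c.2) with h | h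
  · exact .inl (by rw [show c = 1 from Subtype.ext (Units.ext h), map_one])
  · exact .inr (LinearMap.ext fun x => by rw [← h]; rfl)

theorem ns_odd (hS : S.Nondeg) {g : S.Isom} {r : ℕ} (hr : Odd r) (h : g ^ r = 1) (h1 : g ≠ 1) (z : F) :
    iE g ≠ z • 1 := fun hz => h1 ((sc_sq hS hz).elim id fun h2 => by
  have h3 : g ^ 2 = 1 := iE_inj.1 (by rw [iE_pow, h2, iE_one]; simp)
  obtain ⟨k, rfl⟩ := hr
  rwa [pow_succ, pow_mul, h3, one_pow, one_mul] at h)

theorem exists_transv (p : ℕ) [CharP F p] (hS : S.Nondeg) (hV : 0 < finrank F V) :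
    ∃ g : S.Isom, g ^ p = 1 ∧ finrank F (res g) = 1 := by
  have := nontrivial_of_finrank_pos hV
  obtain ⟨u, hu⟩ := exists_ne (0 : V)
  have h1 : ∀ x, (S.eich u 0 1).1 x = x + S.h u x • u := fun x => by
    rw [eich_apply (H29.sec (by simp) _)]; simp [sympP]
  have h2 : ∀ (n : ℕ) x, (S.eich u 0 1 ^ n).1 x = x + ((n : F) * S.h u x) • u := fun n x => by
    induction n with
    | zero => simp
    | succ n ih =>
      rw [pow_succ', show (S.eich u 0 1 * S.eich u 0 1 ^ n).1 x = (S.eich u 0 1).1 ((S.eich u 0 1 ^ n).1 x) from rfl, ih, h1]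
      simp [symp_h_self, add_mul, add_smul, add_assoc]
  refine ⟨S.eich u 0 1, Subtype.ext (LinearEquiv.ext fun x => (h2 p x).trans (by simp)), ?_⟩
  obtain ⟨v, hv⟩ := hS.exists_h_eq_one hu
  rw [show res (S.eich u 0 1) = F ∙ u from le_antisymm (by rintro _ ⟨x, rfl⟩; simp [h1, Submodule.smul_mem])
    ((Submodule.span_singleton_le_iff_mem _ _).2 ⟨v, by simp [h1, hv]⟩), finrank_span_singleton hu]

theorem exists_sqneg (hS : S.Nondeg) : ∃ g : S.Isom, iE g ^ 2 = (-1 : F) • 1 := by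
  obtain ⟨m, hm⟩ := symp_even _ hS rfl
  have h1 := stdSymp_nondeg (F := F) m
  obtain ⟨g, hg⟩ := (symp_eqv _ h1 hS (finrank_sum_fun m) (by omega)).exists_isim
    (mkIsom h1 (mE (Matrix.J (Fin m) F)) (symp_isIsom fun x y => by
      simp only [stdSymp_h, Cfsg.sympForm, mE_apply, Matrix.mulVec_mulVec, Matrix.J_squared]
      rw [Matrix.dotProduct_mulVec x, ← Matrix.mulVec_transpose, Matrix.J_transpose]
      simp [Matrix.neg_mulVec]))
  refine ⟨g, sim_pow hg.sim ?_⟩
  show mE (Matrix.J (Fin m) F) ^ 2 = _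
  rw [← mE_pow, sq, Matrix.J_squared, mE_neg, mE_one]
  exact LinearMap.ext fun x => (neg_one_smul F x).symm

variable [Finite F]

theorem two_all (hS : S.Nondeg) (h2 : (2 : F) ≠ 0) {M : Subgroup S.Isom}
    (h1 : ∀ x : S.Isom, x ^ 2 = 1 → (∀ z : F, iE x ≠ z • 1) → ∃ y ∈ M, y ^ 2 = 1 ∧ finrank F (res y) = finrank F (res x))
    (h3 : ∃ y ∈ M, iE y ^ 2 = (-1 : F) • 1) (x : S.Isom) (hx : ∃ z : F, iE x ^ 2 = z • 1) (hx' : ∀ z : F, iE x ≠ z • 1) :
    ∃ g, g⁻¹ * x * g ∈ M := by
  suffices ∃ y ∈ M, ED (iE y) = ED (iE x) ∧ x ^ 4 = 1 by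
    obtain ⟨y, h4, h5, h6⟩ := this
    obtain ⟨g, rfl⟩ := isConj_iff.1 (isim_iff_isConj.1 (symp_isim hS hS (sim_iff_ED.2 h5.symm) (ss_of_pow_eq_one (m := 4)
      (by rw [show ((4 : ℕ) : F) = 2 * 2 by norm_num]; exact mul_ne_zero h2 h2) (by rw [← iE_pow, h6, iE_one]))))
    exact ⟨g⁻¹, by rwa [inv_inv]⟩
  obtain ⟨z, hz⟩ := hx
  rcases sc_sq hS ((iE_pow x 2).trans hz) with h | h
  · obtain ⟨y, h4, h5, h6⟩ := h1 x h hx'
    have := finrank_fix hS x
    have := finrank_fix hS y
    exact ⟨y, h4, by rw [ED_inv hS h2 h, ED_inv hS h2 h5, h6, show finrank F (fixSp y) = finrank F (fixSp x) by omega],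
      by rw [show 4 = 2 * 2 from rfl, pow_mul, h, one_pow]⟩
  obtain ⟨y, h4, h5⟩ := h3
  refine ⟨y, h4, ?_, iE_inj.1 (by rw [show 4 = 2 * 2 from rfl, pow_mul, iE_pow, h, iE_one]; simp)⟩
  rw [iE_pow] at h
  by_cases h6 : ∃ μ : F, μ ^ 2 = -1
  · obtain ⟨μ, h6⟩ := h6
    obtain ⟨k, h7, h8⟩ := ED_eig hS (h6 ▸ h) h2 ((sq μ).symm.trans h6)
    obtain ⟨l, h9, h10⟩ := ED_eig hS (h6 ▸ h5) h2 ((sq μ).symm.trans h6)
    rw [h8, h10, show k = l by omega]
  · have h7 := (X_pow_sub_C_irreducible_iff_of_prime Nat.prime_two).2 (not_exists.1 h6)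
    obtain ⟨-, k, h8, h9, -⟩ := irr_spec two_ne_zero h7 h
    obtain ⟨-, l, h10, h11, -⟩ := irr_spec two_ne_zero h7 h5
    rw [h8, h10, show k = l by omega]

theorem of_all {M : Subgroup S.Isom} {r : ℕ} (h : ∀ x : S.Isom, (∃ z : F, iE x ^ r = z • 1) → (∀ z : F, iE x ≠ z • 1) →
    ∃ g, g⁻¹ * x * g ∈ M) {x : S.Isom} (h1 : x ^ r = 1) (h2 : ∀ z : F, iE x ≠ z • 1) :
    ∃ y ∈ M, y ^ r = 1 ∧ finrank F (res y) = finrank F (res x) := by
  obtain ⟨g, hg⟩ := h x ⟨_, pow_one' h1⟩ h2
  exact ⟨_, hg, by rw [← MulAut.conj_inv_apply, ← map_pow, h1, map_one],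
    (finrank_res_of_isConj (isConj_iff.2 ⟨g⁻¹, by rw [inv_inv]⟩)).symm⟩

section Ext
variable {K : Type u} [Field K] [Algebra F K] [Module K V] [IsScalarTower F K V] [Finite K]

instance finIsom : Finite S.Isom := by
  have : Finite V := Module.finite_of_finite F
  infer_instance

variable (K S) in
/-- the `K`-semilinear isometries -/
def Nm : Subgroup S.Isom :=
  let N : Submonoid S.Isom :=
    { carrier := {g | ∀ k : K, ∃ l : K, ∀ x, g.1 (k • x) = l • g.1 x}
      mul_mem' := fun {a b} ha hb k => let ⟨l, h⟩ := hb k; let ⟨m, h'⟩ := ha l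
        ⟨m, fun x => (congrArg a.1 (h x)).trans (h' _)⟩
      one_mem' := fun k => ⟨k, fun _ => rfl⟩ }
  { N with
    inv_mem' := fun {g} h => Submonoid.powers_le.2 (show g ∈ N from h)
      (mem_powers_iff_mem_zpowers.2 (inv_mem (Subgroup.mem_zpowers g))) }

omit [Finite K] in
theorem Nm.dich {g : S.Isom} (h : g ∈ Nm S K) :
    (∀ (k : K) x, g.1 (k • x) = k • g.1 x) ∨ 2 * finrank F (fixSp g) ≤ finrank F V := by
  refine or_iff_not_imp_left.2 fun h1 => ?_
  push Not at h1
  obtain ⟨k, x, h1⟩ := h1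
  obtain ⟨l, h2⟩ := h k
  have h3 : k ≠ 0 := by rintro rfl; simp at h1
  have h4 : Function.Injective (DistribMulAction.toLinearMap F V k) := smul_right_injective V h3
  have h5 := finrank_sup (A := fixSp g) (B := (fixSp g).map (DistribMulAction.toLinearMap F V k)) (by
    rw [Submodule.disjoint_def]
    rintro _ h5 ⟨a, ha, rfl⟩
    have := (h2 a).symm.trans h5
    rw [mem_fixSp.1 ha, ← sub_eq_zero] at this
    rw [(smul_eq_zero.1 ((sub_smul l k a).trans this)).resolve_left fun h => h1 (sub_eq_zero.1 h ▸ h2 x), _root_.map_zero])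
  rw [← (Submodule.equivMapOfInjective _ h4 _).finrank_eq] at h5
  exact (two_mul _).trans_le (h5 ▸ Submodule.finrank_le _)

theorem Nm.lin {g : S.Isom} (h : g ∈ Nm S K) {r : ℕ} (h1 : g ^ r = 1) (h2 : r.Coprime (finrank F K)) (k : K) (x : V) :
    g.1 (k • x) = k • g.1 x := by
  by_cases hx : x = 0
  · simp [hx]
  choose θ h using h
  have e : ∀ {a b : K}, a • g.1 x = b • g.1 x → a = b := fun h => smul_left_injective K (by simpa) h
  let φ : K →ₐ[F] K :=
    { toFun := θ
      map_one' := e (by rw [← h, one_smul, one_smul])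
      map_mul' := fun a b => e (by rw [← h, mul_smul, h, h, mul_smul])
      map_zero' := e (by rw [← h, zero_smul, zero_smul, _root_.map_zero])
      map_add' := fun a b => e (by rw [← h, add_smul, _root_.map_add, h, h, add_smul])
      commutes' := fun c => e (by rw [← h, algebraMap_smul, algebraMap_smul, map_smul]) }
  let ψ := AlgEquiv.ofBijective φ (Finite.injective_iff_bijective.1 φ.injective)
  have h3 : ∀ (n : ℕ) k y, (g ^ n).1 (k • y) = (ψ ^ n) k • (g ^ n).1 y := fun n => by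
    induction n with
    | zero => simp
    | succ n ih => exact fun k y => by rw [pow_succ', pow_succ']; exact (congrArg g.1 (ih k y)).trans (h _ _)
  have h4 : ψ ^ r = 1 := AlgEquiv.ext fun k => smul_left_injective K hx (by simpa [h1] using (h3 r k x).symm)
  have h5 := Nat.dvd_gcd (orderOf_dvd_of_pow_eq_one h4) (IsGalois.card_aut_eq_finrank F K ▸ orderOf_dvd_natCard ψ)
  rw [h2, Nat.dvd_one, _root_.orderOf_eq_one_iff] at h5
  exact (h k x).trans (congrArg (· • _) congr($h5 k))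

variable {τ : K →+* K} {P' : FParam τ} {U : PForm P' V} (hU : ∀ g : U.Isom, IsIsom S S g.1)

omit [Finite K] in
theorem resI_mem (g : U.Isom) : resI U S hU g ∈ Nm S K := fun k => ⟨k, map_smul g.1 k⟩

omit [Finite K] [Finite F] in
theorem res_resI (g : U.Isom) : finrank F (res (resI U S hU g)) = finrank F K * finrank K (res g) :=
  (finrank_mul_finrank F K (res g)).symm

omit [Finite K] [Finite F] [FiniteDimensional F V] in
theorem exists_resI (hU' : ∀ f : V →ₗ[K] V, IsIsom S S f → IsIsom U U f) {g : S.Isom}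
    (h : ∀ (k : K) x, g.1 (k • x) = k • g.1 x) : ∃ g', resI U S hU g' = g :=
  ⟨⟨{ g.1 with map_smul' := h }, hU' _ g.2⟩, rfl⟩

include hU in
omit [Finite K] in
theorem card_Nm : (Nm S K).index * Nat.card U.Isom ∣ Nat.card S.Isom := by
  rw [← (Nm S K).index_mul_card]
  refine Nat.mul_dvd_mul_left _ ?_
  exact Subgroup.card_dvd_of_injective ((resI U S hU).codRestrict _ (resI_mem hU))
    fun a b h => resI_injective U S hU (congrArg Subtype.val h)

omit [Finite K] [Finite F] [FiniteDimensional F V] in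
theorem exists_semi {ι : Type} (e : V ≃ₗ[K] (ι → K)) (τ : K →+* K) (h : ∀ c, τ (algebraMap F K c) = algebraMap F K c) (a : K) :
    ∃ f : V →ₗ[F] V, (∀ x, e (f x) = a • (τ ∘ e x)) ∧ ∀ (k : K) x, f (k • x) = τ k • f x :=
  ⟨{ toFun := fun x => e.symm (a • (τ ∘ e x))
     map_add' := fun x y => e.injective (by ext i; simp [mul_add])
     map_smul' := fun c x => e.injective (by
       ext i
       rw [RingHom.id_apply, ← algebraMap_smul K c x, ← algebraMap_smul K c (e.symm _), e.map_smul, e.map_smul]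
       simp [-algebraMap_smul, h, mul_left_comm]) }, fun _ => e.apply_symm_apply _, fun k x => e.injective (by ext i; simp [mul_left_comm])⟩

theorem res_four (hS : S.Nondeg) (h2 : (2 : F) ≠ 0) (hV : finrank F V = 4) {x : S.Isom} (h : x ^ 2 = 1)
    (h1 : ∀ z : F, iE x ≠ z • 1) : finrank F (res x) = 2 := by
  have h3 : iE x ^ 2 = 1 := by rw [← iE_pow, h, iE_one]
  obtain ⟨k, hk⟩ := symp_even _ (hS.nondeg_res (ss_of_pow_eq_one (m := 2) (by exact_mod_cast h2) h3)) rfl
  have h4 := (res x).finrank_le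
  have h5 : finrank F (res x) ≠ 0 := fun h => h1 1 (by
    rw [res_eq_bot_iff.1 (Submodule.finrank_eq_zero.1 h), iE_one, one_smul])
  have h6 : finrank F (res x) ≠ 4 := fun h => h1 (-1) (LinearMap.ext fun v => by
    simpa using res_neg h3 (Submodule.eq_top_of_finrank_eq (h.trans hV.symm) ▸ Submodule.mem_top : v ∈ res x))
  omega

theorem symp_fld (p : ℕ) [Fact p.Prime] [CharP F p] (hS : S.Nondeg) (hk : (finrank F K).Prime) {U : PForm (sympP K) V}
    (hU : ∀ x y, Algebra.trace F K (U.h x y) = S.h x y) {d r : ℕ} (hd : finrank F V = 2 * d) (h0 : 2 ≤ d) (hr : r.Prime)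
    (hΩ : r ∣ (Nm S K).index) : (∀ x : S.Isom, (∃ z : F, iE x ^ r = z • 1) → (∀ z : F, iE x ≠ z • 1) →
      ∃ g, g⁻¹ * x * g ∈ Nm S K) ↔ r = 2 ∧ d = 2 ∧ finrank F K = 2 ∧ p ≠ 2 := by
  have : FiniteDimensional K V := .of_restrictScalars_finite F K V
  have h1 : U.Nondeg := fun x h => hS x fun y => by rw [← hU, h, _root_.map_zero]
  have h3 : ∀ g : U.Isom, IsIsom S S g.1 := fun g => symp_isIsom fun x y => by rw [← hU, ← hU, isom_h]
  have h4 : ∀ f : V →ₗ[K] V, IsIsom S S f → IsIsom U U f := fun f h => symp_isIsom fun x y =>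
    H29.eq_of_dual (Algebra.trace_ne_zero F K) fun k => by
      rw [← smul_eq_mul, ← smul_eq_mul, ← map_smul, ← map_smul, ← map_smul, hU, hU, h.h_eq]
  obtain ⟨m, hm⟩ := symp_even _ h1 rfl
  have h5 := finrank_mul_finrank F K V
  have h6 : d = finrank F K * m := by rw [hm, hd] at h5; linarith
  have h7 := hk.two_le
  have h8 : finrank F K ≤ d := Nat.le_of_dvd (by omega) ⟨_, h6⟩
  have key : ∀ y ∈ Nm S K, y ^ r = 1 → (finrank F K ∣ finrank F (res y) ∧ (r ≠ p → 2 * finrank F K ∣ finrank F (res y))) ∨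
      (d ≤ finrank F (res y) ∧ r = finrank F K) := fun y hy h => by
    by_cases h9 : ∀ (k : K) x, y.1 (k • x) = k • y.1 x
    · obtain ⟨g, rfl⟩ := exists_resI h3 h4 h9
      rw [res_resI]
      refine .inl ⟨dvd_mul_right _ _, fun hrp => ?_⟩
      have : CharP K p := charP_of_injective_algebraMap (algebraMap F K).injective p
      rw [mul_comm 2]
      exact mul_dvd_mul_left _ (symp_even _ (h1.nondeg_res (ss_of_pow_eq_one (natCast_ne_zero_of_prime p hr hrp) (by
        rw [← iE_pow, resI_injective U S h3 ((map_pow _ _ _).trans (h.trans (map_one _).symm)), iE_one]))) rfl).two_dvd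
    · have := (Nm.dich hy).resolve_left h9
      have := finrank_fix hS y
      exact .inr ⟨by omega, by_contra fun h10 => h9 (Nm.lin hy h ((Nat.coprime_primes hr hk).2 h10))⟩
  constructor
  · intro H
    by_cases hrp : r = p
    · subst hrp
      obtain ⟨x, h9, h10⟩ := exists_transv r hS (by omega)
      obtain ⟨y, h11, h12, h13⟩ := of_all H h9 (ns_res (by omega) (by omega))
      rcases key y h11 h12 with h | h
      · exact absurd (Nat.le_of_dvd (by omega) h.1) (by omega)
      · omega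
    have h2 := natCast_ne_zero_of_prime (F := F) p hr hrp
    by_cases hr2 : r = 2
    · subst hr2
      obtain ⟨W, h9, h10⟩ := hm_symp.nd hS (k := 2) dvd_rfl (by omega)
      obtain ⟨x, h11, h12⟩ := exists_inv hS (by exact_mod_cast h2) h9
      obtain ⟨y, h13, h14, h15⟩ := of_all H h11 (ns_res (by omega) (by omega))
      rcases key y h13 h14 with h | h
      · exact absurd (Nat.le_of_dvd (by omega) (h.2 hrp)) (by omega)
      · omega
    have h9 : ¬ r ∣ Nat.card F := fun h => hrp ((dvd_card_iff p hr).1 h)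
    have h10 := card_Nm h3
    obtain ⟨R, h11, h12⟩ := gO_split (Nat.card F ^ 2) (k := finrank F K) d
    have hq : 1 < Nat.card F := Finite.one_lt_card
    rw [symp_card_Isom _ hS hd, symp_card_Isom m h1 (by omega), H21.Eo.prod_eq_gO, H21.Eo.prod_eq_gO, h11,
      natCard_eq_pow_finrank (K := F) (V := K), pow_right_comm _ (finrank F K) 2, show d / finrank F K = m by
        rw [h6, Nat.mul_div_cancel_left _ hk.pos], ← mul_assoc, mul_comm _ R, ← mul_assoc,
      Nat.mul_dvd_mul_iff_right (gO_pos (Nat.one_lt_pow hk.ne_zero (Nat.one_lt_pow two_ne_zero hq)) _)] at h10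
    obtain ⟨j, k1, k2, k3, k4⟩ := h12 r hr ((hr.dvd_mul.1 ((hΩ.mul_right _).trans h10)).resolve_left
      fun h => h9 (hr.dvd_of_dvd_pow h))
    have k5 := c_dvd_symp rfl rfl (pow_mul (Nat.card F) 2 j ▸ k4)
    have k6 := Nat.le_of_dvd (by omega) k5
    obtain ⟨x, k7, k8, k9, -, k10⟩ := (ar_symp hr hr2 h9 h2 rfl rfl).exists_res hS one_pos (by omega)
    obtain ⟨y, h13, h14, h15⟩ := of_all H k7 (ns_odd hS (hr.odd_of_ne_two hr2) k7 k8)
    rw [k9, one_mul] at h15
    rcases key y h13 h14 with h | h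
    · exact absurd (Nat.dvd_of_mul_dvd_mul_left two_pos ((h15 ▸ h.2 hrp).trans k5)) k3
    · omega
  rintro ⟨rfl, rfl, h9, h10⟩
  have h2 : (2 : F) ≠ 0 := by exact_mod_cast natCast_ne_zero_of_prime (F := F) p hr h10.symm
  refine two_all hS h2 (fun x k1 k2 => ?_) ?_
  · obtain ⟨e, he⟩ := symp_eqv _ h1 (stdSymp_nondeg m) rfl (by rw [finrank_sum_fun]; omega)
    have k3 := (IsGalois.card_aut_eq_finrank F K).trans h9
    have : Nontrivial (K ≃ₐ[F] K) := Finite.one_lt_card_iff_nontrivial.1 (by omega)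
    obtain ⟨τ, k4⟩ := exists_ne (1 : K ≃ₐ[F] K)
    have k5 : ∀ a, τ (τ a) = a := fun a => DFunLike.congr_fun (show τ ^ 2 = 1 from k3 ▸ pow_card_eq_one') a
    obtain ⟨f, k6, k7⟩ := exists_semi (F := F) e (τ : K →+* K) τ.commutes 1
    have k8 : ∀ x, f (f x) = x := fun x => e.injective (by ext i; simp [k6, k5])
    let y := mkIsom hS f (symp_isIsom fun u v => by
      rw [← hU, ← hU, ← he.h_eq, ← he.h_eq, k6, k6, ← Algebra.trace_eq_of_algEquiv τ ((stdSymp m K).h (e u) _)]
      simp [stdSymp_h, Cfsg.sympForm, Matrix.J, Matrix.fromBlocks_mulVec, dotProduct, Matrix.neg_mulVec])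
    have k9 : y ^ 2 = 1 := Subtype.ext (LinearEquiv.ext k8)
    refine ⟨y, fun k => ⟨_, k7 k⟩, k9, (res_four hS h2 hd k9 fun z hz => k4 (AlgEquiv.ext fun a => ?_)).trans
      (res_four hS h2 hd k1 k2).symm⟩
    have k10 : ∀ v, f v = z • v := fun v => congr($hz v)
    have := nontrivial_of_finrank_pos (show 0 < finrank F V by omega)
    obtain ⟨v, hv⟩ := exists_ne (0 : V)
    have k11 := k7 a (f v)
    rw [k10 (a • f v), ← smul_comm, ← k10, k8] at k11
    exact (smul_left_injective K hv k11).symm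
  · obtain ⟨g, hg⟩ := exists_sqneg h1
    exact ⟨_, resI_mem h3 g, LinearMap.ext fun x =>
      (congr($hg x) : (iE g ^ 2) x = _).trans ((neg_one_smul K x).trans (neg_one_smul F x).symm)⟩

theorem uO_split (q n : ℕ) (hq : 0 < q) :
    gO (q ^ 2) n = uO q n * ∏ j ∈ Finset.range n, (if Even j then q ^ (j + 1) - 1 else q ^ (j + 1) + 1) := by
  rw [uO, ← Finset.prod_mul_distrib]
  refine Finset.prod_congr rfl fun j _ => ?_
  rw [pow_right_comm, ← one_pow 2, Nat.sq_sub_sq]
  split_ifs <;> simp [mul_comm]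

theorem symp_ufld (p : ℕ) [Fact p.Prime] [CharP F p] (hS : S.Nondeg) (h2 : (2 : F) ≠ 0) (hk : finrank F K = 2)
    (hc : ∀ k : K, ∃ k' : K, ∀ x y, S.h (k • x) y = S.h x (k' • y)) (hn : ¬ ∀ (k : K) x y, S.h (k • x) y = S.h x (k • y))
    {d r : ℕ} (hd : finrank F V = 2 * d) (h0 : 0 < d) (hr : r.Prime) (hΩ : r ∣ (Nm S K).index) :
    (∀ x : S.Isom, (∃ z : F, iE x ^ r = z • 1) → (∀ z : F, iE x ≠ z • 1) → ∃ g, g⁻¹ * x * g ∈ Nm S K) ↔ r = 2 := by
  have : FiniteDimensional K V := .of_restrictScalars_finite F K V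
  obtain ⟨τ, hτ, θ, U, hne, hfix, k0, hθ, -, hU⟩ := H29.exists_unit_form (K := K) hS hk hc hn
  replace hθ : τ θ = -θ := by simpa using hθ
  have k2 : (2 : K) ≠ 0 := by rw [← map_ofNat (algebraMap F K)]; exact (_root_.map_ne_zero _).2 h2
  have inj := (algebraMap F K).injective
  have h1 : U.Nondeg := fun x h => hS x fun y => inj (by simp [hU, h])
  have h3 : ∀ g : U.Isom, IsIsom S S g.1 := fun g => symp_isIsom fun x y => inj (by rw [hU, hU, isom_h])
  have h4 : ∀ f : V →ₗ[K] V, IsIsom S S f → IsIsom U U f := fun f h => unit_isIsom fun x y => by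
    by_contra h5
    have h6 := sub_ne_zero.2 h5
    have := congrArg (algebraMap F K) (h.h_eq x ((θ * (U.h (f x) (f y) - U.h x y))⁻¹ • y))
    rw [hU, hU, map_smul, map_smul, map_smul, ← sub_eq_zero, add_sub_add_comm, ← map_sub, smul_eq_mul, smul_eq_mul,
      ← mul_sub, ← mul_sub, ← mul_assoc, mul_right_comm, mul_inv_cancel₀ (mul_ne_zero k0 h6), map_one] at this
    exact k2 (by linear_combination this)
  have h5 := finrank_mul_finrank F K V
  have h6 : finrank K V = d := by rw [hk, hd] at h5; omega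
  constructor
  · intro H
    by_contra hr2
    have key : ∀ x : S.Isom, x ^ r = 1 → x ≠ 1 → ∃ g : U.Isom, g ^ r = 1 ∧ finrank F (res x) = 2 * finrank K (res g) :=
      fun x h h' => by
        obtain ⟨y, k1, k3, k4⟩ := of_all H h (ns_odd hS (hr.odd_of_ne_two hr2) h h')
        obtain ⟨g, rfl⟩ := exists_resI h3 h4 (Nm.lin k1 k3 (hk ▸ (Nat.coprime_primes hr Nat.prime_two).2 hr2))
        exact ⟨g, resI_injective U S h3 ((map_pow _ _ _).trans (k3.trans (map_one _).symm)), by rw [← k4, res_resI, hk]⟩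
    by_cases hrp : r = p
    · subst hrp
      obtain ⟨x, h9, h10⟩ := exists_transv r hS (by omega)
      obtain ⟨g, -, h11⟩ := key x h9 (by rintro rfl; rw [res_eq_bot_iff.2 rfl, finrank_bot] at h10; omega)
      omega
    have h7 := natCast_ne_zero_of_prime (F := F) p hr hrp
    have h9 : ¬ r ∣ Nat.card F := fun h => hrp ((dvd_card_iff p hr).1 h)
    have hK : Nat.card K = Nat.card F ^ 2 := by rw [natCard_eq_pow_finrank (K := F) (V := K), hk]
    have hq : 1 < Nat.card F := Finite.one_lt_card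
    have h10 := card_Nm h3
    rw [symp_card_Isom _ hS hd, unit_card_Isom hne hK _ h1 h6, H21.Eo.prod_eq_gO, uO_split _ _ (by omega), guOrd, ← uO,
      ← mul_assoc, mul_comm (uO _ _), ← mul_assoc, Nat.mul_dvd_mul_iff_right (Nat.pos_of_ne_zero fun h => by
        simpa [h, (gO_pos (Nat.one_lt_pow two_ne_zero hq) d).ne'] using uO_split (Nat.card F) d (by omega))] at h10
    obtain ⟨j, k1, k3⟩ := (Prime.dvd_finset_prod_iff hr.prime _).1 ((hr.dvd_mul.1 ((hΩ.mul_right _).trans h10)).resolve_left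
      fun h => h9 (hr.dvd_of_dvd_pow h))
    have k4 : (-Nat.card F : ZMod r) ^ (j + 1) = -1 := by
      have := (ZMod.natCast_eq_zero_iff _ _).2 k3
      split_ifs at this with h
      · rw [Nat.cast_sub (Nat.one_le_pow _ _ (by omega))] at this
        rw [h.add_one.neg_pow, neg_inj]; simpa [sub_eq_zero] using this
      · rw [(Nat.not_even_iff_odd.1 h).add_one.neg_pow]; simpa [add_eq_zero_iff_eq_neg] using this
    have k5 := c_dvd_symp (F := F) (r := r) rfl rfl (j := j + 1) ((ord_dvd_iff (q := Nat.card F) (by omega)).1 (orderOf_dvd_of_pow_eq_one (by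
      rw [pow_mul, ← neg_sq, pow_right_comm, k4, neg_one_sq])))
    have k6 := Nat.le_of_dvd (by omega) k5
    have A := ar_symp hr hr2 h9 h7 rfl rfl
    obtain ⟨x, k7, k8, k9, -⟩ := A.exists_res hS one_pos (by simp at k1; omega)
    obtain ⟨g, k10, k11⟩ := key x k7 k8
    have : CharP K p := charP_of_injective_algebraMap inj p
    have B := ar_unit hne hK (hσ := hτ) p (unit_σ_eq hτ hne hK) hr hr2 hrp rfl rfl rfl
    obtain ⟨-, k12, k13, k14, -⟩ := B.spec h1 k10
    obtain ⟨t, k15, -⟩ := B.shape k12 k13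
    have k16 := finrank_fix h1 g
    have k17 := A.ipos
    generalize hi : orderOf (Nat.card F : ZMod r) = i at *
    have k18 : (if Even i then i else 2 * i) = 2 * (t * if i % 4 = 0 then i else if i % 4 = 2 then i / 2 else 2 * i) := by
      omega
    by_cases k19 : i % 4 = 2
    · have k20 := H21.Eo.pow_eq hr hr2 hi.symm k17.ne' rfl (m := i / 2) (t := 1) (by
        rw [if_pos (Nat.even_iff.2 (by omega))]; omega)
      have k21 : Odd (i / 2) := Nat.odd_iff.2 (by omega)
      rw [if_neg (by simp [Nat.even_iff]; omega)] at k20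
      have k22 := congrArg (· ^ (i / 2)) k4
      have : Fact (2 < r) := ⟨by have := hr.two_le; omega⟩
      simp only [pow_right_comm _ (j + 1), k21.neg_pow, k20, neg_neg, one_pow] at k22
      exact ZMod.neg_one_ne_one k22.symm
    · rw [show (if i % 4 = 0 then i else if i % 4 = 2 then i / 2 else 2 * i) = if Even i then i else 2 * i by
        simp only [Nat.even_iff]; split_ifs <;> omega] at k18
      have := A.cpos
      rcases t with _ | t <;> nlinarith
  rintro rfl
  refine two_all hS h2 (fun x k1 _ => ?_) ?_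
  · obtain ⟨k, k3⟩ := symp_even _ (hS.nondeg_res (ss_of_pow_eq_one (m := 2) (by exact_mod_cast h2)
      (by rw [← iE_pow, k1, iE_one]))) rfl
    have := (res x).finrank_le
    obtain ⟨W, k4, k5⟩ := (hm_unit hne).nd h1 (k := k) (one_dvd _) (by omega)
    obtain ⟨g, k6, k7⟩ := exists_inv h1 k2 k4
    exact ⟨_, resI_mem h3 g, by rw [← map_pow, k6, map_one], by rw [res_resI, hk]; omega⟩
  · obtain ⟨e, he⟩ := unit_eqv hne _ h1 (stdUnit_nondeg hτ hne (Fin d)) h6 (by simp)
    obtain ⟨a, ha⟩ := exists_norm_eq hτ hne (μ := -1) (by simp)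
    obtain ⟨f, k6, k7⟩ := exists_semi (F := F) e τ (fun c => (hfix _).2 ⟨c, rfl⟩) a
    have k8 : ∀ u v, U.h (f u) (f v) = -τ (U.h u v) := fun u v => by
      rw [← he.h_eq, ← he.h_eq, k6, k6, h_smul_left, h_smul_right, ← mul_assoc, ha]
      simp [stdUnit_h]
    refine ⟨mkIsom hS f (symp_isIsom fun u v => inj (by simp [hU, k8, hθ, hτ, add_comm])), fun k => ⟨_, k7 k⟩,
      LinearMap.ext fun x => e.injective (funext fun i => ?_)⟩
    show e (f (f x)) i = e ((-1 : F) • x) i
    simp [k6, hτ]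
    linear_combination e x i * ha

end Ext

theorem nm_eq {d k : ℕ} (hd : 0 < d) {A : Subalgebra F (Matrix (Fin d ⊕ Fin d) (Fin d ⊕ Fin d) F)}
    (hA : Cfsg.Geo.IsFieldSubalgebra k A) : ∃ h : IsField A, letI := h.toField
      (Cfsg.Geo.subalgebraNormalizer A).comap (H29.toGL (stdSymp d F)) = Nm (stdSymp d F) A := by
  have : Nonempty (Fin d) := ⟨⟨0, hd⟩⟩
  refine ⟨H29.isField_of hA, ?_⟩
  letI := (H29.isField_of hA).toField
  refine le_antisymm (fun g hg k => ⟨⟨_, (hg k).1 k.2⟩, fun x => ?_⟩) (Subgroup.map_le_iff_le_comap.1 (H29.le_nml ?_))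
  · rintro _ ⟨g, hg, rfl⟩
    simp only [H29.toGL_mulVec]
    exact hg
  · rw [← H29.toGL_mulVec, ← H29.toGL_mulVec]
    show _ = (_ * _ * _ : Matrix _ _ F).mulVec _
    rw [Matrix.mulVec_mulVec, mul_assoc, Units.inv_mul, mul_one, ← Matrix.mulVec_mulVec]
    rfl

end H20.El
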