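import Cfsg.Agent.H29.Ten2

/-! Tensor structures `V = U ⊗ W` with `SL(U) ⊗ 1 ≤ H` and scalar level (`Sy`, `Ok`), part 1:
`dual3`, `dualR`, `Eqv.ten` and `iv` (a root element of one structure that respects another one). -/

set_option autoImplicit false
set_option linter.unusedSectionVars false

namespace H20.Lw

open Module H29

/-- a tensor structure `V = U ⊗ W` -/
structure Sy (F U W V : Type*) [Field F] [AddCommGroup U] [Module F U] [AddCommGroup W] [Module F W]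
    [AddCommGroup V] [Module F V] where
  t : U →ₗ[F] W →ₗ[F] V
  c : Dual F U →ₗ[F] V →ₗ[F] W
  ct : ∀ φ u w, c φ (t u w) = φ u • w
  ext : ∀ M : Submodule F V, (∀ u w, t u w ∈ M) → ∀ x, x ∈ M
  three : 3 ≤ finrank F U
  nt : ∃ w : W, w ≠ 0

attribute [simp] Sy.ct

variable {F U W V : Type*} [Field F] [AddCommGroup U] [Module F U] [AddCommGroup W] [Module F W]
  [AddCommGroup V] [Module F V] [FiniteDimensional F U] [FiniteDimensional F W]
  [FiniteDimensional F V] {H : Subgroup (V ≃ₗ[F] V)} {s s' s'' : Sy F U W V} {u v y z : U} {w : W}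
  {φ ψ η : Dual F U} {x : V} {g k : V ≃ₗ[F] V} {m : End F V}

namespace Sy
variable (s)

/-- root elements -/
def n (u : U) (φ : Dual F U) : End F V := s.t u ∘ₗ s.c φ

@[simp] theorem n_apply (u : U) (φ : Dual F U) (x : V) : s.n u φ x = s.t u (s.c φ x) := rfl

/-- the transported structure -/
def map (g : V ≃ₗ[F] V) : Sy F U W V where
  t := s.t.compr₂ g.toLinearMap
  c := s.c.compl₂ g.symm.toLinearMap
  ct := by simp
  ext M h x := by simpa using s.ext (M.comap g.toLinearMap) h (g.symm x)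
  three := s.three
  nt := s.nt

@[simp] theorem map_t (u : U) (w : W) : (s.map g).t u w = g (s.t u w) := rfl

@[simp] theorem map_c (φ : Dual F U) (x : V) : (s.map g).c φ x = s.c φ (g.symm x) := rfl

theorem lext {M : Type*} [AddCommGroup M] [Module F M] {f g : V →ₗ[F] M}
    (h : ∀ u w, f (s.t u w) = g (s.t u w)) (x : V) : f x = g x :=
  sub_eq_zero.1 (s.ext (LinearMap.ker (f - g)) (fun u w => sub_eq_zero.2 (h u w)) x)

theorem ts (u : U) (w : W) : ∑ a, (finBasis F U).repr u a • s.t (finBasis F U a) w = s.t u w := by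
  simpa only [map_sum, map_smul, LinearMap.sum_apply, LinearMap.smul_apply] using
    congrArg (s.t · w) ((finBasis F U).sum_repr u)

theorem res : ∑ a, s.n (finBasis F U a) ((finBasis F U).coord a) = 1 :=
  LinearMap.ext (s.lext fun u w => by simp [LinearMap.sum_apply, ts])

theorem eq_t (hη : η u = 1) (h : ∀ φ, φ u = 0 → s.c φ x = 0) : x = s.t u (s.c η x) := by
  have a : ∀ φ, s.c φ x = φ u • s.c η x := fun φ => by
    simpa [sub_eq_zero] using h (φ - φ u • η) (by simp [hη])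
  have := LinearMap.congr_fun s.res x
  generalize s.c η x = w at a
  simpa [LinearMap.sum_apply, a, ts] using this.symm

theorem c_ext {x y : V} (h : ∀ φ, s.c φ x = s.c φ y) : x = y := by
  rw [← End.one_apply (R := F) x, ← End.one_apply (R := F) y, ← s.res]
  simp [LinearMap.sum_apply, h]

theorem inj (hu : u ≠ 0) (e : s.t u w = 0) : w = 0 := by
  obtain ⟨η, hη⟩ := ex_one' (F := F) hu
  simpa [hη] using congrArg (s.c η) e

theorem inj' (hu : u ≠ 0) : Function.Injective (s.t u) :=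
  (injective_iff_map_eq_zero _).2 fun _ => s.inj hu

theorem inj2 (hw : w ≠ 0) (e : s.t u w = 0) : u = 0 := by_contra fun h => hw (s.inj h e)

theorem nz (hu : u ≠ 0) (hφ : φ ≠ 0) : ∃ x, s.n u φ x ≠ 0 := by
  obtain ⟨y, hy⟩ := ex_one hφ
  obtain ⟨w, hw⟩ := s.nt
  exact ⟨s.t y w, fun h => hw (s.inj hu (by simpa [hy] using h))⟩

theorem out (s : Sy F U W V) (u : U) : ∃ (y : U) (χ : Dual F U), χ u = 0 ∧ χ y = 1 :=
  let ⟨χ, a, b, _⟩ := ex_dual2 s.three u u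
  let ⟨y, h⟩ := ex_one a
  ⟨y, χ, b, h⟩

/-- `z` commutes with the root elements -/
def Cen (z : End F V) : Prop := ∀ u φ, φ u = 0 → Commute (s.n u φ) z

variable {s}

theorem Cen.ex (h : s.Cen m) : ∃ ζ : W →ₗ[F] W, ∀ y w, m (s.t y w) = s.t y (ζ w) := by
  obtain ⟨y₁, η, -, hη⟩ := s.out 0
  refine ⟨s.c η ∘ₗ m ∘ₗ s.t y₁, fun y w => ?_⟩
  obtain ⟨φ, a, b, d⟩ := ex_dual2 s.three y y₁
  obtain ⟨y₀, e⟩ := ex_one a
  have : ∀ y, φ y = 0 → m (s.t y w) = s.t y (s.c φ (m (s.t y₀ w))) := fun y hy => by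
    simpa [e] using (LinearMap.congr_fun (h y φ hy).eq (s.t y₀ w)).symm
  simp [this y b, this y₁ d, hη]

theorem cen_of {ζ : W →ₗ[F] W} (h : ∀ y w, m (s.t y w) = s.t y (ζ w)) : s.Cen m := fun u φ _ =>
  LinearMap.ext (s.lext fun y w => by simp [h])

end Sy

/-- the root elements lie in `H` and the level is scalar -/
structure Ok (s : Sy F U W V) (H : Subgroup (V ≃ₗ[F] V)) : Prop where
  rt : ∀ u φ, φ u = 0 → In H (s.n u φ)
  nl : ∀ (E : W →ₗ[F] W) u φ, u ≠ 0 → φ ≠ 0 → φ u = 0 → In H (s.t u ∘ₗ E ∘ₗ s.c φ) →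
    ∃ a : F, ∀ w, E w = a • w

theorem Ok.map (h : Ok s H) (hg : g ∈ H) : Ok (s.map g) H :=
  ⟨fun u φ a => (h.rt u φ a).conj hg fun x => by simp,
    fun E u φ a b c d => h.nl E u φ a b c (d.conj (H.inv_mem hg) fun x => by simp)⟩

theorem Ok.dual3 (h : Ok s H) (hk : In H m) (hφ : φ ≠ 0) (h1 : ∀ x, s.c φ x = 0 → m x = 0)
    (h2 : ∀ x, s.c φ (m x) = 0) : ∃ u, ∀ x, m x = s.t u (s.c φ x) := by
  obtain ⟨y, hy⟩ := ex_one hφ
  have h3 : ∀ x, m x = m (s.t y (s.c φ x)) := fun x => by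
    rw [← sub_eq_zero, ← map_sub]; exact h1 _ (by simp [hy])
  obtain ⟨w, hw⟩ := s.nt
  obtain ⟨θ, hθ⟩ := ex_one' (F := F) hw
  obtain ⟨u, hu⟩ := (evalEquiv F U).surjective (θ ∘ₗ s.c.flip (m (s.t y w)))
  refine ⟨u, fun x => s.c_ext fun χ => ?_⟩
  obtain ⟨v, a1, a2, a3⟩ := ex_ker2 s.three φ χ
  obtain ⟨a, ha⟩ := h.nl (s.c χ ∘ₗ m ∘ₗ s.t y) v φ a1 hφ a2 ((h.rt v χ a3).comm hk
    (fun x => by rw [h1 (s.n _ _ _) (by simp [a2]), h3]; simp) (fun x => by simp [a3])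
    fun x => h1 _ (by simp [a2]))
  replace ha : ∀ w, s.c χ (m (s.t y w)) = a • w := ha
  have : χ u = a := by simpa [ha, hθ] using LinearMap.congr_fun hu χ
  rw [h3, ha, s.ct, this]

theorem Ok.dualR (h : Ok s H) (hk : In H m) (hu : u ≠ 0) (h1 : ∀ x, ∃ a, m x = s.t u a)
    (h2 : ∀ w, m (s.t u w) = 0) : ∃ ψ : Dual F U, ψ u = 0 ∧ ∀ x, m x = s.t u (s.c ψ x) := by
  obtain ⟨η, hη⟩ := ex_one' (F := F) hu
  have h3 : ∀ x, m x = s.t u (s.c η (m x)) := fun x => (h1 x).elim fun a ha => by simp [ha, hη]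
  obtain ⟨w, hw⟩ := s.nt
  obtain ⟨θ, hθ⟩ := ex_one' (F := F) hw
  refine ⟨θ ∘ₗ s.c η ∘ₗ m ∘ₗ s.t.flip w, by simp [h2], s.lext (g := s.n _ _) fun y w' => ?_⟩
  obtain ⟨χ, a1, a2, a3⟩ := ex_dual2 s.three u y
  obtain ⟨a, ha⟩ := h.nl (s.c η ∘ₗ m ∘ₗ s.t y) u χ hu a1 a2 (hk.comm (h.rt y χ a3)
    (fun x => by rw [h3 x, h3 (s.n _ _ _)]; simp [a2]) (fun x => h2 _) fun x => by simp [a2])
  replace ha : ∀ w, s.c η (m (s.t y w)) = a • w := ha
  rw [h3]
  simp [ha, hθ]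

/-- the two structures have a common member -/
def Eqv (s s' : Sy F U W V) : Prop := ∃ u u', u' ≠ 0 ∧ ∀ w, ∃ a, s'.t u' w = s.t u a

theorem Eqv.ex (h : Eqv s s') : ∃ u u', u ≠ 0 ∧ u' ≠ 0 ∧ ∃ ρ : W ≃ₗ[F] W, ∀ w, s'.t u' w = s.t u (ρ w) := by
  obtain ⟨u, u', h0, h⟩ := h
  obtain ⟨w₀, w0⟩ := s.nt
  have hu : u ≠ 0 := by
    rintro rfl
    exact (h w₀).elim fun a ha => w0 (s'.inj h0 (by simpa using ha))
  obtain ⟨η, hη⟩ := ex_one' (F := F) hu
  have a : ∀ w, s'.t u' w = s.t u ((s.c η ∘ₗ s'.t u') w) := fun w => (h w).elim fun a ha => by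
    simp [ha, hη]
  exact ⟨u, u', hu, h0, .ofInjectiveEndo (s.c η ∘ₗ s'.t u') ((injective_iff_map_eq_zero _).2 fun w hw =>
    s'.inj h0 (by rw [a, hw, map_zero])), a⟩

theorem Eqv.symm (h : Eqv s s') : Eqv s' s :=
  let ⟨u, u', a, _, ρ, b⟩ := h.ex
  ⟨u', u, a, fun w => ⟨ρ.symm w, by simp [b]⟩⟩

theorem Eqv.ten (o : Ok s H) (o' : Ok s' H) (h : Eqv s s') :
    ∃ ρ : W ≃ₗ[F] W, ∀ y', ∃ y, ∀ w, s'.t y' w = s.t y (ρ w) := by
  obtain ⟨u, u', hu, hu', ρ, h⟩ := h.ex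
  refine ⟨ρ, fun y' => ?_⟩
  obtain ⟨ψ', a1, a2, a3⟩ := ex_dual2 s.three u' y'
  obtain ⟨y₀, hy⟩ := ex_one a1
  obtain ⟨ψ, -, b⟩ := o.dualR (o'.rt u' ψ' a2) hu (fun x => ⟨_, h _⟩) fun w => by
    obtain ⟨w, rfl⟩ := ρ.surjective w
    simp [← h, a2]
  have b1 : ∀ x, s.c ψ x = ρ (s'.c ψ' x) := fun x => s.inj' hu (by rw [← b, ← h]; rfl)
  obtain ⟨w₀, w0⟩ := s.nt
  obtain ⟨y, d⟩ := o.dual3 (o'.rt y' ψ' a3) (φ := ψ) (by
    rintro rfl; simpa [hy, w0] using (b1 (s'.t y₀ w₀)).symm)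
    (fun x hx => by simp [show s'.c ψ' x = 0 by simpa [b1] using hx]) fun x => by simp [b1, a3]
  exact ⟨y, fun w => by simpa [b1, hy] using d (s'.t y₀ w)⟩

theorem Eqv.rt (o : Ok s H) (o' : Ok s' H) (h : Eqv s s') (hv : ψ v = 0) :
    ∃ u φ, φ u = 0 ∧ s'.n v ψ = s.n u φ := by
  obtain ⟨ρ, h⟩ := h.ten o o'
  obtain ⟨u, h⟩ := h v
  by_cases hu : u = 0
  · exact ⟨0, 0, rfl, LinearMap.ext fun x => by simp [h, hu]⟩
  obtain ⟨φ, a, b⟩ := o.dualR (o'.rt v ψ hv) hu (fun x => ⟨_, h _⟩) fun w => by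
    obtain ⟨w, rfl⟩ := ρ.surjective w
    simp [← h, hv]
  exact ⟨u, φ, a, LinearMap.ext b⟩

/-- the structures coincide or commute -/
def Good (s s' : Sy F U W V) : Prop := Eqv s s' ∨ ∀ v ψ, ψ v = 0 → s.Cen (s'.n v ψ)

theorem Good.symm (h : Good s s') : Good s' s :=
  h.imp Eqv.symm fun h u φ a v ψ b => (h v ψ b u φ a).symm

variable (o : Ok s H) (o' : Ok s' H) (hv : v ≠ 0) (hψ : ψ ≠ 0) (h0 : ψ v = 0)
include o o' hv hψ h0

theorem iv0 (hk : k ∈ H) (ek : ∀ x, k x = x + s'.n v ψ x) (h : Eqv s (s.map k)) :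
    Eqv s s' ∨ s.Cen (s'.n v ψ) := by
  obtain ⟨ρ, h⟩ := h.ten o (o.map hk)
  choose f hf using h
  have a1 : ∀ y w, s'.n v ψ (s.t y w) = s.t (f y) (ρ w) - s.t y w := fun y w => by
    rw [← hf, Sy.map_t, ek]; simp
  by_cases hs : ∃ a : F, ∀ w, ρ w = a • w
  · obtain ⟨a, hs⟩ := hs
    have a2 : ∀ y w, s'.n v ψ (s.t y w) = s.t (a • f y - y) w := fun y w => by rw [a1, hs]; simp
    obtain ⟨y, hy⟩ : ∃ y, a • f y - y ≠ 0 := by
      by_contra! h
      obtain ⟨x, hx⟩ := s'.nz hv hψ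
      exact hx (s.lext (g := 0) (fun y w => by rw [a2, h]; simp) x)
    exact .inl (Eqv.symm ⟨v, _, hy, fun w => ⟨_, (a2 y w).symm⟩⟩)
  obtain ⟨w₀, w0⟩ := s.nt
  obtain ⟨a, ha⟩ := kern (K := F) (fun u => (s.out u).elim fun y ⟨χ, a, b⟩ => ⟨y, fun m => by
      obtain ⟨r, rfl⟩ := Submodule.mem_span_singleton.1 m
      simp [a] at b⟩) (AddMonoidHom.mk' f fun y z => sub_eq_zero.1 (s.inj2 (w := ρ w₀) (by simpa) (by
      simp [← hf]))) fun y => Submodule.mem_span_singleton.1 (by_contra fun m => hs (by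
    obtain ⟨χ, b1, b2⟩ := ex_sep m
    replace b2 : χ (f y) = 1 := b2
    obtain ⟨φ, c1, c2, c3⟩ := ex_dual2 s.three y (f y)
    obtain ⟨z, hz⟩ := ex_one c1
    have c4 : ∀ w, φ (f z) • ρ w = w := fun w => by
      obtain ⟨w', e⟩ := LinearMap.injective_iff_surjective.1 ((injective_iff_map_eq_zero
        (s'.c ψ ∘ₗ s.t y)).2 fun w (hw : s'.c ψ (s.t y w) = 0) => by
          simpa [hw, b1, b2] using (congrArg (s.c χ) (a1 y w)).symm) (s'.c ψ (s.t z w))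
      have := (a1 z w).symm.trans ((congrArg (s'.t v) e.symm).trans (a1 y w'))
      simpa [c2, c3, hz, sub_eq_zero] using congrArg (s.c φ) this
    have c5 : φ (f z) ≠ 0 := fun e => w0 (by simpa [e] using (c4 w₀).symm)
    exact ⟨(φ (f z))⁻¹, fun w => by rw [eq_inv_smul_iff₀ c5, c4]⟩))
  replace ha : ∀ y, f y = a • y := ha
  exact .inr (Sy.cen_of (ζ := a • (ρ : W →ₗ[F] W) - .id) fun y w => by rw [a1, ha]; simp)

theorem ivC (h : s.Cen (s'.n v ψ)) : Good s s' := by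
  refine or_iff_not_imp_left.2 fun hn v' ψ' a u φ b => ?_
  by_cases hu : u = 0
  · simp [hu, Sy.n]
  by_cases hφ : φ = 0
  · simp [hφ, Sy.n]
  obtain ⟨k, hk, ek⟩ := o.rt u φ b
  obtain ⟨y, hy⟩ := ex_one hψ
  refine (((iv0 o' o hu hφ b hk ek ⟨v, v, hv, fun w => ?_⟩).resolve_left
    fun e => hn e.symm) v' ψ' a).symm
  have := LinearMap.congr_fun (h u φ b).eq (s'.t y w)
  simp only [End.mul_apply, s'.n_apply, s'.ct, hy, one_smul] at this
  exact ⟨_, by rw [Sy.map_t, ek, this, ← map_add]⟩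

theorem ivD (hk : k ∈ H) (ek : ∀ x, k x = x + s'.n v ψ x)
    (h : ∀ u φ, φ u = 0 → s.Cen ((s.map k).n u φ)) : Good s s' := by
  obtain ⟨m, em⟩ : ∃ m, m = s'.n v ψ := ⟨_, rfl⟩
  have m2 : m * m = 0 := LinearMap.ext fun x => by simp [em, h0]
  have cj : ∀ (s : Sy F U W V) (k : V ≃ₗ[F] V) (m : End F V), m * m = 0 → (∀ x, k x = x + m x) → ∀ u φ,
      (s.map k).n u φ = (1 + m) * s.n u φ * (1 - m) := fun s k m m2 ek u φ => LinearMap.ext fun x => by
    obtain ⟨x, rfl⟩ := k.surjective x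
    have : (1 - m : End F V) (k x) = x := by simp [ek, show m (m x) = 0 from LinearMap.congr_fun m2 x]
    simp only [End.mul_apply, this, Sy.n_apply, Sy.map_t, Sy.map_c, k.symm_apply_apply]
    simp [ek]
  rw [← em] at ek
  simp only [cj s k m m2 ek] at h
  by_cases h2 : (2 : F) = 0
  swap
  · refine ivC o o' hv hψ h0 (em ▸ fun u φ a => ?_)
    obtain ⟨ζ, hζ⟩ := Sy.Cen.ex (s := s) (m := m * s.n u φ - s.n u φ * m) fun u' φ' b => by
      have a1 := (h u φ a u' φ' b).eq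
      have a2 := (h u' φ' b u φ a).eq
      generalize s.n u φ = n at *
      generalize s.n u' φ' = n' at *
      have a3 : n' * ((1 - m) * n * (1 + m)) = (1 - m) * n * (1 + m) * n' := by
        linear_combination (norm := noncomm_ring) -((1 - m) * a2 * (1 + m)) - (1 - m) * n * (1 + m) * n' * m2
          + m2 * n' * (1 - m) * n * (1 + m)
      refine smul_right_injective _ h2 ?_
      simp only [two_smul]
      linear_combination (norm := noncomm_ring) a1 - a3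
    by_cases hu : u = 0
    · simp [hu, Sy.n]
    obtain ⟨η, hη⟩ := ex_one' (F := F) hu
    obtain ⟨y, y0, y1, y2⟩ := ex_ker2 s.three φ η
    obtain ⟨χ, c1, c2⟩ := ex_sep (F := F) (w := y) (y := u) fun m => by
      obtain ⟨r, rfl⟩ := Submodule.mem_span_singleton.1 m
      simp [show r = 0 by simpa [hη] using y2] at y0
    have : ∀ w, ζ w = 0 := fun w => by simpa [y1, c1, c2] using (congrArg (s.c χ) (hζ y w)).symm
    exact (sub_eq_zero.1 (LinearMap.ext (s.lext fun y w => by rw [hζ, this]; simp))).symm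
  by_contra hn
  have two : (2 : End F V) = 0 := by rw [← map_ofNat (algebraMap F (End F V)), h2, map_zero]
  have a1 : ∀ u φ, u ≠ 0 → φ ≠ 0 → φ u = 0 → s'.Cen ((1 + s.n u φ) * m * (1 - s.n u φ)) := by
    intro u φ hu hφ a
    obtain ⟨g, hg, eg⟩ := o.rt u φ a
    have n2 : s.n u φ * s.n u φ = 0 := LinearMap.ext fun x => by simp [a]
    have b1 := cj s' g _ n2 eg v ψ
    obtain ⟨l, hl, el⟩ := (o'.map hg).rt v ψ h0
    have b2 : m * (s'.map g).n v ψ = (s'.map g).n v ψ * m := by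
      have := (h u φ a u φ a).eq
      rw [b1, ← em]
      generalize s.n u φ = n at *
      linear_combination (norm := noncomm_ring) -this + two * (m * n * m + n * m * n)
        + m2 * (1 - n) - (1 + n) * m2 + n2 * (1 - m) - (1 + m) * n2
    obtain ⟨y, hy⟩ := ex_one hψ
    rw [em, ← b1]
    refine (iv0 o' (o'.map hg) hv hψ h0 hl el ⟨v, v, hv, fun w => ?_⟩).resolve_left fun e =>
      hn ((iv0 o' o hu hφ a hg eg e).elim (fun e => .inl e.symm) fun e => (ivC o' o hu hφ a e).symm)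
    have := LinearMap.congr_fun b2 (s'.t y w)
    simp only [em, End.mul_apply, s'.n_apply, s'.ct, hy, one_smul] at this
    exact ⟨_, by rw [Sy.map_t, el, ← this, ← map_add]⟩
  obtain ⟨φ, p1, p2, -⟩ := ex_dual2 s.three v v
  obtain ⟨y, p3⟩ := ex_one p1
  obtain ⟨φ', p4, p5, p6⟩ := ex_dual2 s.three v y
  obtain ⟨ζ, hζ⟩ := Sy.Cen.ex (s := s') (m := m + s.n v φ * m * s.n v φ' + s.n v φ' * m * s.n v φ)
    fun u χ a => by
      have := ((a1 v φ hv p1 p2 u χ a).add_right (a1 v φ' hv p4 p5 u χ a)).sub_right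
        (a1 v (φ + φ') hv (fun e => by simpa [p3, p6] using LinearMap.congr_fun e y)
          (by simp [p2, p5]) u χ a)
      rw [show s.n v (φ + φ') = s.n v φ + s.n v φ' from LinearMap.ext fun x => by simp] at this
      exact (congrArg _ (by noncomm_ring)).mp this
  have a2 : ∀ y w, ∃ a, s'.t y (ζ w) - ψ y • s'.t v w = s.t v a := fun y w =>
    ⟨s.c φ (m (s.n v φ' (s'.t y w))) + s.c φ' (m (s.n v φ (s'.t y w))), by
      rw [← hζ]; simp [em, add_assoc]⟩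
  obtain ⟨y₀, hy⟩ := ex_one hψ
  obtain ⟨η, hη⟩ := ex_one' (F := F) hv
  obtain ⟨z, z0, z1, z2⟩ := ex_ker2 s.three ψ η
  obtain ⟨χ, c1, c2⟩ := ex_sep (F := F) (w := z) (y := v) fun m => by
    obtain ⟨r, rfl⟩ := Submodule.mem_span_singleton.1 m
    simp [show r = 0 by simpa [hη] using z2] at z0
  have a3 : ∀ w, s'.t y₀ (ζ w) - s'.t v w = s.t v ((s.c η ∘ₗ (s'.t y₀ ∘ₗ ζ - s'.t v)) w) := fun w => by
    obtain ⟨a, ha⟩ := a2 y₀ w
    rw [hy, one_smul] at ha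
    simp [ha, hη]
  have a4 : ∀ w w', s'.t y₀ (ζ w) - s'.t v w = s'.t z w' → w = 0 := fun w w' e => by
    have b1 : ζ w = 0 := by simpa [hy, h0, z1] using congrArg (s'.c ψ) e
    simpa [b1, hη, z2] using congrArg (s'.c η) e
  have a5 : ∀ w, ζ w = 0 := fun w => by
    obtain ⟨a, ha⟩ := a2 z w
    obtain ⟨w', rfl⟩ := LinearMap.injective_iff_surjective.1 ((injective_iff_map_eq_zero _).2
      fun w hw => a4 w 0 (by rw [a3, hw]; simp)) a
    rw [z1, zero_smul, sub_zero, ← a3] at ha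
    exact s'.inj z0 (by simp [ha, a4 _ _ ha.symm])
  exact hn (.inl ⟨v, v, hv, fun w => (a2 y₀ (-w)).imp fun a ha => by simpa [a5, hy] using ha⟩)

theorem iv (hk : k ∈ H) (ek : ∀ x, k x = x + s'.n v ψ x) (h : Good s (s.map k)) : Good s s' :=
  h.elim (fun h => (iv0 o o' hv hψ h0 hk ek h).elim .inl (ivC o o' hv hψ h0)) (ivD o o' hv hψ h0 hk ek)

end H20.Lw
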