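import Cfsg.Agent.H20.Lw1

/-! Tensor structures with scalar level, part 2: the maximal intersection argument; two structures
in the same group coincide or commute (`good`). -/

set_option autoImplicit false
set_option linter.unusedSectionVars false

namespace H20.Lw

open Module H29 H11 H11.PForm LinearMap
open scoped Pointwise

theorem fixpt {G α : Type*} [Group G] [MulAction G α] [Finite α] {p : ℕ} [Fact p.Prime] {a b : G}
    (ha : a ^ p = 1) (hb : b ^ p = 1) (x : α) (h : ∀ y, a • y = y ↔ y = x) : ∃ y : α, b • y = y := by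
  have pg : ∀ a : G, a ^ p = 1 → IsPGroup p (Subgroup.zpowers a) := by
    rintro a ha ⟨_, n, rfl⟩
    exact ⟨1, Subtype.ext (show (a ^ n) ^ p ^ 1 = 1 by
      rw [pow_one, ← zpow_natCast, ← zpow_mul, mul_comm, zpow_mul, zpow_natCast, ha, one_zpow])⟩
  have h1 := (pg a ha).card_modEq_card_fixedPoints α
  rw [show MulAction.fixedPoints (Subgroup.zpowers a) α = {x} from Set.ext fun y =>
    ⟨fun e => (h y).1 (e ⟨a, Subgroup.mem_zpowers a⟩), fun e g =>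
      (Subgroup.zpowers_le (H := MulAction.stabilizer G y)).2 ((h y).2 e) g.2⟩,
    Nat.card_unique (α := ({x} : Set α))] at h1
  obtain ⟨y, hy⟩ := (pg b hb).nonempty_fixed_point_of_prime_not_dvd_card α fun e =>
    (Fact.out : p.Prime).one_lt.ne' (Nat.dvd_one.1 ((h1.dvd_iff dvd_rfl).1 e))
  exact ⟨y, hy ⟨b, Subgroup.mem_zpowers b⟩⟩

variable {F U W V : Type*} [Field F] [AddCommGroup U] [Module F U] [AddCommGroup W] [Module F W]
  [AddCommGroup V] [Module F V] [FiniteDimensional F U] [FiniteDimensional F W]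
  [FiniteDimensional F V] {H : Subgroup (V ≃ₗ[F] V)} {s s' s'' : Sy F U W V} {u v y z : U} {w : W}
  {φ φ' ψ η : Dual F U} {x : V} {g k : V ≃ₗ[F] V} {d : ℕ}

/-- `P⁻¹ P'` is quadratic -/
def Qd (P P' : End F W) : Prop :=
  ∃ τ N : F, ∀ w, ∃ w', P w' = P' w ∧ P' w' = τ • P' w + N • P w

theorem no_three [Finite F] (hw : w ≠ 0) (P : Fin 3 → End F W)
    (hi : ∀ (a b c : F) w, a • P 0 w + b • P 1 w + c • P 2 w = 0 → w ≠ 0 → a = 0 ∧ b = 0 ∧ c = 0)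
    (q1 : Qd (P 0) (P 1)) (q2 : Qd (P 0) (P 2)) (q3 : Qd (P 0) (P 1 + P 2)) (q4 : Qd (P 1) (P 2)) :
    False := by
  let J := (LinearEquiv.ofInjectiveEndo (P 0) ((injective_iff_map_eq_zero _).2 fun w h =>
    by_contra fun e => one_ne_zero (hi 1 0 0 w (by simp [h]) e).1)).symm
  have hJ : ∀ w, J (P 0 w) = w := J.apply_symm_apply
  have q : ∀ Q, Qd (P 0) Q → ∃ τ N : F, ∀ w, J (Q (J (Q w))) = τ • J (Q w) + N • w := fun Q ⟨τ, N, h⟩ =>
    ⟨τ, N, fun w => (h w).elim fun w' h => by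
      rw [show J (Q w) = w' by rw [← h.1, hJ], h.2, ← h.1]; simp [hJ]⟩
  obtain ⟨b, eb⟩ : ∃ b : End F W, ∀ w, J (P 1 w) = b w := ⟨J.toLinearMap ∘ₗ P 1, fun _ => rfl⟩
  obtain ⟨c, ec⟩ : ∃ b : End F W, ∀ w, J (P 2 w) = b w := ⟨J.toLinearMap ∘ₗ P 2, fun _ => rfl⟩
  obtain ⟨t₁, N₁, r1⟩ := q _ q1
  obtain ⟨t₂, N₂, r2⟩ := q _ q2
  obtain ⟨t₃, N₃, r3⟩ := q _ q3
  obtain ⟨t₄, N₄, r4⟩ := q4
  replace hi : ∀ (x y z : F) w, x • w + y • b w + z • c w = 0 → w ≠ 0 → x = 0 ∧ y = 0 ∧ z = 0 :=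
    fun x y z w h => hi x y z w (J.injective (by simpa [hJ, eb, ec] using h))
  simp only [eb, ec, LinearMap.add_apply, map_add] at r1 r2 r3
  have r5 : ∀ w, c (b w) = (t₃ - t₁) • b w + (t₃ - t₂) • c w + (N₃ - N₁ - N₂) • w - b (c w) := fun w => by
    linear_combination (norm := module) r3 w - r1 w - r2 w
  have ind : ∀ x y z v : F, x • b (c w) + y • c w + z • b w + v • w = 0 → x = 0 := by
    intro x y z v h
    have h1 := congrArg b h
    simp only [map_add, map_smul, r1, map_zero] at h1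
    have h2 := (hi (x * v * t₁ + y * v - x * z * N₁) (y * z - x * v) (y ^ 2 + t₁ * x * y - N₁ * x ^ 2) w
      (by linear_combination (norm := module) (x * t₁ + y) • h - x • h1) hw).2.2
    by_cases e : y • w + x • b w = 0
    · exact (hi y x 0 w (by simpa using e) hw).2.1
    refine neg_eq_zero.1 (hi (x * t₁ + y) (-x) 0 _ ?_ e).2.1
    simp only [map_add, map_smul, r1]
    linear_combination (norm := module) h2 • w
  obtain ⟨w', r6, r7⟩ := r4 w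
  replace r6 := congrArg J r6
  replace r7 := congrArg J r7
  simp only [eb, ec, map_add, map_smul] at r6 r7
  have r8 := congrArg c (r1 w')
  have r9 := congrArg b (r2 w)
  simp only [r6, r7, map_add, map_smul, r5 (c w), r9, r2 w] at r8 r9
  obtain rfl : t₃ = t₁ + t₂ := by
    linear_combination ind (t₃ - t₁ - t₂) ((t₃ - t₁ - t₂) * t₂ + (N₃ - N₁ - N₂) - N₁ * t₄)
      (-N₂ - N₁ * N₄) ((t₃ - t₁ - t₂) * N₂) (by linear_combination (norm := module) r8)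
  obtain ⟨x, -, x0, h⟩ := iso3_orth (orthS (Matrix.toQuadraticForm'
    !![1, t₁, t₂; 0, -N₁, -(N₃ - N₁ - N₂); 0, 0, -N₂])) ⊤ (by simp)
  rw [orth_sing] at h
  replace h : x 0 ^ 2 + t₁ * x 0 * x 1 + t₂ * x 0 * x 2 - N₁ * x 1 ^ 2 - N₂ * x 2 ^ 2 -
      (N₃ - N₁ - N₂) * x 1 * x 2 = 0 := by
    simp [orthS, Matrix.toQuadraticForm', Matrix.toLinearMap₂'_apply, Fin.sum_univ_three] at h
    linear_combination h
  refine x0 (funext fun i => ?_)
  by_cases e : (x 0 + t₁ * x 1 + t₂ * x 2) • w + (-x 1) • b w + (-x 2) • c w = 0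
  · obtain ⟨a1, a2, a3⟩ := hi _ _ _ _ e hw
    rw [neg_eq_zero] at a2 a3
    simp only [a2, a3, mul_zero, add_zero] at a1
    fin_cases i <;> assumption
  obtain ⟨a1, a2, a3⟩ := hi (x 0) (x 1) (x 2) _ (by
    simp only [map_add, map_smul, r1, r2, r5 w]
    linear_combination (norm := module) h • w) e
  fin_cases i <;> assumption

/-- members meeting in dimension at least `d` belong to compatible structures -/
def Mx (U W : Type*) [AddCommGroup U] [Module F U] [AddCommGroup W] [Module F W]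
    (H : Subgroup (V ≃ₗ[F] V)) (d : ℕ) : Prop := ∀ s s' : Sy F U W V, Ok s H → Ok s' H →
  ∀ u v, u ≠ 0 → v ≠ 0 → d ≤ finrank F ↥(range (s.t u) ⊓ range (s'.t v)) → Good s s'

/-- a maximal counterexample -/
structure Bad (H : Subgroup (V ≃ₗ[F] V)) (d : ℕ) (s s' : Sy F U W V) (u v : U) : Prop where
  mx : Mx U W H (d + 1)
  o : Ok s H
  o' : Ok s' H
  ng : ¬ Good s s'
  hu : u ≠ 0
  hv : v ≠ 0
  hd : d ≤ finrank F ↥(range (s.t u) ⊓ range (s'.t v))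

theorem rk (s : Sy F U W V) (hu : u ≠ 0) : finrank F (range (s.t u)) = finrank F W :=
  finrank_range_of_inj (s.inj' hu)

namespace Bad
variable (B : Bad H d s s' u v)
include B

theorem symm : Bad H d s' s v u :=
  ⟨B.mx, B.o', B.o, fun h => B.ng h.symm, B.hv, B.hu, inf_comm (range (s.t u)) _ ▸ B.hd⟩

theorem i (hψ : ψ ≠ 0) (h0 : ψ v = 0) (hx : x ∈ range (s.t u)) (h : s'.n v ψ x ∈ range (s.t u)) :
    x ∈ range (s'.t v) := by_contra fun hn => by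
  obtain ⟨k, hk, ek⟩ := B.o'.rt v ψ h0
  refine B.ng (iv B.o B.o' B.hv hψ h0 hk ek (B.mx _ _ B.o (B.o.map hk) u u B.hu B.hu
    (B.hd.trans_lt (Submodule.finrank_lt_finrank_of_lt (lt_of_le_of_ne ?_ fun e => hn ?_)))))
  · rintro _ ⟨⟨a, ha⟩, b, rfl⟩
    exact ⟨⟨a, ha⟩, a, by simp [ha, ek, h0]⟩
  obtain ⟨a, rfl⟩ := hx
  have := (e.ge ⟨ek _ ▸ add_mem ⟨a, rfl⟩ h, a, rfl⟩).2
  rw [Sy.map_t, ek] at this
  exact (Submodule.add_mem_iff_left _ (mem_range_self _ _)).1 this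

theorem j (hφ : φ ≠ 0) (h0 : φ u = 0) (hx : x ∈ range (s.t u) ⊔ range (s'.t v)) (h : s.c φ x = 0) :
    x ∈ range (s.t u) := by
  obtain ⟨_, ⟨a, rfl⟩, b, hb, rfl⟩ := Submodule.mem_sup.1 hx
  exact add_mem ⟨a, rfl⟩ (B.symm.i hφ h0 hb (by simp [show s.c φ b = 0 by simpa [h0] using h]))

theorem K (o : Ok s'' H) (hz : z ≠ 0) (h1 : range (s.t u) ⊓ range (s'.t v) ≤ range (s''.t z))
    (h2 : range (s''.t z) ≤ range (s.t u) ⊔ range (s'.t v)) (hφ : φ ≠ 0) (h0 : φ u = 0)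
    (h3 : ∀ x ∈ range (s''.t z), s.n u φ x ∈ range (s''.t z)) : range (s''.t z) = range (s.t u) := by
  refine Submodule.eq_of_le_of_finrank_eq (fun x hx => ?_) (by rw [rk _ hz, rk _ B.hu])
  by_cases hg : Good s'' s
  swap
  · exact Bad.i ⟨B.mx, o, B.o, hg, hz, B.hu, B.hd.trans (Submodule.finrank_mono
      (le_inf h1 inf_le_left))⟩ hφ h0 hx (h3 x hx)
  rcases hg.symm with h | h
  · obtain ⟨ρ, h⟩ := h.ten B.o o
    obtain ⟨y, h⟩ := h z
    obtain ⟨χ, a, b, c⟩ := ex_dual2 s.three u y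
    exact B.j a b (h2 hx) (by obtain ⟨w, rfl⟩ := hx; simp [h, c])
  obtain ⟨χ, a, b, -⟩ := ex_dual2 s.three z z
  obtain ⟨ζ, hζ⟩ := (h z χ b).ex
  obtain ⟨y, η, c1, c2⟩ := s.out u
  obtain ⟨η', a', b', c'⟩ := ex_dual2 s.three u y
  obtain ⟨x, hx⟩ := s''.nz hz a
  refine absurd (s.lext (g := 0) (fun y' w => ?_) x) hx
  obtain ⟨r, hr⟩ := B.j a' b' (h2 ⟨_, hζ y w⟩) (by simp [c'])
  simp [hζ, show ζ w = 0 by simpa [c1, c2] using (congrArg (s.c η) hr).symm]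

variable [Finite F]

theorem M (hφ : φ ≠ 0) (h0 : φ u = 0) (hψ : ψ ≠ 0) (h1 : ψ v = 0) :
    ∃ k ∈ H, (∀ x, k x - x ∈ range (s.t u) ⊔ range (s'.t v)) ∧
      ∃ σ : F, σ ≠ 0 ∧ ∀ x, k (s.n u φ x) = σ • s'.n v ψ (k x) := by
  let G : Subgroup (V ≃ₗ[F] V) :=
    { carrier := {k | k ∈ H ∧ (∀ x ∈ range (s.t u) ⊓ range (s'.t v), k x = x) ∧
        (∀ x, k x - x ∈ range (s.t u) ⊔ range (s'.t v)) ∧ ∀ x, s.c φ x = 0 → s'.c ψ x = 0 → k x = x}
      mul_mem' := fun {k l} a b => ⟨H.mul_mem a.1 b.1, fun x hx => by simp [a.2.1 x hx, b.2.1 x hx],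
        fun x => by simpa using add_mem (a.2.2.1 (l x)) (b.2.2.1 x),
        fun x c d => by simp [a.2.2.2 x c d, b.2.2.2 x c d]⟩
      one_mem' := ⟨H.one_mem, by simp, by simp, by simp⟩
      inv_mem' := fun {k} a => ⟨H.inv_mem a.1, fun x hx => k.injective (by simp [a.2.1 x hx]),
        fun x => by simpa using neg_mem (a.2.2.1 (k⁻¹ x)),
        fun x c d => k.injective (by simp [a.2.2.2 x c d])⟩ }
  obtain ⟨a, ha, ea⟩ := B.o.rt u φ h0
  obtain ⟨b, hb, eb⟩ := B.o'.rt v ψ h1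
  have ga : a ∈ G := ⟨ha, by rintro _ ⟨⟨w, rfl⟩, -⟩; simp [ea, h0],
    fun x => by simpa [ea] using Submodule.mem_sup_left (mem_range_self _ _), fun x c _ => by simp [ea, c]⟩
  have gb : b ∈ G := ⟨hb, by rintro _ ⟨-, w, rfl⟩; simp [eb, h1],
    fun x => by simpa [eb] using Submodule.mem_sup_right (mem_range_self _ _), fun x _ c => by simp [eb, c]⟩
  obtain ⟨p, hp⟩ := CharP.exists F
  haveI := Fact.mk (CharP.char_is_prime F p)
  have pw : ∀ (a : G) (n : End F V), (∀ x, a.1 x = x + n x) → (∀ x, n (n x) = 0) → a ^ p = 1 := by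
    intro a n e h
    have : ∀ (j : ℕ) x, (a.1 ^ j) x = x + (j : F) • n x := fun j => by
      induction j with
      | zero => simp
      | succ j ih =>
        intro x
        rw [pow_succ', LinearEquiv.mul_apply, ih, e, map_add, map_smul, h, Nat.cast_succ]
        module
    exact Subtype.ext (LinearEquiv.ext fun x => by simp [this])
  haveI : Finite V := Module.finite_of_finite F
  have mem : ∀ (k : G) (Z : Submodule F V) x, x ∈ Z → k.1 x ∈ k • Z := fun k Z x hx => ⟨x, hx, rfl⟩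
  have rg : ∀ k : G, k • range (s.t u) = range ((s.map k).t u) := fun k => (range_comp _ _).symm
  have c1 : ∀ k : G, range (s.t u) ⊓ range (s'.t v) ≤ range ((s.map k).t u) := fun k x hx =>
    rg k ▸ k.2.2.1 x hx ▸ mem k _ x hx.1
  have c2 : ∀ k : G, range ((s.map k).t u) ≤ range (s.t u) ⊔ range (s'.t v) := by
    rintro k _ ⟨w, rfl⟩
    simpa using add_mem (k.2.2.2.1 (s.t u w)) (Submodule.mem_sup_left ⟨w, rfl⟩)
  have c3 : ∀ (a : G) (n : End F V) (Z : Submodule F V), (∀ x, a.1 x = x + n x) → a • Z = Z →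
      ∀ x ∈ Z, n x ∈ Z := fun a n Z e h x hx => by
    have := mem a Z x hx
    rwa [h, e, Z.add_mem_iff_right hx] at this
  obtain ⟨⟨_, k, rfl⟩, hk⟩ := fixpt (α := MulAction.orbit G (range (s.t u)))
    (pw ⟨a, ga⟩ _ ea (by simp [h0])) (pw ⟨b, gb⟩ _ eb (by simp [h1])) ⟨_, MulAction.mem_orbit_self _⟩
    fun ⟨_, k, rfl⟩ => ⟨fun h => Subtype.ext ((rg k).trans (B.K (B.o.map k.2.1) B.hu (c1 k) (c2 k) hφ h0
      (rg k ▸ c3 ⟨a, ga⟩ _ _ ea (congrArg Subtype.val h)))), fun h => by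
        rw [h]
        refine Subtype.ext ((rg _).trans (congrArg range (LinearMap.ext fun w => ?_)))
        simp [ea, h0]⟩
  have e := B.symm.K (B.o.map k.2.1) B.hu (inf_comm (range (s.t u)) _ ▸ c1 k)
    (sup_comm (range (s.t u)) _ ▸ c2 k) hψ h1 (rg k ▸ c3 ⟨b, gb⟩ _ _ eb (congrArg Subtype.val hk))
  obtain ⟨k, hk', k1, k2, k3⟩ := k
  clear hk
  rename' hk' => hk
  obtain ⟨ψ', d1, d2⟩ := B.o'.dualR ((B.o.map hk).rt u φ h0) B.hv
    (fun x => (e.le ⟨_, rfl⟩).imp fun _ h => h.symm) fun w => by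
      obtain ⟨a, ha⟩ := e.ge ⟨w, rfl⟩
      simp [← ha, h0]
  refine ⟨k, hk, k2, ?_⟩
  by_cases m : ψ' ∈ F ∙ ψ
  · obtain ⟨σ, rfl⟩ := Submodule.mem_span_singleton.1 m
    refine ⟨σ, fun h => ?_, fun x => by simpa using d2 (k x)⟩
    obtain ⟨x, hx⟩ := (s.map k).nz B.hu hφ
    exact hx (by rw [d2]; simp [h])
  obtain ⟨θ, f1, f2⟩ := ex_sep m
  obtain ⟨y, rfl⟩ := (evalEquiv F U).surjective θ
  replace f1 : ψ y = 0 := f1
  replace f2 : ψ' y = 1 := f2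
  have d3 : ∀ x, s.c φ x = 0 → s'.c ψ x = 0 → s'.c ψ' x = 0 := fun x a b => s'.inj B.hv (by
    rw [← d2]; simp [show k.symm x = x from k.symm_apply_eq.2 (k3 x a b).symm, a])
  refine (B.ng (.inl ⟨u, v, B.hv, fun w => ?_⟩)).elim
  obtain ⟨w', h⟩ := injective_iff_surjective.1 ((injective_iff_map_eq_zero (s.c φ ∘ₗ s'.t y)).2
    fun w hw => by simpa [f2] using d3 _ hw (by simp [f1])) (s.c φ (s'.t v w))
  replace h : s.c φ (s'.t y w') = _ := h
  have : w' = 0 := by simpa [f2, d1] using d3 (s'.t y w' - s'.t v w) (by simp [h]) (by simp [f1, h1])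
  exact (B.j hφ h0 (Submodule.mem_sup_right ⟨w, rfl⟩) (by simp [← h, this])).imp fun _ h => h.symm

theorem Q (h0 : φ u = 0) (h0' : φ' u = 0) (a1 : φ y = 0) (a2 : φ' y = 1) (a3 : φ z = 1) (a4 : φ' z = 0) :
    range (s.t u) ⊓ range (s'.t v) = ⊥ ∧ Qd (s.c φ ∘ₗ s'.t v) (s.c φ' ∘ₗ s'.t v) := by
  have hφ : φ ≠ 0 := by rintro rfl; simp at a3
  have hφ' : φ' ≠ 0 := by rintro rfl; simp at a2
  obtain ⟨ψ, hψ, h1, -⟩ := ex_dual2 s.three v v
  obtain ⟨k, hk, k1, σ, σ0, k2⟩ := B.M hφ h0 hψ h1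
  obtain ⟨l, hl, l1, τ, τ0, l2⟩ := B.M hφ' h0' hψ h1
  have hg := H.mul_mem (H.inv_mem hl) hk
  have b1 : ∀ x, (l⁻¹ * k) x - x ∈ range (s.t u) ⊔ range (s'.t v) := fun x => by
    simpa using sub_mem (k1 x) (l1 ((l⁻¹ * k) x))
  have b2 : ∀ x, (l⁻¹ * k) (s.n u φ x) = (σ / τ) • s.n u φ' ((l⁻¹ * k) x) := fun x => l.injective (by
    rw [map_smul, l2, smul_smul, div_mul_cancel₀ _ τ0]
    simpa using k2 x)
  generalize l⁻¹ * k = g at hg b1 b2
  obtain ⟨ρ, h⟩ := Eqv.ten B.o (B.o.map hg) ⟨u, u, B.hu, fun w =>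
    ⟨(σ / τ) • s.c φ' (g (s.t z w)), by simpa [a3] using b2 (s.t z w)⟩⟩
  choose f hf using h
  replace hf : ∀ y w, g (s.t y w) = s.t (f y) (ρ w) := hf
  obtain ⟨w₀, w0⟩ := s.nt
  have b3 : φ' (f y) = 0 := by
    simpa [a1, hf, σ0, τ0, (s.inj' B.hu).eq_iff' (map_zero _), w0] using (b2 (s.t y w₀)).symm
  have b4 : ∀ y w, ∃ a, ∀ χ : Dual F U, χ u = 0 → s.c χ (s'.t v a) = χ (f y) • ρ w - χ y • w := by
    intro y w
    obtain ⟨_, ⟨a, rfl⟩, _, ⟨b, rfl⟩, e⟩ := Submodule.mem_sup.1 (b1 (s.t y w))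
    exact ⟨b, fun χ h => by simpa [h, hf] using congrArg (s.c χ) e⟩
  have b5 : range (s.t u) ⊓ range (s'.t v) = ⊥ := eq_bot_iff.2 (by
    rintro _ ⟨⟨w, rfl⟩, hw⟩
    obtain ⟨a, h⟩ := b4 y w
    have h2 := h φ' h0'
    obtain ⟨b, hb⟩ := B.symm.i hφ' h0' ⟨a, rfl⟩ (by simpa [h2, b3, a2] using hw)
    simp [show w = 0 by simpa [← hb, h0', b3, a2] using h2])
  have b6 : ∀ χ : Dual F U, χ ≠ 0 → χ u = 0 → ∀ a, s.c χ (s'.t v a) = 0 → a = 0 := fun χ c d a e =>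
    s'.inj B.hv (b5.le ⟨B.j c d (Submodule.mem_sup_right ⟨a, rfl⟩) e, a, rfl⟩)
  have b7 : φ (f y) ≠ 0 := fun e => by
    obtain ⟨a, h⟩ := b4 y w₀
    simpa [b6 φ hφ h0 a (by simp [h φ h0, e, a1]), b3, a2, w0] using h φ' h0'
  refine ⟨b5, -(φ (f z) / φ (f y)), φ' (f z) / φ (f y), fun w => ?_⟩
  obtain ⟨a, h⟩ := b4 y (-s.c φ' (s'.t v w))
  obtain rfl : a = w := sub_eq_zero.1 (b6 φ' hφ' h0' _ (by simp [h φ' h0', b3, a2]))
  obtain ⟨b, h'⟩ := b4 z (-s.c φ' (s'.t v a))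
  refine ⟨b - (φ (f z) / φ (f y)) • a, ?_, ?_⟩ <;>
  · simp only [comp_apply, map_sub, map_smul, h φ h0, h' φ h0, h' φ' h0', a1, a3, a4]
    match_scalars <;> field_simp <;> ring

end Bad

theorem good [Finite F] (o : Ok s H) (o' : Ok s' H) : Good s s' := by
  have hM : Mx U W H 0 := Nat.decreasingInduction' (P := Mx U W H) (fun d _ _ hM => ?_)
    (Nat.zero_le (finrank F V + 1)) fun _ _ _ _ _ _ _ _ hd =>
      (Nat.not_succ_le_self _ (hd.trans (Submodule.finrank_le _))).elim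
  · obtain ⟨u, η, -, h⟩ := s.out 0
    have : u ≠ 0 := by rintro rfl; simp at h
    exact hM s s' o o' u u this this (Nat.zero_le _)
  intro s s' o o' u v hu hv hd
  by_contra hn
  obtain ⟨φ, p1, p2, -⟩ := ex_dual2 s.three u u
  obtain ⟨z, p3⟩ := ex_one p1
  obtain ⟨φ', p4, p5, p6⟩ := ex_dual2 s.three u z
  obtain ⟨y, p7, p8⟩ : ∃ y, φ y = 0 ∧ φ' y = 1 :=
    let ⟨y, h⟩ := ex_one p4; ⟨y - φ y • z, by simp [p3], by simp [h, p6]⟩
  obtain ⟨η, p9, p10, p11⟩ : ∃ η : Dual F U, η u = 1 ∧ η y = 0 ∧ η z = 0 :=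
    let ⟨η, h⟩ := ex_one' (F := F) hu
    ⟨η - η y • φ' - η z • φ, by simp [h, p2, p5], by simp [p7, p8], by simp [p3, p6]⟩
  rw [(Bad.Q ⟨hM, o, o', hn, hu, hv, hd⟩ p2 p5 p7 p8 p3 p6).1, finrank_bot] at hd
  obtain rfl : d = 0 := by omega
  have B : ∀ u, u ≠ 0 → Bad H 0 s s' u v := fun u hu => ⟨hM, o, o', hn, hu, hv, Nat.zero_le _⟩
  have q : ∀ {φ φ' : Dual F U} {y z}, φ y = 0 → φ' y = 1 → φ z = 1 → φ' z = 0 →
      Qd (s.c φ ∘ₗ s'.t v) (s.c φ' ∘ₗ s'.t v) := fun {φ φ' y z} a b c d =>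
    let ⟨u, e, f, g⟩ := ex_ker2 s.three φ φ'; ((B u e).Q f g a b c d).2
  obtain ⟨w, hw⟩ := s.nt
  refine no_three hw ![s.c η ∘ₗ s'.t v, s.c φ ∘ₗ s'.t v, s.c φ' ∘ₗ s'.t v] (fun a b c w h w0 => ?_)
    (q p11 p3 p9 p2) (q p10 p8 p9 p5) (by
      simpa [add_comp] using q (φ' := φ + φ') p10 (by simp [p7, p8]) p9 (by simp [p2, p5])) (q p7 p8 p3 p6)
  have : a • η + b • φ + c • φ' = 0 := by_contra fun e => by
    obtain ⟨z, h1⟩ := ex_one e
    obtain ⟨u, e0, e1, -⟩ := ex_ker2 s.three (a • η + b • φ + c • φ') 0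
    obtain ⟨χ, p4, p5, p6⟩ := ex_dual2 s.three u z
    obtain ⟨y, h2⟩ := ex_one p4
    exact w0 (s'.inj hv (((B u e0).Q e1 p5 (y := y - (a • η + b • φ + c • φ') y • z) (by
      rw [map_sub, map_smul, h1]; simp) (by simp [h2, p6]) h1 p6).1.le ⟨(B u e0).j e e1
        (Submodule.mem_sup_right ⟨w, rfl⟩) (by simpa using h), w, rfl⟩))
  exact ⟨by simpa [p9, p2, p5] using LinearMap.congr_fun this u,
    by simpa [p11, p3, p6] using LinearMap.congr_fun this z,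
    by simpa [p10, p7, p8] using LinearMap.congr_fun this y⟩

end H20.Lw
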