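import Cfsg.Agent.H20.Lw2

/-! Commuting families of tensor structures: a non-scalar level is the full endomorphism ring
(`Fam.full`), otherwise the group permutes the family (`Fam.perm`). -/

set_option autoImplicit false
set_option linter.unusedSectionVars false

namespace H20.Lw

open Module H29

variable {F U W V : Type*} [Field F] [AddCommGroup U] [Module F U] [AddCommGroup W] [Module F W]
  [AddCommGroup V] [Module F V] [FiniteDimensional F U] [FiniteDimensional F W]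
  [FiniteDimensional F V] {H : Subgroup (V ≃ₗ[F] V)} {u v y z : U} {w : W}
  {φ ψ η : Dual F U} {x : V} {g k : V ≃ₗ[F] V} {E Z m : End F V} {B : Submodule F (End F V)}

namespace Sy
variable (s : Sy F U W V)

/-- `1 ⊗ E` -/
noncomputable def lf : End F W →ₗ[F] End F V :=
  ∑ a, (LinearMap.llcomp F V W V (s.t (finBasis F U a))) ∘ₗ
    (LinearMap.lcomp F W (s.c ((finBasis F U).coord a)))

@[simp] theorem lf_t (E : End F W) (y : U) (w : W) : s.lf E (s.t y w) = s.t y (E w) := by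
  simp [lf, LinearMap.sum_apply, ts]

theorem sep (s : Sy F U W V) (hu : u ≠ 0) (φ : Dual F U) :
    ∃ (v : U) (ψ : Dual F U), φ v = 0 ∧ ψ u = 0 ∧ ψ v = 1 := by
  obtain ⟨η, hη⟩ := ex_one' (F := F) hu
  obtain ⟨y, y0, y1, y2⟩ := ex_ker2 s.three φ η
  exact ⟨y, (ex_sep (F := F) (w := y) (y := u) fun m => by
    obtain ⟨r, rfl⟩ := Submodule.mem_span_singleton.1 m
    simp [show r = 0 by simpa [hη] using y2] at y0).imp fun _ h => ⟨y1, h⟩⟩

theorem n_mul (u v : U) (φ ψ : Dual F U) : s.n u ψ * s.n v φ = ψ v • s.n u φ :=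
  LinearMap.ext fun x => by simp

theorem alg (hB : ∀ a ∈ B, ∀ b ∈ B, a * b ∈ B) (h : ∀ u φ, φ u = 0 → s.n u φ ∈ B) :
    (∀ u φ, s.n u φ ∈ B) ∧ 1 ∈ B := by
  have : ∀ u φ, s.n u φ ∈ B := fun u φ => by
    by_cases hu : u = 0
    · exact h u φ (by simp [hu])
    obtain ⟨v, ψ, a, b, c⟩ := s.sep hu φ
    simpa [n_mul, c] using hB _ (h u ψ b) _ (h v φ a)
  exact ⟨this, s.res ▸ sum_mem fun a _ => this _ _⟩

theorem lv_of {Pd : End F V → Prop}
    (C1 : ∀ m v χ, Pd m → χ v = 0 → s.n v χ * m = 0 → m * m = 0 → Pd (m * s.n v χ))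
    (C2 : ∀ m v χ, Pd m → χ v = 0 → m * s.n v χ = 0 → Pd (s.n v χ * m)) (hZ : s.Cen Z)
    (h : Pd (s.n u φ * Z)) (hu : u ≠ 0) (hφ : φ ≠ 0) (h0 : φ u = 0) (v : U) (ψ : Dual F U)
    (h1 : ψ v = 0) : Pd (s.n v ψ * Z) := by
  obtain ⟨ζ, hζ⟩ := hZ.ex
  have mv1 : ∀ {w w₁ : U} {φ φ₁ : Dual F U}, Pd (s.n w φ * Z) → φ w = 0 → φ₁ w = 0 → φ₁ w₁ = 0 →
      φ w₁ = 1 → Pd (s.n w φ₁ * Z) := fun {w w₁ φ φ₁} h h0 h1 h2 h3 => by
    convert C1 _ w₁ φ₁ h h2 (LinearMap.ext fun x => by simp [h1])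
      (LinearMap.ext fun x => by simp [h0, hζ]) using 1
    exact LinearMap.ext (s.lext fun y w => by simp [hζ, h3])
  have mv2 : ∀ {w w₁ : U} {φ φ₁ : Dual F U}, Pd (s.n w φ * Z) → φ w₁ = 0 → φ₁ w₁ = 0 →
      φ₁ w = 1 → Pd (s.n w₁ φ * Z) := fun {w w₁ φ φ₁} h h1 h2 h3 => by
    convert C2 _ w₁ φ₁ h h2 (LinearMap.ext fun x => by simp [h1, hζ]) using 1
    exact LinearMap.ext fun x => by simp [h3]
  have A : ∀ w φ, Pd (s.n w φ * Z) → φ ≠ 0 → φ w = 0 → ∀ φ₁, φ₁ w = 0 → Pd (s.n w φ₁ * Z) := by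
    intro w φ h hφ h0 φ₁ h1
    obtain ⟨y, hy⟩ := ex_one hφ
    by_cases h2 : φ₁ y = 0
    · exact mv1 h h0 h1 h2 hy
    obtain ⟨φ₂, a1, a2, a3⟩ := ex_dual2 s.three w y
    obtain ⟨v, hv⟩ := ex_one a1
    exact mv1 (mv1 h h0 a2 a3 hy) a2 h1 (w₁ := v - (φ₁ v / φ₁ y) • y) (by simp [h2])
      (by simp [hv, a3])
  have B : ∀ w φ, Pd (s.n w φ * Z) → w ≠ 0 → ∀ w₁, φ w₁ = 0 → Pd (s.n w₁ φ * Z) := by
    intro w φ h hw w₁ h1
    obtain ⟨η, hη⟩ := ex_one' (F := F) hw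
    by_cases h2 : η w₁ = 0
    · exact mv2 h h1 h2 hη
    obtain ⟨w₂, a1, a2, a3⟩ := ex_ker2 s.three φ η
    obtain ⟨χ, hχ⟩ := ex_one' (F := F) a1
    exact mv2 (mv2 h a2 a3 hη) h1 (φ₁ := χ - (χ w₁ / η w₁) • η) (by simp [h2]) (by simp [hχ, a3])
  obtain ⟨φ₃, a1, a2, a3⟩ := ex_dual2 s.three u v
  exact A _ _ (B _ _ (A _ _ h hφ h0 _ a2) hu _ a3) a1 a3 _ h1

/-- `B` is stable under conjugation by root elements -/
def Cj (B : Submodule F (End F V)) : Prop :=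
  ∀ E ∈ B, ∀ u φ, φ u = 0 → (1 + s.n u φ) * E * (1 - s.n u φ) ∈ B

variable {s}

theorem Cj.ex (h : s.Cj B) (hE : E ∈ B) (hn : ¬ s.Cen E) :
    ∃ Z, Z ≠ 0 ∧ s.Cen Z ∧ ∀ u φ, φ u = 0 → s.n u φ * Z ∈ B := by
  obtain ⟨u, ψ, h0, h1⟩ : ∃ u ψ, ψ u = 0 ∧ s.c ψ ∘ₗ E ∘ₗ s.t u ≠ 0 := by
    by_contra! h
    obtain ⟨y₁, η, -, hη⟩ := s.out 0
    refine hn (cen_of (ζ := s.c η ∘ₗ E ∘ₗ s.t y₁) fun y w => s.c_ext fun χ => ?_)
    have b1 := LinearMap.congr_fun (h y₁ (χ - χ y₁ • η) (by simp [hη])) w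
    have b2 := LinearMap.congr_fun (h (y - η y • y₁) η (by simp [hη])) w
    have b3 := LinearMap.congr_fun (h (y - (η y + 1) • y₁) (χ + (χ y - (η y + 1) * χ y₁) • η)
      (by simp [hη])) w
    simp only [LinearMap.comp_apply, map_sub, map_add, map_smul, LinearMap.sub_apply, LinearMap.add_apply,
      LinearMap.smul_apply, LinearMap.zero_apply, s.ct] at *
    linear_combination (norm := module) b3 + (η y + 1) • b1 - (χ y - (η y + 1) * χ y₁) • b2
  have hu : u ≠ 0 := by rintro rfl; simp at h1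
  obtain ⟨v, χ, a1, a2, a3⟩ := s.sep hu ψ
  have D : ∀ E ∈ B, ∀ u φ, φ u = 0 → (1 + s.n u φ) * E * (1 - s.n u φ) - E ∈ B := fun E hE u φ a =>
    sub_mem (h E hE u φ a) hE
  refine ⟨s.lf (s.c ψ ∘ₗ E ∘ₗ s.t u), fun e => h1 (LinearMap.ext fun w => s.inj hu (by
    rw [← s.lf_t, e]; rfl)), cen_of (s.lf_t _), s.lv_of (Pd := (· ∈ B)) (fun m v χ a b c _ => ?_)
      (fun m v χ a b c => ?_) (cen_of (s.lf_t _)) ?_ hu (by rintro rfl; simp at h1) h0⟩
  · convert neg_mem (D m a v χ b) using 1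
    linear_combination (norm := noncomm_ring) c - c * s.n v χ
  · convert D m a v χ b using 1
    linear_combination (norm := noncomm_ring) c + s.n v χ * c
  convert D _ (D _ (D E hE u ψ h0) u χ a2) v ψ a1 using 1
  refine LinearMap.ext (s.lext fun y w => ?_)
  simp [h0, a1, a2, a3]
  module

theorem Cen.ex2 (h : s.Cen m) : ∃ ζ : W →ₗ[F] W, (∀ y w, m (s.t y w) = s.t y (ζ w)) ∧
    ∀ φ x, s.c φ (m x) = ζ (s.c φ x) :=
  let ⟨ζ, h⟩ := h.ex
  ⟨ζ, h, fun φ => s.lext (f := s.c φ ∘ₗ m) (g := ζ ∘ₗ s.c φ) fun y w => by simp [h]⟩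

/-- the level -/
def lv (s : Sy F U W V) (H : Subgroup (V ≃ₗ[F] V)) : Submodule F (End F V) where
  carrier := {Z | s.Cen Z ∧ ∀ u φ, φ u = 0 → In H (s.n u φ * Z)}
  add_mem' {a b} ha hb := ⟨fun u φ h => (ha.1 u φ h).add_right (hb.1 u φ h), fun u φ h => by
    obtain ⟨ζ, e, -⟩ := hb.1.ex2
    exact ((ha.2 u φ h).sub (hb.2 u (-φ) (by simp [h])) fun x => by simp [e, h]).congr fun x => by simp⟩
  zero_mem' := ⟨fun _ _ _ => .zero_right _, fun _ _ _ => ⟨1, H.one_mem, by simp⟩⟩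
  smul_mem' r _ a := ⟨fun u φ h => (a.1 u φ h).smul_right r, fun u φ h =>
    (a.2 u (r • φ) (by simp [h])).congr fun x => by simp⟩

theorem lv_mul (a : End F V) (ha : a ∈ s.lv H) (b : End F V) (hb : b ∈ s.lv H) : a * b ∈ s.lv H := by
  refine ⟨fun u φ h => (ha.1 u φ h).mul_right (hb.1 u φ h), fun u φ h => ?_⟩
  by_cases hu : u = 0
  · exact ⟨1, H.one_mem, by simp [hu]⟩
  obtain ⟨v, ψ, b1, b2, b3⟩ := s.sep hu φ
  obtain ⟨ζ, -, e⟩ := ha.1.ex2
  obtain ⟨ξ, -, e'⟩ := hb.1.ex2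
  exact (ha.2 u ψ b2).comm (hb.2 v φ b1) (fun x => by simp [e, e', b3, h]) (fun x => by simp [e, b2])
    fun x => by simp [e', h]

theorem lv_conj {s' : Sy F U W V} (hg : g ∈ H) (h : ∀ u φ, φ u = 0 → ∀ x, s'.n u φ (g x) = g (s.n u φ x))
    (hZ : Z ∈ s.lv H) (e : ∀ x, E (g x) = g (Z x)) : E ∈ s'.lv H :=
  ⟨fun u φ a => LinearMap.ext fun x => by
    obtain ⟨x, rfl⟩ := g.surjective x
    rw [End.mul_apply, End.mul_apply, e, h u φ a, h u φ a, e]
    exact congrArg g (LinearMap.congr_fun (hZ.1 u φ a).eq x),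
  fun u φ a => (hZ.2 u φ a).conj hg fun x => by rw [End.mul_apply, End.mul_apply, e, h u φ a]⟩

theorem lv_cj (h : In H m) (h2 : m * m = 0) (hc : s.Cen m) (hZ : Z ∈ s.lv H) :
    (1 + m) * Z * (1 - m) ∈ s.lv H := by
  obtain ⟨k, hk, e⟩ := h
  refine lv_conj hk (fun u φ a x => ?_) hZ fun x => ?_
  · rw [e, e, map_add]; exact congrArg _ (LinearMap.congr_fun (hc u φ a).eq x)
  simp [e, show m (m x) = 0 from LinearMap.congr_fun h2 x]

end Sy

/-- a generating family of commuting structures -/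
structure Fam {I : Type*} (s : I → Sy F U W V) : Prop where
  hc : ∀ i j, i ≠ j → ∀ u φ, (s i).Cen ((s j).n u φ)
  hg : ∀ A : Subalgebra F (End F V), (∀ i u φ, (s i).n u φ ∈ A) → A = ⊤

namespace Fam
variable {I : Type*} [Fintype I] [DecidableEq I] {s : I → Sy F U W V} (N : Fam s) {i j l : I}
include N

theorem scal (h : ∀ i, (s i).Cen E) : ∃ a : F, E = a • 1 := by
  obtain ⟨a, _, e⟩ := End.mem_center_iff.1 (Semigroup.mem_center_iff.2 fun Z =>
    ((N.hg (Subalgebra.centralizer F {E}) fun i => ((s i).alg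
      (B := (Subalgebra.centralizer F {E}).toSubmodule) (fun a ha b hb =>
        (Subalgebra.centralizer F {E}).mul_mem ha hb) fun u φ a => by
        rintro _ rfl; exact (h i u φ a).eq.symm).1).ge trivial E rfl).symm)
  exact ⟨a, e.trans (by ext; simp)⟩

/-- stable non-zero algebras contain `1` -/
def P (s : I → Sy F U W V) (J : Finset I) : Prop := ∀ B : Submodule F (End F V),
  (∀ a ∈ B, ∀ b ∈ B, a * b ∈ B) → (∀ E ∈ B, ∀ i ∉ J, (s i).Cen E) → (∀ i ∈ J, (s i).Cj B) →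
  ∀ E ∈ B, E ≠ 0 → 1 ∈ B

theorem roots {J : Finset I} (hl : l ∉ J) (hJ : P s J) (h1 : ∀ a ∈ B, ∀ b ∈ B, a * b ∈ B)
    (h2 : ∀ E ∈ B, ∀ i ∉ insert l J, (s i).Cen E) (h3 : ∀ i ∈ insert l J, (s i).Cj B) (hE : E ∈ B)
    (hn : ¬ (s l).Cen E) : (∀ u φ, (s l).n u φ ∈ B) ∧ 1 ∈ B := by
  obtain ⟨Z, a1, a2, a3⟩ := (h3 l (Finset.mem_insert_self _ _)).ex hE hn
  let C : Submodule F (End F V) :=
    { carrier := {Z | (s l).Cen Z ∧ ∀ u φ, φ u = 0 → (s l).n u φ * Z ∈ B}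
      add_mem' := fun a b => ⟨fun u φ h => (a.1 u φ h).add_right (b.1 u φ h), fun u φ h =>
        mul_add ((s l).n u φ) _ _ ▸ add_mem (a.2 u φ h) (b.2 u φ h)⟩
      zero_mem' := ⟨fun _ _ _ => .zero_right _, by simp⟩
      smul_mem' := fun r _ a => ⟨fun u φ h => (a.1 u φ h).smul_right r, fun u φ h => by
        simpa using B.smul_mem r (a.2 u φ h)⟩ }
  have := hJ C (fun a ha b hb => ⟨fun u φ h => (ha.1 u φ h).mul_right (hb.1 u φ h),
      fun u φ h => ?_⟩) (fun Z hZ i hi => ?_) (fun i hi Z hZ v ψ h => ?_) Z ⟨a2, a3⟩ a1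
  · exact (s l).alg h1 fun u φ h => by simpa using this.2 u φ h
  · by_cases hu : u = 0
    · simp [hu, Sy.n]
    obtain ⟨v, ψ, b1, b2, b3⟩ := (s l).sep hu φ
    have := h1 _ (ha.2 u ψ b2) _ (hb.2 v φ b1)
    rwa [mul_assoc, ← mul_assoc a, ← (ha.1 v φ b1).eq, ← mul_assoc, ← mul_assoc, Sy.n_mul, b3, one_smul,
      mul_assoc] at this
  · by_cases e : i = l
    · exact e ▸ hZ.1
    refine fun v ψ h => LinearMap.ext fun x => (s l).c_ext fun φ => ?_
    obtain ⟨u, b1, b2, -⟩ := ex_ker2 (s l).three φ φ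
    have c1 := (h2 _ (hZ.2 u φ b2) i (by simp [e, hi]) v ψ h).eq
    rw [← mul_assoc, (N.hc i l e u φ v ψ h).eq, mul_assoc, mul_assoc] at c1
    exact (s l).inj' b1 (LinearMap.congr_fun c1 x)
  have e : l ≠ i := by rintro rfl; exact hl hi
  refine ⟨fun u φ a => ((((Commute.one_right _).add_right (N.hc l i e v ψ u φ a)).mul_right
    (hZ.1 u φ a)).mul_right ((Commute.one_right _).sub_right (N.hc l i e v ψ u φ a))), fun u φ a => ?_⟩
  rw [← mul_assoc, ← mul_assoc, ((Commute.one_right _).add_right (N.hc l i e v ψ u φ a)).eq,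
    mul_assoc (1 + _)]
  exact h3 i (Finset.mem_insert_of_mem hi) _ (hZ.2 u φ a) v ψ h

theorem one (J : Finset I) : P s J := by
  induction J using Finset.induction with
  | empty =>
    intro B _ h _ E hE h0
    obtain ⟨a, rfl⟩ := N.scal fun i => h E hE i (by simp)
    exact (B.smul_mem_iff (by rintro rfl; simp at h0)).1 hE
  | insert l J hl ih =>
    intro B h1 h2 h3 E hE h0
    by_cases h : ∀ E ∈ B, (s l).Cen E
    · exact ih B h1 (fun E hE i hi => if e : i = l then e ▸ h E hE else h2 E hE i (by simp [e, hi]))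
        (fun i hi => h3 i (Finset.mem_insert_of_mem hi)) E hE h0
    push Not at h
    obtain ⟨E, a, b⟩ := h
    exact (N.roots hl ih h1 h2 h3 a b).2

theorem full (hr : ∀ i u φ, φ u = 0 → In H ((s i).n u φ))
    (h3 : ∀ i j l, i ≠ j → j ≠ l → i ≠ l → ∃ g ∈ H, (∀ u φ x, (s j).n u φ (g x) = g ((s i).n u φ x)) ∧
      ∀ u φ x, (s l).n u φ (g x) = g ((s j).n u φ x)) (hn : ¬ Ok (s i) H) (E : End F W) (h0 : φ u = 0) :
    In H ((s i).t u ∘ₗ E ∘ₗ (s i).c φ) := by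
  have n2 : ∀ i u φ, φ u = 0 → (s i).n u φ * (s i).n u φ = 0 := fun i u φ a => by simp [Sy.n_mul, a]
  obtain ⟨E₀, u₀, φ₀, a1, a2, a3, a4, a5⟩ : ∃ (E : End F W) (u : U) (φ : Dual F U), u ≠ 0 ∧ φ ≠ 0 ∧ φ u = 0 ∧
      In H ((s i).t u ∘ₗ E ∘ₗ (s i).c φ) ∧ ¬ ∃ a : F, ∀ w, E w = a • w := by
    by_contra! h
    exact hn ⟨hr i, h⟩
  have c0 := Sy.cen_of ((s i).lf_t E₀)
  have b1 : (s i).lf E₀ ∈ (s i).lv H := ⟨c0, (s i).lv_of (Pd := In H)
    (fun m v χ a b c d => a.comm (hr i v χ b) (fun x => by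
      rw [← End.mul_apply _ m, c]; simp) (fun x => LinearMap.congr_fun d _) fun x => LinearMap.congr_fun c _)
    (fun m v χ a b c => (hr i v χ b).comm a (fun x => by rw [← End.mul_apply m, c]; simp)
      (fun x => LinearMap.congr_fun (n2 i v χ b) _) fun x => LinearMap.congr_fun c _) c0
    (a4.congr ((s i).lext fun y w => by simp)) a1 a2 a3⟩
  obtain ⟨j, hj⟩ : ∃ j, ¬ (s j).Cen ((s i).lf E₀) := by
    by_contra! h
    obtain ⟨a, e⟩ := N.scal h
    exact a5 ⟨a, fun w => (s i).inj' a1 (by rw [← Sy.lf_t, e]; simp)⟩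
  have ij : i ≠ j := by rintro rfl; exact hj c0
  obtain ⟨b2, b3⟩ := N.roots (l := j) (J := (Finset.univ.erase i).erase j) (by simp) (N.one _) Sy.lv_mul
    (fun E hE l hl => (show i = l by by_contra h; exact hl (by by_cases e : l = j <;> simp [e, Ne.symm h])) ▸ hE.1)
    (fun l hl E hE u φ a => Sy.lv_cj (hr l u φ a) (n2 l u φ a)
      (N.hc i l (by rintro rfl; simp [ij] at hl) u φ) hE) b1 hj
  have b4 : ∀ l, i ≠ l → ∀ r ρ, (s l).n r ρ ∈ (s i).lv H := fun l il r ρ => by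
    by_cases jl : j = l
    · exact jl ▸ b2 r ρ
    obtain ⟨g, hg, g1, g2⟩ := h3 i j l ij jl il
    have d1 := Sy.lv_conj hg (fun u φ _ => g1 u φ) (b2 r ρ) (g2 r ρ)
    obtain ⟨ζ, d2, d3⟩ := d1.1.ex2
    simpa using ((s j).alg (B := (s i).lv H ⊓ ((s i).lv H).comap (LinearMap.mulRight F ((s l).n r ρ)))
      (fun a ha b hb => ⟨Sy.lv_mul _ ha.1 _ hb.1, by
        simpa [mul_assoc] using Sy.lv_mul _ ha.1 _ hb.2⟩) fun u φ a => ⟨b2 u φ, by
          show (s j).n u φ * (s l).n r ρ ∈ (s i).lv H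
          by_cases hu : u = 0
          · simp [hu, Sy.n]
          obtain ⟨v, ψ, e1, e2, e3⟩ := (s j).sep hu φ
          convert sub_mem (Sy.lv_cj (d1.2 u ψ e2) (LinearMap.ext fun x => by
            generalize (s l).n r ρ = Z at *; simp [d3, e2]) (fun y χ b =>
              (N.hc i j ij u ψ y χ b).mul_right (N.hc i l il r ρ y χ b)) (b2 v φ)) (b2 v φ) using 1
          generalize (s l).n r ρ = Z at *
          exact LinearMap.ext fun x => by simp [d3, e3, a]⟩).2.2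
  have b5 : ∀ (a : F) φ u, (s i).lf ((s i).c φ ∘ₗ (a • 1 : End F V) ∘ₗ (s i).t u) ∈ (s i).lv H := fun a φ u => by
    convert Submodule.smul_mem _ (a * φ u) b3 using 1
    exact LinearMap.ext ((s i).lext fun y w => by simp [smul_smul])
  let A : Subalgebra F (End F V) :=
    { carrier := {Z | ∀ φ u, (s i).lf ((s i).c φ ∘ₗ Z ∘ₗ (s i).t u) ∈ (s i).lv H}
      mul_mem' := fun {a b} ha hb φ u => by
        convert sum_mem fun c (_ : c ∈ Finset.univ) => Sy.lv_mul _ (ha φ (finBasis F U c)) _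
          (hb ((finBasis F U).coord c) u) using 1
        refine LinearMap.ext ((s i).lext fun y w => ?_)
        have := LinearMap.congr_fun (s i).res (b ((s i).t u w))
        simp only [LinearMap.sum_apply, End.mul_apply, Sy.lf_t, LinearMap.comp_apply, ← map_sum, Sy.n_apply,
          End.one_apply] at this ⊢
        rw [this]
      add_mem' := fun {a b} ha hb φ u => by
        simpa [LinearMap.add_comp, LinearMap.comp_add] using add_mem (ha φ u) (hb φ u)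
      algebraMap_mem' := fun a => b5 a }
  obtain ⟨y, η, -, hη⟩ := (s i).out 0
  refine (((N.hg A fun l r ρ φ u => ?_).ge (x := (s i).t y ∘ₗ E ∘ₗ (s i).c η) trivial η y).2 u φ h0).congr
    ((s i).lext fun z w => by simp [hη])
  by_cases il : i = l
  · convert Submodule.smul_mem _ (ρ u * φ r) b3 using 1
    exact LinearMap.ext ((s i).lext fun y w => by simp [← il, smul_smul])
  obtain ⟨ζ, d⟩ := (b4 l il r ρ).1.ex
  convert Submodule.smul_mem _ (φ u) (b4 l il r ρ) using 1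
  generalize (s l).n r ρ = Z at *
  exact LinearMap.ext ((s i).lext fun y w => by simp [d])

theorem perm [Finite F] (o : ∀ i, Ok (s i) H) (hg : g ∈ H) : ∃ π : Equiv.Perm I,
    ∀ i u φ, φ u = 0 → ∃ v ψ, ((s i).map g).n u φ = (s (π i)).n v ψ := by
  have h : ∀ i, ∃ j, Eqv (s j) ((s i).map g) := fun i => by
    by_contra! h
    obtain ⟨u, η, -, a⟩ := (s i).out 0
    have hu : u ≠ 0 := by rintro rfl; simp at a
    obtain ⟨φ, b, c, -⟩ := ex_dual2 (s i).three u u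
    obtain ⟨r, e⟩ := N.scal fun j => (good (o j) ((o i).map hg)).resolve_left (h j) u φ c
    obtain ⟨x, hx⟩ := ((s i).map g).nz hu b
    have := ((s i).map g).n_mul u u φ φ
    rw [c, zero_smul, e, smul_mul_smul_comm, mul_one] at this
    have h2 := LinearMap.congr_fun this x
    rw [e] at hx
    simp only [LinearMap.smul_apply, End.one_apply, LinearMap.zero_apply, smul_eq_zero, mul_self_eq_zero,
      ne_eq] at h2 hx
    exact hx h2
  choose f hf using h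
  refine ⟨.ofBijective f (Finite.injective_iff_bijective.1 fun i j e => by_contra fun hn => ?_),
    fun i u φ a => let ⟨v, ψ, _, b⟩ := (hf i).rt (o _) ((o i).map hg) a; ⟨v, ψ, b⟩⟩
  obtain ⟨u, η, -, a⟩ := (s i).out 0
  have hu : u ≠ 0 := by rintro rfl; simp at a
  obtain ⟨φ, b, c, -⟩ := ex_dual2 (s i).three u u
  obtain ⟨v, ψ, d1, d2, d3⟩ := (s i).sep hu φ
  obtain ⟨u₁, ψ₁, a1, a2⟩ := (hf i).symm.rt ((o i).map hg) (o _) d2
  obtain ⟨u₂, ψ₂, b1, b2⟩ := (hf j).symm.rt ((o j).map hg) (o _) d1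
  obtain ⟨x, hx⟩ := (s (f i)).nz hu b
  have : (s (f i)).n u ψ * (s (f i)).n v φ = (s (f i)).n v φ * (s (f i)).n u ψ := by
    rw [a2, e, b2]
    exact LinearMap.ext fun x => congrArg g (by
      simpa using LinearMap.congr_fun (N.hc i j hn u₂ ψ₂ u₁ ψ₁ a1).eq (g.symm x))
  rw [Sy.n_mul, Sy.n_mul, d3, c, one_smul, zero_smul] at this
  exact hx (by rw [this]; rfl)

end Fam

end H20.Lw
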