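import Cfsg.Agent.H20.Lw3

/-! The stabiliser of a tensor power decomposition (factors of dimension at least three) is maximal
in `SL` (`H20.Lw.lw_max`). -/

set_option autoImplicit false
set_option linter.unusedSectionVars false

namespace H20.Lw

open Module H29 Matrix Cfsg.Geo H11

variable (F : Type*) [Field F] {κ : Type} [Fintype κ] [DecidableEq κ] {r : ℕ}
  (hκ : 3 ≤ Fintype.card κ) (i : Fin (r + 1))

theorem single_eq (y z : Fin (r + 1) → κ) : (Pi.single (y i) 1 : κ → F) (z i) *
    (Pi.single (i.removeNth y) 1 : (Fin r → κ) → F) (i.removeNth z) = (Pi.single y 1 : _ → F) z := by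
  by_cases h : z = y
  · simp [h]
  rw [Pi.single_eq_of_ne h]
  by_cases h1 : z i = y i
  · rw [Pi.single_eq_of_ne (i := i.removeNth y), mul_zero]
    exact fun e => h (by rw [← i.insertNth_self_removeNth z, h1, e, Fin.insertNth_self_removeNth])
  · simp [h1]

/-- the `i`-th tensor factor -/
def sy : Sy F (κ → F) ((Fin r → κ) → F) ((Fin (r + 1) → κ) → F) where
  t := LinearMap.mk₂ F (fun u w y => u (y i) * w (i.removeNth y)) (by intros; ext; simp [add_mul])
    (by intros; ext; simp [mul_assoc]) (by intros; ext; simp [mul_add]) (by intros; ext; simp [mul_left_comm])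
  c := LinearMap.mk₂ F (fun φ x z => φ fun a => x (i.insertNth a z)) (by intros; rfl) (by intros; rfl)
    (fun φ x y => funext fun z => map_add φ _ _) (fun c φ x => funext fun z => map_smul φ c _)
  ct φ u w := funext fun z => by
    simpa [mul_comm, Pi.smul_def] using map_smul φ (w z) u
  ext M h x := by
    rw [pi_eq_sum_univ' x]
    exact sum_mem fun y _ => M.smul_mem _ ((funext (single_eq F i y)) ▸ h _ _)
  three := by simpa
  nt := by
    haveI : Nonempty κ := Fintype.card_pos_iff.1 (by omega)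
    exact exists_ne 0

variable {F}

theorem ten_t (X : Matrix κ κ F) (u : κ → F) (w : (Fin r → κ) → F) :
    ten (Pi.mulSingle i X) *ᵥ (sy F hκ i).t u w = (sy F hκ i).t (X *ᵥ u) w := by
  ext y
  simp [sy, mulVec, dotProduct, ten_apply, ← (Fin.insertNthEquiv (fun _ => κ) i).sum_comp,
    Fintype.sum_prod_type, Fin.prod_univ_succAbove _ i, one_apply, Finset.prod_boole, ← funext_iff,
    Finset.sum_mul, mul_assoc]
  exact Finset.sum_congr rfl fun x _ => by
    congr 3; exact Fin.removeNth_insertNth (α := fun _ => κ) i x _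

theorem mext {a b : Matrix (Fin (r + 1) → κ) (Fin (r + 1) → κ) F}
    (h : ∀ u w, a *ᵥ (sy F hκ i).t u w = b *ᵥ (sy F hκ i).t u w) : a = b :=
  ext_mulVec ((sy F hκ i).lext (f := toLin' a) (g := toLin' b) h)

/-- operators on the `i`-th factor -/
def fA : Matrix κ κ F →ₐ[F] Matrix (Fin (r + 1) → κ) (Fin (r + 1) → κ) F where
  toFun X := ten (Pi.mulSingle i X)
  map_one' := by simp [ten_one]
  map_mul' X Y := by rw [Pi.mulSingle_mul, ten_mul]
  map_zero' := mext hκ i fun u w => by simp [ten_t]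
  map_add' X Y := mext hκ i fun u w => by simp [ten_t, add_mulVec]
  commutes' c := mext hκ i fun u w => by simp [ten_t, Algebra.algebraMap_eq_smul_one, smul_mulVec]

/-- rank one matrices -/
noncomputable def rm (u : κ → F) (φ : Dual F (κ → F)) : Matrix κ κ F := LinearMap.toMatrix' (φ.smulRight u)

theorem fA_rm (u : κ → F) (φ : Dual F (κ → F)) (x : (Fin (r + 1) → κ) → F) :
    fA hκ i (rm u φ) *ᵥ x = (sy F hκ i).n u φ x :=
  (sy F hκ i).lext (f := toLin' (fA hκ i (rm u φ))) (fun y w => (ten_t hκ i _ y w).trans (by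
    simp [rm, LinearMap.toMatrix'_mulVec])) x

theorem n_eq (u : κ → F) (φ : Dual F (κ → F)) :
    (sy F hκ i).n u φ = toLinAlgEquiv' (fA hκ i (rm u φ)) :=
  LinearMap.ext fun x => (fA_rm hκ i u φ x).symm

theorem fA_mem (A : Subalgebra F (Matrix (Fin (r + 1) → κ) (Fin (r + 1) → κ) F))
    (h : ∀ u φ, φ u = 0 → fA hκ i (rm u φ) ∈ A) (X : Matrix κ κ F) : fA hκ i X ∈ A := by
  have := ((sy F hκ i).alg (B := (A.comap toLinAlgEquiv'.symm.toAlgHom).toSubmodule)
    (fun a ha b hb => (A.comap toLinAlgEquiv'.symm.toAlgHom).mul_mem ha hb) fun u φ a => by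
      simpa [n_eq] using h u φ a).1
  rw [show X = ∑ b, rm (fun a => X a b) (.proj b) by ext; simp [rm, Matrix.sum_apply, Pi.single_apply], map_sum]
  exact sum_mem fun b _ => by simpa [n_eq] using this (fun a => X a b) (.proj b)

theorem fA_top (A : Subalgebra F (Matrix (Fin (r + 1) → κ) (Fin (r + 1) → κ) F))
    (h : ∀ i X, fA hκ i X ∈ A) : A = ⊤ := by
  have a : ∀ (X : Fin (r + 1) → Matrix κ κ F) (J : Finset _), ten (fun i => if i ∈ J then X i else 1) ∈ A := by
    intro X J
    induction J using Finset.induction with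
    | empty => simpa [← Pi.one_def, ten_one] using A.one_mem
    | insert l J hl ih =>
      convert A.mul_mem (h l (X l)) ih using 1
      refine Eq.trans ?_ (ten_mul _ _)
      congr 1
      ext1 j
      by_cases e : j = l <;> simp [e, hl]
  refine eq_top_iff.2 fun X _ => ?_
  rw [matrix_eq_sum_single X]
  refine sum_mem fun x _ => sum_mem fun y _ => ?_
  simpa [ten_single] using A.smul_mem (a (fun i => single (x i) (y i) 1) Finset.univ) (X x y)

theorem fam : Fam (sy F hκ (r := r)) where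
  hc i j h u φ v ψ _ := by
    rw [n_eq, n_eq]
    refine Commute.map ?_ _
    exact (ten_mul _ _).symm.trans ((congrArg ten (Pi.mulSingle_commute h _ _).eq).trans (ten_mul _ _))
  hg A h := by
    have := fA_top hκ (A.comap toLinAlgEquiv'.toAlgHom) fun i =>
      fA_mem hκ i _ fun u φ _ => by simpa [n_eq] using h i u φ
    exact eq_top_iff.2 fun Z _ => by simpa using this.ge (x := toLinAlgEquiv'.symm Z) trivial

include hκ in
theorem lw_dich [Finite F] (L : Subgroup (GL (Fin (r + 1) → κ) F))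
    (hL : ∀ π a, (pmU F κ π * tenU a).1.det = 1 → pmU F κ π * tenU a ∈ L) :
    specialLinear _ F ≤ L ∨ Wr L (.refl _ _) := by
  haveI : Nontrivial κ := Fintype.one_lt_card_iff_nontrivial.1 (by omega)
  have hr : ∀ i u φ, φ u = 0 → In (L.map glEquiv.toMonoidHom) ((sy F hκ i).n u φ) := fun i u φ a => by
    obtain ⟨A, -, e⟩ := exists_tv_SL φ u a
    have e1 : A.1 = 1 + rm u φ := ext_mulVec fun x => by simp [e, add_mulVec, rm, LinearMap.toMatrix'_mulVec]
    have e2 : (pmU F κ 1 * tenU (Pi.mulSingle i A)).1 = 1 + fA hκ i (rm u φ) := by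
      rw [pmU_one, one_mul, ← map_one (fA hκ i), ← map_add, ← e1]
      exact congrArg ten (funext fun j => by by_cases h : j = i <;> simp [h])
    refine ⟨_, ⟨_, hL 1 (Pi.mulSingle i A) ?_, rfl⟩, fun x => ?_⟩
    · rw [e2, show fA hκ i (rm u φ) = LinearMap.toMatrix' ((sy F hκ i).t u) *
        LinearMap.toMatrix' ((sy F hκ i).c φ) from ext_mulVec fun x => by
          simp [fA_rm, ← mulVec_mulVec, LinearMap.toMatrix'_mulVec], det_one_add_mul_comm,
        ← LinearMap.toMatrix'_comp, show (sy F hκ i).c φ ∘ₗ (sy F hκ i).t u = 0 from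
          LinearMap.ext fun x => by simp [a]]
      simp
    · change (pmU F κ 1 * tenU (Pi.mulSingle i A)).1 *ᵥ x = _
      rw [e2, add_mulVec, one_mulVec, fA_rm]
  by_cases o : ∀ i, Ok (sy F hκ i) (L.map glEquiv.toMonoidHom)
  · refine .inr fun g hg => ?_
    obtain ⟨π, h⟩ := (fam hκ).perm o ⟨g, hg, rfl⟩
    obtain ⟨a, c, e⟩ := nml_ten (fA_top hκ) (T := .refl _ _) (fun i X => eq_Φ fun _ => rfl) (g := g) (π := π)
      fun i => fA_mem hκ i ((fA hκ (π i)).range.comap (cjA g).toAlgHom) fun u φ a => by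
        obtain ⟨v, ψ, b⟩ := h i u φ a
        refine ⟨rm v ψ, ext_mulVec fun x => ?_⟩
        obtain ⟨x, rfl⟩ := (glEquiv g).surjective x
        refine (fA_rm hκ _ v ψ _).trans (.trans ?_ (cjA_mulVec g _ x).symm)
        rw [← b, fA_rm]
        exact congrArg (g.1 *ᵥ (sy F hκ i).n u φ ·) ((glEquiv g).symm_apply_apply x)
    exact ⟨c, π, a, e⟩
  push Not at o
  obtain ⟨i, o⟩ := o
  have d : ∀ π ρ : Equiv.Perm (Fin (r + 1)), (pmU F κ (π * ρ)).1.det = (pmU F κ π).1.det * (pmU F κ ρ).1.det :=
    fun π ρ => by rw [← pmU_mul, Units.val_mul, det_mul]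
  have d1 : ∀ i j : Fin (r + 1), (pmU F κ (.swap i j)).1.det * (pmU F κ (.swap i j)).1.det = 1 := fun i j => by
    rw [← d, Equiv.swap_mul_self, pmU_one]; simp
  have d2 : ∀ (π : Equiv.Perm (Fin (r + 1))) i u φ x, (sy F hκ (π i)).n u φ ((pmU F κ π * tenU 1).1 *ᵥ x) =
      (pmU F κ π * tenU 1).1 *ᵥ (sy F hκ i).n u φ x := fun π i u φ x => by
    rw [← fA_rm, ← fA_rm, ← cjA_mulVec]
    exact congrArg (· *ᵥ _) (by simpa [fA] using (cjA_ten π 1 i (rm u φ)).symm)
  have f := fun E u φ => (fam hκ).full (u := u) (φ := φ) hr (fun i j l ij jl il => by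
    let π := Equiv.swap i j * Equiv.swap i l * Equiv.swap i j * Equiv.swap i l
    have p1 : π i = j := by simp [π, Equiv.swap_apply_of_ne_of_ne, ij.symm, jl, jl.symm, il.symm]
    have p2 : π j = l := by simp [π, Equiv.swap_apply_of_ne_of_ne, ij.symm, jl, jl.symm, il.symm]
    refine ⟨_, ⟨_, hL π 1 ?_, rfl⟩, fun u φ x => p1 ▸ d2 π i u φ x, fun u φ x => p2 ▸ d2 π j u φ x⟩
    rw [tenU_one, mul_one, d, d, d]
    linear_combination (pmU F κ (.swap i l)).1.det ^ 2 * d1 i j + d1 i l) o E
  refine .inl (sl_le_of_tv L fun p q hpq c => ?_)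
  let T := fun (p q : Fin (r + 1) → κ) (c : F) => In (L.map glEquiv.toMonoidHom)
    ((c • LinearMap.proj q : Dual F _).smulRight (Pi.single p 1 : _ → F))
  have A : ∀ p q c, p i ≠ q i → T p q c := fun p q c h =>
    (f ((c • LinearMap.proj (i.removeNth q) : Dual F _).smulRight (Pi.single (i.removeNth p) 1))
      (Pi.single (p i) 1) (.proj (q i)) (by simp [h.symm])).congr fun x => funext fun z => by
        simp [sy, ← single_eq F i p z, mul_left_comm]
  by_cases h : p i = q i
  swap
  · exact A p q c h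
  obtain ⟨m, hm⟩ := exists_ne (p i)
  have h1 : p ≠ Function.update p i m := fun e => hm (by simpa using (congrFun e i).symm)
  exact (A p (Function.update p i m) c (by simpa using hm.symm)).comm (A (Function.update p i m) q 1 (by simpa [← h] using hm))
    (z := (c • LinearMap.proj q : Dual F _).smulRight (Pi.single p 1 : _ → F))
    (fun x => by simp [hpq.symm, mul_comm, smul_smul]) (fun x => by simp [h1.symm]) fun x => by simp [hpq.symm]

theorem lw_max [Fintype F] {ι : Type} [Fintype ι] [DecidableEq ι] {m t : ℕ} (hm : 3 ≤ m) (ht : 2 ≤ t)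
    (e : ι ≃ (Fin t → Fin m)) (P : GL ι F) :
    IsMaximalIn (specialLinear ι F) (tensorWreathSubgroup m t e P ⊓ specialLinear ι F) := by
  have hb := wr_bound hm ht
  have hc : Fintype.card ι = m ^ t := by simp [Fintype.card_congr e]
  refine isMaximalIn_SL _ (SetLike.not_le_iff_exists.1 fun hle => (big_SL (F := F) (ι := ι)
    (by omega)).not_wr (T := coordT e P) (by omega) (by omega) (by omega)
      fun g hg => wr_self e P g (hle hg)) fun L h1 _ => ?_
  obtain ⟨r, rfl⟩ := Nat.exists_eq_add_of_le' (show 1 ≤ t by omega)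
  refine (lw_dich (by simpa using hm) (L.comap (ΦU (coordT e P)).toMonoidHom) fun π a h => h1
    ⟨by simpa using mem_tensorWreathSubgroup (e := e) (P := P) (by omega) 1 π a,
      mem_specialLinear.2 ((det_Φ _ _).trans h)⟩).imp (fun h g hg => ?_) fun h => Wr.le (by omega) fun g hg => ?_
  · simpa using h (x := (ΦU (coordT e P)).symm g) (mem_specialLinear.2 (by
      rw [← det_Φ (coordT e P), ← coe_ΦU, MulEquiv.apply_symm_apply, mem_specialLinear.1 hg]))
  obtain ⟨g, rfl⟩ := (ΦU (coordT e P)).surjective g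
  obtain ⟨c, π, a, rfl⟩ := h g hg
  refine ⟨c, π, a, ?_⟩
  rw [map_mul]
  congr 1
  · exact Units.ext (by simp)
  · exact congrArg _ (Units.ext (eq_Φ fun _ => rfl).symm)

end H20.Lw
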