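import Cfsg.Agent.H29.ExtU
import Cfsg.Agent.H11.Spin

/-! Reflection planes in a symplectic space of odd characteristic: `pl e f`, the reflection `prf`
in a hyperbolic plane, `Rf H e f`, the partial spread alternative (`PS`, `meet`, `PS.stab`),
full transvection groups `TF` and the subspace `YS` of short root elements (`E_le_of_YS`). -/

set_option autoImplicit false
set_option linter.unusedSectionVars false

namespace H20.Pl

open Module H11 H11.PForm H29

variable {F V : Type*} [Field F] [AddCommGroup V] [Module F V] {S : PForm (sympP F) V}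
  {H : Subgroup S.Isom} {e f f' u v w x y : V}

/-- the plane spanned by two vectors -/
abbrev pl (F : Type*) [Field F] {V : Type*} [AddCommGroup V] [Module F V] (e f : V) :
    Submodule F V := Submodule.span F {e, f}

theorem mem_pl : x ∈ pl F e f ↔ ∃ a b : F, a • e + b • f = x := Submodule.mem_span_pair

theorem left_mem : e ∈ pl F e f := mem_pl.2 ⟨1, 0, by simp⟩

theorem right_mem : f ∈ pl F e f := mem_pl.2 ⟨0, 1, by simp⟩

theorem pl_le {W : Submodule F V} (h1 : e ∈ W) (h2 : f ∈ W) : pl F e f ≤ W := by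
  intro x hx
  obtain ⟨a, b, rfl⟩ := mem_pl.1 hx
  exact W.add_mem (W.smul_mem _ h1) (W.smul_mem _ h2)

theorem finrank_pl (e f : V) : finrank F (pl F e f) ≤ 2 := finrank_span_two_le e f

theorem hs (x y : V) : S.h y x = -S.h x y := S.symp_symm x y

theorem h0 (x : V) : S.h x x = 0 := S.symp_h_self x

/-- the reflection in the plane spanned by a hyperbolic pair lies in `H` -/
def Rf (H : Subgroup S.Isom) (e f : V) : Prop :=
  S.h e f = 1 ∧ ∃ g ∈ H, ∀ x, g.1 x = x + (2 * S.h f x) • e - (2 * S.h e x) • f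

theorem Rf.map (h : Rf H e f) {g : S.Isom} (hg : g ∈ H) : Rf H (g.1 e) (g.1 f) := by
  obtain ⟨h1, k, hk, e1⟩ := h
  refine ⟨by simpa, g * k * g⁻¹, H.mul_mem (H.mul_mem hg hk) (H.inv_mem hg), fun x => ?_⟩
  simp [e1, isom_h_left]

theorem Rf.change (h : Rf H e f) (hx : x ∈ pl F e f) (hy : y ∈ pl F e f) (hxy : S.h x y = 1) :
    Rf H x y := by
  obtain ⟨h1, k, hk, e1⟩ := h
  obtain ⟨a, b, rfl⟩ := mem_pl.1 hx
  obtain ⟨c, d, rfl⟩ := mem_pl.1 hy
  refine ⟨hxy, k, hk, fun x => ?_⟩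
  simp only [map_add, map_smul, LinearMap.add_apply, LinearMap.smul_apply, smul_eq_mul, h0, h1,
    hs e f, RingHom.id_apply] at hxy ⊢
  rw [e1]
  match_scalars
  · ring
  · linear_combination (-2 * S.h f x) * hxy
  · linear_combination (2 * S.h e x) * hxy

theorem exists_partner (h1 : S.h e f = 1) (hx : x ∈ pl F e f) (h : x ≠ 0) :
    ∃ y ∈ pl F e f, S.h x y = 1 ∧ pl F x y = pl F e f := by
  obtain ⟨a, b, rfl⟩ := mem_pl.1 hx
  by_cases ha : a = 0
  · subst ha
    have hb : b ≠ 0 := by rintro rfl; simp at h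
    refine ⟨(-b⁻¹) • e, Submodule.smul_mem _ _ left_mem, by simp [hs e f, h1, h0, hb], le_antisymm
      (pl_le hx (Submodule.smul_mem _ _ left_mem)) (pl_le (mem_pl.2 ⟨0, -b, ?_⟩) (mem_pl.2 ⟨b⁻¹, 0, ?_⟩))⟩
    · simp [smul_smul, hb]
    · simp [smul_smul, hb]
  · refine ⟨a⁻¹ • f, Submodule.smul_mem _ _ right_mem, by simp [h1, h0, ha], le_antisymm
      (pl_le hx (Submodule.smul_mem _ _ right_mem)) (pl_le (mem_pl.2 ⟨a⁻¹, -b, ?_⟩) (mem_pl.2 ⟨0, a, ?_⟩))⟩
    · match_scalars <;> field_simp <;> ring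
    · simp [smul_smul, ha]

theorem pl_eq (h1 : S.h e f = 1) (hx : x ∈ pl F e f) (hy : y ∈ pl F e f) (hxy : S.h x y = 1) :
    pl F x y = pl F e f := by
  refine le_antisymm (pl_le hx hy) ?_
  obtain ⟨a, b, rfl⟩ := mem_pl.1 hx
  obtain ⟨c, d, rfl⟩ := mem_pl.1 hy
  simp only [map_add, map_smul, LinearMap.add_apply, LinearMap.smul_apply, smul_eq_mul, h0, h1,
    hs e f, RingHom.id_apply] at hxy
  refine pl_le (mem_pl.2 ⟨d, -b, ?_⟩) (mem_pl.2 ⟨-c, a, ?_⟩)
  · match_scalars
    · linear_combination hxy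
    · ring
  · match_scalars
    · ring
    · linear_combination hxy

theorem map_mem_pl (g : S.Isom) : g.1 x ∈ pl F (g.1 e) (g.1 f) ↔ x ∈ pl F e f := by
  simp only [mem_pl, ← map_smul, ← map_add, g.1.injective.eq_iff]

theorem meet (h2 : (2 : F) ≠ 0) (h : Rf H e f) (h' : Rf H e f') (hn : f' ∉ pl F e f) :
    ∃ v, v ≠ 0 ∧ S.h e v = 0 ∧ S.h f v = 0 ∧ S.eich e v 0 ∈ H := by
  obtain ⟨h1, k, hk, e1⟩ := h
  obtain ⟨h3, k', hk', e2⟩ := h'
  have a1 : S.h e ((-2 : F) • (f' - f + S.h f f' • e)) = 0 := by simp [h1, h3, h0]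
  refine ⟨(-2 : F) • (f' - f + S.h f f' • e), fun h4 => hn (mem_pl.2 ⟨-S.h f f', 1, ?_⟩), a1,
    by simp [h0, hs e f, h1], ?_⟩
  · have := (smul_eq_zero.1 h4).resolve_left (neg_ne_zero.2 h2)
    linear_combination (norm := module) -this
  · convert H.mul_mem hk hk' using 1
    ext1 x
    rw [eich_apply (sec a1 0), isom_mul_apply, e2, e1]
    simp only [map_add, map_sub, map_smul, LinearMap.add_apply, LinearMap.sub_apply,
      LinearMap.smul_apply, smul_eq_mul, h0, h1, h3, hs e f, RingHom.id_apply, sympP_ε]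
    module

/-- planes conjugate under `H` to a standard plane meet reflection planes trivially -/
def PS (H : Subgroup S.Isom) (Std : V → V → Prop) : Prop :=
  ∀ e f f', Std e f → Rf H e f' → f' ∈ pl F e f

variable {Std : V → V → Prop}

theorem PS.stab (h : PS H Std) (hR : ∀ e f, Std e f → Rf H e f)
    (hc : ∀ e f x y, Std e f → x ∈ pl F e f → y ∈ pl F e f → S.h x y = 1 → Std x y)
    {g k : S.Isom} (hg : g ∈ H) (hs : Std (g.1 e) (g.1 f)) (hk : k ∈ H) (hx : x ∈ pl F e f)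
    (hx0 : x ≠ 0) (hkx : k.1 x ∈ pl F e f) (hy : y ∈ pl F e f) : k.1 y ∈ pl F e f := by
  have h1 : Rf H e f := by simpa using (hR _ _ hs).map (H.inv_mem hg)
  have m : ∀ z ∈ pl F e f, g.1 z ∈ pl F (g.1 e) (g.1 f) := fun z hz => by
    obtain ⟨a, b, rfl⟩ := mem_pl.1 hz
    exact mem_pl.2 ⟨a, b, by simp⟩
  obtain ⟨x', a1, a2, a3⟩ := exists_partner h1.1 hx hx0
  obtain ⟨x'', b1, b2, b3⟩ := exists_partner h1.1 hkx (by simpa using hx0)
  have h3 := h _ _ _ (hc _ _ _ _ hs (m _ hkx) (m _ b1) (by simpa using b2))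
    (((h1.change hx a1 a2).map hk).map hg)
  obtain ⟨a, b, h4⟩ := mem_pl.1 h3
  have h5 : k.1 x' ∈ pl F e f := b3 ▸ mem_pl.2 ⟨a, b, g.1.injective (by simpa using h4)⟩
  obtain ⟨c, d, rfl⟩ := mem_pl.1 (a3 ▸ hy)
  rw [map_add, map_smul, map_smul]
  exact Submodule.add_mem _ (Submodule.smul_mem _ _ hkx) (Submodule.smul_mem _ _ h5)

/-- all transvections with centre `v` lie in `H` -/
def TF (H : Subgroup S.Isom) (v : V) : Prop := ∀ a, S.eich v 0 a ∈ H

theorem TF.map (h : TF H v) {g : S.Isom} (hg : g ∈ H) : TF H (g.1 v) := fun a => by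
  simpa using eich_conj (h a) hg

theorem TF.smul (h : TF H v) (c : F) : TF H (c • v) := fun a => by
  rw [eich_smul (sec (by simp) a)]
  simpa using h _

theorem TF.add (hu : TF H u) (hw : TF H w) (h : S.h u w ≠ 0) (c : F) : TF H (w + c • u) := by
  have := hw.map (hu (c / S.h u w))
  rwa [symp_transv_apply, div_mul_cancel₀ _ h] at this

theorem TF.pl (hu : TF H e) (hw : TF H f) (h : S.h e f ≠ 0) (hx : x ∈ pl F e f) : TF H x := by
  obtain ⟨a, b, rfl⟩ := mem_pl.1 hx
  by_cases hb : b = 0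
  · simpa [hb] using hu.smul a
  · rw [add_comm]
    exact hu.add (hw.smul b) (by simp [hb, h]) a

/-- the parameters of the transvections with centre `v` -/
def TA (H : Subgroup S.Isom) (v : V) : AddSubgroup F where
  carrier := {b | S.eich v 0 b ∈ H}
  add_mem' := fun h1 h2 => by simpa using seich_mul (by simp) (by simp) h1 h2
  zero_mem' := by simp [eich_zero]
  neg_mem' := fun h1 => by simpa using seich_inv (by simp) h1

theorem TA.scale {a c : F} (h : a ∈ TA H v) {g : S.Isom} (hg : g ∈ H) (e : g.1 v = c • v) :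
    c * a * c ∈ TA H v := by
  have := eich_conj h hg
  rw [e, map_zero, eich_smul (sec (by simp) a)] at this
  change S.eich v 0 _ ∈ H
  simpa using this

theorem tf_of [Finite F] {a : F} (ha : a ≠ 0) (h : S.eich v 0 a ∈ H)
    (ht : ∀ c : F, c ≠ 0 → ∃ g ∈ H, g.1 v = c • v) : TF H v := fun b =>
  mem_of_sq (TA H v) ha (fun c => by
    obtain rfl | hc := eq_or_ne c 0
    · simp
    · obtain ⟨g, hg, e⟩ := ht c hc
      exact TA.scale h hg e) b

theorem eich_symm (h : S.h u v = 0) : S.eich u v 0 = S.eich v u 0 := isom_ext fun x => by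
  rw [eich_apply (sec h 0), eich_apply (sec (S.h_swap_zero h) 0)]
  simp only [sympP_ε]
  module

theorem eich_self (u : V) (c : F) : S.eich u (c • u) 0 = S.eich u 0 (2 * c) := isom_ext fun x => by
  rw [eich_apply (sec (by simp [h0]) 0), symp_transv_apply]
  simp only [sympP_ε, map_smul, LinearMap.smul_apply, smul_eq_mul, RingHom.id_apply]
  module

theorem TF.drop (h : TF H u) (hv : S.h u v = 0) {a : F} (ha : S.eich u v a ∈ H) (b : F) :
    S.eich u v b ∈ H := by
  simpa using seich_mul hv (by simp) ha (h (b - a))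

theorem TF.short (h2 : (2 : F) ≠ 0) (hu : TF H u) (hv : TF H v) (huv : TF H (u + v))
    (h : S.h u v = 0) : S.eich u v 0 ∈ H := by
  convert H.mul_mem (H.mul_mem (huv 1) (hu (-1))) (hv (-1)) using 1
  ext1 x
  rw [eich_apply (sec h 0), isom_mul_apply, isom_mul_apply, symp_transv_apply, symp_transv_apply,
    symp_transv_apply]
  simp only [map_add, map_smul, LinearMap.add_apply, smul_eq_mul, h0, h, hs u v, sympP_ε]
  module

/-- vectors `v` orthogonal to the plane such that all short root elements `(d, v)` lie in `H` -/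
def YS (h1 : S.h e f = 1) (he : TF H e) (hf : TF H f) : Submodule F V where
  carrier := {v | S.h e v = 0 ∧ S.h f v = 0 ∧ ∀ d ∈ pl F e f, S.eich d v 0 ∈ H}
  add_mem' := by
    rintro a b ⟨a1, a2, a3⟩ ⟨b1, b2, b3⟩
    refine ⟨by simp [a1, b1], by simp [a2, b2], fun d hd => ?_⟩
    have p : ∀ z, S.h e z = 0 → S.h f z = 0 → S.h d z = 0 := fun z z1 z2 => by
      obtain ⟨s, t, rfl⟩ := mem_pl.1 hd
      simp [z1, z2]
    exact (he.pl hf (by simp [h1]) hd).drop (by simp [p a a1 a2, p b b1 b2])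
      (seich_mul (p a a1 a2) (p b b1 b2) (a3 d hd) (b3 d hd)) 0
  zero_mem' := ⟨by simp, by simp, fun d _ => by simp [eich_zero]⟩
  smul_mem' := by
    rintro c a ⟨a1, a2, a3⟩
    refine ⟨by simp [a1], by simp [a2], fun d hd => ?_⟩
    have := a3 _ (Submodule.smul_mem _ c hd)
    obtain ⟨s, t, rfl⟩ := mem_pl.1 hd
    rw [eich_smul (sec (by simp [a1, a2]) 0)] at this
    simpa using this

theorem mem_YS (h1 : S.h e f = 1) (he : TF H e) (hf : TF H f) (a1 : S.h e v = 0) (a2 : S.h f v = 0)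
    {a : F} (h : S.eich e v a ∈ H) : v ∈ YS h1 he hf := by
  have p : ∀ d ∈ pl F e f, S.h d v = 0 := fun d hd => by
    obtain ⟨s, t, rfl⟩ := mem_pl.1 hd
    simp [a1, a2]
  have st : ∀ d ∈ pl F e f, ∀ d' ∈ pl F e f, S.h d' d ≠ 0 → S.eich d v 0 ∈ H → S.eich d' v 0 ∈ H :=
    fun d hd d' hd' h3 h4 => by
      have := eich_conj h4 (he.pl hf (by simp [h1]) (Submodule.sub_mem _ hd' hd) (S.h d' d)⁻¹)
      simpa [symp_transv_apply, h0, h3, p d hd, p d' hd'] using this
  have b1 := he.drop a1 h 0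
  have b2 := st e left_mem f right_mem (by simp [hs e f, h1]) b1
  refine ⟨a1, a2, fun d hd => ?_⟩
  by_cases h3 : S.h d e = 0
  · by_cases h4 : S.h d f = 0
    · obtain ⟨s, t, rfl⟩ := mem_pl.1 hd
      simp only [map_add, map_smul, LinearMap.add_apply, LinearMap.smul_apply, h0, h1, hs e f,
        RingHom.id_apply, smul_eq_mul] at h3 h4
      rw [show s = 0 by simpa using h4, show t = 0 by simpa using h3, zero_smul, zero_smul, add_zero,
        eich_symm (by simp), eich_zero]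
      exact H.one_mem
    · exact st f right_mem d hd h4 b2
  · exact st e left_mem d hd h3 b1

theorem YS_map {h1 : S.h e f = 1} {he : TF H e} {hf : TF H f} (hv : v ∈ YS h1 he hf) {g : S.Isom}
    (hg : g ∈ H) (b1 : g⁻¹.1 e ∈ pl F e f) (b2 : g⁻¹.1 f ∈ pl F e f) : g.1 v ∈ YS h1 he hf := by
  obtain ⟨a1, a2, a3⟩ := hv
  have p : ∀ d ∈ pl F e f, S.h d v = 0 := fun d hd => by
    obtain ⟨s, t, rfl⟩ := mem_pl.1 hd
    simp [a1, a2]
  refine mem_YS h1 he hf (by rw [isom_h_right, p _ b1]) (by rw [isom_h_right, p _ b2]) (a := 0) ?_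
  simpa using eich_conj (a3 _ b1) hg

variable [FiniteDimensional F V]

theorem full_of (h2 : (2 : F) ≠ 0) (h1 : S.h e f = 1) (he : TF H e)
    (h : ∀ v, S.h e v = 0 → S.h f v = 0 → ∃ a, S.eich e v a ∈ H) : Full H e := by
  refine full_of_BSet trivial (fun v hv => ?_) fun a _ => he a
  obtain ⟨a, ha⟩ := h (v + S.h f v • e) (by simp [hv, h0]) (by simp [hs e f, h1])
  have b1 : v + S.h f v • e ∈ BSet H (S.symp_sing e) := ⟨a, sec (by simp [hv, h0]) a, ha⟩
  have b2 : S.h f v • e ∈ BSet H (S.symp_sing e) :=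
    ⟨0, sec (by simp [h0]) 0, eich_self (S := S) e _ ▸ he _⟩
  simpa using AddSubgroup.sub_mem _ b1 b2

theorem E_le_of_YS (hS : S.Nondeg) (h2 : (2 : F) ≠ 0) (h1 : S.h e f = 1) (he : TF H e) (hf : TF H f)
    (h : ∀ v, S.h e v = 0 → S.h f v = 0 → v ∈ YS h1 he hf) : S.E ≤ H := by
  have full := full_of h2 h1 he fun v a1 a2 => ⟨0, (h v a1 a2).2.2 e left_mem⟩
  have h3 := full.map (hf 1)
  rw [symp_transv_apply] at h3
  exact S.E_le_iff.2 fun x v a _ => full_all_of_pair hS trivial trivial full h3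
    (by simp [h0, h1, hs e f]) x v a

/-- the reflection in a hyperbolic plane -/
theorem exists_rf (hS : S.Nondeg) (h1 : S.h e f = 1) :
    ∃ g : S.Isom, ∀ x, g.1 x = x + (2 * S.h f x) • e - (2 * S.h e x) • f := by
  refine ⟨mkIsom hS (LinearMap.id + (2 : F) • (S.h f).smulRight e - (2 : F) • (S.h e).smulRight f)
    (symp_isIsom fun x y => ?_), fun x => by simp [mul_smul]⟩
  simp only [map_add, map_sub, map_smul, LinearMap.add_apply, LinearMap.sub_apply,
    LinearMap.smul_apply, smul_eq_mul, h0, h1, hs e f, RingHom.id_apply, LinearMap.id_apply,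
    LinearMap.smulRight_apply, hs e x, hs f x]
  ring

theorem exists_ns_dim {T : PForm (orthP F) V} (hT : T.Nondeg) (X : Submodule F V)
    (h : finrank F V < 2 * finrank F X) : ∃ a ∈ X, T.q a ≠ 0 := by
  by_contra! h1
  exact (HasTS.two_mul_le hT ⟨X, orth_ts h1, rfl⟩).not_gt h

theorem univ4 [Finite F] (h2 : (2 : F) ≠ 0) {T : PForm (orthP F) V} (hT : T.Nondeg) (hn : 6 ≤ finrank F V)
    {a b c d : V} (qa : T.q a ≠ 0) (qb : T.q b ≠ 0) (qc : T.q c ≠ 0) (qd : T.q d ≠ 0)
    (ab : T.h a b = 0) (ac : T.h a c = 0) (ad : T.h a d = 0) (bc : T.h b c = 0) (bd : T.h b d = 0)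
    (cd : T.h c d = 0) (t : F) :
    ∃ w, T.q w = t ∧ T.h a w = 0 ∧ T.h b w = 0 ∧ T.h c w = 0 ∧ T.h d w = 0 := by
  have h1 : (T.restrict (pl F a b ⊔ pl F c d)).Nondeg := (T.restrict_nondeg_iff' _).2 fun x hx h => by
    obtain ⟨y, hy, z, hz, rfl⟩ := Submodule.mem_sup.1 hx
    obtain ⟨r, s, rfl⟩ := mem_pl.1 hy
    obtain ⟨r', s', rfl⟩ := mem_pl.1 hz
    have a1 := h a (Submodule.mem_sup_left left_mem)
    have a2 := h b (Submodule.mem_sup_left right_mem)
    have a3 := h c (Submodule.mem_sup_right left_mem)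
    have a4 := h d (Submodule.mem_sup_right right_mem)
    simp only [map_add, map_smul, LinearMap.add_apply, LinearMap.smul_apply, smul_eq_mul,
      RingHom.id_apply, orth_h_self, ab, ac, ad, bc, bd, cd, T.h_swap_zero ab, T.h_swap_zero ac,
      T.h_swap_zero ad, T.h_swap_zero bc, T.h_swap_zero bd, T.h_swap_zero cd, mul_zero, add_zero,
      zero_add, mul_eq_zero, h2, qa, qb, qc, qd, or_false] at a1 a2 a3 a4
    simp [a1, a2, a3, a4]
  have h3 := hT.finrank_perp (pl F a b ⊔ pl F c d)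
  have h4 := Submodule.finrank_add_le_finrank_add_finrank (pl F a b) (pl F c d)
  have h5 := finrank_pl a b (F := F)
  have h6 := finrank_pl c d (F := F)
  obtain ⟨w, hw, hq⟩ := orth_exists_q_eq_mem (hT.restrict_perp h1) (by omega) t
  exact ⟨w, hq, hw a (Submodule.mem_sup_left left_mem), hw b (Submodule.mem_sup_left right_mem),
    hw c (Submodule.mem_sup_right left_mem), hw d (Submodule.mem_sup_right right_mem)⟩

omit [FiniteDimensional F V] in
theorem exists_ns (h2 : (2 : F) ≠ 0) (T : PForm (orthP F) V) (X : Submodule F V) (φ : Dual F V)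
    (ha : ∃ a ∈ X, T.q a ≠ 0) (hb : ∃ b ∈ X, φ b ≠ 0) : ∃ z ∈ X, T.q z ≠ 0 ∧ φ z ≠ 0 := by
  obtain ⟨a, a1, a2⟩ := ha
  obtain ⟨b, b1, b2⟩ := hb
  by_cases h3 : φ a = 0
  · by_cases h4 : T.q b = 0
    · by_cases h5 : T.q (b + a) = 0
      · refine ⟨b - a, X.sub_mem b1 a1, fun h6 => a2 (mul_left_cancel₀ h2 ?_), by simp [h3, b2]⟩
        rw [orth_q_add] at h5
        rw [orth_q_sub] at h6
        linear_combination h5 + h6 - 2 * h4
      · exact ⟨b + a, X.add_mem b1 a1, h5, by simp [h3, b2]⟩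
    · exact ⟨b, b1, h4, b2⟩
  · exact ⟨a, a1, a2, h3⟩

end H20.Pl
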