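import Cfsg.Agent.H20.Pl1

/-! Overgroups of the centraliser of a skew map `j` with scalar square (`GU_m(q)` or `GL_m(q)`) in
`Sp_2m(q)`, `q` odd, `m ≥ 3`: `JS.dich`. -/

set_option autoImplicit false
set_option linter.unusedSectionVars false

namespace H20.Pl

open Module H11 H11.PForm H29

variable {F V : Type*} [Field F] [AddCommGroup V] [Module F V] {S : PForm (sympP F) V}
  {H : Subgroup S.Isom} {j : V →ₗ[F] V} {δ : F}

/-- a skew map with non-zero scalar square -/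
structure JS (S : PForm (sympP F) V) (j : V →ₗ[F] V) (δ : F) : Prop where
  two : (2 : F) ≠ 0
  sq : ∀ x, j (j x) = δ • x
  ne : δ ≠ 0
  skew : ∀ x y, S.h (j x) y = -S.h x (j y)

namespace JS
variable (J : JS S j δ)
include J

theorem sym (x y : V) : S.h y (j x) = S.h x (j y) := by rw [hs, J.skew, neg_neg]

/-- the associated orthogonal form -/
def T : PForm (orthP F) V := symmS J.two (S.h.compl₂ j) ⟨fun x y => by simpa using J.sym y x⟩

theorem T_h (x y : V) : J.T.h x y = S.h x (j y) := rfl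

theorem T_q (x : V) : J.T.q x = S.h x (j x) / 2 := rfl

theorem T_q_ne {x : V} : J.T.q x ≠ 0 ↔ S.h x (j x) ≠ 0 := by simp [T_q, J.two]

theorem T_nondeg (hS : S.Nondeg) : J.T.Nondeg := fun x hx => hS x fun y => by
  simpa [T_h, J.sq, J.ne] using hx (j y)

theorem jj (x : V) : S.h (j x) (j (j x)) = -δ * S.h x (j x) := by simp [J.sq, J.skew]

theorem pm {p w : V} (X Z : Submodule F V) (hX : ∀ x ∈ X, j x ∈ X) (hp : S.h p (j p) ≠ 0)
    (h : ∀ w ∈ X, S.h p w = 0 → S.h p (j w) = 0 → S.h p (j p) + S.h w (j w) ≠ 0 → w ∈ Z)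
    (hw : w ∈ X) (h1 : S.h p w = 0) (h2 : S.h p (j w) = 0) : w ∈ Z := by
  by_cases h3 : S.h p (j p) + S.h w (j w) = 0
  · have h4 : ∀ c : F, c ≠ 0 → w + c • j w ∈ Z := fun c hc =>
      h _ (X.add_mem hw (X.smul_mem _ (hX w hw))) (by simp [h1, h2]) (by simp [h1, h2, J.sq]) (by
        simp only [map_add, map_smul, LinearMap.add_apply, LinearMap.smul_apply, J.sq, h0,
          smul_eq_mul, RingHom.id_apply, hs w (j w)]
        intro h4
        exact mul_ne_zero (mul_ne_zero (mul_ne_zero hc hc) J.ne) hp (by linear_combination h4 - (1 - c * c * δ) * h3))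
    have := Z.smul_mem (2 : F)⁻¹ (Z.add_mem (h4 1 one_ne_zero) (h4 (-1) (by simp)))
    convert this using 1
    match_scalars
    · field_simp [J.two]; ring
    · ring
  · exact h w hw h1 h2 h3

theorem grow {p w : V} (X Z : Submodule F V) (hX : ∀ x ∈ X, j x ∈ X) (hp : S.h p (j p) ≠ 0)
    (hpX : p ∈ X) (hpZ : p ∈ Z)
    (h : ∀ z ∈ X, S.h z (j z) ≠ 0 → S.h z (j p) • z + S.h z p • j z ∈ Z)
    (hw : w ∈ X) (h1 : S.h p w = 0) (h2 : S.h p (j w) = 0) : w ∈ Z :=
  J.pm X Z hX hp (fun w hw h1 h2 h3 => by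
    have := h (p + w) (X.add_mem hpX hw) (by simpa [h2, J.sym p w] using h3)
    simp only [map_add, LinearMap.add_apply, J.sym p w, h2, h0, hs p w, h1, add_zero, neg_zero,
      zero_smul] at this
    exact (Z.add_mem_iff_right hpZ).1 ((Z.smul_mem_iff hp).1 this)) hw h1 h2

theorem kill {A : V →ₗ[F] V} {a b : F} (hA : ∀ x y, S.h (A x) y = -S.h x (A y))
    (h : ∀ v, S.h v (j v) ≠ 0 → A v ∈ pl F v (j v)) {p w : V} (hp : S.h p (j p) ≠ 0)
    (e : A p = a • p + b • j p) (h1 : S.h p w = 0) (h2 : S.h p (j w) = 0) :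
    A w = a • w + b • j w := by
  suffices h3 : w ∈ LinearMap.ker (A - (a • LinearMap.id + b • j)) from
    sub_eq_zero.1 (LinearMap.mem_ker.1 h3)
  refine J.pm ⊤ _ (fun _ _ => trivial) hp (fun w _ h1 h2 h3 => ?_) trivial h1 h2
  obtain ⟨c, d, h4⟩ := mem_pl.1 (h (p + w) (by simpa [h2, J.sym p w] using h3))
  obtain ⟨c', d', h5⟩ := mem_pl.1 (h (j p) (by simp [J.jj, J.ne, hp]))
  have a1 := congrArg (S.h p) h4
  have a2 := congrArg (S.h (j p)) h4
  have a3 := hA p w
  have a4 := hA (j p) w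
  rw [e] at a3
  rw [← h5] at a4
  simp only [map_add, map_smul, LinearMap.add_apply, LinearMap.smul_apply, smul_eq_mul, h0, h1, h2,
    J.skew, J.sq, e, RingHom.id_apply] at a1 a2 a3 a4
  have a5 : d = b := mul_right_cancel₀ hp (by linear_combination a1 + a3)
  have a6 : c = a := mul_right_cancel₀ hp (by linear_combination -a2 - a4)
  rw [a5, a6, map_add, map_add, e] at h4
  simp only [LinearMap.mem_ker, LinearMap.sub_apply, LinearMap.add_apply, LinearMap.smul_apply,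
    LinearMap.id_apply]
  linear_combination (norm := module) -h4

variable [FiniteDimensional F V] [Finite F]

theorem univ (hS : S.Nondeg) (hn : 6 ≤ finrank F V) {e p : V} (he : S.h e (j e) ≠ 0)
    (hp : S.h p (j p) ≠ 0) (h1 : S.h e p = 0) (h2 : S.h e (j p) = 0) (t : F) :
    ∃ w, S.h w (j w) = t ∧ S.h e w = 0 ∧ S.h e (j w) = 0 ∧ S.h p w = 0 ∧ S.h p (j w) = 0 := by
  obtain ⟨w, a0, a1, a2, a3, a4⟩ := univ4 J.two (J.T_nondeg hS) hn (a := e) (b := j e) (c := p)
    (d := j p) (J.T_q_ne.2 he) (J.T_q_ne.2 (by simp [J.jj, J.ne, he])) (J.T_q_ne.2 hp)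
    (J.T_q_ne.2 (by simp [J.jj, J.ne, hp])) (by simp [T_h, J.sq, h0]) h2 (by simp [T_h, J.sq, h1])
    (by simp [T_h, J.skew, J.sq, h1]) (by simp [T_h, J.skew, J.sq, h2]) (by simp [T_h, J.sq, h0]) (t / 2)
  refine ⟨w, by simpa [T_q, J.two] using a0, ?_, a1, ?_, a3⟩
  · simpa [T_h, J.skew, J.sq, J.ne] using a2
  · simpa [T_h, J.skew, J.sq, J.ne] using a4

theorem ex_z (hS : S.Nondeg) (hn : 6 ≤ finrank F V) (e : V) {v : V} (hv : v ∉ pl F e (j e)) :
    ∃ z, S.h z (j z) ≠ 0 ∧ S.h e z = 0 ∧ S.h e (j z) = 0 ∧ S.h v z ≠ 0 := by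
  have h1 := hS.finrank_perp (pl F e (j e))
  have h2 := finrank_pl e (j e) (F := F)
  obtain ⟨z, a1, a2, a3⟩ := exists_ns J.two J.T (S.perp (pl F e (j e))) (S.h v)
    (exists_ns_dim (J.T_nondeg hS) _ (by omega)) (by
      obtain ⟨y, b1, b2⟩ := hS.exists_perp_of_notMem' hv 1
      exact ⟨y, b1, by simp [b2]⟩)
  exact ⟨z, J.T_q_ne.1 a2, a1 e left_mem, by simpa [J.skew] using a1 _ right_mem, a3⟩

theorem lin (hS : S.Nondeg) (hn : 6 ≤ finrank F V) {A : V →ₗ[F] V}
    (hA : ∀ x y, S.h (A x) y = -S.h x (A y)) (hA2 : ∀ x, A (A x) = δ • x)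
    (h : ∀ v, S.h v (j v) ≠ 0 → A v ∈ pl F v (j v)) :
    ∃ b : F, (b = 1 ∨ b = -1) ∧ ∀ x, A x = b • j x := by
  obtain ⟨p, -, hp⟩ := exists_ns_dim (J.T_nondeg hS) ⊤ (by rw [finrank_top]; omega)
  replace hp := J.T_q_ne.1 hp
  obtain ⟨a, b, e⟩ := mem_pl.1 (h p hp)
  obtain ⟨z, a1, a2, a3, -⟩ := J.ex_z hS hn p (Classical.choose_spec (exists_notMem_of_ne_top
    (W := pl F p (j p)) fun e => by
      have := finrank_pl p (j p) (F := F)
      rw [e, finrank_top] at this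
      omega))
  have b1 := J.kill hA h a1 (J.kill hA h hp e.symm a2 a3) (w := j p) (by rw [J.sym, a3])
    (by simp [J.sq, hs p z, a2])
  have b2 : ∀ x, A x = a • x + b • j x := fun x => by
    have := J.kill hA h hp e.symm (w := x - (S.h p x / S.h p (j p)) • j p -
      (S.h p (j x) / S.h p (j p)) • p) (by simp [h0, hp]) (by simp [h0, hp, J.sq])
    simp only [map_sub, map_smul, b1, ← e] at this
    linear_combination (norm := module) this
  have b3 : a = 0 := by
    have := hA p (j p)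
    rw [b1, ← e] at this
    simp only [map_add, map_smul, LinearMap.add_apply, LinearMap.smul_apply, smul_eq_mul, h0, J.sq,
      RingHom.id_apply] at this
    exact mul_left_cancel₀ (mul_ne_zero J.two hp) (by linear_combination this)
  subst b3
  refine ⟨b, ?_, by simpa using b2⟩
  have := congrArg (S.h (j p)) (hA2 p)
  simp only [b2, zero_smul, zero_add, map_smul, J.sq, smul_eq_mul, J.skew] at this
  exact mul_self_eq_one_iff.1 (mul_right_cancel₀ (mul_ne_zero J.ne hp) (by linear_combination -this))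

theorem rf (hS : S.Nondeg) (hC : ∀ g : S.Isom, (∀ x, g.1 (j x) = j (g.1 x)) → g ∈ H) {z : V}
    (hz : S.h z (j z) ≠ 0) : Rf H z ((S.h z (j z))⁻¹ • j z) := by
  have h1 : S.h z ((S.h z (j z))⁻¹ • j z) = 1 := by simp [hz]
  obtain ⟨g, hg⟩ := exists_rf hS h1
  refine ⟨h1, g, hC g fun x => ?_, hg⟩
  simp only [hg, map_add, map_sub, map_smul, LinearMap.smul_apply, J.skew, J.sq, smul_eq_mul,
    RingHom.id_apply]
  module

theorem rz (hS : S.Nondeg) (hC : ∀ g : S.Isom, (∀ x, g.1 (j x) = j (g.1 x)) → g ∈ H) {z : V}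
    (hz : S.h z (j z) ≠ 0) : ∃ g ∈ H, ∀ x, g.1 x =
      x - (2 * (S.h z (j z))⁻¹) • (S.h z (j x) • z + S.h z x • j z) := by
  obtain ⟨-, g, hg, e⟩ := J.rf hS hC hz
  refine ⟨g, hg, fun x => ?_⟩
  simp only [e, map_smul, LinearMap.smul_apply, J.skew, smul_eq_mul, RingHom.id_apply]
  module

theorem std (hS : S.Nondeg) (hn : 6 ≤ finrank F V)
    (hC : ∀ g : S.Isom, (∀ x, g.1 (j x) = j (g.1 x)) → g ∈ H)
    (hP : ∀ e f, S.h e (j e) ≠ 0 → Rf H e f → f ∈ pl F e (j e)) {g : S.Isom} (hg : g ∈ H) {v : V}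
    (hv : S.h v (j v) ≠ 0) : j (g.1 v) ∈ pl F (g.1 v) (g.1 (j v)) := by
  have h1 := (J.rf hS hC hv).map hg
  have m : pl F (g.1 v) (g.1 ((S.h v (j v))⁻¹ • j v)) = pl F (g.1 v) (g.1 (j v)) :=
    le_antisymm (pl_le left_mem (by rw [map_smul]; exact Submodule.smul_mem _ _ right_mem))
      (pl_le left_mem (mem_pl.2 ⟨0, S.h v (j v), by simp [smul_smul, hv]⟩))
  have hP' : ∀ f, Rf H (g.1 v) f → f ∈ pl F (g.1 v) (g.1 (j v)) := fun f hf => by
    have := hP v _ hv (by simpa using hf.map (H.inv_mem hg))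
    simpa using (map_mem_pl g).2 this
  rw [← m] at hP' ⊢
  generalize g.1 v = e at h1 hP'
  generalize g.1 _ = f at h1 hP'
  by_cases h2 : ∃ x ∈ pl F e f, S.h x (j x) ≠ 0
  · obtain ⟨x, hx, h2⟩ := h2
    obtain ⟨y, a1, a2, a3⟩ := exists_partner h1.1 hx (by rintro rfl; simp at h2)
    obtain ⟨c, d, a4⟩ := mem_pl.1 (hP x y h2 (h1.change hx a1 a2))
    have a5 : pl F x y = pl F x ((S.h x (j x))⁻¹ • j x) := pl_eq (S := S) (by simp [h2]) left_mem
      (mem_pl.2 ⟨c, d * S.h x (j x), by simp [← a4, smul_smul, h2]⟩) a2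
    obtain ⟨r, s, a6⟩ := mem_pl.1 (a5 ▸ a3 ▸ left_mem : e ∈ pl F x ((S.h x (j x))⁻¹ • j x))
    rw [← a3, a5, ← a6]
    exact mem_pl.2 ⟨s * (S.h x (j x))⁻¹ * δ, r * S.h x (j x), by
      simp only [map_add, map_smul, J.sq, smul_smul, mul_assoc, mul_inv_cancel₀ h2, mul_one, add_comm]⟩
  exfalso
  push Not at h2
  obtain ⟨z, a1, a2, a3, a4⟩ := J.ex_z hS hn e (v := f) fun h => by
    obtain ⟨c, d, h3⟩ := mem_pl.1 h
    have := h1.1
    rw [← h3] at this
    simp [h0, h2 e left_mem] at this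
  obtain ⟨k, hk, ek⟩ := J.rz hS hC a1
  have a5 := h1.map hk
  rw [ek e, J.sym e z, a3, hs e z, a2] at a5
  obtain ⟨c, d, a6⟩ := mem_pl.1 (hP' _ (by simpa using a5))
  have b1 := congrArg (S.h e) a6
  have b2 := congrArg (S.h z) a6
  simp only [ek, map_add, map_sub, map_smul, smul_eq_mul, h0, h1.1, a2, a3, hs e z, hs f z] at b1 b2
  obtain rfl : d = 1 := by simpa using b1
  field_simp at b2
  exact mul_ne_zero (mul_ne_zero J.two a4) a1 (by linear_combination -b2)

theorem eich_mem (hC : ∀ g : S.Isom, (∀ x, g.1 (j x) = j (g.1 x)) → g ∈ H) {ε : F} {u y : V}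
    (hu : j u = ε • u) (hy : j y = -ε • y) (h : S.h u y = 0) : S.eich u y 0 ∈ H := hC _ fun x => by
  simp only [eich_apply (sec h 0), map_add, map_sub, map_smul, hu, hy, J.sym x, hs x, smul_eq_mul,
    sympP_ε]
  module

theorem split (hS : S.Nondeg) (hC : ∀ g : S.Isom, (∀ x, g.1 (j x) = j (g.1 x)) → g ∈ H) {ε : F}
    (hε : ε * ε = δ) {s : S.Isom} (hs1 : s ∈ H) (hs2 : ∀ x, s.1 (j x) = -j (s.1 x)) {p : V}
    (hp : p ≠ 0) (hj : j p = ε • p) (ht : TF H p) : S.E ≤ H := by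
  have h1 : ε ≠ 0 := by rintro rfl; exact J.ne (by simp [← hε])
  have h3 : ∀ (c : F) u u', c ≠ 0 → j u = c • u → j u' = c • u' → S.h u u' = 0 :=
    fun c u u' hc a1 a2 => by
      have := J.skew u u'
      rw [a1, a2] at this
      simp only [map_smul, LinearMap.smul_apply, smul_eq_mul, RingHom.id_apply] at this
      exact mul_left_cancel₀ (mul_ne_zero J.two hc) (by linear_combination this)
  have dec : ∀ x, ∃ a b, x = a + b ∧ j a = ε • a ∧ j b = -ε • b := fun x =>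
    ⟨(2 * ε)⁻¹ • (ε • x + j x), (2 * ε)⁻¹ • (ε • x - j x), by
      match_scalars
      · field_simp [J.two]; ring
      · ring, by subst hε; simp only [map_smul, map_add, J.sq]; module,
      by subst hε; simp only [map_smul, map_sub, J.sq]; module⟩
  have h4 : ∀ u, j u = ε • u → TF H u := fun u hu => by
    by_cases h4 : p ∈ F ∙ (u - p)
    · obtain ⟨c, hc⟩ := Submodule.mem_span_singleton.1 h4
      have hc0 : c ≠ 0 := by rintro rfl; exact hp (by rw [← hc, zero_smul])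
      convert ht.smul (1 + c⁻¹) using 1
      rw [add_smul, one_smul]
      nth_rw 2 [← hc]
      simp [smul_smul, hc0]
    obtain ⟨y, a1, a2⟩ := hS.exists_perp_of_notMem h4 1
    rw [mem_perp_singleton] at a1
    obtain ⟨a, b, rfl, b1, b2⟩ := dec y
    have b3 : j (u - p) = ε • (u - p) := by simp [hu, hj, smul_sub]
    rw [map_add, h3 _ _ _ h1 b3 b1, zero_add] at a1
    rw [map_add, LinearMap.add_apply, h3 _ _ _ h1 b1 hj, zero_add] at a2
    have := ht.map (J.eich_mem hC b3 b2 a1)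
    rw [eich_apply (sec a1 0), h3 _ _ _ h1 b3 hj, a2] at this
    simpa using this
  have h5 : ∀ u, j u = ε • u → Full H u := fun u hu =>
    full_of_BSet trivial (fun x hx => by
      obtain ⟨a, b, rfl, b1, b2⟩ := dec x
      have b3 := h3 _ _ _ h1 hu b1
      rw [map_add, b3, zero_add] at hx
      exact AddSubgroup.add_mem _ ⟨0, sec b3 0, (h4 u hu).short J.two (h4 a b1)
        (h4 _ (by simp [hu, b1])) b3⟩ ⟨0, sec hx 0, J.eich_mem hC hu b2 hx⟩) fun a _ => h4 u hu a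
  obtain ⟨x, hx⟩ := hS.exists_h_ne_zero (x := s.1 p) (by simpa)
  obtain ⟨a, b, rfl, b1, b2⟩ := dec x
  have b3 : j (s.1 p) = -ε • s.1 p := by
    have := hs2 p
    rw [hj, map_smul] at this
    rw [neg_smul, this, neg_neg]
  rw [map_add, h3 _ _ _ (neg_ne_zero.2 h1) b3 b2, add_zero] at hx
  exact S.E_le_iff.2 fun x v c _ => full_all_of_pair hS trivial trivial ((h5 p hj).map hs1) (h5 a b1)
    hx x v c

theorem nonsplit (hS : S.Nondeg) (hn : 6 ≤ finrank F V)
    (hC : ∀ g : S.Isom, (∀ x, g.1 (j x) = j (g.1 x)) → g ∈ H) {e p : V} (he : S.h e (j e) ≠ 0)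
    (hp : S.h p (j p) ≠ 0) (h1 : S.h e p = 0) (h2 : S.h e (j p) = 0)
    (hB : p ∈ BSet H (S.symp_sing e)) : S.E ≤ H := by
  let B := BSet H (S.symp_sing e)
  have b1 : ∀ z, S.h z (j z) ≠ 0 → S.h e z = 0 → S.h e (j z) = 0 → ∀ x ∈ B,
      (2 * (S.h z (j z))⁻¹) • (S.h z (j x) • z + S.h z x • j z) ∈ B := fun z a1 a2 a3 x hx => by
    obtain ⟨g, hg, eg⟩ := J.rz hS hC a1
    have := B.sub_mem hx (BSet_map hx hg (by simp [eg, J.sym e z, a3, hs e z, a2]))
    simpa [eg] using this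
  let Z : Submodule F V :=
    { carrier := {v | ∀ c : F, c • v ∈ B}
      add_mem' := fun h1 h2 c => by rw [smul_add]; exact B.add_mem (h1 c) (h2 c)
      zero_mem' := fun c => by simp
      smul_mem' := fun a v h c => by rw [smul_smul]; exact h _ }
  let X : Submodule F V := S.perp (pl F e (j e))
  have hX : ∀ x, x ∈ X ↔ S.h e x = 0 ∧ S.h e (j x) = 0 := fun x => by
    simp [X, mem_perp_pair, J.skew]
  have hXj : ∀ x ∈ X, j x ∈ X := fun x hx => by
    rw [hX] at hx ⊢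
    simp [hx, J.sq]
  have b2 : p ∈ Z := fun c => by
    obtain rfl | hc := eq_or_ne c 0
    · simp
    obtain ⟨w, a0, a1, a2, a3, a4⟩ := J.univ hS hn he hp h1 h2 (S.h p (j p) * (4 / c - 1))
    have h4 : (4 : F) ≠ 0 := by simpa [← two_mul, show (2 : F) * 2 = 4 by norm_num] using mul_ne_zero J.two J.two
    have a5 : ∀ t : F, t * t = 1 → (c / 2) • (p + t • w) ∈ B := fun t ht => by
      have a6 : S.h (p + t • w) (j (p + t • w)) = S.h p (j p) * 4 / c := by
        simp only [map_add, map_smul, LinearMap.add_apply, LinearMap.smul_apply, J.sym p w, a4, a0,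
          smul_eq_mul, RingHom.id_apply]
        linear_combination (S.h p (j p) * (4 / c - 1)) * ht
      convert b1 (p + t • w) (by rw [a6]; simp [hp, h4, hc]) (by simp [h1, a1]) (by simp [h2, a2]) p hB using 1
      rw [a6]
      simp only [map_add, map_smul, LinearMap.add_apply, LinearMap.smul_apply, J.sym p w, a4, h0,
        hs p w, a3, smul_eq_mul, RingHom.id_apply]
      match_scalars <;> field_simp [J.two] <;> ring
    convert B.add_mem (a5 1 (by simp)) (a5 (-1) (by simp)) using 1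
    match_scalars
    · field_simp [J.two]; ring
    · ring
  have b3 : ∀ q ∈ X, q ∈ Z → S.h q (j q) ≠ 0 → ∀ w ∈ X, S.h q w = 0 → S.h q (j w) = 0 → w ∈ Z :=
    fun q a1 a2 a3 w a4 a5 a6 => J.grow X Z hXj a3 a1 a2 (fun z b1' b2' c => by
      convert b1 z b2' ((hX z).1 b1').1 ((hX z).1 b1').2 _ (a2 (c * S.h z (j z) / 2)) using 1
      simp only [map_smul, smul_eq_mul]
      match_scalars <;> field_simp [J.two]) a4 a5 a6
  have hpX := (hX p).2 ⟨h1, h2⟩
  obtain ⟨w, a0, a1, a2, a3, a4⟩ := J.univ hS hn he hp h1 h2 1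
  have hwX := (hX w).2 ⟨a1, a2⟩
  have b4 := b3 p hpX b2 hp w hwX a3 a4
  have b5 := b3 w hwX b4 (by simp [a0]) (j p) (hXj p hpX) (by rw [J.sym, a4]) (by simp [J.sq, hs p w, a3])
  have b6 : ∀ x ∈ X, x ∈ Z := fun x hx => by
    have := b3 p hpX b2 hp (x - (S.h p x / S.h p (j p)) • j p - (S.h p (j x) / S.h p (j p)) • p)
      (X.sub_mem (X.sub_mem hx (X.smul_mem _ (hXj p hpX))) (X.smul_mem _ hpX)) (by simp [h0, hp])
      (by simp [h0, hp, J.sq])
    exact (Z.sub_mem_iff_left (Z.smul_mem _ b5)).1 ((Z.sub_mem_iff_left (Z.smul_mem _ b2)).1 this)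
  have full : Full H e := full_of J.two (J.rf hS hC he).1 (fun a => by
    convert eich_comm_mem (b2 (a / (2 * S.h p (j p)))) (b5 1) using 2
    simp only [map_smul, LinearMap.smul_apply, smul_eq_mul, RingHom.id_apply, sympP_ε]
    field_simp [J.two]
    ring) fun v c1 c2 => by
      obtain ⟨a, -, ha⟩ := b6 v ((hX v).2 ⟨c1, by simpa [he, J.skew] using c2⟩) 1
      exact ⟨a, by simpa using ha⟩
  refine (full_dichotomy hS H).resolve_right ?_
  rintro ⟨T, t1, t2, t3⟩
  have t4 : ∀ x ∈ X, x ∈ T := fun x hx => J.grow ⊤ T (fun _ _ => trivial) he trivial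
    ((t3 e).2 ⟨trivial, full⟩) (fun z _ hz => by
      obtain ⟨g, hg, eg⟩ := J.rz hS hC hz
      have t5 := (t3 e).2 ⟨trivial, full⟩
      have := T.sub_mem t5 ((t2 hg e).1 t5)
      rw [eg, sub_sub_cancel] at this
      exact (T.smul_mem_iff (mul_ne_zero J.two (inv_ne_zero hz))).1 this) trivial ((hX x).1 hx).1
      ((hX x).1 hx).2
  exact hp (t1.h_eq (t4 p hpX) (t4 _ (hXj p hpX)))

theorem dich (hS : S.Nondeg) (hn : 6 ≤ finrank F V) (H : Subgroup S.Isom)
    (hC : ∀ g : S.Isom, (∀ x, g.1 (j x) = j (g.1 x)) → g ∈ H)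
    (hw : ∀ ε : F, ε * ε = δ → ∃ s ∈ H, ∀ x, s.1 (j x) = -j (s.1 x)) :
    S.E ≤ H ∨ ∀ g ∈ H, ∃ b : F, (b = 1 ∨ b = -1) ∧ ∀ x, j (g.1 x) = b • g.1 (j x) := by
  by_cases hP : ∀ e f, S.h e (j e) ≠ 0 → Rf H e f → f ∈ pl F e (j e)
  · refine .inr fun g hg => ?_
    obtain ⟨b, h1, h2⟩ := J.lin hS hn (A := (g⁻¹.1 : V →ₗ[F] V) ∘ₗ j ∘ₗ (g.1 : V →ₗ[F] V))
      (fun x y => by
        simp only [LinearMap.comp_apply, LinearEquiv.coe_coe]
        rw [← isom_h_right, J.skew, isom_h_left]) (fun x => by simp [J.sq]) fun v hv => by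
        simpa using (map_mem_pl g⁻¹).2 (J.std hS hn hC hP hg hv)
    exact ⟨b, h1, fun x => by simpa using congrArg g.1 (h2 x)⟩
  left
  push Not at hP
  obtain ⟨e, f, he, h1, h2⟩ := hP
  obtain ⟨v, v0, v1, v2, v3⟩ := meet J.two (J.rf hS hC he) h1 fun h => h2
    (pl_le left_mem (Submodule.smul_mem _ _ right_mem) h)
  replace v2 : S.h e (j v) = 0 := by simpa [he, J.skew] using v2
  obtain ⟨z, a1, a2, a3, a4⟩ := J.ex_z hS hn e (v := v) fun h => by
    obtain ⟨c, d, rfl⟩ := mem_pl.1 h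
    simp only [map_add, map_smul, h0, J.sq, smul_eq_mul, mul_zero, add_zero, zero_add, mul_eq_zero,
      he, or_false] at v1 v2
    simp [v1, v2] at v0
  obtain ⟨k, hk, ek⟩ := J.rz hS hC a1
  have a5 := eich_conj v3 hk
  rw [ek e, J.sym e z, a3, hs e z, a2, ek v] at a5
  simp only [zero_smul, neg_zero, add_zero, smul_zero, sub_zero] at a5
  set p := (2 * (S.h z (j z))⁻¹) • (S.h z (j v) • z + S.h z v • j z) with hp
  have p1 : S.h e p = 0 := by simp [hp, a2, a3]
  have p2 : S.h e (j p) = 0 := by simp [hp, a2, a3, J.sq]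
  have a6 : S.eich e p 0 ∈ H := by
    convert seich_mul v1 (by simp [v1, p1]) v3 (seich_inv (by simp [v1, p1]) a5) using 2
    · abel
    · simp [hp, h0, J.sym z v, hs v z, mul_comm]
  by_cases p3 : S.h p (j p) = 0
  swap
  · exact J.nonsplit hS hn hC he p3 p1 p2 ⟨0, sec p1 0, a6⟩
  have a7 : S.h z v ≠ 0 := fun h => a4 (S.h_swap_zero h)
  have hε : S.h z (j v) / S.h z v * (S.h z (j v) / S.h z v) = δ := by
    simp only [hp, map_add, map_smul, LinearMap.add_apply, LinearMap.smul_apply, J.sq, h0,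
      hs z (j z), smul_eq_mul, RingHom.id_apply] at p3
    field_simp at p3 ⊢
    exact mul_left_cancel₀ (mul_ne_zero (mul_ne_zero J.two J.two) a1) (by linear_combination p3)
  have hj : j p = (S.h z (j v) / S.h z v) • p := by
    simp only [hp, map_add, map_smul, J.sq, ← hε]
    match_scalars <;> field_simp
  generalize S.h z (j v) / S.h z v = ε at hε hj
  obtain ⟨s, s1, s2⟩ := hw ε hε
  refine J.split hS hC hε s1 s2 (fun h => ?_) hj fun a => ?_
  · have := congrArg (S.h z) (hp.symm.trans h)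
    simp [h0, J.two, a1, a7] at this
  · have b1 : S.h p ((a / (2 * S.h e (j e))) • (j e - ε • e)) = 0 := by
      simp [J.sym e p, p2, hs e p, p1]
    convert eich_comm_mem (hu := S.symp_sing p) (v := e) ⟨0, sec (S.h_swap_zero p1) 0, eich_symm p1 ▸ a6⟩
      ⟨0, sec b1 0, J.eich_mem hC hj (by simp only [map_smul, map_sub, J.sq, ← hε]; module) b1⟩ using 2
    simp only [map_smul, map_sub, h0, smul_eq_mul, RingHom.id_apply, sympP_ε]
    field_simp [J.two]
    ring

end JS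

end H20.Pl
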