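import Cfsg.Agent.H20.Pl1
import Cfsg.Agent.H29.RatC
import Cfsg.Agent.S0801

/-! Overgroups of subfield subgroups of `Sp_n(q)`, `q` odd, `n ≥ 6` (`rat_odd`, by Dickson's
lemma), and of stabilisers of non-degenerate subspaces of `Sp_n(q)` (`nd_dich`). -/

set_option autoImplicit false
set_option linter.unusedSectionVars false

namespace H20.Pl

open Module H11 H11.PForm H29
open scoped MatrixGroups

variable {F V : Type*} [Field F] [AddCommGroup V] [Module F V] {S : PForm (sympP F) V}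
  {H : Subgroup S.Isom}

theorem dickson [Finite F] (h2 : (2 : F) ≠ 0) {e u : V} (h1 : S.eich e 0 (-1) ∈ H)
    (h3 : S.eich u 0 1 ∈ H) (hl : S.h e u ≠ 0) (hx : (S.h e u * S.h e u) ^ 2 ≠ -1) {μ : F}
    (hμ : μ ∈ Subfield.closure {S.h e u * S.h e u}) (h0' : μ ≠ 0) : ∃ g ∈ H, g.1 e = μ • e := by
  set K := Subfield.closure {S.h e u * S.h e u}
  haveI := Fintype.ofFinite K
  let lam : K := ⟨_, Subfield.subset_closure rfl⟩
  set u' := -S.h e u • u with hu'
  let L : Subgroup SL(2, K) :=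
    { carrier := {A | ∃ g ∈ H, g.1 e = (A 0 0 : F) • e + (A 1 0 : F) • u' ∧
        g.1 u' = (A 0 1 : F) • e + (A 1 1 : F) • u'}
      mul_mem' := by
        rintro A B ⟨g, hg, a1, a2⟩ ⟨k, hk, b1, b2⟩
        refine ⟨g * k, H.mul_mem hg hk, ?_, ?_⟩ <;>
        · simp only [isom_mul_apply, b1, b2, map_add, map_smul, a1, a2, Matrix.SpecialLinearGroup.coe_mul,
            Matrix.mul_apply, Fin.sum_univ_two, Subfield.coe_add, Subfield.coe_mul]
          module
      one_mem' := ⟨1, H.one_mem, by simp, by simp⟩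
      inv_mem' := by
        rintro A ⟨g, hg, a1, a2⟩
        have d : (A 0 0 : F) * A 1 1 - A 0 1 * A 1 0 = 1 := by
          have := congrArg Subtype.val A.det_coe
          rw [Matrix.det_fin_two] at this
          simpa using this
        clear_value u'
        refine ⟨g⁻¹, H.inv_mem hg, g.1.injective ?_, g.1.injective ?_⟩ <;>
        · simp only [isom_apply_inv_self, map_add, map_smul, a1, a2, Matrix.SpecialLinearGroup.coe_inv,
            Matrix.adjugate_fin_two, Matrix.of_apply, Matrix.cons_val', Matrix.cons_val_zero,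
            Matrix.cons_val_one, Matrix.cons_val_fin_one, Subfield.coe_neg]
          match_scalars <;> first | ring1 | linear_combination -d }
  have top := ((Cfsg.Agent.S0801.result (F := K) (fun h => h2 (congrArg Subtype.val h)) lam
    (fun h => mul_ne_zero hl hl (congrArg Subtype.val h)) (eq_top_iff.2 fun z _ => by
      obtain ⟨y, hy, e⟩ : z.1 ∈ (Subfield.closure {lam}).map K.subtype := by
        rw [RingHom.map_field_closure, Set.image_singleton]; exact z.2
      exact (Subtype.ext e : y = z) ▸ hy)).resolve_right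
      fun c => hx (congrArg Subtype.val c.2.1)).1
  have le : L = ⊤ := eq_top_iff.2 (top ▸ (Subgroup.closure_le _).2 fun A hA => by
    rcases hA with hA | hA
    · exact ⟨_, h3, by simp [hA, symp_transv_apply, hu', hs e u], by simp [hA, symp_transv_apply, hu', h0]⟩
    · exact ⟨_, h1, by simp [hA, symp_transv_apply, h0], by
        simp [hA, symp_transv_apply, hu', lam, add_comm]⟩)
  obtain ⟨g, hg, a1, -⟩ : (⟨!![⟨μ, hμ⟩, 0; 0, ⟨μ, hμ⟩⁻¹], by
    simp [Matrix.det_fin_two, mul_inv_cancel₀ (show (⟨μ, hμ⟩ : K) ≠ 0 from fun h => h0' (congrArg Subtype.val h))]⟩ :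
      SL(2, K)) ∈ L := by rw [le]; trivial
  exact ⟨g, hg, by simpa using a1⟩

/-- multipliers of the parameter group -/
def TL (H : Subgroup S.Isom) (v : V) : Subring F where
  carrier := {r | ∀ a ∈ TA H v, r * a ∈ TA H v}
  mul_mem' := fun h1 h2 c hc => by rw [mul_assoc]; exact h1 _ (h2 c hc)
  one_mem' := fun c hc => by rwa [one_mul]
  add_mem' := fun h1 h2 c hc => by rw [add_mul]; exact add_mem (h1 c hc) (h2 c hc)
  zero_mem' := fun c _ => by simp
  neg_mem' := fun h1 c hc => by rw [neg_mul]; exact neg_mem (h1 c hc)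

theorem mem_TL (h2 : (2 : F) ≠ 0) {v : V} (K : Subfield F)
    (h : ∀ c ∈ K, c ≠ 0 → ∃ g ∈ H, g.1 v = c • v) {c : F} (hc : c ∈ K) : c ∈ TL H v := by
  have h1 : ∀ c ∈ K, c * c ∈ TL H v := fun c hc => by
    obtain rfl | h0 := eq_or_ne c 0
    · simp
    obtain ⟨g, hg, e⟩ := h c hc h0
    exact fun a ha => mul_right_comm c a c ▸ TA.scale ha hg e
  have h3 : (2 : F) ∈ K := by simpa [one_add_one_eq_two] using K.add_mem K.one_mem K.one_mem
  convert sub_mem (h1 _ (K.div_mem (K.add_mem hc K.one_mem) h3))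
    (h1 _ (K.div_mem (K.sub_mem hc K.one_mem) h3)) using 1
  field_simp
  ring

variable [Finite F] [FiniteDimensional F V] {ι : Type*} [Fintype ι] {F₀ : Subfield F}
  {b : Basis ι F V}

theorem rat_ne (hS : S.Nondeg) {u : V} (hu : u ≠ 0) : ∃ e ∈ V0 F₀ b, S.h u e ≠ 0 := by
  by_contra! h
  exact hu (hS u fun y => V0_induction (LinearMap.ker (S.h u)) h y)

theorem rat_odd (h2 : (2 : F) ≠ 0) (hS : S.Nondeg) (hn : 6 ≤ finrank F V) (R : Rat S F₀ b)
    (hr : (finrank F₀ F).Prime) (H : Subgroup S.Isom)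
    (hH : ∀ u ∈ V0 F₀ b, ∀ v ∈ V0 F₀ b, ∀ a ∈ F₀, S.eich u v a ∈ H) :
    S.E ≤ H ∨ ∀ g ∈ H, ∃ c : F, c ≠ 0 ∧ ∀ x ∈ V0 F₀ b, c⁻¹ • g.1 x ∈ V0 F₀ b := by
  obtain ⟨e₁, he₁, -, -, h1⟩ := R.exists_sing0 hS [] [] (by simp) (by simp) (by simp; omega)
  replace h1 : e₁ ≠ 0 := by simpa using h1
  have h20 : (2 : F) ∈ F₀ := by simpa [one_add_one_eq_two] using F₀.add_mem F₀.one_mem F₀.one_mem
  by_cases h : ∀ g ∈ H, ∀ x ∈ V0 F₀ b, ∃ c : F, ∃ y ∈ V0 F₀ b, g.1 x = c • y
  · refine .inr fun g hg => ?_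
    obtain ⟨c, y, hy, e⟩ := h g hg e₁ he₁
    have hc : c ≠ 0 := by rintro rfl; simp [h1] at e
    refine ⟨c, hc, fun x hx => ?_⟩
    obtain rfl | hx0 := eq_or_ne x 0
    · simp
    obtain ⟨z, z0, z1, z2⟩ : ∃ z ∈ V0 F₀ b, S.h e₁ z ≠ 0 ∧ S.h x z ≠ 0 := by
      obtain ⟨z, a1, a2⟩ := rat_ne (F₀ := F₀) (b := b) hS h1
      obtain ⟨z', a3, a4⟩ := rat_ne (F₀ := F₀) (b := b) hS hx0
      by_cases a5 : S.h x z = 0
      · by_cases a6 : S.h e₁ z' = 0
        · exact ⟨z + z', add_mem a1 a3, by simp [a6, a2], by simp [a5, a4]⟩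
        · exact ⟨z', a3, a6, a4⟩
      · exact ⟨z, a1, a2, a5⟩
    obtain ⟨c', y', hy', e'⟩ := h g hg x hx
    obtain ⟨d, w, hw, e''⟩ := h g hg z z0
    have a1 := isom_h g e₁ z
    have a2 := isom_h g x z
    simp only [e, e', e'', map_smul, LinearMap.smul_apply, smul_eq_mul, RingHom.id_apply] at a1 a2
    rw [e', smul_smul]
    refine V0_smul ?_ hy'
    have a3 : S.h y' w ≠ 0 := fun h => z2 (by simp [← a2, h])
    have a4 : d ≠ 0 := fun h => z2 (by simp [← a2, h])
    have a5 : S.h y w ≠ 0 := fun h => z1 (by simp [← a1, h])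
    convert F₀.div_mem (F₀.mul_mem (R.h_mem _ hx _ z0) (R.h_mem _ hy _ hw))
      (F₀.mul_mem (R.h_mem _ he₁ _ z0) (R.h_mem _ hy' _ hw)) using 1
    rw [← a1, ← a2]
    field_simp
  left
  push Not at h
  obtain ⟨g, hg, x, hx, hu⟩ := h
  have hT : ∀ u ∈ V0 F₀ b, ∀ a ∈ F₀, S.eich u 0 a ∈ H := fun u hu => hH u hu 0 (zero_mem _)
  have h3 := eich_conj (hT x hx 1 F₀.one_mem) hg
  rw [map_zero] at h3
  generalize g.1 x = u at hu h3
  obtain ⟨e, he, hl⟩ : ∃ e ∈ V0 F₀ b, S.h e u * S.h e u ∉ F₀ := by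
    by_contra! h
    obtain ⟨z, a1, a2⟩ := rat_ne (F₀ := F₀) (b := b) hS (u := u) fun e => hu 0 0 (zero_mem _) (by simp [e])
    replace a2 : S.h z u ≠ 0 := fun e => a2 (S.h_swap_zero e)
    refine hu (S.h z u) ((S.h z u)⁻¹ • u) (R.mem_V0_of_h hS fun y hy => ?_) (by simp [smul_smul, a2])
    convert F₀.div_mem (F₀.sub_mem (F₀.sub_mem (h _ (add_mem hy a1)) (h y hy)) (h z a1))
      (F₀.mul_mem h20 (h z a1)) using 1
    simp only [map_add, LinearMap.add_apply, map_smul, smul_eq_mul]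
    field_simp
    ring
  have hl0 : S.h e u ≠ 0 := fun h => hl (by simp [h])
  have mv : ∀ x ∈ V0 F₀ b, ∀ y ∈ V0 F₀ b, x ≠ 0 → y ≠ 0 → ∃ g ∈ H, g.1 x = y := fun x hx y hy a1 a2 =>
    let ⟨g, b1, b2, _⟩ := R.exists_move hS (by omega) hH hx hy a1 a2 trivial trivial; ⟨g, b1, b2⟩
  have hL : ∀ d ∈ V0 F₀ b, d ≠ 0 → ∀ c ∈ F₀, c ∈ TL H d := fun d hd h0 c hc =>
    mem_TL h2 F₀ (fun c hc h => mv d hd _ (V0_smul hc hd) h0 (smul_ne_zero h h0)) hc
  obtain ⟨d, hd, hd0, ht⟩ : ∃ d ∈ V0 F₀ b, d ≠ 0 ∧ TF H d := by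
    by_cases hr2 : finrank F₀ F = 2
    · obtain ⟨ω, hω⟩ := Rat.exists_decomp_two (b := b) hr2
      obtain ⟨u₁, a1, u₂, a2, a3⟩ := hω u
      obtain ⟨d, hd, -, b1, b2⟩ := R.exists_sing0 hS [u₁, u₂, e] [] (by simp [a1, a2, he]) (by simp)
        (by simpa using hn)
      simp only [List.mem_cons, List.not_mem_nil, or_false, forall_eq_or_imp, forall_eq] at b1
      replace b2 : d ≠ 0 := by simpa using b2
      have b3 : S.h d e = 0 := S.h_swap_zero b1.2.2
      have b4 : e ∈ BSet H (S.symp_sing d) := ⟨0, sec b3 0, hH d hd e he 0 F₀.zero_mem⟩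
      have b5 := AddSubgroup.sub_mem _ (BSet_map (hu' := S.symp_sing d) b4 h3 (by
        simp [symp_transv_apply, a3, b1.1, b1.2.1])) b4
      rw [symp_transv_apply, add_sub_cancel_left] at b5
      have b6 := eich_comm_mem b5 b4
      let D : Submodule F₀ F :=
        { carrier := TA H d
          add_mem' := fun h1 h2 => add_mem h1 h2
          zero_mem' := zero_mem _
          smul_mem' := fun c x hx => hL d hd b2 c c.2 x hx }
      have b7 : D = ⊤ := Submodule.eq_top_of_finrank_eq (le_antisymm D.finrank_le (by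
        have := Submodule.finrank_lt_finrank_of_lt (s := F₀ ∙ (1 : F)) (t := D) (lt_of_le_not_ge
          ((Submodule.span_singleton_le_iff_mem _ _).2 (hT d hd 1 F₀.one_mem)) fun h => by
            obtain ⟨a, ha⟩ := Submodule.mem_span_singleton.1 (h b6)
            refine hl ?_
            convert F₀.div_mem a.2 h20 using 1
            simp only [Subfield.smul_def, smul_eq_mul, mul_one, map_smul, LinearMap.smul_apply,
              RingHom.id_apply, sympP_ε, hs e u] at ha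
            rw [ha]
            field_simp
            ring)
        rw [finrank_span_singleton one_ne_zero] at this
        omega))
      exact ⟨d, hd, b2, fun a => (b7 ▸ trivial : a ∈ D)⟩
    have he0 : e ≠ 0 := by rintro rfl; simp at hl0
    refine ⟨e, he, he0, fun a => ?_⟩
    have b1 : (S.h e u * S.h e u) ^ 2 ≠ -1 := fun h => by
      generalize S.h e u * S.h e u = l at h hl
      let L : Subring F :=
        { carrier := (Submodule.span F₀ {1, l} : Submodule F₀ F)
          mul_mem' := fun h1 h2 => by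
            obtain ⟨a, b, rfl⟩ := Submodule.mem_span_pair.1 h1
            obtain ⟨c, d, rfl⟩ := Submodule.mem_span_pair.1 h2
            refine Submodule.mem_span_pair.2 ⟨a * c - b * d, a * d + b * c, ?_⟩
            simp only [Subfield.smul_def, smul_eq_mul, Subfield.coe_add, Subfield.coe_mul,
              Subfield.coe_sub]
            linear_combination (-(b : F) * d) * h
          one_mem' := Submodule.subset_span (by simp)
          add_mem' := fun h1 h2 => add_mem h1 h2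
          zero_mem' := zero_mem _
          neg_mem' := fun h1 => neg_mem h1 }
      have b1 := subring_eq_top hr L (fun c hc => Submodule.mem_span_pair.2 ⟨⟨c, hc⟩, 0, by
        simp [Subfield.smul_def]⟩) (Submodule.subset_span (by simp)) hl
      have b2 := finrank_span_two_le (F := F₀) (1 : F) l
      rw [Submodule.eq_top_iff'.2 fun x => (b1 ▸ trivial : x ∈ L), finrank_top] at b2
      exact hr2 (le_antisymm b2 hr.two_le)
    have b2 := subring_eq_top hr (TL H e) (hL e he he0) (mem_TL h2 _ (fun c hc =>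
      dickson h2 (hT e he _ (F₀.neg_mem F₀.one_mem)) h3 hl0 b1 hc) (Subfield.subset_closure rfl)) hl
    have b3 := (b2 ▸ trivial : a ∈ TL H e) 1 (hT e he 1 F₀.one_mem)
    rw [mul_one] at b3
    exact b3
  obtain ⟨f, hf, -, hfd⟩ := R.exists_dual hS [] (by simp) hd (by simpa)
  obtain ⟨k, hk, ek⟩ := mv d hd f hf hd0 (by rintro rfl; simp at hfd)
  have ht' : TF H f := ek ▸ ht.map hk
  refine E_le_of_YS hS h2 hfd ht' ht fun v a1 a2 => ?_
  have := V0_induction (F₀ := F₀) (b := b) ((YS hfd ht' ht).comap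
    (LinearMap.id + (S.h d).smulRight f - (S.h f).smulRight d)) (fun x hx => mem_YS hfd ht' ht
      (by simp [h0, hfd]) (by simp [h0, hfd, hs f d]) (a := 0) (hH f hf _ (sub_mem (add_mem hx
        (V0_smul (R.h_mem _ hd _ hx) hf)) (V0_smul (R.h_mem _ hf _ hx) hd)) 0 F₀.zero_mem)) v
  rw [Submodule.mem_comap] at this
  simpa [a1, a2] using this

omit [Finite F] in
theorem nd_dich (hS : S.Nondeg) {W : Submodule F V} (hW : (S.restrict W).Nondeg)
    (hd : finrank F (S.perp W) < finrank F W) (H : Subgroup S.Isom) (hH : S.stab W ≤ H) :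
    S.E ≤ H ∨ H ≤ S.stab W := by
  by_cases hc : H ≤ S.stab W
  · exact .inr hc
  left
  obtain ⟨g, hg, h1⟩ := SetLike.not_le_iff_exists.1 hc
  have hW' := hS.restrict_perp hW
  have t1 : ∀ U : Submodule F V, S.stab U = S.stab W → ∀ x ∈ U, TF H x := fun U hU x hx a =>
    hH (hU ▸ eich_mem_stab hx (zero_mem _) a)
  have mv : ∀ U : Submodule F V, (S.restrict U).Nondeg → S.stab U = S.stab W → ∀ a ∈ U, ∀ a' ∈ U,
      ∀ r ∈ S.perp U, a ≠ 0 → a' ≠ 0 → TF H (a + r) → TF H (a' + r) := by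
    intro U hU e a ha a' ha' r hr h0 h0' hT
    have st : ∀ a ∈ U, ∀ a' ∈ U, S.h a' a ≠ 0 → TF H (a + r) → TF H (a' + r) := fun a ha a' ha' h2 hT => by
      convert (t1 U e _ (U.sub_mem ha' ha)).add hT (by simpa [Pl.h0, hr a ha, hr a' ha'] using h2) 1 using 1
      module
    have ex : ∀ a ∈ U, a ≠ 0 → ∃ y ∈ U, S.h a y ≠ 0 := fun a ha h0 => by
      by_contra! h
      exact h0 ((S.restrict_nondeg_iff' U).1 hU a ha h)
    obtain ⟨y, hy, h2, h3⟩ := exists_both_ne_zero U (S.h a) (S.h a') (ex a ha h0) (ex a' ha' h0')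
    exact st y hy a' ha' h3 (st a ha y hy (fun h => h2 (S.h_swap_zero h)) hT)
  have dec : ∀ x, ∃ a ∈ W, ∃ r ∈ S.perp W, a + r = x := fun x =>
    Submodule.mem_sup.1 ((S.isCompl_perp hW).sup_eq_top ▸ trivial)
  obtain ⟨x, hx, h2, h3⟩ : ∃ x ∈ W, g.1 x ∉ W ∧ g.1 x ∉ S.perp W := by
    by_contra! h
    rcases map_le_or (g.1 : V →ₗ[F] V) (W := W) (fun x hx => or_iff_not_imp_left.2 (h x hx)) with h | h
    · exact h1 (mem_stab_of_le h)
    · exact hside_of_lt hd g h
  have h4 := (t1 W rfl x hx).map hg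
  obtain ⟨a, ha, r, hr, e⟩ := dec (g.1 x)
  rw [← e] at h2 h3 h4
  refine le_top.trans (hS.symp_T_eq_top ▸ T_le_iff.2 fun u c _ _ _ => ?_)
  obtain ⟨a', ha', r', hr', rfl⟩ := dec u
  obtain rfl | h5 := eq_or_ne a' 0
  · simpa using t1 _ (stab_perp hS W) r' hr' c
  obtain rfl | h6 := eq_or_ne r' 0
  · simpa using t1 W rfl a' ha' c
  have h7 := mv W hW rfl a ha a' ha' r hr (by rintro rfl; simp [hr] at h3) h5 h4
  rw [add_comm] at h7 ⊢
  exact mv _ hW' (stab_perp hS W) r hr r' hr' a' (S.le_perp_perp W ha') (by rintro rfl; simp [ha] at h2)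
    h6 h7 c

end H20.Pl
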