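import Cfsg.Agent.H20.Pl2

/-! Overgroups of `Sp_2(q) ⊗ O_b(q)` in `Sp_2b(q)`, `q` odd, part 1: reflection irreducibility
(`irr`, `irr_perp`), the structure `TN` on `W × W`, and the case of two reflection planes meeting
in a line (`TN.of_meet`). -/

set_option autoImplicit false
set_option linter.unusedSectionVars false

namespace H20.Pl

open Module H11 H11.PForm H29

variable {F W : Type*} [Field F] [AddCommGroup W] [Module F W] [FiniteDimensional F W]
  {T : PForm (orthP F) W} {S : PForm (sympP F) (W × W)} {H : Subgroup S.Isom} {w y z : W}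

theorem os (x y : W) : T.h y x = T.h x y := T.orth_symm x y

theorem ex_ns (h2 : (2 : F) ≠ 0) (X : Submodule F W) (ha : ∃ a ∈ X, T.h a a ≠ 0)
    (hb : ∃ b ∈ X, T.h y b ≠ 0) : ∃ z ∈ X, T.h z z ≠ 0 ∧ T.h y z ≠ 0 := by
  simpa only [orth_h_self, mul_ne_zero_iff, h2, ne_eq, not_false_eq_true, true_and] using
    exists_ns h2 T X (T.h y) (by simpa [orth_h_self, h2] using ha) hb

theorem ex_ns_dim (h2 : (2 : F) ≠ 0) (hT : T.Nondeg) (X : Submodule F W)
    (h : finrank F W < 2 * finrank F X) : ∃ a ∈ X, T.h a a ≠ 0 := by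
  simpa [orth_h_self, h2] using exists_ns_dim hT X h

theorem irr (h2 : (2 : F) ≠ 0) (hT : T.Nondeg)
    (hq : (∃ c : F, c ≠ 0 ∧ c ^ 2 ≠ 1) ∨ 3 ≤ finrank F W) (L : Submodule F W) (hy : y ∈ L)
    (h0 : y ≠ 0) (hL : ∀ y ∈ L, ∀ z, T.h z z ≠ 0 → T.h z y ≠ 0 → z ∈ L) : L = ⊤ := by
  by_contra hne
  have ns : ∀ d, T.h d d ≠ 0 → d ∈ L ∨ d ∈ T.perp L := fun d hd => or_iff_not_imp_right.2 fun h => by
    rw [mem_perp'] at h
    push Not at h
    obtain ⟨y, h1, h3⟩ := h
    exact hL y h1 d hd h3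
  obtain ⟨d, -, hd⟩ := ex_ns_dim h2 hT ⊤ (by
    have : Nontrivial W := ⟨⟨y, 0, h0⟩⟩
    have := finrank_pos (R := F) (M := W)
    rw [finrank_top]; omega)
  have h1 : ∀ r ∈ L, r ∈ T.perp L → r = 0 := fun r a1 a2 => by_contra fun h => by
    obtain ⟨b, hb⟩ := hT.exists_h_ne_zero h
    obtain ⟨z, -, b1, b2⟩ := ex_ns h2 ⊤ ⟨d, trivial, hd⟩ ⟨b, trivial, hb⟩
    rcases ns z b1 with h | h
    · exact b2 (T.h_swap_zero (a2 z h))
    · exact b2 (h r a1)
  have h3 : ∀ a ∈ L, a ≠ 0 → ∀ b ∈ T.perp L, b ≠ 0 → T.h a a + T.h b b = 0 := fun a a1 a2 b b1 b2 => by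
    by_contra h
    rcases ns (a + b) (by simpa [b1 a a1, os a b] using h) with h | h
    · exact b2 (h1 b ((L.add_mem_iff_right a1).1 h) b1)
    · exact a2 (h1 a a1 ((Submodule.add_mem_iff_left _ b1).1 h))
  obtain ⟨z, hz, z0⟩ := Submodule.exists_mem_ne_zero_of_ne_bot (p := T.perp L) fun h =>
    hne (by rw [← hT.perp_perp L, h, perp_bot])
  have d0 : d ≠ 0 := by rintro rfl; simp at hd
  have h4 : T.h y y ≠ 0 := fun h => by
    have a1 := h3 y hy h0 z hz z0
    rcases ns d hd with h' | h'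
    · exact hd (by linear_combination h3 d h' d0 z hz z0 - a1 + h)
    · exact hd (by linear_combination h3 y hy h0 d h' d0 - h)
  have h5 : ∀ X : Submodule F W, 2 ≤ finrank F X → ∀ t : F, t ≠ 0 → (∀ a ∈ X, a ≠ 0 → T.h a a = t) →
      False := fun X hX t ht h => by
    obtain ⟨a, a1, a2⟩ := exists_ne_zero_of_finrank X (by omega)
    obtain ⟨b, b1, b2⟩ := exists_ne_zero_of_finrank (X ⊓ T.perp (F ∙ a)) (by
      have := Submodule.finrank_sup_add_finrank_inf_eq X (T.perp (F ∙ a))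
      have := le_finrank_ker_h T a
      have := (X ⊔ T.perp (F ∙ a)).finrank_le
      omega)
    have b3 := T.mem_perp_singleton.1 b1.2
    have := h (a + b) (X.add_mem a1 b1.1) fun e => ht (by simpa [b3, h a a1 a2] using congrArg (T.h a) e)
    simp [b3, os a b, h a a1 a2, h b b1.1 b2, ht] at this
  rcases hq with ⟨c, c0, c1⟩ | hq
  · have := h3 _ (L.smul_mem c hy) (smul_ne_zero c0 h0) z hz z0
    simp only [map_smul, LinearMap.smul_apply, smul_eq_mul, RingHom.id_apply] at this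
    exact c1 (mul_right_cancel₀ h4 (by linear_combination this - h3 y hy h0 z hz z0))
  have := hT.finrank_perp L
  by_cases h6 : 2 ≤ finrank F L
  · exact h5 L h6 _ h4 fun a a1 a2 => by linear_combination h3 a a1 a2 z hz z0 - h3 y hy h0 z hz z0
  · exact h5 (T.perp L) (by omega) _ (neg_ne_zero.2 h4) fun a a1 a2 => by
      linear_combination h3 y hy h0 a a1 a2

theorem nd_perp (hT : T.Nondeg) (hw : T.h w w ≠ 0) : (T.restrict (T.perp (F ∙ w))).Nondeg :=
  hT.restrict_perp ((T.restrict_nondeg_iff' _).2 fun x hx h => by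
    obtain ⟨c, rfl⟩ := Submodule.mem_span_singleton.1 hx
    simpa [hw] using Or.inl (by simpa [hw] using h w (Submodule.mem_span_singleton_self w)))

theorem irr_perp (h2 : (2 : F) ≠ 0) (hT : T.Nondeg)
    (hq : (∃ c : F, c ≠ 0 ∧ c ^ 2 ≠ 1) ∨ 4 ≤ finrank F W) (hw : T.h w w ≠ 0) (L : Submodule F W)
    (hy : y ∈ L) (h0 : y ≠ 0) (h1 : T.h w y = 0)
    (hL : ∀ y ∈ L, ∀ z, T.h w z = 0 → T.h z z ≠ 0 → T.h z y ≠ 0 → z ∈ L) {x : W}
    (hx : T.h w x = 0) : x ∈ L := by
  have := irr h2 (nd_perp hT hw) (hq.imp_right fun h => by have := le_finrank_ker_h T w; omega)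
    (L.comap (T.perp (F ∙ w)).subtype) (y := ⟨y, T.mem_perp_singleton.2 h1⟩) hy
    (fun h => h0 (congrArg Subtype.val h)) fun y hy z => hL y hy z (T.mem_perp_singleton.1 z.2)
  exact Submodule.eq_top_iff'.1 this ⟨x, T.mem_perp_singleton.2 hx⟩

/-- `H` contains `Sp_2 ⊗ O(W)` -/
structure TN [Finite F] (T : PForm (orthP F) W) (S : PForm (sympP F) (W × W)) (H : Subgroup S.Isom) :
    Prop where
  two : (2 : F) ≠ 0
  nd : T.Nondeg
  form : ∀ x y, S.h x y = T.h x.1 y.2 - T.h x.2 y.1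
  hU : ∀ a b c d : F, a * d - b * c = 1 →
    ∃ g ∈ H, ∀ x, g.1 x = (a • x.1 + b • x.2, c • x.1 + d • x.2)
  hW : ∀ z, T.h z z ≠ 0 → ∃ g ∈ H, ∀ x, g.1 x =
    (x.1 - (2 / T.h z z * T.h z x.1) • z, x.2 - (2 / T.h z z * T.h z x.2) • z)
  hq : 5 ≤ finrank F W ∨ (finrank F W = 3 ∧ 5 ≤ Nat.card F)

namespace TN
variable [Finite F] (N : TN T S H)
include N

theorem three : 3 ≤ finrank F W := by have := N.hq; omega

theorem nondeg : S.Nondeg := fun x h => Prod.ext
  (N.nd _ fun y => by simpa [N.form] using h (0, y)) (N.nd _ fun y => by simpa [N.form] using h (y, 0))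

theorem irr (hw : T.h w w ≠ 0) (L : Submodule F W) (hy : y ∈ L) (h0 : y ≠ 0) (h1 : T.h w y = 0)
    (hL : ∀ y ∈ L, ∀ z, T.h w z = 0 → T.h z z ≠ 0 → T.h z y ≠ 0 → z ∈ L) {x : W}
    (hx : T.h w x = 0) : x ∈ L :=
  irr_perp N.two N.nd (N.hq.symm.imp (fun h => exists_sq_ne_one (by omega)) (by omega)) hw L hy h0
    h1 hL hx

theorem tf (h : TF H (w, 0)) (a b : F) : TF H (a • w, b • w) := by
  by_cases ha : a = 0
  · obtain ⟨g, hg, e⟩ := N.hU 0 (-1) 1 0 (by simp)
    simpa [e, ha] using (h.map hg).smul b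
  · obtain ⟨g, hg, e⟩ := N.hU a 0 b a⁻¹ (by simp [ha])
    simpa [e] using h.map hg

theorem fin (hw : T.h w w ≠ 0) (h : TF H (w, 0)) (h0 : y ≠ 0) (h1 : T.h w y = 0) {a : F}
    (ha : S.eich (w, 0) (y, 0) a ∈ H) : S.E ≤ H := by
  have b1 : S.h (w, 0) ((0 : F) • w, (T.h w w)⁻¹ • w) = 1 := by simp [N.form, hw]
  have b2 := N.tf h 0 (T.h w w)⁻¹
  have b3 : ∀ x, T.h w x = 0 → (x, 0) ∈ YS b1 h b2 := fun x => N.irr hw
    ((YS b1 h b2).comap (LinearMap.inl F W W)) (mem_YS b1 h b2 (by simp [N.form])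
      (by simp [N.form, h1]) ha) h0 h1 fun y hy z c1 c2 c3 => by
      obtain ⟨g, hg, e⟩ := N.hW z c2
      have c4 : ∀ c d : F, g⁻¹.1 (c • w, d • w) = (c • w, d • w) := fun c d =>
        g.1.injective (by rw [isom_apply_inv_self]; simp [e, os w z, c1])
      rw [Submodule.mem_comap] at hy ⊢
      have := Submodule.sub_mem _ hy (YS_map hy hg (by
        have := c4 1 0
        rw [one_smul, zero_smul] at this
        rw [this]
        exact left_mem) (by rw [c4]; exact right_mem))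
      simp only [LinearMap.inl_apply, e, Prod.mk_sub_mk, sub_sub_cancel, map_zero, mul_zero, zero_smul,
        sub_zero] at this
      exact (Submodule.smul_mem_iff _ (mul_ne_zero (div_ne_zero N.two c2) c3)).1 (by simpa using this)
  refine E_le_of_YS N.nondeg N.two b1 h b2 fun v a1 a2 => ?_
  obtain ⟨g, hg, e⟩ := N.hU 0 (-1) 1 0 (by simp)
  have c : ∀ c d : F, g⁻¹.1 (c • w, d • w) ∈ pl F (w, 0) ((0 : F) • w, (T.h w w)⁻¹ • w) := fun c d =>
    mem_pl.2 ⟨d, -c * T.h w w, g.1.injective (by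
      rw [isom_apply_inv_self]; simp [e, smul_smul, hw])⟩
  simpa [e] using Submodule.add_mem _ (b3 v.1 (by simpa [N.form, hw] using a2))
    (YS_map (b3 v.2 (by simpa [N.form] using a1)) hg (by simpa using c 1 0) (c _ _))

omit N in
theorem sub (f : ∀ x y, S.h x y = T.h x.1 y.2 - T.h x.2 y.1) {x y : W}
    (h1 : S.eich (w, 0) (x, 0) 0 ∈ H) (h2 : S.eich (w, 0) (y, 0) 0 ∈ H) :
    S.eich (w, 0) (x - y, 0) 0 ∈ H := by
  simpa [f, sub_eq_add_neg] using seich_mul (by simp [f]) (by simp [f]) h1 (seich_inv (by simp [f]) h2)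

/-- the symmetric tensors `w y` in `H` -/
def LS (w : W) : Submodule F W where
  carrier := {y | ∀ c : F, S.eich (w, 0) (c • y, 0) 0 ∈ H}
  add_mem' := fun h1 h2 c => by
    simpa [N.form] using seich_mul (by simp [N.form]) (by simp [N.form]) (h1 c) (h2 c)
  zero_mem' := fun c => by simp [← Prod.zero_eq_mk, eich_zero]
  smul_mem' := fun a v h c => by simpa [smul_smul] using h (c * a)

theorem LS_refl (hy : y ∈ N.LS w) (h1 : T.h w z = 0) (h2 : T.h z z ≠ 0) (h3 : T.h z y ≠ 0) :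
    z ∈ N.LS w := fun c => by
  obtain ⟨g, hg, e⟩ := N.hW z h2
  have a1 := hy (c / (2 / T.h z z * T.h z y))
  have a2 := eich_conj a1 hg
  simp only [e, os w z, h1, map_zero, mul_zero, zero_smul, sub_zero] at a2
  convert sub N.form a1 a2 using 3
  simp only [map_smul, smul_eq_mul, sub_sub_cancel]
  congr 1
  field_simp [N.two]

theorem LS_symm (hy : y ∈ N.LS w) : w ∈ N.LS y := fun c => by
  have := hy c
  rw [← Prod.smul_mk_zero, eich_symm (by simp [N.form]), eich_smul (sec (by simp [N.form]) 0)] at this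
  simpa using this

theorem of_LS (hw : T.h w w ≠ 0) (h0 : y ≠ 0) (h1 : T.h w y = 0) (hy : y ∈ N.LS w) : S.E ≤ H := by
  have b1 : ∀ w y, T.h w w ≠ 0 → y ≠ 0 → T.h w y = 0 → y ∈ N.LS w → ∀ x, T.h w x = 0 → x ∈ N.LS w :=
    fun w y a1 a2 a3 a4 x => N.irr a1 _ a4 a2 a3 fun y hy z => N.LS_refl hy
  have := le_finrank_ker_h T w
  have := N.three
  obtain ⟨v, v1, v2⟩ := orth_exists_q_eq_mem (nd_perp N.nd hw) (by omega) (-T.q w)
  rw [mem_perp_singleton] at v1
  replace v2 : T.h v v = -T.h w w := by simp [orth_h_self, v2]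
  obtain ⟨u, u1, u2⟩ := orth_exists_q_ne_mem (N.nd.restrict_perp (U := pl F w v)
    ((T.restrict_nondeg_iff' _).2 fun x hx h => by
      obtain ⟨a, b, rfl⟩ := mem_pl.1 hx
      have a1 := h w left_mem
      have a2 := h v right_mem
      simp only [map_add, map_smul, LinearMap.add_apply, LinearMap.smul_apply, smul_eq_mul, v1, v2,
        os w v, RingHom.id_apply, mul_zero, add_zero, zero_add, mul_eq_zero, hw, or_false,
        neg_eq_zero] at a1 a2
      simp [a1, a2])) (by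
    have := N.nd.finrank_perp (pl F w v)
    have := finrank_pl w v (F := F)
    omega)
  rw [mem_perp_pair] at u1
  replace u2 : T.h u u ≠ 0 := by simpa [orth_h_self, N.two] using u2
  have b2 := N.LS_symm (b1 u w u2 (by rintro rfl; simp at hw) (T.h_swap_zero u1.1)
    (N.LS_symm (b1 w y hw h0 h1 hy u u1.1)) (w + v) (by simp [os w u, os v u, u1]))
  have b3 := N.LS_refl b2 (z := (2 : F) • u + (w + v)) (by simp [u1, v1, v2, os w v])
    (by simp [u1, v1, v2, os w v, os w u, os v u, u2, N.two]) (by simp [u1, u2, N.two])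
  have b4 : TF H (w + v, 0) := fun a => by
    have := (N.LS _).sub_mem b3 ((N.LS _).smul_mem 2 b2) (a / 2)
    rwa [add_sub_cancel_left, ← Prod.smul_mk_zero, eich_self, mul_div_cancel₀ _ N.two] at this
  obtain ⟨g, hg, e⟩ := N.hW v (by simp [v2, hw])
  have b5 : TF H (w - v, 0) := by
    convert b4.map hg using 1
    simp only [e, map_add, os w v, v1, v2, map_zero, mul_zero, zero_smul, sub_zero, Prod.mk.injEq,
      and_true]
    match_scalars <;> field_simp <;> ring
  have b6 : T.h (w + v) (w - v) ≠ 0 := by simp [v1, v2, os w v, ← two_mul, N.two, hw]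
  have b7 := (N.tf b5 0 1).add b4 (by simpa [N.form, os (w + v), -map_sub, -map_add] using b6) 1
  have b8 := ((N.tf b5 (-1) 1).add b7 (by
    simp only [N.form, Prod.fst_add, Prod.snd_add, Prod.smul_mk, one_smul, zero_smul, add_zero, zero_add,
      map_smul, LinearMap.smul_apply, os (w + v)]
    intro h
    simp only [map_add, map_sub, LinearMap.sub_apply, LinearMap.add_apply, v1, v2, os w v, map_zero,
      smul_eq_mul, RingHom.id_apply] at h b6
    exact b6 (by linear_combination -h)) (-1)).smul 2⁻¹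
  refine N.fin hw ?_ h0 h1 (by simpa using hy 1)
  convert b8 using 1
  ext
  · simp only [Prod.smul_mk, Prod.mk_add_mk]
    match_scalars <;> field_simp [N.two] <;> ring
  · simp

theorem of_eich (hw : T.h w w ≠ 0) {v : W × W} (h0 : v ≠ 0) (h1 : T.h w v.1 = 0) (h2 : T.h w v.2 = 0)
    (h : S.eich (w, 0) v 0 ∈ H) : S.E ≤ H := by
  obtain ⟨y, y'⟩ := v
  by_cases h3 : y' = 0
  · subst h3
    refine N.of_LS hw (by simpa using h0) h1 fun c => ?_
    let A : AddSubgroup F :=
      { carrier := {c | S.eich (w, 0) (c • y, 0) 0 ∈ H}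
        add_mem' := fun h1 h2 => by
          simpa [N.form, add_smul] using seich_mul (by simp [N.form]) (by simp [N.form]) h1 h2
        zero_mem' := by simp [← Prod.zero_eq_mk, eich_zero]
        neg_mem' := fun h1 => by simpa using seich_inv (by simp [N.form]) h1 }
    refine mem_of_sq A one_ne_zero (fun c => ?_) c
    obtain rfl | hc := eq_or_ne c 0
    · simp
    obtain ⟨g, hg, e⟩ := N.hU c 0 0 c⁻¹ (by simp [hc])
    have := eich_conj h hg
    simp only [e, smul_zero, zero_smul, add_zero] at this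
    rw [← Prod.smul_mk_zero, eich_smul (sec (by simp [N.form]) 0)] at this
    change S.eich _ _ _ ∈ H
    simpa [smul_smul] using this
  let B := BSet H (S.symp_sing (w, 0))
  have b1 : (y, y') ∈ B := ⟨0, sec (by simpa [N.form] using h2) 0, h⟩
  have b2 : ∀ c : F, (c • y', 0) ∈ B := fun c => by
    obtain ⟨g, hg, e⟩ := N.hU 1 c 0 1 (by simp)
    simpa [e] using B.sub_mem (BSet_map b1 hg (by simp [e])) b1
  obtain ⟨z, z1, z2, z3⟩ := ex_ns N.two (T.perp (F ∙ w)) (y := y') (ex_ns_dim N.two N.nd _ (by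
    have := le_finrank_ker_h T w
    have := N.three
    omega)) (by
    by_contra! h4
    exact h3 ((T.restrict_nondeg_iff' _).1 (nd_perp N.nd hw) y' (T.mem_perp_singleton.2 h2) h4))
  rw [mem_perp_singleton] at z1
  obtain ⟨g, hg, e⟩ := N.hW z z2
  obtain ⟨a, -, ha⟩ := b2 1
  refine N.fin hw (fun a => ?_) h3 h2 (by simpa using ha)
  have b3 := b2 (a * T.h z z / (-4 * T.h y' z * T.h y' z))
  convert eich_comm_mem b1 (B.sub_mem b3 (BSet_map b3 hg (by simp [e, os w z, z1]))) using 2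
  simp only [e, N.form, Prod.mk_sub_mk, map_smul, map_sub, smul_eq_mul, map_zero, os y' z, sympP_ε,
    RingHom.id_apply]
  have : (4 : F) ≠ 0 := by simpa [show (2 : F) * 2 = 4 by norm_num] using mul_ne_zero N.two N.two
  field_simp
  ring

end TN

end H20.Pl
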