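import Cfsg.Agent.H20.Pl4
import Cfsg.Agent.H29.Ten2

/-! Overgroups of `Sp_2(q) ⊗ O_b(q)` in `Sp_2b(q)`, `q` odd, part 2: the planes `Dz w = U ⊗ w`, their
images `Mb`, the partial spread case, `TN.dich` and `pres`. -/

set_option autoImplicit false
set_option linter.unusedSectionVars false

namespace H20.Pl

open Module H11 H11.PForm H29

variable {F W : Type*} [Field F] [AddCommGroup W] [Module F W] [FiniteDimensional F W]
  {T : PForm (orthP F) W} {S : PForm (sympP F) (W × W)} {H : Subgroup S.Isom} {w v z : W}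
  {D : Submodule F (W × W)} {x y e f : W × W} {α β γ : F}

/-- the plane `U ⊗ w` -/
def Dz (F : Type*) [Field F] {W : Type*} [AddCommGroup W] [Module F W] (w : W) :
    Submodule F (W × W) := pl F (w, 0) (0, w)

theorem mem_Dz : x ∈ Dz F w ↔ ∃ a b : F, x = (a • w, b • w) := by simp [Dz, mem_pl, eq_comm]

theorem Dz_eq (hw : T.h w w ≠ 0) : pl F (w, 0) (0, (T.h w w)⁻¹ • w) = Dz F w :=
  le_antisymm (pl_le left_mem (mem_Dz.2 ⟨0, (T.h w w)⁻¹, by rw [zero_smul]⟩))
    (pl_le left_mem (mem_pl.2 ⟨0, T.h w w, by simp [smul_smul, hw]⟩))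

/-- tensors of rank two -/
def Ind (F : Type*) [Field F] {W : Type*} [AddCommGroup W] [Module F W] (x : W × W) : Prop :=
  ∀ a b : F, a • x.1 + b • x.2 = 0 → a = 0 ∧ b = 0

theorem Ind.not_mem (h : Ind F x) : x ∉ Dz F v := fun hx => by
  obtain ⟨a, b, rfl⟩ := mem_Dz.1 hx
  obtain ⟨h1, h2⟩ := h b (-a) (by module)
  simpa [h1, neg_eq_zero.1 h2] using h 1 0

theorem not_ind (h : ¬ Ind F x) : ∃ v, x ∈ Dz F v := by
  unfold Ind at h
  push Not at h
  obtain ⟨a, b, h1, h2⟩ := h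
  by_cases ha : a = 0
  · exact ⟨x.1, mem_Dz.2 ⟨1, 0, Prod.ext (by simp) (by simpa [ha, h2 ha] using h1)⟩⟩
  · refine ⟨x.2, mem_Dz.2 ⟨-(b / a), 1, Prod.ext (smul_right_injective _ ha ?_) (by simp)⟩⟩
    simp only [smul_smul, mul_neg, mul_div_cancel₀ _ ha]
    linear_combination (norm := module) h1

/-- the action of a trace zero matrix -/
def ph (α β γ : F) : W × W →ₗ[F] W × W :=
  (α • LinearMap.fst F W W + β • LinearMap.snd F W W).prod
    (γ • LinearMap.fst F W W - α • LinearMap.snd F W W)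

theorem ph_apply (x : W × W) : ph α β γ x = (α • x.1 + β • x.2, γ • x.1 - α • x.2) := rfl

theorem ph_ph (x : W × W) : ph α β γ (ph α β γ x) = (α * α + β * γ) • x := by
  ext <;> simp only [ph_apply, Prod.smul_fst, Prod.smul_snd] <;> module

theorem ph_Dz (hx : x ∈ Dz F w) : ph α β γ x ∈ Dz F w := by
  obtain ⟨a, b, rfl⟩ := mem_Dz.1 hx
  exact mem_Dz.2 ⟨α * a + β * b, γ * a - α * b, by ext <;> simp only [ph_apply] <;> module⟩

/-- images of the planes `U ⊗ w` -/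
def Mb (T : PForm (orthP F) W) (H : Subgroup S.Isom) (D : Submodule F (W × W)) : Prop :=
  ∃ g ∈ H, ∃ w, T.h w w ≠ 0 ∧ ∀ x, x ∈ D ↔ g.1 x ∈ Dz F w

theorem Mb.comap (h : Mb T H D) {k : S.Isom} (hk : k ∈ H) :
    Mb T H (D.comap (k.1 : W × W →ₗ[F] W × W)) :=
  let ⟨g, hg, w, hw, e⟩ := h; ⟨g * k, H.mul_mem hg hk, w, hw, fun _ => e _⟩

theorem mb_Dz (hw : T.h w w ≠ 0) : Mb T H (Dz F w) := ⟨1, H.one_mem, w, hw, fun _ => Iff.rfl⟩

/-- the partial spread condition -/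
def PT (T : PForm (orthP F) W) (H : Subgroup S.Isom) : Prop :=
  ∀ w, T.h w w ≠ 0 → ∀ e ∈ Dz F w, ∀ f, Rf H e f → f ∈ Dz F w

namespace TN
variable [Finite F] (N : TN T S H)
include N

theorem rfD (hw : T.h w w ≠ 0) : Rf H (w, 0) (0, (T.h w w)⁻¹ • w) := by
  obtain ⟨g, hg, e⟩ := N.hW w hw
  refine ⟨by simp [N.form, hw], g, hg, fun x => ?_⟩
  ext <;> simp only [e, N.form, map_smul, map_zero, LinearMap.smul_apply, LinearMap.zero_apply,
    smul_eq_mul, RingHom.id_apply, Prod.smul_mk, Prod.fst_add, Prod.fst_sub, Prod.snd_add,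
    Prod.snd_sub, div_eq_mul_inv] <;> module

theorem pt_or : S.E ≤ H ∨ PT T H := by
  refine or_iff_not_imp_right.2 fun h => ?_
  unfold PT at h
  push Not at h
  obtain ⟨w, hw, e, he, f, h1, h2⟩ := h
  obtain ⟨a, b, rfl⟩ := mem_Dz.1 he
  obtain ⟨r, s, t, u, h3, h4, h5⟩ : ∃ r s t u : F, r * u - s * t = 1 ∧ r * a + s * b = 1 ∧
      t * a + u * b = 0 := by
    by_cases ha : a = 0
    · have hb : b ≠ 0 := by rintro rfl; simpa [ha, N.form] using h1.1
      exact ⟨0, b⁻¹, -b, 0, by simp [hb], by simp [hb], by simp [ha]⟩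
    · exact ⟨a⁻¹, 0, -b, a, by simp [ha], by simp [ha], by ring⟩
  obtain ⟨g, hg, e⟩ := N.hU r s t u h3
  have h6 := h1.map hg
  rw [e] at h6
  simp only [smul_smul, ← add_smul, h4, h5, one_smul, zero_smul] at h6
  obtain ⟨v, v0, v1, v2, v3⟩ := meet N.two (N.rfD hw) h6 fun h => h2 (by
    rw [Dz_eq hw, e] at h
    obtain ⟨c, d, h⟩ := mem_Dz.1 h
    obtain ⟨h7, h8⟩ := Prod.ext_iff.1 h
    refine mem_Dz.2 ⟨u * c - s * d, r * d - t * c, Prod.ext ?_ ?_⟩
    · linear_combination (norm := module) u • h7 - s • h8 - h3 • f.1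
    · linear_combination (norm := module) r • h8 - t • h7 - h3 • f.2)
  exact N.of_eich hw v0 (by simpa [N.form, hw] using v2) (by simpa [N.form] using v1) v3

theorem base (hD : Mb T H D) (hx : x ∈ D) (h0 : x ≠ 0) : ∃ x', Rf H x x' ∧ D = pl F x x' := by
  obtain ⟨g, hg, w, hw, e⟩ := hD
  have h1 := N.rfD hw
  rw [e, ← Dz_eq hw] at hx
  obtain ⟨f, a1, a2, a3⟩ := exists_partner h1.1 hx (by simpa)
  refine ⟨g⁻¹.1 f, by simpa using (h1.change hx a1 a2).map (H.inv_mem hg), Submodule.ext fun y => ?_⟩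
  rw [e, ← Dz_eq hw, ← a3, ← map_mem_pl (x := y) g, isom_apply_inv_self]

theorem js (h : α * α + β * γ ≠ 0) : JS S (ph α β γ) (α * α + β * γ) :=
  ⟨N.two, ph_ph, h, fun x y => by
    simp only [N.form, ph_apply, map_add, map_sub, map_smul, LinearMap.add_apply, LinearMap.sub_apply,
      LinearMap.smul_apply, smul_eq_mul, RingHom.id_apply]
    ring⟩

theorem pure (hD : Mb T H D) (h : D ≤ Dz F v) : T.h v v ≠ 0 ∧ D = Dz F v := by
  obtain ⟨g, hg, w, hw, e⟩ := id hD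
  obtain ⟨x, h1, h2⟩ := N.base hD (x := g⁻¹.1 (w, 0)) (by simpa [e, Dz] using left_mem) (by
    simpa using fun h => hw (by simp [h]))
  have h3 := h (h2 ▸ left_mem)
  have h4 := h (h2 ▸ right_mem)
  have h5 : T.h v v ≠ 0 := fun h5 => by
    obtain ⟨a, b, h3⟩ := mem_Dz.1 h3
    obtain ⟨c, d, rfl⟩ := mem_Dz.1 h4
    have := h1.1
    rw [h3] at this
    simp [N.form, h5] at this
  rw [← Dz_eq h5] at h3 h4 ⊢
  exact ⟨h5, h2.trans (pl_eq (N.rfD h5).1 h3 h4 h1.1)⟩

theorem span (hD : Mb T H D) (hi : ∀ x ∈ D, ph α β γ x ∈ D) (hn : ∀ ε, ε * ε ≠ α * α + β * γ)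
    (hx : x ∈ D) (h0 : x ≠ 0) : S.h x (ph α β γ x) ≠ 0 ∧ Rf H x ((S.h x (ph α β γ x))⁻¹ • ph α β γ x) ∧
      ∀ y ∈ D, ∃ a b : F, a • x + b • ph α β γ x = y := by
  obtain ⟨x', h1, h2⟩ := N.base hD hx h0
  obtain ⟨a, b, h3⟩ := mem_pl.1 (h2 ▸ hi x hx)
  have hb : b ≠ 0 := fun hb => hn a (smul_left_injective F h0 (by
    rw [hb, zero_smul, add_zero] at h3
    simp only [← ph_ph, ← h3, map_smul, smul_smul]))
  have h4 : S.h x (ph α β γ x) ≠ 0 := by simpa [← h3, Pl.h0, h1.1]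
  refine ⟨h4, h1.change left_mem (h2 ▸ D.smul_mem _ (hi x hx)) (by simp [h4]), fun y hy => ?_⟩
  obtain ⟨c, d, rfl⟩ := mem_pl.1 (h2 ▸ hy)
  refine ⟨c - d / b * a, d / b, ?_⟩
  rw [← h3]
  match_scalars <;> field_simp <;> ring

theorem ind (hD : Mb T H D) (hi : ∀ x ∈ D, ph α β γ x ∈ D) (hn : ∀ ε, ε * ε ≠ α * α + β * γ)
    (he : e ∈ D) (h1 : Ind F e) (hx : x ∈ D) (h0 : x ≠ 0) : Ind F x := by_contra fun h => by
  obtain ⟨v, hv⟩ := not_ind h
  obtain ⟨a, b, rfl⟩ := (N.span hD hi hn hx h0).2.2 e he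
  exact h1.not_mem (Submodule.add_mem _ (Submodule.smul_mem _ _ hv) (Submodule.smul_mem _ _ (ph_Dz hv)))

variable (hP : PT T H)
include hP

theorem stab (hD : Mb T H D) {k : S.Isom} (hk : k ∈ H) (hx : x ∈ D) (h0 : x ≠ 0) (h1 : k.1 x ∈ D)
    (hy : y ∈ D) : k.1 y ∈ D := by
  obtain ⟨x', a1, a2⟩ := N.base hD hx h0
  obtain ⟨g, hg, w, hw, e⟩ := hD
  have := (e _).2 (hP w hw _ ((e _).1 h1) _ ((a1.map hk).map hg))
  obtain ⟨a, b, rfl⟩ := mem_pl.1 (a2 ▸ hy)
  rw [map_add, map_smul, map_smul]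
  exact D.add_mem (D.smul_mem _ h1) (D.smul_mem _ this)

theorem std (hD : Mb T H D) (hx : x ∈ D) (h0 : x ≠ 0) (hz : T.h z z ≠ 0) (h : x ∈ Dz F z) :
    D ≤ Dz F z := by
  obtain ⟨x', a1, rfl⟩ := N.base hD hx h0
  exact pl_le h (hP z hz _ h _ a1)

theorem supp (hD : Mb T H D) (hn : ∀ v, ¬ D ≤ Dz F v) (hx : x ∈ D) (h0 : x ≠ 0)
    (hz : ∃ z ∈ T.perp (pl F x.1 x.2), T.h z z ≠ 0) (hy : y ∈ D) :
    y.1 ∈ pl F x.1 x.2 ∧ y.2 ∈ pl F x.1 x.2 := by
  have h1 : ∀ z ∈ T.perp (pl F x.1 x.2), T.h z z ≠ 0 → T.h y.1 z = 0 ∧ T.h y.2 z = 0 := by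
    intro z a1 a2
    rw [mem_perp_pair] at a1
    obtain ⟨g, hg, e⟩ := N.hW z a2
    have a3 := D.sub_mem hy (N.stab hP hD hg hx h0 (by simpa [e, os x.1 z, os x.2 z, a1]) hy)
    by_contra a4
    refine hn z (N.std hP hD a3 (fun h => a4 ?_) a2 (mem_Dz.2 ⟨_, _, by
      rw [e]; exact Prod.ext (sub_sub_cancel _ _) (sub_sub_cancel _ _)⟩))
    have z0 : z ≠ 0 := by rintro rfl; simp at a2
    simpa [e, Prod.ext_iff, N.two, a2, z0, os z] using h
  constructor <;>
  · by_contra h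
    obtain ⟨b, b1, b2⟩ := N.nd.exists_perp_of_notMem' h 1
    obtain ⟨z, c1, c2, c3⟩ := ex_ns N.two _ hz ⟨b, b1, b2 ▸ one_ne_zero⟩
    simp [h1 z c1 c2] at c3

theorem shape (hD : Mb T H D) (hi : ∀ x ∈ D, ph α β γ x ∈ D) (hn : ∀ ε, ε * ε ≠ α * α + β * γ)
    (he : e ∈ D) (h1 : Ind F e) (h2 : T.h e.1 e.1 ≠ 0) : T.h e.1 (ph α β γ e).1 = 0 := by
  have hd : α * α + β * γ ≠ 0 := fun h => hn 0 (by simp [h])
  have hb : β ≠ 0 := fun h => hn α (by simp [h])
  have h0 : e ≠ 0 := by rintro rfl; simp at h2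
  obtain ⟨l, m, h3⟩ := exists_quad_eq (one_ne_zero (α := F)) (neg_ne_zero.2 hd) (-1)
  obtain ⟨s, hs⟩ : ∃ s, T.h e.1 e.2 = s * T.h e.1 e.1 := ⟨_, (div_mul_cancel₀ _ h2).symm⟩
  obtain ⟨g, hg, e1⟩ := N.hU (-(l + m * α) - 2 * s * m * β) (m * β) (-m * γ - 2 * s * (l - m * α))
    (l - m * α) (by linear_combination -h3)
  obtain ⟨k, hk, e2⟩ := N.hW e.1 h2
  have h4 : ∀ a b : F, 2 / T.h e.1 e.1 * T.h e.1 (a • e.1 + b • e.2) = 2 * (a + b * s) := fun a b => by
    simp only [map_add, map_smul, smul_eq_mul, hs]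
    field_simp
  have h5 := N.stab hP hD (H.mul_mem hg hk) he h0 (by
    convert D.add_mem (D.smul_mem l he) (D.smul_mem m (hi e he)) using 1
    have a1 := h4 1 0
    have a2 := h4 0 1
    simp only [one_smul, zero_smul, add_zero, zero_add] at a1 a2
    ext <;> simp only [isom_mul_apply, e1, e2, a1, a2, ph_apply, Prod.smul_mk, Prod.smul_fst,
      Prod.smul_snd, Prod.fst_add, Prod.snd_add] <;> module) (hi e he)
  obtain ⟨a, b, h6⟩ := (N.span hD hi hn he h0).2.2 _ (D.sub_mem (D.smul_mem m (hi _ h5)) (D.smul_mem l h5))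
  have a1 := h4 α β
  have a2 := h4 γ (-α)
  rw [neg_smul, ← sub_eq_add_neg] at a2
  simp only [isom_mul_apply, e1, e2, a1, a2, ph_apply, Prod.smul_mk, Prod.ext_iff, Prod.smul_fst,
    Prod.smul_snd, Prod.fst_add, Prod.snd_add, Prod.mk_sub_mk] at h6
  obtain ⟨b1, b2⟩ := h1 (a + b * α - (α + 2 * s * β)) (b * β + β) (by
    linear_combination (norm := module) h6.1 - h3 • ((α + 2 * s * β) • e.1 - β • e.2))
  obtain ⟨-, b3⟩ := h1 (b * γ - (4 * s * α - γ + 4 * s * s * β)) (a - b * α + (2 * s * β + α)) (by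
    linear_combination (norm := module) h6.2 -
      h3 • ((4 * s * α - γ + 4 * s * s * β) • e.1 - (2 * s * β + α) • e.2))
  have b4 : b = -1 := mul_right_cancel₀ hb (by linear_combination b2)
  subst b4
  have b5 : α + s * β = 0 := mul_left_cancel₀ (mul_ne_zero N.two N.two) (by linear_combination b3 - b1)
  simp only [ph_apply, map_add, map_smul, smul_eq_mul, hs]
  linear_combination T.h e.1 e.1 * b5

theorem kd (hD : Mb T H D) (hi : ∀ x ∈ D, ph α β γ x ∈ D) (hn : ∀ ε, ε * ε ≠ α * α + β * γ)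
    (he : e ∈ D) (h1 : Ind F e) : (∀ x ∈ D, T.h x.1 (ph α β γ x).1 = 0 ∧
      T.h (ph α β γ x).1 (ph α β γ x).1 = -(α * α + β * γ) * T.h x.1 x.1) ∧
      ∀ t, ∃ x ∈ D, T.h x.1 x.1 = t := by
  have hd : α * α + β * γ ≠ 0 := fun h => hn 0 (by simp [h])
  have hb : β ≠ 0 := fun h => hn α (by simp [h])
  have sh : ∀ x ∈ D, T.h x.1 x.1 ≠ 0 → T.h x.1 (ph α β γ x).1 = 0 := fun x hx h =>
    N.shape hP hD hi hn hx (N.ind hD hi hn he h1 hx (by rintro rfl; simp at h)) h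
  have m : ∀ x ∈ D, ∀ a b : F, a • x + b • ph α β γ x ∈ D := fun x hx a b =>
    D.add_mem (D.smul_mem _ hx) (D.smul_mem _ (hi x hx))
  obtain ⟨x, hx, h2⟩ : ∃ x ∈ D, T.h x.1 x.1 ≠ 0 := by
    by_contra! h
    have a1 := h e he
    have a2 := h _ (m e he (-α) 1)
    have a3 := h _ (m e he (1 - α) 1)
    have a4 := (N.span hD hi hn he fun h => by simpa [h] using h1 1 0).1
    simp only [N.form, ph_apply, Prod.smul_mk, Prod.fst_add, Prod.smul_fst, map_add, map_sub, map_smul,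
      LinearMap.add_apply, LinearMap.smul_apply, smul_eq_mul, RingHom.id_apply, os e.1 e.2, a1] at a2 a3 a4
    have a5 : T.h e.1 e.2 = 0 := mul_left_cancel₀ (mul_ne_zero N.two hb) (by linear_combination a3 - a2)
    exact a4 (mul_left_cancel₀ hb (by linear_combination -a2 - 2 * α * β * a5))
  obtain ⟨b1, -, b2⟩ := N.span hD hi hn hx (by rintro rfl; simp at h2)
  have b3 := sh x hx h2
  have b4 : β * S.h x (ph α β γ x) = (α * α + β * γ) * T.h x.1 x.1 -
      T.h (ph α β γ x).1 (ph α β γ x).1 := by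
    simp only [N.form, ph_apply, map_add, map_sub, map_smul, LinearMap.add_apply, LinearMap.smul_apply,
      smul_eq_mul, RingHom.id_apply, os x.1 x.2] at b3 ⊢
    linear_combination -2 * α * b3 + 2 * α * b3
  have b5 : ∀ a b : F, a * a * T.h x.1 x.1 + b * b * T.h (ph α β γ x).1 (ph α β γ x).1 ≠ 0 → a * b *
      (T.h (ph α β γ x).1 (ph α β γ x).1 + (α * α + β * γ) * T.h x.1 x.1) = 0 := fun a b h => by
    have := sh _ (m x hx a b)
    simp only [map_add, map_smul, ph_ph, Prod.fst_add, Prod.smul_fst, LinearMap.add_apply,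
      LinearMap.smul_apply, smul_eq_mul, RingHom.id_apply, os x.1 (ph α β γ x).1, b3] at this
    linear_combination this fun h' => h (by linear_combination h')
  have b6 : T.h (ph α β γ x).1 (ph α β γ x).1 = -(α * α + β * γ) * T.h x.1 x.1 := by
    generalize α * α + β * γ = δ at hn hd b4 b5
    by_cases h : T.h x.1 x.1 + T.h (ph α β γ x).1 (ph α β γ x).1 = 0
    · refine mul_left_cancel₀ hd (by linear_combination b5 1 δ fun h' => ?_)
      have c1 : δ + 1 ≠ 0 := fun c => mul_ne_zero hb b1 (by linear_combination b4 + T.h x.1 x.1 * c - h)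
      exact mul_ne_zero (mul_ne_zero c1 (sub_ne_zero.2 (hn 1))) h2 (by linear_combination h' - δ * δ * h)
    · linear_combination b5 1 1 (by simpa using h)
  refine ⟨fun y hy => ?_, fun t => ?_⟩
  · obtain ⟨a, b, rfl⟩ := b2 y hy
    simp only [map_add, map_smul, ph_ph, Prod.fst_add, Prod.smul_fst, LinearMap.add_apply,
      LinearMap.smul_apply, smul_eq_mul, RingHom.id_apply, os x.1 (ph α β γ x).1, b3, b6]
    constructor <;> ring
  · obtain ⟨a, b, h⟩ := exists_quad_eq h2 (mul_ne_zero (neg_ne_zero.2 hd) h2) t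
    refine ⟨_, m x hx a b, ?_⟩
    simp only [map_add, map_smul, Prod.fst_add, Prod.smul_fst, LinearMap.add_apply,
      LinearMap.smul_apply, smul_eq_mul, RingHom.id_apply, os x.1 (ph α β γ x).1, b3, b6]
    linear_combination h

theorem noA (hD : Mb T H D) (hn : ∀ v, ¬ D ≤ Dz F v) (hx : x ∈ D) (h0 : x ≠ 0)
    (z1 : T.h x.1 z = 0) (z2 : T.h x.2 z = 0) (hz : T.h z z ≠ 0) : False := by
  have sp : ∀ y ∈ D, y.1 ∈ pl F x.1 x.2 ∧ y.2 ∈ pl F x.1 x.2 := fun y =>
    N.supp hP hD hn hx h0 ⟨z, T.mem_perp_pair.2 ⟨z1, z2⟩, hz⟩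
  have ind : ∀ y ∈ D, y ≠ 0 → Ind F y := fun y hy y0 => by_contra fun h => by
    obtain ⟨v, hv⟩ := not_ind h
    obtain ⟨a, b, rfl⟩ := mem_Dz.1 hv
    have a1 := (T.mem_perp'.1 (T.mem_perp_pair.2 ⟨z1, z2⟩))
    refine hn v fun u hu => ?_
    obtain ⟨b1, b2⟩ := N.supp hP hD hn hy y0 ⟨z, T.mem_perp_pair.2 ⟨T.h_swap_zero (a1 _ (sp _ hy).1),
      T.h_swap_zero (a1 _ (sp _ hy).2)⟩, hz⟩ hu
    obtain ⟨c, d, b1⟩ := mem_pl.1 b1
    obtain ⟨c', d', b2⟩ := mem_pl.1 b2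
    exact mem_Dz.2 ⟨c * a + d * b, c' * a + d' * b, Prod.ext (by rw [← b1]; module) (by rw [← b2]; module)⟩
  obtain ⟨x', h1, h2⟩ := N.base hD hx h0
  obtain ⟨a, β, e1⟩ := mem_pl.1 (sp x' (h2 ▸ right_mem)).1
  obtain ⟨γ, d, e2⟩ := mem_pl.1 (sp x' (h2 ▸ right_mem)).2
  obtain ⟨α, hα⟩ : ∃ α, a - d = 2 * α := ⟨_, (mul_div_cancel₀ _ N.two).symm⟩
  have e3 : x' = (a - α) • x + ph α β γ x := Prod.ext (by
    simp only [← e1, ph_apply, Prod.fst_add, Prod.smul_fst]; module) (by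
    simp only [← e2, ph_apply, Prod.snd_add, Prod.smul_snd]
    linear_combination (norm := module) -hα • x.2)
  have e4 : ph α β γ x ∈ D := (D.add_mem_iff_right (D.smul_mem _ hx)).1 (e3 ▸ h2 ▸ right_mem)
  have hi : ∀ y ∈ D, ph α β γ y ∈ D := fun y hy => by
    obtain ⟨r, s, rfl⟩ := mem_pl.1 (h2 ▸ hy)
    simp only [e3, map_add, map_smul, ph_ph]
    exact D.add_mem (D.smul_mem _ e4) (D.smul_mem _ (D.add_mem (D.smul_mem _ e4) (D.smul_mem _ hx)))
  have ns : ∀ ε, ε * ε ≠ α * α + β * γ := fun ε h => by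
    have a1 := ind _ (D.add_mem (D.smul_mem ε hx) e4) fun h => by
      have := h1.1
      rw [e3, eq_neg_of_add_eq_zero_right h] at this
      simp [Pl.h0] at this
    have a2 := a1 γ (-(α + ε)) (by
      simp only [ph_apply, Prod.fst_add, Prod.snd_add, Prod.smul_fst, Prod.smul_snd]
      linear_combination (norm := module) -h • x.2)
    have a3 := a1 1 0 (by
      have a3 := a1 (ε - α) (-β) (by
        simp only [ph_apply, Prod.fst_add, Prod.snd_add, Prod.smul_fst, Prod.smul_snd]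
        linear_combination (norm := module) h • x.1)
      simp only [ph_apply, Prod.fst_add, Prod.snd_add, Prod.smul_fst, Prod.smul_snd]
      linear_combination (norm := module) -a2.2 • x.1 - a3.2 • x.2)
    exact one_ne_zero a3.1
  have hd : α * α + β * γ ≠ 0 := fun h => ns 0 (by simp [h])
  have hb : β ≠ 0 := fun h => ns α (by simp [h])
  obtain ⟨z, z0, z3, t, t0, t1, t2⟩ : ∃ z, z ≠ 0 ∧ z ∈ T.perp (pl F x.1 x.2) ∧
      ∃ t, t ≠ 0 ∧ t ≠ T.h z z ∧ t + T.h z z ≠ 0 := by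
    rcases N.hq with h | h
    · obtain ⟨z, a1, a2, a3⟩ := iso3_orth T (T.perp (pl F x.1 x.2)) (by
        have := N.nd.finrank_perp (pl F x.1 x.2)
        have := finrank_pl (F := F) x.1 x.2
        omega)
      exact ⟨z, a2, a1, 1, by simp [orth_h_self, (orth_sing _ _).1 a3]⟩
    · have := Fintype.ofFinite F
      obtain ⟨t, ht⟩ := ex_idx [0, T.h z z, -T.h z z] (by rw [← Nat.card_eq_fintype_card]; exact h.2.trans_lt' (by simp))
      exact ⟨z, by rintro rfl; simp at hz, T.mem_perp_pair.2 ⟨z1, z2⟩, t, by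
        simpa [add_eq_zero_iff_eq_neg] using ht⟩
  obtain ⟨k1, k2⟩ := N.kd hP hD hi ns hx (ind x hx h0)
  obtain ⟨y, hy, rfl⟩ := k2 t
  obtain ⟨k3, k4⟩ := k1 y hy
  obtain ⟨c1, ⟨-, g, hg, eg⟩, -⟩ := N.span hD hi ns hy (by rintro rfl; simp at t0)
  have c2 := T.mem_perp'.1 z3 _ (sp y hy).1
  have c3 := T.mem_perp'.1 z3 _ (sp y hy).2
  have J := N.js hd
  have c4 : ∀ u, g.1 (ph α β γ u) = ph α β γ (g.1 u) := fun u => by
    simp only [eg, map_add, map_sub, map_smul, LinearMap.smul_apply, J.skew, J.sq, smul_eq_mul,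
      RingHom.id_apply]
    module
  have c5 : β * S.h y (ph α β γ y) = 2 * (α * α + β * γ) * T.h y.1 y.1 := by
    simp only [N.form, ph_apply, map_add, map_sub, map_smul, LinearMap.add_apply, LinearMap.smul_apply,
      smul_eq_mul, RingHom.id_apply, os y.1 y.2] at k3 k4 ⊢
    linear_combination -k4
  have c6 : g.1 ((α * α + β * γ) • (0, y.1 + z)) =
      (-β • (ph α β γ y).1, (α * α + β * γ) • z + α • (ph α β γ y).1) := by
    have d1 : S.h y (0, y.1 + z) = T.h y.1 y.1 := by simp [N.form, os z, c2]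
    have d2 : S.h (ph α β γ y) (0, y.1 + z) = 0 := by
      simp [N.form, os y.1, k3, os z, T.mem_perp'.1 z3 _ (sp _ (hi y hy)).1]
    have d3 : (α * α + β * γ) * (2 * T.h y.1 y.1 * (S.h y (ph α β γ y))⁻¹) = β := by
      field_simp; linear_combination -c5
    rw [map_smul, eg]
    simp only [map_smul, LinearMap.smul_apply, d1, d2, smul_eq_mul, mul_zero, zero_smul, add_zero,
      RingHom.id_apply, smul_sub, smul_smul, d3]
    ext <;> simp only [ph_apply, Prod.smul_mk, Prod.fst_sub, Prod.snd_sub] <;> module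
  have c9 : g.1 ((α * α + β * γ) • (0, y.1 + z)) ∈ (Dz F (y.1 + z)).comap
      (g⁻¹.1 : W × W →ₗ[F] W × W) := by
    simpa [-smul_add] using mem_Dz.2 ⟨0, α * α + β * γ, by simp⟩
  have c7 : T.h z (ph α β γ y).1 = 0 := T.mem_perp'.1 z3 _ (sp _ (hi y hy)).1
  have c8 := ((N.kd hP ((mb_Dz (w := y.1 + z) (by simpa [c2, os z] using t2)).comap (H.inv_mem hg))
    (e := g.1 ((α * α + β * γ) • (0, y.1 + z))) (fun u hu => by
      obtain ⟨u, rfl⟩ := g.1.surjective u
      rw [← c4]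
      simpa using ph_Dz (by simpa using hu)) ns c9 fun r s h => by
      rw [c6] at h
      have h3 := congrArg (T.h (ph α β γ y).1) h
      simp only [map_add, map_smul, os z, c7, k4, smul_eq_mul, map_zero] at h3
      have h4 : r * -β + s * α = 0 := mul_right_cancel₀ (mul_ne_zero (neg_ne_zero.2 hd) t0)
        (by linear_combination h3)
      have h5 : s = 0 := mul_right_cancel₀ hd (smul_left_injective F z0 (by
        linear_combination (norm := module) h - h4 • (ph α β γ y).1))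
      exact ⟨by simpa [h5, hb] using h4, h5⟩).1 _ c9).2
  rw [c6] at c8
  generalize (ph α β γ y).1 = u at c8 k4 c7
  simp only [ph_apply, map_add, map_smul, LinearMap.add_apply, LinearMap.smul_apply, smul_eq_mul,
    RingHom.id_apply, c7, os z u, k4] at c8
  exact t1 (mul_left_cancel₀ (pow_ne_zero 2 (mul_ne_zero hb hd)) (by linear_combination -c8))

theorem all_std (hD : Mb T H D) : ∃ v, D ≤ Dz F v := by
  by_contra! hn
  obtain ⟨x, hx, h0⟩ : ∃ x ∈ D, x ≠ 0 := by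
    by_contra! h
    exact hn 0 fun x hx => h x hx ▸ zero_mem _
  have a0 := N.nd.finrank_perp (pl F x.1 x.2)
  have a1 := finrank_pl (F := F) x.1 x.2
  have a2 : ∀ z ∈ T.perp (pl F x.1 x.2), T.h z z = 0 := fun z hz => by_contra
    (N.noA hP hD hn hx h0 (hz _ left_mem) (hz _ right_mem))
  have a3 : ¬ finrank F W < 2 * finrank F (T.perp (pl F x.1 x.2)) := fun h => by
    obtain ⟨z, b1, b2⟩ := ex_ns_dim N.two N.nd _ h
    exact b2 (a2 z b1)
  have a4 : finrank F W = 3 := by have := N.hq; omega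
  obtain ⟨s, s1, s0⟩ := exists_ne_zero_of_finrank (T.perp (pl F x.1 x.2)) (by omega)
  have s2 := a2 s s1
  obtain ⟨a, b, s3⟩ := mem_pl.1 (N.nd.perp_perp (pl F x.1 x.2) ▸ fun u hu => mul_left_cancel₀ N.two (by
    have := a2 _ (Submodule.add_mem _ hu s1)
    simp only [map_add, LinearMap.add_apply, a2 u hu, s2, os u s] at this
    linear_combination this) : s ∈ pl F x.1 x.2)
  obtain ⟨c, d, h1⟩ : ∃ c d, a * d - b * c = 1 := by
    by_cases ha : a = 0
    · exact ⟨-b⁻¹, 0, by simp [show b ≠ 0 by rintro rfl; simp [ha, s0.symm] at s3]⟩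
    · exact ⟨0, a⁻¹, by simp [ha]⟩
  obtain ⟨g, hg, e⟩ := N.hU a b c d h1
  replace hD := hD.comap (H.inv_mem hg)
  replace hn : ∀ v, ¬ D.comap (g⁻¹.1 : W × W →ₗ[F] W × W) ≤ Dz F v := fun v h => hn v fun y hy => by
    obtain ⟨r, t, h2⟩ := mem_Dz.1 (h (x := g.1 y) (by simpa))
    obtain ⟨h3, h4⟩ := Prod.ext_iff.1 ((e y).symm.trans h2)
    refine mem_Dz.2 ⟨d * r - b * t, a * t - c * r, Prod.ext ?_ ?_⟩
    · linear_combination (norm := module) d • h3 - b • h4 - h1 • y.1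
    · linear_combination (norm := module) a • h4 - c • h3 - h1 • y.2
  have h2 : (s, c • x.1 + d • x.2) ∈ D.comap (g⁻¹.1 : W × W →ₗ[F] W × W) := by
    rw [← s3, ← e]; simpa
  have z1 : T.h s (c • x.1 + d • x.2) = 0 := by
    simp [os _ s, s1 _ left_mem, s1 _ right_mem]
  have z2 : T.h (c • x.1 + d • x.2) (c • x.1 + d • x.2) ≠ 0 := fun h => by
    have : pl F x.1 x.2 ≤ T.perp (pl F x.1 x.2) := by
      have b1 : pl F x.1 x.2 ≤ pl F s (c • x.1 + d • x.2) := pl_le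
        (mem_pl.2 ⟨d, -b, by linear_combination (norm := module) h1 • x.1 - d • s3⟩)
        (mem_pl.2 ⟨-c, a, by linear_combination (norm := module) h1 • x.2 + c • s3⟩)
      have b2 : pl F s (c • x.1 + d • x.2) ≤ T.perp (pl F s (c • x.1 + d • x.2)) :=
        pl_le (T.mem_perp_pair.2 ⟨s2, T.h_swap_zero z1⟩) (T.mem_perp_pair.2 ⟨z1, h⟩)
      exact fun y hy u hu => b2 (b1 hy) u (b1 hu)
    have := Submodule.finrank_mono this
    omega
  generalize D.comap (g⁻¹.1 : W × W →ₗ[F] W × W) = D at hD hn h2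
  generalize c • x.1 + d • x.2 = z at h2 z1 z2
  clear a0 a1 a2 a3 s1 s3 hx h0 h1 e hg
  have h0 : (s, z) ≠ 0 := by simp [s0]
  obtain ⟨p, p1, p2, p3⟩ : ∃ p, T.h s p = 1 ∧ T.h z p = 0 ∧ T.h p p = 0 := by
    obtain ⟨p, hp⟩ := N.nd.exists_h_eq_one s0
    refine ⟨p - (T.h z p / T.h z z) • z - ((T.h p p - T.h z p * T.h z p / T.h z z) / 2) • s,
      by simp [hp, z1, s2], by simp [os s z, z1, z2], ?_⟩
    simp only [map_sub, map_smul, LinearMap.sub_apply, LinearMap.smul_apply, smul_eq_mul,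
      RingHom.id_apply, os z p, os s p, os s z, hp, z1, s2]
    field_simp [N.two]
    ring
  have bs : ∀ y : W, ∃ a b c : F, y = a • s + b • z + c • p := fun y => by
    have : y ∈ Submodule.span F (Set.range ![s, z, p]) := by
      rw [LinearIndependent.span_eq_top_of_card_eq_finrank (Fintype.linearIndependent_iff.2
        fun l h => ?_) (by simp [a4])]
      · trivial
      have b1 := congrArg (T.h s) h
      have b2 := congrArg (T.h z) h
      have b3 := congrArg (T.h p) h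
      simp [Fin.sum_univ_three, s2, z1, p1, p2, p3, os s z, os s p, os z p, z2] at b1 b2 b3
      intro i
      fin_cases i <;> assumption
    obtain ⟨l, hl⟩ := (Submodule.mem_span_range_iff_exists_fun F).1 this
    exact ⟨l 0, l 1, l 2, by simpa [Fin.sum_univ_three] using hl.symm⟩
  obtain ⟨⟨y, y'⟩, b1, b2⟩ := N.base hD h2 h0
  obtain ⟨a₁, b₁, c₁, rfl⟩ := bs y
  obtain ⟨a₂, b₂, c₂, rfl⟩ := bs y'
  obtain ⟨k₁, hk₁, e₁⟩ := N.hW z z2
  obtain ⟨k₂, hk₂, e₂⟩ := N.hW (z + s) (by simpa [z1, s2, os s z] using z2)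
  obtain ⟨k₃, hk₃, e₃⟩ := N.hU 1 0 (-2) 1 (by simp)
  obtain ⟨κ, hκ, h⟩ : ∃ κ, 2 / T.h z z = κ ∧ κ * T.h z z = 2 := ⟨_, rfl, div_mul_cancel₀ _ z2⟩
  have k0 : κ ≠ 0 := fun e => N.two (by simp [← h, e])
  rw [show T.h (z + s) (z + s) = T.h z z by simp [z1, s2, os s z], hκ] at e₂
  rw [hκ] at e₁
  have q : ∀ y : W × W, (k₃ * k₂ * k₁).1 y = (y.1 + (κ * T.h z y.1) • s - (κ * T.h s y.1) • (z + s),
      y.2 + (κ * T.h z y.2) • s - (κ * T.h s y.2) • (z + s) -
      (2 : F) • (y.1 + (κ * T.h z y.1) • s - (κ * T.h s y.1) • (z + s))) := fun y => by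
    simp only [isom_mul_apply, e₁, e₂, e₃, map_add, map_sub, map_smul, LinearMap.add_apply, z1, s2,
      os s z, smul_eq_mul]
    ext <;> simp only
    · linear_combination (norm := module) (κ * T.h z y.1) • h • (z + s)
    · linear_combination (norm := module) (κ * (T.h z y.2 - 2 * T.h z y.1)) • h • (z + s)
  have q1 : (k₃ * k₂ * k₁).1 (s, z) = (s, z) := by
    rw [q]
    simp [z1, s2, os s z, h]
  obtain ⟨r, t, h3⟩ := mem_pl.1 (b2 ▸ N.stab hP hD (H.mul_mem (H.mul_mem hk₃ hk₂) hk₁) h2 h0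
    (q1.symm ▸ h2) (b2 ▸ right_mem))
  have h4 := congrArg (S.h ((k₃ * k₂ * k₁).1 (s, z))) h3
  rw [isom_h, q1, map_add, map_smul, map_smul, b1.1, Pl.h0] at h4
  obtain rfl : t = 1 := by simpa using h4
  have h5 := b1.1
  rw [q] at h3
  have c1 := congrArg (T.h z ·.1) h3
  have c2 := congrArg (T.h p ·.1) h3
  have c3 := congrArg (T.h z ·.2) h3
  have c4 := congrArg (T.h p ·.2) h3
  simp only [N.form, map_add, map_sub, map_smul, smul_eq_mul, Prod.smul_mk, Prod.mk_add_mk, s2, z1, p1,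
    p2, p3, os s z, os s p, os z p] at h5 c1 c2 c3 c4
  obtain rfl : c₁ = 0 := mul_left_cancel₀ N.two (by linear_combination c1 - c₁ * h)
  obtain rfl : r = 2 * b₁ := by linear_combination c2 + b₁ * h
  obtain rfl : c₂ = -2 * T.h z z * b₁ := mul_left_cancel₀ N.two (by linear_combination c3 - c₂ * h)
  obtain rfl : b₂ = a₁ := mul_left_cancel₀ N.two (by linear_combination -c4 - b₂ * h)
  have h6 : (3 : F) ≠ 0 := fun h => one_ne_zero (by linear_combination -h5 - T.h z z * b₁ * h : (1 : F) = 0)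
  have h7 : b₁ ≠ 0 := fun h => by simp [h] at h5
  obtain rfl : a₂ = 0 := by_contra fun h => N.noA hP hD hn (D.sub_mem (b2 ▸ right_mem) (D.smul_mem b₂ h2))
    (fun h => by simpa [h7, z2, os s z, z1] using congrArg (T.h z ·.1) h)
    (z := a₂ • s + (2 * T.h z z * b₁) • p) (by simp [os s z, z1, p2])
    (by simp [os s p, p1, s2, p3, os s z, z1, p2]; ring)
    (by simp [os s p, p1, s2, p3, mul_comm, ← two_mul, N.two, z2, h7, h])
  obtain ⟨-, k, hk, ek⟩ := b1
  have h8 : k.1 ((3 : F) • (z, z)) = (z - (2 : F) • s, z + (4 * T.h z z) • p) := by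
    rw [map_smul, ek]
    simp only [N.form, map_add, map_smul, LinearMap.add_apply, LinearMap.smul_apply, smul_eq_mul,
      Prod.smul_mk, Prod.mk_add_mk, Prod.mk_sub_mk, z1, os z p, p2, RingHom.id_apply]
    ext <;> simp only
    · linear_combination (norm := module) (-2 : F) • h5 • (z + s)
    · linear_combination (norm := module) (-2 : F) • h5 • (z - (2 * T.h z z) • p)
  have h9 : (z - (2 : F) • s, z + (4 * T.h z z) • p) ∈ (Dz F z).comap (k⁻¹.1 : W × W →ₗ[F] W × W) := by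
    rw [← h8]; simpa using mem_Dz.2 ⟨3, 3, rfl⟩
  have h4 : (4 : F) ≠ 0 := by simpa [show (2 : F) * 2 = 4 by norm_num] using mul_ne_zero N.two N.two
  refine N.noA hP ((mb_Dz z2).comap (H.inv_mem hk)) (fun v h => Ind.not_mem (fun a b e => ?_) (h h9)) h9
    (fun h => by simpa [z2, os s z, z1] using congrArg (T.h z ·.1) h)
    (z := s - (4 : F) • z - (2 * T.h z z) • p) (by simp [s2, z1, p1, p2, os s z]; ring)
    (by simp [p3, z1, p1, p2, os s z, os s p, os z p]) fun h => ?_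
  · have d1 := congrArg (T.h s) e
    have d2 := congrArg (T.h p) e
    simp [s2, z1, p1, p2, p3, os s p, os z p, h4, z2, N.two] at d1 d2
    exact ⟨d2, d1⟩
  · simp only [map_sub, map_smul, LinearMap.sub_apply, LinearMap.smul_apply, smul_eq_mul, s2, z1, p1,
      p2, p3, os s z, os s p, os z p, RingHom.id_apply] at h
    exact mul_ne_zero (mul_ne_zero h4 h6) z2 (by linear_combination h)

omit hP in
theorem dich : S.E ≤ H ∨ ∀ g ∈ H, ∀ w, T.h w w ≠ 0 → ∃ v, ∀ x, x ∈ Dz F w ↔ g.1 x ∈ Dz F v :=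
  N.pt_or.imp_right fun hP g hg w hw => by
    have h := (mb_Dz hw).comap (H.inv_mem hg)
    obtain ⟨v, hv⟩ := N.all_std hP h
    exact ⟨v, fun x => by rw [← (N.pure h hv).2]; simp⟩

omit hP in
theorem pres {A : W × W →ₗ[F] W × W} (h : ∀ w, T.h w w ≠ 0 → ∀ x ∈ Dz F w, A x ∈ Dz F w)
    (hx : x ∈ Dz F w) : A x ∈ Dz F w := by
  obtain ⟨u, -, hu⟩ := ex_ns_dim N.two N.nd ⊤ (by have := N.three; rw [finrank_top]; omega)
  have key : ∀ i : W →ₗ[F] W × W, (∀ w, i w ∈ Dz F w) → A (i w) ∈ Dz F w := fun i hi => by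
    obtain ⟨a, b, e⟩ := mem_Dz.1 (h u hu _ (hi u))
    have := Pl.irr N.two N.nd (.inr N.three) (LinearMap.ker (A ∘ₗ i - (a • LinearMap.id).prod (b • LinearMap.id)))
      (y := u) (by simp [e]) (by rintro rfl; simp at hu) fun y hy z h1 h2 => by
        obtain ⟨t, t0, t1⟩ : ∃ t : F, t ≠ 0 ∧ T.h (y + t • z) (y + t • z) ≠ 0 := by
          by_contra! h3
          have a1 := h3 1 one_ne_zero
          have a2 := h3 (-1) (by simp)
          simp only [map_add, map_smul, LinearMap.add_apply, LinearMap.smul_apply, os z y,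
            smul_eq_mul, RingHom.id_apply] at a1 a2
          exact mul_ne_zero (mul_ne_zero N.two N.two) h2 (by linear_combination a1 - a2)
        obtain ⟨c, d, e1⟩ := mem_Dz.1 (h z h1 _ (hi z))
        obtain ⟨c', d', e2⟩ := mem_Dz.1 (h _ t1 _ (hi _))
        have hy' := hy
        replace hy : A (i y) = (a • y, b • y) := sub_eq_zero.1 hy
        by_cases h3 : Ind F (y, z)
        · simp only [map_add, map_smul, hy, e1, Prod.smul_mk, Prod.mk_add_mk, Prod.mk.injEq] at e2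
          obtain ⟨a1, a2⟩ := h3 (a - c') (t * (c - c')) (by linear_combination (norm := module) e2.1)
          obtain ⟨a3, a4⟩ := h3 (b - d') (t * (d - d')) (by linear_combination (norm := module) e2.2)
          simp only [mul_eq_zero, t0, false_or, sub_eq_zero] at a1 a2 a3 a4
          simp [e1, a1, a2, a3, a4]
        obtain ⟨v, hv⟩ := not_ind h3
        obtain ⟨r, s, e3⟩ := mem_Dz.1 hv
        obtain ⟨rfl, rfl⟩ := Prod.mk.inj e3
        have r0 : r ≠ 0 := by rintro rfl; simp at h2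
        convert Submodule.smul_mem _ (s / r) hy' using 1
        simp [smul_smul, r0]
    exact mem_Dz.2 ⟨a, b, sub_eq_zero.1 (Submodule.eq_top_iff'.1 this w)⟩
  obtain ⟨a, b, rfl⟩ := mem_Dz.1 hx
  convert Submodule.add_mem _ (Submodule.smul_mem _ a (key (.inl F W W) fun _ => left_mem))
    (Submodule.smul_mem _ b (key (.inr F W W) fun _ => right_mem)) using 1
  simp [← map_smul, ← map_add]

end TN

end H20.Pl
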