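import Cfsg.Agent.H20.Pl5
import Cfsg.Agent.H20.Pl3
import Cfsg.Agent.H29.TSDec
import Cfsg.Agent.S5789

/-! Maximality in `Sp_2m(q)`, `m ≥ 3`, of the geometric subgroups: `sp_nd`, `sp_od`, `sp_gl`, `sp_gu`,
`sp_ten` (`Sp_2 ⊗ O_m`), `sp_rat`, `sp_orth`. -/

set_option autoImplicit false
set_option linter.unusedSectionVars false

namespace H20.Pl

open Module H11 H11.PForm H29 Matrix Cfsg.Geo
open scoped Kronecker

variable {F : Type*} [Field F] [Fintype F] {m : ℕ}

theorem sp_ts (hm : 2 ≤ m) (W : Submodule F (Fin m ⊕ Fin m → F)) (h0 : W ≠ ⊥)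
    (hW : IsTotallySingularFor (Cfsg.sympForm m F) W) :
    IsMaximalIn (Cfsg.spGL m F) (subspaceStabilizer W ⊓ Cfsg.spGL m F) := by
  rw [spGL_eq]
  exact isMaximalIn_ts (stdSymp_nondeg m) (by simp; omega)
    (symp_ts fun x hx y hy => by rw [stdSymp_h]; exact hW x hx y hy) h0 (.inl symp_Λ_ne)

theorem sp_nd (hm : 2 ≤ m) (W : Submodule F (Fin m ⊕ Fin m → F)) (h0 : W ≠ ⊥)
    (hW : IsNondegenerateOn (Cfsg.sympForm m F) W) (hd : finrank F W < m) :
    IsMaximalIn (Cfsg.spGL m F) (subspaceStabilizer W ⊓ Cfsg.spGL m F) := by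
  rw [spGL_eq]
  have hS := stdSymp_nondeg (F := F) m
  have hW' := hS.restrict_perp (restrict_nondeg_of_on (stdSymp m F) (fun x y h => by rwa [stdSymp_h]) hW)
  have h1 := hS.finrank_perp W
  simp only [finrank_fintype_fun_eq_card, Fintype.card_sum, Fintype.card_fin] at h1
  apply isMaximalIn_EGL
  · obtain ⟨g, hg, x, hx, h, -⟩ := exists_E_not_stab_nd (iso3_symp _) hW' (by omega)
      (by rwa [hS.perp_perp])
    exact ⟨g, hg, fun hm => h ((stab_le_stab_perp _ ((mem_subspaceStabilizer_toGL _ _ _).1 hm) x).1 hx)⟩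
  · intro H h2 _
    rw [comap_subspaceStabilizer, ← stab_perp hS] at h2 ⊢
    exact nd_dich hS hW' (by rw [hS.perp_perp]; omega) H (by simpa [hS.symp_E_eq_top] using h2)

theorem sp_od {t k : ℕ} (D : Fin t → Submodule F (Fin m ⊕ Fin m → F))
    (hD : IsNondegenerateMDecomposition (Cfsg.sympForm m F) k D) (hq : 3 ≤ Fintype.card F ∨ 3 ≤ k) :
    IsMaximalIn (Cfsg.spGL m F) (decompositionStabilizer D ⊓ Cfsg.spGL m F) := by
  rw [spGL_eq]
  have hS := stdSymp_nondeg (F := F) m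
  have h : ODec (stdSymp m F) k D := odec_of _ (fun x y => by rw [stdSymp_h]) hD
  have i0 : Fin t := ⟨0, by have := h.two; omega⟩
  obtain ⟨e, he, he0⟩ := Submodule.exists_mem_ne_zero_of_ne_bot (p := D i0) fun hb => by
    have := h.dim i0
    have := h.pos
    rw [hb, finrank_bot] at *
    omega
  exact isMaximalIn_odec hS hD.1 h (h.exists_E_not_perm hS he he0 trivial) fun H hH _ =>
    symp_odec hS h (hq.imp_left fun h => exists_ne_zero_ne_one (by rwa [Nat.card_eq_fintype_card])) H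
      fun g hg => hH g (hS.symp_E_eq_top ▸ Subgroup.mem_top _) hg

theorem sp_gl (hm : 3 ≤ m) (hq : Odd (Fintype.card F)) (D : Fin 2 → Submodule F (Fin m ⊕ Fin m → F))
    (hD : IsMDecomposition m D) (hts : ∀ i, IsTotallySingularFor (Cfsg.sympForm m F) (D i)) :
    IsMaximalIn (Cfsg.spGL m F) (decompositionStabilizer D ⊓ Cfsg.spGL m F) := by
  rw [spGL_eq]
  have hS := stdSymp_nondeg (F := F) m
  have h2 := two_ne_zero_of_odd hq
  have hts' : ∀ i, (stdSymp m F).TS (D i) := fun i =>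
    symp_ts fun x hx y hy => by rw [stdSymp_h]; exact hts i x hx y hy
  have h := tsdec_of_mdec hD (hts' 0) (hts' 1)
  generalize stdSymp m F = S at hS hts' h
  let j := (D 0).projection (D 1) h.compl - (D 1).projection (D 0) h.compl.symm
  have j0 : ∀ x ∈ D 0, j x = x := fun x hx => by
    simp [j, Submodule.projection_apply_of_mem_left _ hx, Submodule.projection_apply_of_mem_right _ hx]
  have j1 : ∀ x ∈ D 1, j x = -x := fun x hx => by
    simp [j, Submodule.projection_apply_of_mem_left _ hx, Submodule.projection_apply_of_mem_right _ hx]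
  have k0 : ∀ x, j x = x → x ∈ D 0 := fun x hx => by
    obtain ⟨a, ha, b, hb, rfl⟩ := h.decomp x
    rw [map_add, j0 a ha, j1 b hb] at hx
    simpa [smul_right_injective _ h2 (show (2 : F) • b = (2 : F) • 0 by
      linear_combination (norm := module) -hx)]
  have k1 : ∀ x, j x = -x → x ∈ D 1 := fun x hx => by
    obtain ⟨a, ha, b, hb, rfl⟩ := h.decomp x
    rw [map_add, j0 a ha, j1 b hb] at hx
    simpa [smul_right_injective _ h2 (show (2 : F) • a = (2 : F) • 0 by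
      linear_combination (norm := module) hx)]
  have J : JS S j 1 := ⟨h2, fun x => by
    obtain ⟨a, ha, b, hb, rfl⟩ := h.decomp x
    simp [j0 a ha, j1 b hb], one_ne_zero, fun x y => by
    obtain ⟨a, ha, b, hb, rfl⟩ := h.decomp x
    obtain ⟨c, hc, d, hd, rfl⟩ := h.decomp y
    simp [j0 a ha, j1 b hb, j0 c hc, j1 d hd, h.ts.h_eq ha hc, h.ts'.h_eq hb hd, add_comm]⟩
  apply isMaximalIn_EGL
  · obtain ⟨g, hg, -, x, hx, h1, h3⟩ := h.exists_E_mix hS (by rw [hD.finrank_eq]; omega)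
    refine ⟨g, hg, fun hm => ?_⟩
    obtain ⟨i, hi⟩ := forall_of_mem_decStab hm 1
    fin_cases i
    exacts [h1 (hi x hx), h3 (hi x hx)]
  intro H h1 _
  have h3 : ∀ g : S.Isom, (∀ i, ∃ l, ∀ x ∈ D i, g.1 x ∈ D l) → g ∈ H := fun g hg =>
    h1 ⟨mem_decStab_of_forall hD g hg, hS.symp_E_eq_top ▸ trivial⟩
  refine (J.dich hS (by simp; omega) H (fun g hg => h3 g (Fin.forall_fin_two.2
    ⟨⟨0, fun x hx => k0 _ (by rw [← hg, j0 x hx])⟩, 1, fun x hx => k1 _ (by rw [← hg, j1 x hx, map_neg])⟩))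
    fun _ _ => ?_).imp_right fun h4 g hg => mem_decStab_of_forall hD g ?_
  · obtain ⟨s, -, s0, s1⟩ := h.exists_swap_of_ne hS symp_Λ_ne
    refine ⟨s, h3 s (Fin.forall_fin_two.2 ⟨⟨1, s0⟩, 0, s1⟩), fun x => ?_⟩
    obtain ⟨a, ha, b, hb, rfl⟩ := h.decomp x
    simp [j0 a ha, j1 b hb, j1 _ (s0 a ha), j0 _ (s1 b hb), add_comm]
  · obtain ⟨b, rfl | rfl, hb⟩ := h4 g hg
    · exact Fin.forall_fin_two.2 ⟨⟨0, fun x hx => k0 _ (by simp [hb, j0 x hx])⟩, 1,
        fun x hx => k1 _ (by simp [hb, j1 x hx])⟩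
    · exact Fin.forall_fin_two.2 ⟨⟨1, fun x hx => k1 _ (by simp [hb, j0 x hx])⟩, 0,
        fun x hx => k0 _ (by simp [hb, j1 x hx])⟩

theorem sp_gu (hm : 3 ≤ m) (hq : Odd (Fintype.card F))
    (K : Subalgebra F (Matrix (Fin m ⊕ Fin m) (Fin m ⊕ Fin m) F)) (hK : IsFieldSubalgebra 2 K)
    (hac : IsAdjointClosedFor (Cfsg.sympForm m F) K) (hnsa : ¬ IsSelfAdjointFor (Cfsg.sympForm m F) K) :
    IsMaximalIn (Cfsg.spGL m F) (subalgebraNormalizer K ⊓ Cfsg.spGL m F) := by
  have hb := big_sp ((hf_J (F := F) m).symp (alt_J m)) (by simp; omega) (by simp; omega)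
  haveI := hb.nonempty
  have h1 := hb.not_field hK one_lt_two
  rw [← spGL_iso] at h1
  rw [spGL_eq] at h1 ⊢
  letI := (isField_of hK).toField
  have hS := stdSymp_nondeg (F := F) m
  have h2 := two_ne_zero_of_odd hq
  obtain ⟨τ, hτ, θ, U, hne, hfix, h0, hθ, -, hU⟩ := exists_unit_form (K := K) hS hK.finrank_eq
    (fun k => let ⟨k', h, e⟩ := hac k k.2
      ⟨⟨k', h⟩, fun x y => by rw [stdSymp_h, stdSymp_h]; exact e x y⟩)
    fun h => hnsa fun k hk x y => by rw [← stdSymp_h, ← stdSymp_h]; exact h ⟨k, hk⟩ x y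
  replace hθ : τ θ = -θ := by simpa using hθ
  have h2' : (2 : K) ≠ 0 := map_ofNat (algebraMap F K) 2 ▸ (map_ne_zero _).2 h2
  obtain ⟨δ, hδ⟩ := (hfix (θ * θ)).1 (by simp [hθ])
  have dec : ∀ k : K, ∃ a b : F, k = algebraMap F K a + algebraMap F K b * θ := fun k => by
    obtain ⟨a, ha⟩ := (hfix ((k + τ k) / 2)).1 (by simp [hτ, add_comm, map_ofNat])
    obtain ⟨b, hb⟩ := (hfix ((k - τ k) / (2 * θ))).1 (by
      simp only [map_div₀, map_sub, map_mul, hτ, hθ, map_ofNat]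
      field_simp
      ring)
    refine ⟨a, b, ?_⟩
    rw [ha, hb]
    field_simp
    ring
  let j := DistribSMul.toLinearMap F (Fin m ⊕ Fin m → F) θ
  have hj : ∀ x, j x = θ • x := fun _ => rfl
  have J : JS (stdSymp m F) j δ := ⟨h2, fun x => by rw [hj, hj, smul_smul, ← hδ, algebraMap_smul],
    fun h => h0 (by simpa [h] using hδ.symm), fun x y => (algebraMap F K).injective (by
      simp only [map_neg, hU, hj, map_smulₛₗ, LinearMap.smul_apply, hθ, smul_eq_mul, map_mul, map_neg,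
        RingHom.id_apply]
      ring)⟩
  refine isMaximalIn_of_not_le _ h1 fun H hH => (J.dich hS (by simp; omega) H (fun g hg =>
    hH _ (hS.symp_E_eq_top ▸ trivial) (mem_nml_of_comm fun k x => ?_)) fun ε hε => ?_).imp_right
      fun h => le_nml ?_
  · obtain ⟨a, b, rfl⟩ := dec k
    simp only [toGL_mulVec, add_smul, mul_smul, algebraMap_smul, map_add, map_smul, ← hj, hg]
  · have h3 : (θ - algebraMap F K ε) * (θ + algebraMap F K ε) = 0 := by
      linear_combination -hδ - congrArg (algebraMap F K) hε + map_mul (algebraMap F K) ε ε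
    have h4 := (hfix _).2 ⟨ε, rfl⟩
    refine (mul_ne_zero h2' h0 ?_).elim
    rcases mul_eq_zero.1 h3 with h | h
    · have := congrArg τ h
      rw [map_sub, hθ, h4, map_zero] at this
      linear_combination h - this
    · have := congrArg τ h
      rw [map_add, hθ, h4, map_zero] at this
      linear_combination h - this
  · rintro _ ⟨g, hg, rfl⟩ k
    obtain ⟨a, b, rfl⟩ := dec k
    obtain ⟨c, hc, e⟩ := h g hg
    refine ⟨algebraMap F K a + algebraMap F K (b * c) * θ, fun x => ?_⟩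
    simp only [toGL_mulVec, add_smul, mul_smul, algebraMap_smul, map_add, map_smul, ← hj, e]
    rcases hc with rfl | rfl <;> simp

theorem sp_rat (hm : 3 ≤ m) (F₀ : Subfield F) (r : ℕ) (P : GL (Fin m ⊕ Fin m) F) (ζ : F) (hr : r.Prime)
    (hc : Fintype.card F = Nat.card F₀ ^ r) (hζ : ζ ≠ 0)
    (hP : IsFormRationalStructure (Cfsg.sympForm m F) F₀ ζ P) :
    IsMaximalIn (Cfsg.spGL m F) (subfieldSubgroup F₀ P ⊓ Cfsg.spGL m F) := by
  have hS := stdSymp_nondeg (F := F) m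
  have hb := big_sp ((hf_J (F := F) m).symp (alt_J m)) (by simp; omega) (by simp; omega)
  rw [← spGL_iso] at hb
  have hr' := finrank_of_card (F₀ := F₀) (by rwa [Nat.card_eq_fintype_card])
  have h1 := hb.not_sub (F₀ := F₀) (by
    rintro rfl
    obtain ⟨l, hl⟩ := exists_notMem_subfield (hr' ▸ hr)
    exact hl trivial) P
  let S := sympS (ζ • (stdSymp m F).h) fun x => by simp [symp_h_self]
  have hh : ∀ x y, S.h x y = ζ * (stdSymp m F).h x y := fun _ _ => rfl
  have hS' : S.Nondeg := fun x hx => hS x fun y => by simpa [hh, hζ] using hx y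
  have e : Cfsg.spGL m F = EGL S := by
    rw [spGL_eq, EGL, EGL, hS.symp_E_eq_top, hS'.symp_E_eq_top, ← MonoidHom.range_eq_map,
      ← MonoidHom.range_eq_map]
    ext g
    rw [mem_range_toGL, mem_range_toGL]
    exact ⟨fun h => symp_isIsom fun x y => by simp [hh, h.h_eq],
      fun h => symp_isIsom fun x y => by simpa [hh, hζ] using h.h_eq x y⟩
  have R : Rat S F₀ (basisOf P) := ⟨fun c hc => hc, fun x hx y hy => by
    obtain ⟨u, hu, rfl⟩ := mem_V0_basisOf'.1 hx
    obtain ⟨v, hv, rfl⟩ := mem_V0_basisOf'.1 hy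
    simpa [hh, stdSymp_h] using hP u v hu hv, fun x _ => ⟨0, F₀.zero_mem, trivial⟩⟩
  rw [e] at h1 ⊢
  refine isMaximalIn_of_not_le S h1 fun H hH => ?_
  have h3 := fun u hu v hv a ha => hH _ (S.eich_mem_E u v a) (mem_subfieldSubgroup_iff.2
    ⟨1, one_ne_zero, fun x hx => by simpa using R.eich_mem hu hv ha hx⟩)
  by_cases h2 : (2 : F) = 0
  · refine (Cfsg.Agent.S5789.rat2 h2 hS' (by simp; omega) R (hr' ▸ hr) H h3).imp_right fun h => ?_
    rintro _ ⟨g, hg, rfl⟩
    exact mem_subfieldSubgroup_iff.2 ⟨1, one_ne_zero, fun x hx => by simpa using h g hg x hx⟩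
  · refine (rat_odd h2 hS' (by simp; omega) R (hr' ▸ hr) H h3).imp_right fun h => ?_
    rintro _ ⟨g, hg, rfl⟩
    exact mem_subfieldSubgroup_iff.2 (by simpa using h g hg)

theorem sp_orth (hm : 2 ≤ m) (hq : ¬ Odd (Fintype.card F)) (Q : (Fin m ⊕ Fin m → F) → F)
    (hQ : IsNondegenerateQuadraticForm Q) (hp : ∀ u v, QuadraticMap.polar Q u v = Cfsg.sympForm m F u v) :
    IsMaximalIn (Cfsg.spGL m F) (quadSimilarityGroup Q ⊓ Cfsg.spGL m F) := by
  have hS := stdSymp_nondeg (F := F) m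
  have h2 : (2 : F) = 0 := by
    have := ringChar.Nat.cast_ringChar (R := F)
    rw [char_two_of_not_odd hq] at this
    exact_mod_cast this
  rw [spGL_eq]
  have hST : ∀ x y, (orthS (quadOf hQ)).h x y = (stdSymp m F).h x y := fun x y => by
    rw [stdSymp_h]; exact hp x y
  have hT := quadOf_nondeg hQ
  apply isMaximalIn_EGL
  · obtain ⟨e, -, he0, he⟩ := iso3_orth (orthS (quadOf hQ)) ⊤ (by simp; omega)
    obtain ⟨f, Hy⟩ := hT.exists_isHyp he he0
    refine ⟨(stdSymp m F).eich e 0 1, (stdSymp m F).eich_mem_E _ _ _, ?_⟩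
    rintro ⟨c, hc⟩
    have := hc f
    rw [toGL_mulVec, symp_transv_apply, ← hST, Hy.h_ef, mul_one, one_smul] at this
    have h1 := (orthS (quadOf hQ)).orth_q_add f e
    rw [Hy.h_fe, (orth_sing _ _).1 he, (orth_sing _ _).1 Hy.sing_f] at h1
    have h2 : Q f = 0 := (orth_sing _ _).1 Hy.sing_f
    have h3 : Q (f + e) = 0 + 0 + 1 := h1
    rw [h2, h3] at this
    simp at this
  · intro H h1 _
    refine (Cfsg.Agent.S5789.orth2 h2 hS hST (by simp; omega) H (fun g hg => h1 ⟨⟨1, fun x => ?_⟩,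
      hS.symp_E_eq_top ▸ Subgroup.mem_top _⟩)).imp id fun h g hg => ⟨1, fun x => ?_⟩
    · rw [toGL_mulVec, Units.val_one, one_mul]; exact hg x
    · rw [toGL_mulVec, Units.val_one, one_mul]; exact h g hg x

/-- pairs of vectors as tensors -/
def pe (F : Type*) [Field F] (b : ℕ) : ((Fin b → F) × (Fin b → F)) ≃ₗ[F] (Fin 2 × Fin b → F) where
  toFun x p := ![x.1, x.2] p.1 p.2
  invFun y := (fun j => y (0, j), fun j => y (1, j))
  map_add' x y := by ext ⟨i, j⟩; fin_cases i <;> rfl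
  map_smul' c x := by ext ⟨i, j⟩; fin_cases i <;> rfl
  left_inv x := rfl
  right_inv y := by ext ⟨i, j⟩; fin_cases i <;> rfl

theorem pe0 {b : ℕ} (x : (Fin b → F) × (Fin b → F)) (j : Fin b) : pe F b x (0, j) = x.1 j := rfl

theorem pe1 {b : ℕ} (x : (Fin b → F) × (Fin b → F)) (j : Fin b) : pe F b x (1, j) = x.2 j := rfl

theorem kron_pe {b : ℕ} (A : Matrix (Fin 2) (Fin 2) F) (B : Matrix (Fin b) (Fin b) F)
    (x : (Fin b → F) × (Fin b → F)) : (A ⊗ₖ B) *ᵥ pe F b x =
      pe F b (A 0 0 • B *ᵥ x.1 + A 0 1 • B *ᵥ x.2, A 1 0 • B *ᵥ x.1 + A 1 1 • B *ᵥ x.2) := by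
  ext ⟨i, j⟩
  fin_cases i <;> simp [pe, mulVec, dotProduct, Fintype.sum_prod_type, Finset.mul_sum, mul_assoc]

theorem tp_pe {b : ℕ} (w : Fin b → F) (u : Fin 2 → F) : tp w u = pe F b (u 0 • w, u 1 • w) := by
  ext ⟨i, j⟩
  fin_cases i <;> rfl

theorem gram_bilin {κ : Type} [Fintype κ] [DecidableEq κ] {f : (κ → F) → (κ → F) → F}
    (h : IsBilinearForm f) (x y : κ → F) : ∑ a, ∑ b, x a * gramMatrix f a b * y b = f x y := by
  conv_rhs => rw [← bilinOf_apply h, pi_eq_sum_univ' x, pi_eq_sum_univ' y]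
  simp only [map_sum, map_smul, LinearMap.sum_apply, LinearMap.smul_apply, bilinOf_apply, smul_eq_mul,
    Finset.mul_sum, gramMatrix]
  rw [Finset.sum_comm]
  exact Finset.sum_congr rfl fun _ _ => Finset.sum_congr rfl fun _ _ => by ring

theorem sp_ten (hq : Odd (Fintype.card F)) (hm : 5 ≤ m ∨ (m = 3 ∧ 5 ≤ Fintype.card F))
    (e : (Fin m ⊕ Fin m) ≃ Fin 2 × Fin m) (P : GL (Fin m ⊕ Fin m) F)
    (f₁ : (Fin 2 → F) → (Fin 2 → F) → F) (f₂ : (Fin m → F) → (Fin m → F) → F)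
    (h₁ : IsSymplecticForm f₁) (h₂ : IsSymmetricForm f₂)
    (h : IsTensorFormStructure id (Cfsg.sympForm m F) f₁ f₂ e P) :
    IsMaximalIn (Cfsg.spGL m F) (tensorProductSubgroup 2 m e P ⊓ Cfsg.spGL m F) := by
  have hb := big_sp ((hf_J (F := F) m).symp (alt_J m)) (by simp; omega) (by simp; omega)
  have h1 : ¬ _ ≤ tensorProductSubgroup 2 m e P := fun hle => hb.not_kr (T := coordT e P) two_pos
    (by omega) (by omega) fun g hg => kr_self e P g (hle hg)
  rw [← spGL_iso] at h1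
  rw [spGL_eq] at h1 ⊢
  haveI : Nonempty (Fin m) := ⟨⟨0, by omega⟩⟩
  have hS := stdSymp_nondeg (F := F) m
  have h2 := two_ne_zero_of_odd hq
  obtain ⟨c, -, h⟩ := h
  let E := (pe F m).trans (coordT e P)
  let S := (stdSymp m F).comap E.toLinearMap
  let T := symmS h2 ((c * f₁ (Pi.single 0 1) (Pi.single 1 1)) • bilinOf h₂.bilinear)
    ⟨fun x y => by simp [h₂.symm x y]⟩
  have hf : ∀ x y, S.h x y = T.h x.1 y.2 - T.h x.2 y.1 := fun x y => by
    refine ((stdSymp_h _ _ _).trans (h (pe F m x) (pe F m y))).trans ?_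
    change _ = _ * f₂ _ _ - _ * f₂ _ _
    simp only [formOfGram, Fintype.sum_prod_type, Fin.sum_univ_two, kroneckerMap_apply, id,
      ← gram_bilin h₂.bilinear, Finset.mul_sum, Finset.sum_add_distrib, ← Finset.sum_sub_distrib,
      mul_add, ← Finset.sum_add_distrib]
    refine Finset.sum_congr rfl fun _ _ => Finset.sum_congr rfl fun _ _ => ?_
    simp only [gramMatrix, h₁.alternating, h₁.skew (Pi.single 1 1) (Pi.single 0 1), pe0, pe1]
    ring
  have hS' : S.Nondeg := fun x hx => E.map_eq_zero_iff.1 (hS _ fun y => by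
    simpa [S] using hx (E.symm y))
  let Ψ := isomCongr E (S := S) (T := stdSymp m F) (symp_isIsom fun _ _ => rfl)
  refine isMaximalIn_of_not_le _ h1 fun H hH => ?_
  have key : ∀ (g : S.Isom) (A : GL (Fin 2) F) (B : GL (Fin m) F), (∀ x, g.1 x =
      (A 0 0 • B.1 *ᵥ x.1 + A 0 1 • B.1 *ᵥ x.2, A 1 0 • B.1 *ᵥ x.1 + A 1 1 • B.1 *ᵥ x.2)) →
      g ∈ H.comap Ψ.toMonoidHom := fun g A B hg => hH _ (hS.symp_E_eq_top ▸ trivial)
    (mem_tensorProductSubgroup.2 ⟨A, B, eq_Φ fun x => by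
      obtain ⟨x, rfl⟩ := (pe F m).surjective x
      rw [toGL_mulVec, kron_pe, ← hg]
      exact congrArg E (congrArg g.1 (E.symm_apply_apply x))⟩)
  have N : TN T S (H.comap Ψ.toMonoidHom) := ⟨h2, fun x hx => congrArg Prod.fst (hS' (x, 0) fun y => by
      simp [hf, hx]), hf, fun a b c d hd => ⟨mkIsom hS' (LinearMap.prod
      (a • LinearMap.fst F _ _ + b • LinearMap.snd F _ _)
      (c • LinearMap.fst F _ _ + d • LinearMap.snd F _ _)) (symp_isIsom fun x y => by
        simp only [hf, LinearMap.prod_apply, Function.prod, LinearMap.add_apply, LinearMap.smul_apply,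
          LinearMap.fst_apply, LinearMap.snd_apply, map_add, map_smul, smul_eq_mul, RingHom.id_apply]
        linear_combination (T.h x.1 y.2 - T.h x.2 y.1) * hd),
      key _ (.mkOfDetNeZero !![a, b; c, d] (by simp [det_fin_two, hd])) 1 fun x => by simp,
      fun _ => rfl⟩, fun z hz => ⟨⟨(T.refl z).1.prodCongr (T.refl z).1, symp_isIsom fun x y => by
        simp [hf]⟩, key _ 1 (glEquiv.symm (T.refl z).1) fun x => by simp [glEquiv_symm_mulVec],
      fun x => by
        have : 2 / T.h z z = (T.q z)⁻¹ := by rw [orth_h_self]; field_simp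
        simp [refl_apply, this]⟩, by simpa [Nat.card_eq_fintype_card] using hm⟩
  refine N.dich.imp (fun h g _ => by simpa using h (x := Ψ.symm g) (hS'.symp_E_eq_top ▸ trivial))
    fun h => Kr.le ?_
  rintro _ ⟨g, hg, rfl⟩
  obtain ⟨g, rfl⟩ := Ψ.surjective g
  obtain ⟨k, hk⟩ := (ΦU (coordT e P)).surjective (toGL _ (Ψ g))
  have h3 : ∀ x, k.1 *ᵥ pe F m x = pe F m (g.1 x) := fun x => (coordT e P).injective (by
    rw [← Φ_mulVec, ← coe_ΦU, hk, toGL_mulVec]
    exact congrArg E (congrArg g.1 (E.symm_apply_apply x)))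
  obtain ⟨A, B, h4⟩ := nml_kron (g := k) fun X => eq_kron_of_pure fun w u => by
    obtain ⟨a, b, h5⟩ := mem_Dz.1 (N.pres (A := (pe F m).symm.toLinearMap ∘ₗ toLin' (cjA k (X ⊗ₖ 1)) ∘ₗ
      (pe F m).toLinearMap) (fun w hw x hx => by
        obtain ⟨v, hv⟩ := h _ (Subgroup.inv_mem _ hg) w hw
        obtain ⟨x, rfl⟩ := g.1.surjective x
        obtain ⟨r, s, rfl⟩ := mem_Dz.1 (by simpa using (hv _).1 hx : x ∈ Dz F v)
        simp only [LinearMap.comp_apply, LinearEquiv.coe_coe, toLin'_apply, ← h3, cjA_mulVec, kron_pe]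
        rw [h3, LinearEquiv.symm_apply_apply, hv, isom_inv_apply_self]
        exact mem_Dz.2 ⟨X 0 0 * r + X 0 1 * s, X 1 0 * r + X 1 1 * s, by simp [add_smul, mul_smul]⟩)
      (mem_Dz.2 ⟨u 0, u 1, rfl⟩))
    exact ⟨![a, b], by rw [tp_pe, tp_pe]; exact ((pe F m).symm_apply_eq.1 h5).symm⟩
  exact ⟨A, B, hk.symm.trans (congrArg _ (Units.ext h4))⟩

end H20.Pl
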