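import Cfsg.Agent.H20.QP4
import Cfsg.Agent.H28.Root

/-! Root subgroups given by square-zero elements: for `ρ : Γ →* Λ` injective and a set `N` of square-zero elements
(`RS K ρ N`), the groups `T K ρ α = {g | ρ g ∈ 1 + Kα}` form a set of `K`-root subgroups (`RS.kroot`, `RS.sub`), with
criteria for connectedness, class, degeneracy. -/

set_option autoImplicit false
set_option linter.unusedSectionVars false
set_option linter.unusedVariables false

namespace H20.RT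
open Subgroup H28 Cfsg H20.QP
open scoped commutatorElement

variable {K : Type*} [Field K] {Λ : Type*} [Ring Λ] [Algebra K Λ] {Γ : Type*} [Group Γ]
  {ρ : Γ →* Λ} {N : Set Λ} {α β : Λ} {g x y : Γ}

/-- the group `1 + Kα` -/
def T (K : Type*) [Field K] [Algebra K Λ] (ρ : Γ →* Λ) (α : Λ) : Subgroup Γ :=
  closure {g | ∃ c : K, ρ g = 1 + c • α}

structure RS (K : Type*) [Field K] [Algebra K Λ] (ρ : Γ →* Λ) (N : Set Λ) : Prop where
  inj : Function.Injective ρ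
  sq : ∀ α ∈ N, α * α = 0
  ne : ∀ α ∈ N, α ≠ 0
  ex : ∀ α ∈ N, ∀ c : K, ∃ g, ρ g = 1 + c • α
  conj : ∀ α ∈ N, ∀ g, ρ g * α * ρ g⁻¹ ∈ N
  pair : ∀ α ∈ N, ∀ β ∈ N, ∃ c : K, α * β * α = c • α ∧ β * α * β = c • β ∧
    (c = 0 → α * β = β * α ∨ α * β - β * α ∈ N)

theorem inv_eq (h : α * α = 0) {c : K} (e : ρ g = 1 + c • α) : ρ g⁻¹ = 1 + (-c) • α := by
  have : ρ g * (1 + (-c) • α) = 1 := by
    rw [e]; simp [mul_add, add_mul, h]
  have := congrArg (ρ g⁻¹ * ·) this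
  simp only [← mul_assoc, ← map_mul, inv_mul_cancel, map_one, one_mul, mul_one] at this
  exact this.symm

theorem mem_T (h : α * α = 0) : g ∈ T K ρ α ↔ ∃ c : K, ρ g = 1 + c • α := by
  refine ⟨fun hg => ?_, fun hg => subset_closure hg⟩
  induction hg using closure_induction with
  | mem x hx => exact hx
  | one => exact ⟨0, by simp⟩
  | mul x y _ _ hx hy =>
    obtain ⟨c, e⟩ := hx; obtain ⟨d, e'⟩ := hy
    exact ⟨c + d, by rw [map_mul, e, e']; simp [mul_add, add_mul, h, add_smul, add_assoc]⟩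
  | inv x _ hx => obtain ⟨c, e⟩ := hx; exact ⟨-c, inv_eq h e⟩

theorem cj_T (g : Γ) : cj g (T K ρ α) = T K ρ (ρ g * α * ρ g⁻¹) := by
  rw [cj, conjBy, T, MonoidHom.map_closure, T]
  congr 1
  ext x
  constructor
  · rintro ⟨y, ⟨c, e⟩, rfl⟩
    refine ⟨c, show ρ (g * y * g⁻¹) = _ from ?_⟩
    rw [map_mul, map_mul, e]; simp [mul_add, add_mul, ← map_mul]
  · rintro ⟨c, e⟩
    refine ⟨g⁻¹ * x * g, ⟨c, ?_⟩, by simp [mul_assoc]⟩
    simp only [map_mul, e, mul_add, add_mul, mul_one, mul_smul_comm, smul_mul_assoc, ← mul_assoc]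
    simp [← map_mul, mul_assoc]

theorem comm_val (ha : α * α = 0) (hb : β * β = 0) (h1 : α * β * α = 0) (h2 : β * α * β = 0) {s t : K}
    (e : ρ x = 1 + s • α) (e' : ρ y = 1 + t • β) : ρ ⁅x, y⁆ = 1 + (s * t) • (α * β - β * α) := by
  have a : ∀ z, α * (α * z) = 0 := fun z => by rw [← mul_assoc, ha, zero_mul]
  have b : ∀ z, β * (β * z) = 0 := fun z => by rw [← mul_assoc, hb, zero_mul]
  have c : ∀ z, α * (β * (α * z)) = 0 := fun z => by rw [← mul_assoc, ← mul_assoc, h1, zero_mul]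
  rw [mul_assoc] at h1 h2
  rw [commutatorElement_def, map_mul, map_mul, map_mul, inv_eq ha e, inv_eq hb e', e, e']
  simp [mul_add, add_mul, mul_assoc, ha, hb, a, b, c, h1, h2, smul_smul, smul_sub]
  module

namespace RS
variable (h : RS K ρ N)
include h

theorem commute (ha : α ∈ N) (hb : β ∈ N) (e : α * β = β * α) (hx : x ∈ T K ρ α) (hy : y ∈ T K ρ β) :
    Commute x y := by
  obtain ⟨s, e1⟩ := (mem_T (h.sq α ha)).1 hx
  obtain ⟨t, e2⟩ := (mem_T (h.sq β hb)).1 hy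
  exact h.inj (by simp [e1, e2, mul_add, add_mul, e, smul_smul, mul_comm s t]; abel)

theorem comm_bot (ha : α ∈ N) (hb : β ∈ N) (e : α * β = β * α) : ⁅T K ρ α, T K ρ β⁆ = ⊥ :=
  commutator_eq_bot_iff.2 fun _ hx _ hy => h.commute ha hb e hx hy

theorem ne_zero (ha : α ∈ N) {c : K} (e : ρ g = 1 + c • α) (h1 : g ≠ 1) : c ≠ 0 := by
  rintro rfl; exact h1 (h.inj (by simp [e]))

theorem ne_bot (ha : α ∈ N) : T K ρ α ≠ ⊥ := fun e => by
  obtain ⟨g, hg⟩ := h.ex α ha 1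
  have : g ∈ T K ρ α := subset_closure ⟨1, hg⟩
  rw [e, mem_bot] at this
  exact h.ne α ha (by simpa [this] using hg)

theorem psl2 (ha : α ∈ N) (hb : β ∈ N) {c : K} (c0 : c ≠ 0) (e : α * β * α = c • α) (e' : β * α * β = c • β) :
    IsPSL2PairOver K (T K ρ α) (T K ρ β) := by
  have aa := h.sq α ha
  have bb := h.sq β hb
  have a : ∀ z, α * (α * z) = 0 := fun z => by rw [← mul_assoc, aa, zero_mul]
  have b : ∀ z, β * (β * z) = 0 := fun z => by rw [← mul_assoc, bb, zero_mul]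
  have a' : ∀ z, α * (β * (α * z)) = c • (α * z) := fun z => by
    rw [← mul_assoc, ← mul_assoc, e, smul_mul_assoc]
  have b' : ∀ z, β * (α * (β * z)) = c • (β * z) := fun z => by
    rw [← mul_assoc, ← mul_assoc, e', smul_mul_assoc]
  rw [mul_assoc] at e e'
  have M : MU (LinearMap.toSpanSingleton K Λ (c⁻¹ • (α * β + β * α))) c c⁻¹ α β := by
    refine ⟨aa, bb, fun r s => ?_, fun r => ?_, fun r => ?_, ?_, mul_inv_cancel₀ c0⟩
    all_goals simp [mul_add, add_mul, mul_assoc, aa, bb, a, b, a', b', e, e', smul_smul]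
    all_goals (try field_simp) <;> module
  have hU : ∀ r, (M.θ (xU r) : Λ) = 1 + r • α := fun r => by
    rw [M.θ_xU]; simp [add_mul, mul_assoc, aa, e, smul_smul, c0]
  have hL : ∀ r, (M.θ (xL r) : Λ) = 1 + (r * c⁻¹) • β := fun r => by
    rw [M.θ_xL]; simp [add_mul, mul_assoc, bb, e', smul_smul, c0]
  have inj : Function.Injective ρ.toHomUnits := fun x y e => h.inj (congrArg Units.val e)
  have R : ∀ g, M.θ g ∈ ρ.toHomUnits.range := fun g => by
    refine (show ⊤ ≤ ρ.toHomUnits.range.comap M.θ from upper_sup_lower (k := K) ▸ sup_le ?_ ?_) trivial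
    · intro x hx
      obtain ⟨t, rfl⟩ := mem_upper.1 hx
      obtain ⟨g, hg⟩ := h.ex α ha t
      exact ⟨g, Units.ext (hg.trans (hU t).symm)⟩
    · intro x hx
      obtain ⟨t, rfl⟩ := mem_lower.1 hx
      obtain ⟨g, hg⟩ := h.ex β hb (t * c⁻¹)
      exact ⟨g, Units.ext (hg.trans (hL t).symm)⟩
  let φ : SL2 K →* Γ := (MonoidHom.ofInjective inj).symm.toMonoidHom.comp (M.θ.codRestrict _ R)
  have hφ : ∀ g, ρ (φ g) = M.θ g := fun g =>
    congrArg Units.val (MonoidHom.apply_ofInjective_symm inj (M.θ.codRestrict _ R g))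
  have eU : (upperUnipotentSL2 K).map φ = T K ρ α := by
    ext x
    simp only [mem_map, mem_upper, mem_T aa]
    constructor
    · rintro ⟨_, ⟨t, rfl⟩, rfl⟩; exact ⟨t, by rw [hφ, hU]⟩
    · rintro ⟨t, e⟩; exact ⟨_, ⟨t, rfl⟩, h.inj (by rw [hφ, hU, e])⟩
  have eL : (lowerUnipotentSL2 K).map φ = T K ρ β := by
    ext x
    simp only [mem_map, mem_lower, mem_T bb]
    constructor
    · rintro ⟨_, ⟨t, rfl⟩, rfl⟩; exact ⟨_, by rw [hφ, hL]⟩
    · rintro ⟨t, e⟩; exact ⟨_, ⟨t * c, rfl⟩, h.inj (by rw [hφ, hL, e, mul_inv_cancel_right₀ c0])⟩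
  rw [← eU, ← eL]
  refine psl2Pair_of_hom φ fun e0 => h.ne α ha ?_
  have := congrArg ρ (comm_commute e0 (mem_map_of_mem φ (xU_mem 1)) (mem_map_of_mem φ (xL_mem c))).eq
  simp only [map_mul, hφ, hU, hL, mul_inv_cancel₀ c0, one_smul] at this
  have e1 : α * β = β * α := by linear_combination (norm := noncomm_ring) this
  rw [← e1, a] at e
  exact (smul_eq_zero.1 e.symm).resolve_left c0

theorem r1 (ha : α ∈ N) (hb : β ∈ N) (e : α * β * α ≠ 0) : IsRankOnePair (T K ρ α) (T K ρ β) := by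
  obtain ⟨c, e1, e2, -⟩ := h.pair α ha β hb
  exact (special_of_psl2Pair (h.psl2 ha hb (fun c0 => e (by simp [e1, c0])) e1 e2)).1

theorem closure_comm (ha : α ∈ N) (hb : β ∈ N) (h1 : α * β * α = 0) (h2 : β * α * β = 0)
    (hx : x ∈ T K ρ α) (x1 : x ≠ 1) (hc : α * β - β * α ∈ N) :
    closure ((fun y => x * y * x⁻¹ * y⁻¹) '' (T K ρ β : Set Γ)) = T K ρ (α * β - β * α) := by
  obtain ⟨s, e⟩ := (mem_T (h.sq α ha)).1 hx
  have s0 := h.ne_zero ha e x1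
  rw [T]
  congr 1
  ext z
  constructor
  · rintro ⟨y, hy, rfl⟩
    obtain ⟨t, e'⟩ := (mem_T (h.sq β hb)).1 hy
    exact ⟨_, comm_val (h.sq α ha) (h.sq β hb) h1 h2 e e'⟩
  · rintro ⟨c, e'⟩
    obtain ⟨y, hy⟩ := h.ex β hb (s⁻¹ * c)
    refine ⟨y, subset_closure ⟨_, hy⟩, h.inj ?_⟩
    rw [e']
    exact (comm_val (h.sq α ha) (h.sq β hb) h1 h2 e hy).trans (by rw [mul_inv_cancel_left₀ s0])

theorem comm_eq (ha : α ∈ N) (hb : β ∈ N) (h1 : α * β * α = 0) (h2 : β * α * β = 0) (hc : α * β - β * α ∈ N) :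
    ⁅T K ρ α, T K ρ β⁆ = T K ρ (α * β - β * α) := by
  refine le_antisymm (commutator_le.2 fun x hx y hy => ?_) ?_
  · obtain ⟨s, e⟩ := (mem_T (h.sq α ha)).1 hx
    obtain ⟨t, e'⟩ := (mem_T (h.sq β hb)).1 hy
    exact subset_closure ⟨_, comm_val (h.sq α ha) (h.sq β hb) h1 h2 e e'⟩
  · obtain ⟨x, hx, x1⟩ := exists_ne_one (h.ne_bot ha)
    rw [← h.closure_comm ha hb h1 h2 hx x1 hc, closure_le]
    rintro _ ⟨y, hy, rfl⟩
    exact commutator_mem_commutator hx hy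

theorem rc (ha : α ∈ N) (hb : β ∈ N) (h1 : α * β * α = 0) (h2 : β * α * β = 0) (hc : α * β - β * α ∈ N) :
    RootCommutatorCase (T K ρ '' N) (T K ρ α) (T K ρ β) := by
  have e := h.comm_eq ha hb h1 h2 hc
  refine ⟨⟨_, hc, e.symm⟩, fun c hx => ?_, fun x hx x1 => by rw [e, h.closure_comm ha hb h1 h2 hx x1 hc],
    fun y hy y1 => ?_⟩
  · rw [e] at hx
    refine commute_sup (fun x => h.commute hc ha ?_ hx) fun x => h.commute hc hb ?_ hx
    · simp [sub_mul, mul_sub, h1, ← mul_assoc, h.sq α ha]; simp [mul_assoc, h.sq α ha]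
    · simp [sub_mul, mul_sub, h2, ← mul_assoc, h.sq β hb]; simp [mul_assoc, h.sq β hb]
  · obtain ⟨t, e'⟩ := (mem_T (h.sq β hb)).1 hy
    have t0 := h.ne_zero hb e' y1
    rw [e, T]
    congr 1
    ext z
    constructor
    · rintro ⟨x, hx, rfl⟩
      obtain ⟨s, e⟩ := (mem_T (h.sq α ha)).1 hx
      exact ⟨_, comm_val (h.sq α ha) (h.sq β hb) h1 h2 e e'⟩
    · rintro ⟨c, e''⟩
      obtain ⟨x, hx⟩ := h.ex α ha (c * t⁻¹)
      refine ⟨x, subset_closure ⟨_, hx⟩, h.inj ?_⟩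
      rw [e'']
      exact (comm_val (h.sq α ha) (h.sq β hb) h1 h2 hx e').trans (by rw [inv_mul_cancel_right₀ t0])

theorem tri (ha : α ∈ N) (hb : β ∈ N) : ⁅T K ρ α, T K ρ β⁆ = ⊥ ∨ IsPSL2PairOver K (T K ρ α) (T K ρ β) ∨
    RootCommutatorCase (T K ρ '' N) (T K ρ α) (T K ρ β) := by
  obtain ⟨c, e1, e2, e3⟩ := h.pair α ha β hb
  by_cases c0 : c = 0
  · exact (e3 c0).imp (h.comm_bot ha hb) fun e => Or.inr (h.rc ha hb (by simp [e1, c0]) (by simp [e2, c0]) e)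
  · exact Or.inr (Or.inl (h.psl2 ha hb c0 e1 e2))

theorem root (top : ⨆ A ∈ T K ρ '' N, A = ⊤) : IsRootSubgroupSet (T K ρ '' N) := by
  refine ⟨?_, ?_, top, ?_, ?_⟩
  · rintro _ ⟨α, ha, rfl⟩; exact comm_of_commute fun _ hx _ hy => h.commute ha ha rfl hx hy
  · rintro _ ⟨α, ha, rfl⟩; exact h.ne_bot ha
  · rintro _ ⟨α, ha, rfl⟩ g; exact ⟨_, h.conj α ha g, (cj_T g).symm⟩
  · rintro _ ⟨α, ha, rfl⟩ _ ⟨β, hb, rfl⟩
    exact (h.tri ha hb).imp_right (Or.imp_left fun e => (special_of_psl2Pair e).1)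

theorem kroot (top : ⨆ A ∈ T K ρ '' N, A = ⊤) : IsKRootSubgroupSet K (T K ρ '' N) := by
  refine ⟨h.root top, ?_⟩
  rintro _ ⟨α, ha, rfl⟩ _ ⟨β, hb, rfl⟩ r
  rcases h.tri ha hb with e | e | e
  · exact absurd e (r1_commutator_ne_bot r)
  · exact e
  · exact absurd e.1 (r1_comm_not_mem (h.root top) r ⟨_, ha, rfl⟩ ⟨_, hb, rfl⟩)

theorem degen (top : ⨆ A ∈ T K ρ '' N, A = ⊤) (hd : ∀ α ∈ N, ∀ β ∈ N, α * β * α = 0 → α * β = β * α) :
    IsDegenerateRootSet (T K ρ '' N) := by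
  rintro _ ⟨α, ha, rfl⟩ _ ⟨β, hb, rfl⟩ r
  by_cases e : α * β * α = 0
  · exact (h.root top).ne_bot _ r.1 (h.comm_bot ha hb (hd α ha β hb e))
  · exact r1_comm_not_mem (h.root top) (h.r1 ha hb e) ⟨_, ha, rfl⟩ ⟨_, hb, rfl⟩ r.1

omit h in
/-- adjacency -/
def Adj (N : Set Λ) (α β : Λ) : Prop := α ∈ N ∧ β ∈ N ∧ α * β * α ≠ 0

theorem conn (hc : ∀ α ∈ N, ∀ β ∈ N, Relation.ReflTransGen (Adj N) α β) :
    IsConnectedFamily (FAdj (T K ρ '' N)) (T K ρ '' N) := by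
  rintro _ ⟨α, ha, rfl⟩ _ ⟨β, hb, rfl⟩
  exact (hc α ha β hb).lift _ fun a b e => ⟨⟨_, e.1, rfl⟩, ⟨_, e.2.1, rfl⟩, h.r1 e.1 e.2.1 e.2.2⟩

theorem sub : RS K (ρ.comp (⨆ A ∈ T K ρ '' N, A).subtype) N where
  inj := h.inj.comp Subtype.val_injective
  sq := h.sq
  ne := h.ne
  ex α ha c := let ⟨g, e⟩ := h.ex α ha c
    ⟨⟨g, le_iSup₂_of_le (f := fun A _ => A) (T K ρ α) ⟨α, ha, rfl⟩ le_rfl (subset_closure ⟨c, e⟩)⟩, e⟩
  conj α ha g := h.conj α ha g
  pair := h.pair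

theorem sub_eq : (fun A => A.subgroupOf (⨆ A ∈ T K ρ '' N, A)) '' (T K ρ '' N) =
    T K (ρ.comp (⨆ A ∈ T K ρ '' N, A).subtype) '' N := by
  rw [Set.image_image]
  refine Set.image_congr fun α ha => ?_
  ext x
  simp [mem_subgroupOf, mem_T (h.sq α ha)]

theorem sub_top : ⨆ A ∈ T K (ρ.comp (⨆ A ∈ T K ρ '' N, A).subtype) '' N, A = ⊤ := by
  rw [← h.sub_eq]
  generalize T K ρ '' N = S
  refine map_injective (subtype_injective _) ?_
  rw [← MonoidHom.range_eq_map, range_subtype, iSup_image]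
  simp only [Subgroup.map_iSup]
  refine iSup_congr fun A => iSup_congr fun hA => map_subgroupOf_eq_of_le ?_
  exact le_iSup₂_of_le (f := fun A _ => A) A hA le_rfl

end RS

theorem cls_of_conn {S : Set (Subgroup Γ)} (hn : S.Nonempty) (hc : IsConnectedFamily (FAdj S) S) :
    IsConjClassOfSubgroups S := by
  refine ⟨hn, fun A hA B hB => ?_⟩
  have := hc A hA B hB
  clear hB
  induction this with
  | refl => exact ⟨1, (cj_one A).symm⟩
  | tail _ e ih =>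
    obtain ⟨g, rfl⟩ := ih
    obtain ⟨x, -, e, -⟩ := r1_exists_swap e.2.2
    exact ⟨x * g, e.symm.trans (cj_mul x g A).symm⟩

end H20.RT
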