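import Cfsg.Agent.H20.RT
import Cfsg.Agent.H11.Std
import Cfsg.Agent.H11.Unit

/-! Transvection groups (`tN`, symplectic and unitary) and Siegel transvection groups (`sN`, orthogonal) as systems
`RS` of root subgroups; connectedness. -/

set_option autoImplicit false
set_option linter.unusedSectionVars false
set_option linter.unusedVariables false

namespace H20.RT
open Subgroup H28 Cfsg H11 H11.PForm Module

variable {F : Type*} [Field F] {σ : F →+* F} {P : FParam σ} {V : Type*} [AddCommGroup V] [Module F V]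
  {Γ : Type*} [Group Γ]

/-- the linear representation through the isometry group -/
def rho {S : PForm P V} (e : Γ →* S.Isom) : Γ →* End F V :=
  LinearEquiv.automorphismGroup.toLinearMapMonoidHom.comp (S.Isom.subtype.comp e)
@[simp] theorem rho_apply {S : PForm P V} (e : Γ →* S.Isom) (g : Γ) (v : V) : rho e g v = (e g).1 v := rfl
theorem rho_inj {S : PForm P V} {e : Γ →* S.Isom} (h : Function.Injective e) : Function.Injective (rho e) :=
  fun _ _ h' => h (isom_ext fun x => LinearMap.congr_fun h' x)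

section T
variable {K : Type*} [Field K] [Algebra K F] [Module K V] [IsScalarTower K F V] {S : PForm P V} {e : Γ →* S.Isom}
  {l : F} {u v : V}

/-- `x ↦ l h(u, x) u` -/
def tA (S : PForm P V) (l : F) (u : V) : End F V := (l • S.h u).smulRight u
@[simp] theorem tA_apply (x : V) : tA S l u x = (l * S.h u x) • u := rfl
/-- the nilpotent parts of the transvections -/
def tN (S : PForm P V) (l : F) : Set (End F V) := tA S l '' {u | u ≠ 0 ∧ S.Sing u}

theorem tA_aba : tA S l u * tA S l v * tA S l u = (l * l * (S.h u v * S.h v u)) • tA S l u := by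
  ext x; simp [smul_smul]; ring_nf
theorem tA_ne (hS : S.Nondeg) (l0 : l ≠ 0) (h : u ≠ 0) : tA S l u ≠ 0 := fun e => by
  obtain ⟨y, hy⟩ := hS.exists_h_eq_one h
  simpa [hy, l0, h] using LinearMap.congr_fun e y
theorem tA_adj (hS : S.Nondeg) (l0 : l ≠ 0) (hu : u ≠ 0 ∧ S.Sing u) (hv : v ≠ 0 ∧ S.Sing v) (h : S.h u v ≠ 0) :
    RS.Adj (tN S l) (tA S l u) (tA S l v) :=
  ⟨⟨u, hu, rfl⟩, ⟨v, hv, rfl⟩, by
    rw [tA_aba]; exact smul_ne_zero (by simp [l0, h, S.h_eq_zero_comm (x := v)]) (tA_ne hS l0 hu.1)⟩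

theorem tN_degen (hS : S.Nondeg) (l0 : l ≠ 0) : ∀ α ∈ tN S l, ∀ β ∈ tN S l, α * β * α = 0 → α * β = β * α := by
  rintro _ ⟨u, hu, rfl⟩ _ ⟨v, hv, rfl⟩ h
  have : S.h u v = 0 := by_contra fun e => (tA_adj hS l0 hu hv e).2.2 h
  ext x; simp [this, S.h_swap_zero this]

theorem tN_rs (hS : S.Nondeg) (l0 : l ≠ 0) (he : Function.Injective e) (hT : ∀ u a, S.eich u 0 a ∈ e.range)
    (hl : ∀ c : K, algebraMap K F c * l ∈ P.Λ)
    (hK : ∀ a, ∃ c : K, algebraMap K F c = l * l * (a * (P.ε * σ a))) : RS K (rho e) (tN S l) where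
  inj := rho_inj he
  sq := by rintro _ ⟨u, hu, rfl⟩; ext x; simp [hu.2.h_self]
  ne := by rintro _ ⟨u, hu, rfl⟩; exact tA_ne hS l0 hu.1
  ex := by
    rintro _ ⟨u, hu, rfl⟩ c
    obtain ⟨g, hg⟩ := hT u (-(P.ε * (algebraMap K F c * l)))
    refine ⟨g, LinearMap.ext fun x => ?_⟩
    rw [rho_apply, hg, transv_apply hu.2 (by rcases P.ε_cases with e | e <;> simpa [e] using hl c)]
    rw [LinearMap.add_apply, LinearMap.smul_apply, ← algebraMap_smul F c]
    simp [← mul_assoc, P.εε, smul_smul]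
  conj := by
    rintro _ ⟨u, hu, rfl⟩ g
    refine ⟨(e g).1 u, ⟨by simpa using hu.1, (isom_sing _ _).2 hu.2⟩, LinearMap.ext fun x => ?_⟩
    simp [isom_h_left]
  pair := by
    rintro _ ⟨u, hu, rfl⟩ _ ⟨v, hv, rfl⟩
    obtain ⟨c, hc⟩ := hK (S.h u v)
    rw [← S.symm] at hc
    refine ⟨c, by rw [tA_aba, ← hc, algebraMap_smul], by rw [tA_aba, mul_comm (S.h v u), ← hc, algebraMap_smul],
      fun c0 => Or.inl (tN_degen hS l0 _ ⟨u, hu, rfl⟩ _ ⟨v, hv, rfl⟩ (by rw [tA_aba, ← hc, c0]; simp))⟩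

theorem tN_conn [FiniteDimensional F V] (hS : S.Nondeg) (l0 : l ≠ 0) :
    ∀ α ∈ tN S l, ∀ β ∈ tN S l, Relation.ReflTransGen (RS.Adj (tN S l)) α β := by
  rintro _ ⟨u, hu, rfl⟩ _ ⟨v, hv, rfl⟩
  by_cases h : S.h u v = 0
  · obtain ⟨z, hz, h1, h2⟩ := hS.exists_common_of_perp hu.2 hu.1 hv.1 h
    have z0 : z ≠ 0 := fun e => h1 (by simp [e])
    exact .tail (.single (tA_adj hS l0 hu ⟨z0, hz⟩ (mt S.h_swap_zero h1))) (tA_adj hS l0 ⟨z0, hz⟩ hv h2)
  · exact .single (tA_adj hS l0 hu hv h)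

theorem tA_iff (hS : S.Nondeg) (hu : u ≠ 0 ∧ S.Sing u) (hΛ : ∀ a ∈ P.Λ, ∃ c : K, a = algebraMap K F c * l) (g : Γ) :
    ((∀ v, ∃ c : F, (e g).1 v = v + c • u) ∧ ∀ v, S.h u v = 0 → (e g).1 v = v) ↔
      ∃ c : K, rho e g = 1 + c • tA S l u := by
  constructor
  · rintro ⟨h1, h2⟩
    obtain ⟨f, hf⟩ := hS.exists_h_eq_one hu.1
    obtain ⟨a, ha⟩ := h1 f
    have h3 := isom_q (e g) f
    have h4 := S.q_add_smul_sing f hu.2 a
    rw [ha] at h3
    have h5 := sub_mem h3 h4
    rw [S.symm, hf, map_one, mul_one] at h5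
    obtain ⟨c, hc⟩ := hΛ a (by rcases P.ε_cases with e | e <;> simpa [e] using h5)
    refine ⟨c, LinearMap.ext fun x => ?_⟩
    have := h2 (x - S.h u x • f) (by simp [hf])
    rw [map_sub, map_smul, ha, sub_eq_iff_eq_add] at this
    simp only [rho_apply, this, hc, LinearMap.add_apply, End.one_apply, LinearMap.smul_apply, tA_apply,
      ← algebraMap_smul F c]
    module
  · rintro ⟨c, h⟩
    have : ∀ v, (e g).1 v = v + (algebraMap K F c * (l * S.h u v)) • u := fun v => by
      rw [← rho_apply, h]; simp [mul_smul]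
    exact ⟨fun v => ⟨_, this v⟩, fun v hv => by simp [this, hv]⟩

end T

section S
variable {S : PForm (orthP F) V} {e : Γ →* S.Isom} {p r p' r' s t : V}

/-- `x ↦ h(p, x) r - h(r, x) p` -/
def sA (S : PForm (orthP F) V) (p r : V) : End F V := (S.h p).smulRight r - (S.h r).smulRight p
@[simp] theorem sA_apply (x : V) : sA S p r x = S.h p x • r - S.h r x • p := rfl
/-- singular pair -/
structure SP (S : PForm (orthP F) V) (p r : V) : Prop where
  l : S.q p = 0
  t : S.q r = 0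
  o : S.h p r = 0
/-- the nilpotent parts of the Siegel transvections -/
def sN (S : PForm (orthP F) V) : Set (End F V) := {α | α ≠ 0 ∧ ∃ p r, SP S p r ∧ α = sA S p r}

theorem SP.ll (h : SP S p r) : S.h p p = 0 := by rw [orth_h_self, h.l, mul_zero]
theorem SP.rr (h : SP S p r) : S.h r r = 0 := by rw [orth_h_self, h.t, mul_zero]
theorem SP.o' (h : SP S p r) : S.h r p = 0 := S.h_swap_zero h.o
theorem SP.symm (h : SP S p r) : SP S r p := ⟨h.t, h.l, h.o'⟩
theorem SP.neg (h : SP S p r) : SP S r (-p) := ⟨h.t, by rw [orth_q_neg, h.l], by simp [h.o']⟩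
theorem SP.q (h : SP S p r) (a b : F) : S.q (a • p + b • r) = 0 := by
  simp [orth_q_add, orth_q_smul, h.l, h.t, h.o]
theorem sA_neg : sA S r (-p) = sA S p r := by ext x; simp; abel

theorem sA_aba (h : SP S p r) : sA S p r * sA S p' r' * sA S p r =
    (S.h p r' * S.h r p' - S.h p p' * S.h r r') • sA S p r := by
  ext x
  simp only [End.mul_apply, sA_apply, map_sub, map_smul, smul_eq_mul, LinearMap.smul_apply, S.orth_symm p p',
    S.orth_symm p r', S.orth_symm r p', S.orth_symm r r']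
  module

theorem sA_comm (h : SP S p r) (h' : SP S p' r') (d : S.h p r' * S.h r p' = S.h p p' * S.h r r') (d0 : S.h r r' ≠ 0) :
    ∃ a b, SP S a b ∧ sA S p r * sA S p' r' - sA S p' r' * sA S p r = sA S a b := by
  refine ⟨(-1 : F) • p + (S.h p r' / S.h r r') • r, (-S.h r r') • p' + S.h r p' • r', ⟨h.q _ _, h'.q _ _, ?_⟩, ?_⟩
  · simp; field_simp; linear_combination -d
  · ext x
    have : S.h p p' = S.h p r' * S.h r p' / S.h r r' := by field_simp; exact d.symm
    simp only [End.mul_apply, sA_apply, map_sub, map_add, map_smul, smul_eq_mul, LinearMap.smul_apply,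
      LinearMap.sub_apply, LinearMap.add_apply, S.orth_symm p p', map_smulₛₗ, RingHom.id_apply,
      S.orth_symm p r', S.orth_symm r p', S.orth_symm r r', this]
    match_scalars <;> field_simp <;> ring

theorem sA_comm' (h : SP S p r) (h' : SP S p' r') (d : S.h p r' * S.h r p' = S.h p p' * S.h r r') :
    ∃ a b, SP S a b ∧ sA S p r * sA S p' r' - sA S p' r' * sA S p r = sA S a b := by
  by_cases h1 : S.h r r' = 0
  · by_cases h2 : S.h p r' = 0
    · by_cases h3 : S.h r p' = 0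
      · by_cases h4 : S.h p p' = 0
        · refine ⟨0, 0, ⟨S.orth_q_zero, S.orth_q_zero, by simp⟩, ?_⟩
          ext x
          simp [h1, h2, h3, h4, S.h_swap_zero h1, S.h_swap_zero h2, S.h_swap_zero h3, S.h_swap_zero h4]
        · simpa [sA_neg] using sA_comm h.neg h'.neg (by simp [h1, h2, h3]) (by simpa using h4)
      · simpa [sA_neg] using sA_comm h h'.neg (by simp [h1, h2]) (by simpa using h3)
    · simpa [sA_neg] using sA_comm h.neg h' (by simpa [h1, mul_comm] using d) (by simpa using h2)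
  · exact sA_comm h h' d h1

theorem sN_rs (he : Function.Injective e) (hT : ∀ u v, S.eich u v 0 ∈ e.range) : RS F (rho e) (sN S) where
  inj := rho_inj he
  sq := by rintro _ ⟨-, p, r, h, rfl⟩; ext x; simp [h.ll, h.rr, h.o, h.o']
  ne _ h := h.1
  ex := by
    rintro _ ⟨-, p, r, h, rfl⟩ c
    obtain ⟨g, hg⟩ := hT p (c • r)
    refine ⟨g, LinearMap.ext fun x => ?_⟩
    rw [rho_apply, hg, eich_apply ⟨(S.orth_sing p).2 h.l, by simp [h.o], by simp [orth_q_smul, h.t]⟩]
    simp; module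
  conj := by
    rintro _ ⟨h0, p, r, h, rfl⟩ g
    refine ⟨fun e0 => h0 ?_, (e g).1 p, (e g).1 r, ⟨by simp [h.l], by simp [h.t], by simp [h.o]⟩,
      LinearMap.ext fun x => by simp [isom_h_left]⟩
    have := congrArg (fun x => rho e g⁻¹ * x * rho e g) e0
    simpa [← mul_assoc, ← map_mul, mul_assoc _ (rho e g⁻¹)] using this
  pair := by
    rintro _ ⟨-, p, r, h, rfl⟩ _ ⟨-, p', r', h', rfl⟩
    refine ⟨_, sA_aba h, by
      rw [sA_aba h', S.orth_symm r, S.orth_symm p, S.orth_symm p, S.orth_symm r r', mul_comm], fun c0 => ?_⟩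
    obtain ⟨a, b, h1, h2⟩ := sA_comm' h h' (sub_eq_zero.1 c0)
    by_cases h3 : sA S a b = 0
    · exact Or.inl (sub_eq_zero.1 (h2.trans h3))
    · exact Or.inr ⟨h2 ▸ h3, a, b, h1, h2⟩

theorem sA_ne_iff (hS : S.Nondeg) : sA S p r ≠ 0 ↔ LinearIndependent F ![p, r] := by
  rw [LinearIndependent.pair_iff]
  constructor
  · intro h a b e
    by_contra h'
    refine h (LinearMap.ext fun x => ?_)
    have := congrArg (S.h · x) e
    simp only [map_add, map_smulₛₗ, RingHom.id_apply, LinearMap.add_apply, LinearMap.smul_apply, smul_eq_mul,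
      map_zero, LinearMap.zero_apply] at this
    rw [not_and_or] at h'
    rcases h' with h' | h'
    · refine (smul_eq_zero.1 (?_ : a • _ = _)).resolve_left h'
      simp only [sA_apply]
      linear_combination (norm := module) this • r - S.h r x • e
    · refine (smul_eq_zero.1 (?_ : b • _ = _)).resolve_left h'
      simp only [sA_apply]
      linear_combination (norm := module) S.h p x • e - this • p
  · intro h e
    have : p = 0 := hS p fun y => (h (-S.h r y) (S.h p y) (by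
      have := LinearMap.congr_fun e y
      simp only [sA_apply, LinearMap.zero_apply] at this
      linear_combination (norm := module) this)).2
    simpa using (h 1 0 (by simp [this])).1

theorem exists_dual (hS : S.Nondeg) (h : sA S p r ≠ 0) : ∃ v, S.h p v = 0 ∧ S.h r v = 1 := by
  have p0 : p ≠ 0 := fun e => h (by ext; simp [e])
  obtain ⟨w, hw⟩ := hS.exists_h_eq_one p0
  have : r - S.h r w • p ≠ 0 := fun e => h (by
    rw [sub_eq_zero] at e; rw [e]; ext x; simp [smul_smul, mul_comm])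
  obtain ⟨y, hy⟩ := hS.exists_h_eq_one this
  refine ⟨y - S.h p y • w, by simp [hw], ?_⟩
  simp at hy ⊢
  linear_combination hy

theorem sA_iff (hS : S.Nondeg) (h : SP S p r) (h0 : sA S p r ≠ 0) (g : Γ) :
    (∀ v, S.h p v = 0 → S.h r v = 0 → (e g).1 v = v) ↔ ∃ c : F, rho e g = 1 + c • sA S p r := by
  constructor
  · intro h1
    obtain ⟨y, y1, y2⟩ := exists_dual hS h0
    obtain ⟨x, x2, x1⟩ := exists_dual hS (p := r) (r := p) fun e => h0 (by
      ext z; have := LinearMap.congr_fun e z; simp [sub_eq_zero] at this ⊢; exact this.symm)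
    have h2 : ∀ v, (e g).1 (v - S.h p v • x - S.h r v • y) = v - S.h p v • x - S.h r v • y := fun v =>
      h1 _ (by simp [x1, y1]) (by simp [x2, y2])
    have h3 : ∀ z, (e g).1 z = z + S.h ((e g).1 z - z) x • p + S.h ((e g).1 z - z) y • r := fun z =>
      hS.ext_left fun v => by
        have := isom_h (e g) z (v - S.h p v • x - S.h r v • y)
        rw [h2] at this
        simp at this ⊢
        linear_combination this
    obtain ⟨a, b, hx⟩ : ∃ a b : F, (e g).1 x = x + a • p + b • r := ⟨_, _, h3 x⟩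
    obtain ⟨c, d, hy⟩ : ∃ a b : F, (e g).1 y = y + a • p + b • r := ⟨_, _, h3 y⟩
    have q1 := orth_isom_q (e g) x
    have q2 := orth_isom_q (e g) y
    have q3 := isom_h (e g) x y
    rw [hx] at q1 q3
    rw [hy] at q2 q3
    simp [orth_q_add, orth_q_smul, h.l, h.t, h.o, h.ll, h.rr, h.o', S.orth_symm p, S.orth_symm r, x1, x2, y1, y2]
      at q1 q2 q3
    refine ⟨b, LinearMap.ext fun v => ?_⟩
    have := h2 v
    simp only [map_sub, map_smul, hx, hy, q1, q2, show c = -b by linear_combination q3] at this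
    simp only [rho_apply, LinearMap.add_apply, End.one_apply, LinearMap.smul_apply, sA_apply]
    linear_combination (norm := module) this
  · rintro ⟨c, h⟩ v h1 h2
    rw [← rho_apply, h]; simp [h1, h2]

theorem sA_adj (h : SP S p r) (h0 : sA S p r ≠ 0) (h' : SP S s t) (h1 : S.h p t = 0) (h2 : S.h p s ≠ 0)
    (h3 : S.h r t ≠ 0) : RS.Adj (sN S) (sA S p r) (sA S s t) ∧ RS.Adj (sN S) (sA S s t) (sA S p r) := by
  have e : sA S p r * sA S s t * sA S p r ≠ 0 := by rw [sA_aba h]; exact smul_ne_zero (by simp [h1, h2, h3]) h0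
  have h0' : sA S s t ≠ 0 := fun e' => e (by simp [e'])
  refine ⟨⟨⟨h0, _, _, h, rfl⟩, ⟨h0', _, _, h', rfl⟩, e⟩, ⟨h0', _, _, h', rfl⟩, ⟨h0, _, _, h, rfl⟩, ?_⟩
  rw [sA_aba h']
  exact smul_ne_zero (by simp [S.orth_symm p, S.orth_symm r, h1, h2, h3]) h0'

theorem q_proj (h : S.q p = 0) {w : V} (hw : S.h p w ≠ 0) : S.q (w - (S.q w / S.h p w) • p) = 0 := by
  simp [orth_q_sub, orth_q_smul, h, S.orth_symm p, hw]

theorem conn1 (hS : S.Nondeg) (h : SP S p r) (h0 : sA S p r ≠ 0) (h' : SP S p r') (h0' : sA S p r' ≠ 0)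
    (t0 : S.q t = 0) (t1 : S.h p t = 0) (t2 : S.h r t ≠ 0) (t3 : S.h r' t ≠ 0) :
    Relation.ReflTransGen (RS.Adj (sN S)) (sA S p r) (sA S p r') := by
  obtain ⟨w, w1, w2⟩ := exists_dual hS (p := t) (r := p) fun e => by
    have := LinearMap.congr_fun e r
    simp [h.o, S.orth_symm r, t2] at this
    exact h0 (by ext; simp [this])
  have : SP S (w - (S.q w / S.h p w) • p) t :=
    ⟨q_proj h.l (by simp [w2]), t0, by simp [t1, S.h_swap_zero w1]⟩
  exact .tail (.single (sA_adj h h0 this t1 (by simp [w2, h.ll]) t2).1) (sA_adj h' h0' this t1 (by simp [w2, h.ll]) t3).2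

theorem conn2 (hS : S.Nondeg) (h : SP S p r) (h0 : sA S p r ≠ 0) (h' : SP S p r') (h0' : sA S p r' ≠ 0)
    (e : S.h r r' = 0) : Relation.ReflTransGen (RS.Adj (sN S)) (sA S p r) (sA S p r') := by
  obtain ⟨y, y1, y2⟩ := exists_dual hS h0
  obtain ⟨z, z1, z2⟩ := exists_dual hS h0'
  obtain ⟨v, hv, v1, v2⟩ := exists_both_ne_zero (LinearMap.ker (S.h p)) (S.h r) (S.h r') ⟨y, y1, by simp [y2]⟩
    ⟨z, z1, by simp [z2]⟩
  exact conn1 hS h h0 h' h0' (q_proj h.t v1) (by simpa [h.o] using hv) (by simp [h.rr, v1])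
    (by simp [S.h_swap_zero e, v2])

theorem conn3 [FiniteDimensional F V] (hS : S.Nondeg) (hV : 5 ≤ finrank F V) (h : SP S p r) (h0 : sA S p r ≠ 0)
    (h' : SP S p r') (h0' : sA S p r' ≠ 0) : Relation.ReflTransGen (RS.Adj (sN S)) (sA S p r) (sA S p r') := by
  by_cases e : S.h r r' = 0
  · exact conn2 hS h h0 h' h0' e
  have p0 : p ≠ 0 := fun e => h0 (by ext; simp [e])
  obtain ⟨s, hs⟩ := hS.exists_h_eq_one p0
  obtain ⟨u, hu, u0⟩ : ∃ u, (LinearMap.pi ![S.h p, S.h s, S.h r, S.h r'] : V →ₗ[F] Fin 4 → F) u = 0 ∧ u ≠ 0 :=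
    Submodule.exists_mem_ne_zero_of_ne_bot (LinearMap.ker_ne_bot_of_finrank_lt (by simp; omega))
  have u1 : S.h p u = 0 := congrFun hu 0
  have u2 : S.h s u = 0 := congrFun hu 1
  have u3 : S.h r u = 0 := congrFun hu 2
  have u4 : S.h r' u = 0 := congrFun hu 3
  by_cases q : S.q u = 0
  · have h2 : sA S p u ≠ 0 := fun e => by simpa [hs, S.h_swap_zero u2, u0] using LinearMap.congr_fun e s
    exact (conn2 hS h h0 ⟨h.l, q, u1⟩ h2 u3).trans (conn2 hS ⟨h.l, q, u1⟩ h2 h' h0' (S.h_swap_zero u4))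
  · refine conn1 hS h h0 h' h0' (t := r + (-S.q u / S.h r r') • r' + u) ?_ (by simp [h.o, h'.o, u1])
      (by simp [h.rr, u3, e, q]) (by simp [h'.rr, u4, S.orth_symm r, e])
    simp [orth_q_add, orth_q_smul, h.t, h'.t, u3, u4, e]

theorem sN_conn [FiniteDimensional F V] (hS : S.Nondeg) (hV : 5 ≤ finrank F V) :
    ∀ α ∈ sN S, ∀ β ∈ sN S, Relation.ReflTransGen (RS.Adj (sN S)) α β := by
  have key : ∀ p r p' r', SP S p r → sA S p r ≠ 0 → SP S p' r' → sA S p' r' ≠ 0 → S.h p p' = 0 →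
      Relation.ReflTransGen (RS.Adj (sN S)) (sA S p r) (sA S p' r') := fun p r p' r' h h0 h' h0' e => by
    by_cases h1 : sA S p p' = 0
    · have p0 : p ≠ 0 := fun e => h0 (by ext; simp [e])
      obtain ⟨s, hs⟩ := hS.exists_h_eq_one p0
      have := LinearMap.congr_fun h1 s
      simp [hs, sub_eq_zero] at this
      have e2 : sA S p' r' = sA S p (S.h p' s • r') := by
        conv_lhs => rw [this]
        ext x; simp [smul_smul, mul_comm]
      have c0 : S.h p' s ≠ 0 := fun e => h0' (by rw [e2, e]; ext; simp)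
      have := h'.o
      rw [‹p' = _›] at this
      rw [e2] at h0' ⊢
      exact conn3 hS hV h h0 ⟨h.l, by simp [orth_q_smul, h'.t], by simpa [c0] using this⟩ h0'
    · have h2 : SP S p p' := ⟨h.l, h'.l, e⟩
      have h3 := conn3 hS hV h2.neg (by rwa [sA_neg]) h' h0'
      rw [sA_neg] at h3
      exact (conn3 hS hV h h0 h2 h1).trans h3
  rintro _ ⟨h0, p, r, h, rfl⟩ _ ⟨h0', p', r', h', rfl⟩
  by_cases e : S.h p p' = 0
  · exact key _ _ _ _ h h0 h' h0' e
  have e1 : sA S p r = sA S ((-S.h r p' / S.h p p') • p + (1 : F) • r) (-p) := by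
    ext x; simp [smul_smul]; module
  rw [e1] at h0 ⊢
  exact key _ _ _ _ ⟨h.q _ _, by rw [orth_q_neg, h.l], by simp [h.ll, h.o']⟩ h0 h' h0' (by simp [e])

end S

end H20.RT
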