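import Cfsg.Agent.H20.ThB

/-! Goldschmidt's Theorem A on commuting strongly closed subgroups (`H120.thA`, `s2767`) and the normality of
`C(T)^∞ O(G)` for strongly closed `T` (`H120.thC`, `s1173`), under the hypotheses `G0`, `ZD`, `GBF`. -/

set_option autoImplicit false
set_option linter.unusedSectionVars false
set_option linter.unusedVariables false

namespace H120
open Subgroup Cfsg H18 H4.Gs H20.G3
open H17 hiding Subn card_cj card_mul_relIndex cj cj_bot cj_cj_inv cj_fit cj_inf cj_inv_cj cj_mono cj_mul cj_one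
  cj_sup conj_mem_cj elem_iff elem_zpowers fit_le fit_top le_phi mem_cj mim_cj mim_fit_le phi phi_le
open scoped commutatorElement

universe u
variable {G : Type u} [Group G] [Finite G] {𝒜 ℬ 𝒯 : Set G}
  {A B D E H J K L M N P Q R S T U V W X Y Z : Subgroup G} {a b c e g k t w x y z : G}

theorem gen_mono' (h : 𝒜 ⊆ ℬ) : gen 𝒜 K ≤ gen ℬ K := gen_le_iff.2 fun _ a b => mem_gen_of (h a) b

theorem scl_inter (a : SCl 2 𝒜 H) (b : SCl 2 ℬ H) : SCl 2 (𝒜 ∩ ℬ) H :=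
  ⟨fun x hx => a.pel x hx.1, ⟨a.one, b.one⟩, fun x hx xH g hg => ⟨a.conj x hx.1 xH g hg, b.conj x hx.2 xH g hg⟩,
    fun P hP p x hx xP y hy yP => ⟨a.mul P hP p x hx.1 xP y hy.1 yP, b.mul P hP p x hx.2 xP y hy.2 yP⟩⟩

theorem scl_nml (a : SCl 2 𝒜 H) (hN : H ≤ N(N)) : SCl 2 (𝒜 ∩ N) H :=
  ⟨fun x hx => a.pel x hx.1, ⟨a.one, one_mem _⟩, fun x hx xH g hg => ⟨a.conj x hx.1 xH g hg, conj_mem hN hg hx.2⟩,
    fun P hP p x hx xP y hy yP => ⟨a.mul P hP p x hx.1 xP y hy.1 yP, mul_mem hx.2 hy.2⟩⟩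

/-- commuting strongly closed sets -/
structure Cm (𝒜 ℬ : Set G) (H : Subgroup G) : Prop where
  a : SCl 2 𝒜 H
  b : SCl 2 ℬ H
  c : ∀ P ≤ H, IsPGroup 2 P → gen 𝒜 P ≤ C(gen ℬ P)

theorem cm_of (a : SCl 2 𝒜 H) (b : SCl 2 ℬ H) (hR : IsSyl 2 R H) (c : gen 𝒜 R ≤ C(gen ℬ R)) : Cm 𝒜 ℬ H :=
  ⟨a, b, fun P hP p => by
    obtain ⟨k, hk, e⟩ := hR.exists_le_cj p hP
    refine cent_mono ((cj_cent_iff (g := k)).2 c) ?_ ?_
    · rw [a.cj_gen hR.le hk]; exact gen_mono e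
    · rw [b.cj_gen hR.le hk]; exact gen_mono e⟩

namespace Cm
variable (h : Cm 𝒜 ℬ H)
include h

theorem symm : Cm ℬ 𝒜 H := ⟨h.b, h.a, fun P hP p => cent_symm (h.c P hP p)⟩
theorem mono (hK : K ≤ H) : Cm 𝒜 ℬ K := ⟨h.a.mono hK, h.b.mono hK, fun P hP => h.c P (hP.trans hK)⟩
theorem inter : SCl 2 (𝒜 ∩ ℬ) H := scl_inter h.a h.b

theorem mim {Q : Type u} [Group Q] [Finite Q] {f : D →* Q} (hH : H ≤ D) : Cm (img f 𝒜 H) (img f ℬ H) (mim f H) := by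
  obtain ⟨R, hR⟩ := exists_isSyl 2 H
  refine cm_of (h.a.mim hH) (h.b.mim hH) (hR.mim hH) ?_
  rw [← h.a.mim_gen_syl hH hR, ← h.b.mim_gen_syl hH hR]
  exact mim_cent (h.c R hR.le hR.pgroup)

theorem omega : SCl 2 {x | x ∈ 𝒜 ∩ ℬ ∧ x * x = 1} H :=
  ⟨fun x hx => h.a.pel x hx.1.1, ⟨h.inter.one, mul_one 1⟩,
    fun x hx xH g hg => ⟨h.inter.conj x hx.1 xH g hg, conj_sq hx.2 g⟩,
    fun P hP p x hx xP y hy yP => ⟨h.inter.mul P hP p x hx.1 xP y hy.1 yP, by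
      rw [mul_assoc, ← mul_assoc y, ← comm_of_cent (h.c P hP p) (mem_gen_of hx.1.1 xP) (mem_gen_of hy.1.2 yP),
        mul_assoc, hy.2, mul_one, hx.2]⟩⟩

theorem quo (hR : IsSyl 2 R H) (hN : N ⊴ H) (k : ∀ x ∈ gen 𝒜 R, ∀ y ∈ gen ℬ R, x⁻¹ * y ∈ N → x ∈ ℬ)
    (ih : ⁅gen (img (coset N) 𝒜 H) (H ⫽ N), gen (img (coset N) ℬ H) (H ⫽ N)⁆ ≤
      gen (img (coset N) 𝒜 H ∩ img (coset N) ℬ H) (H ⫽ N) ⊔ oQ 2 (H ⫽ N)) :
    ⁅gen 𝒜 H, gen ℬ H⁆ ≤ gen (𝒜 ∩ ℬ) H ⊔ qpre N (oQ 2 (H ⫽ N)) := by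
  have n := hN.norm
  have l : gen (img (coset N) 𝒜 H ∩ img (coset N) ℬ H) (H ⫽ N) ≤ gen (𝒜 ∩ ℬ) H ⫽ N := by
    refine (h.mim n).inter.gen_le_of_nml (hR.mim n) le_rfl (mim_norm (h.inter.nml_gen le_rfl).norm)
      (gen_le_iff.2 fun z hz zR => ?_)
    obtain ⟨x, hx, xD, rfl⟩ := mem_mim.1 ((h.a.mim_gen_syl n hR).ge (mem_gen_of hz.1 zR))
    obtain ⟨y, hy, yD, e⟩ := mem_mim.1 ((h.b.mim_gen_syl n hR).ge (mem_gen_of hz.2 zR))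
    exact mfun_mem_mim (mem_gen_of ⟨h.a.mem_of_gen hR.pgroup hR.le hx, k x hx y hy ((cs_eq_iff xD yD).1 e.symm)⟩
      (hR.le (gen_le hx)))
  have := ih.trans (sup_le_sup_right l _)
  rw [← mim_gen n, ← mim_gen n, ← mim_comm (gen_le.trans n) (gen_le.trans n),
    mim_le_iff ((comm_le_of_le gen_le gen_le).trans n), qpre_sup, qpre_quo (gen_le.trans n), sup_assoc] at this
  rwa [sup_eq_right.2 le_qpre] at this

end Cm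

theorem cent_qpre (hV : V ⊴ H) (p : IsPGroup 2 V) : qpre V (oQ 2 (H ⫽ V)) ⊓ C(V) ≤ V ⊔ oQ 2 H := by
  have n : qpre V (oQ 2 (H ⫽ V)) ⊓ C(V) ⊴ H := ⟨inf_le_left.trans (nml_qpre hV ⟨oQ_le 2 _, nO⟩).le,
    norm_inf (nml_qpre hV ⟨oQ_le 2 _, nO⟩).norm (norm_C hV.norm)⟩
  obtain ⟨P, hP⟩ := exists_isSyl 2 (qpre V (oQ 2 (H ⫽ V)) ⊓ C(V))
  have l := hP.le.trans (n.le.trans hV.norm)
  obtain ⟨Y, hY, o, e⟩ := exists_odd hP (nml_inf_of_norm (n.le.trans hV.norm)) (le_inf hP.le ((quo_eq_bot_iff l).1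
    (eq_bot_of_pgroup_of_not_dvd (isPGroup_mim hP.pgroup) (od_le ((mim_le_iff l).2 (hP.le.trans inf_le_left)) od_oQ))))
  exact e.trans (sup_le_sup inf_le_right ((le_oQ2 hY (e.trans (sup_le (cent_norm (inf_le_right.trans
    (cent_symm (hY.trans inf_le_right)))) le_N)) o).trans (H17.Subn.of_normal n.le n.norm).oQ_le_oQ))

theorem ls_cent [GBF.{u}] (h : LS 𝒜 A R H) (hL : IsPComp 2 L H) (hA : ¬ A ≤ kr L) : H ⊓ C(A) ≤ N(L) := fun x hx => by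
  by_contra n
  refine hA ((h.inf_le_iff hL).1 fun a ha => comp_le_kr hL (hL.cj_of_mem_normalizer (le_N hx.1))
    (fun e => n (mem_N_iff_cj.2 e)) ?_)
  exact conj_eq_self_of_C1 (C_le_C1 ha.1 hx.2) ▸ conj_mem_cj ha.2

theorem ls_cj [GBF.{u}] (h : LS 𝒜 A R H) (hL : IsPComp 2 L H) (hA : ¬ A ≤ kr L) (hg : g ∈ H) :
    ¬ A ≤ kr (cj g L) := fun e => hA ((h.gen_le_iff hL).1 (by
  have := (h.gen_le_iff (hL.cj_of_mem_normalizer (le_N hg))).2 e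
  rwa [show H17.cj g L = cj g L from rfl, ← h.scl.cj_gen hL.le hg, ← cj_kr, cj_le_cj] at this))

theorem gen_le_N [GBF.{u}] (h : LS 𝒜 A R H) (hL : IsPComp 2 L H) (hA : ¬ A ≤ kr L) (b : SCl 2 ℬ H)
    (c : gen ℬ R ≤ C(A)) : gen ℬ H ≤ N(L) := gen_le_iff.2 fun x hx xH => by
  obtain ⟨k, hk, e⟩ := b.exists_conj h.syl le_rfl hx xH
  have := mem_cj.2 (ls_cent h (hL.cj_of_mem_normalizer (le_N (inv_mem hk))) (ls_cj h hL hA (inv_mem hk))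
    ⟨h.syl.le (gen_le e), c e⟩)
  rwa [cj_N, show H17.cj k⁻¹ L = cj k⁻¹ L from rfl, cj_cj_inv] at this

theorem Cm.loc [G0.{u}] [GBF.{u}] (h : Cm 𝒜 ℬ H) (hR : IsSyl 2 R H) (hO : oQ 2 H = ⊥)
    (hV : gen (𝒜 ∩ ℬ) (oP 2 H) = ⊥) (h0 : gen (𝒜 ∩ ℬ) R ≠ ⊥) : ∃ 𝒞 A L, LS 𝒞 A R H ∧ IsPComp 2 L H ∧ ¬ A ≤ kr L ∧
      A ≤ gen (𝒜 ∩ ℬ) R := by
  have l : gen {x | x ∈ 𝒜 ∩ ℬ ∧ x * x = 1} R ≤ gen (𝒜 ∩ ℬ) R := gen_mono' fun _ h => h.1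
  have s : LS _ _ R H := ⟨h.omega, hR, rfl, ⟨cent_mono (h.c R hR.le hR.pgroup) (l.trans (gen_mono' fun _ h => h.1))
    (l.trans (gen_mono' fun _ h => h.2)), fun a ha => (pow_two a).trans (h.omega.mem_of_gen hR.pgroup hR.le ha).2⟩,
    fun L hL => G0.g0 (ns_kr hL.pqs)⟩
  by_contra c; push Not at c
  have := s.gen_le
  rw [hO, sup_bot_eq, sup_eq_right.2 (sSup_le fun L hL => by_contra fun _ => c _ _ L s hL.1 hL.2 l)] at this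
  obtain ⟨u, hu, uR, u2, u1⟩ := h.inter.exists_inv hR.le h0
  exact u1 (gen_eq_bot.1 hV u hu (le_oP gen_le (h.omega.nml_gen le_rfl).norm (s.pg.to_le this)
    (mem_gen_of ⟨hu, u2⟩ (hR.le uR))))

theorem inn_of {K' : Subgroup (Coset (kr L))} (g : GT (L ⫽ kr L) (T ⫽ kr L) (A ⫽ kr L) K') (hL : ⁅L, L⁆ = L) (hT : T ≤ L) (hA : A ≤ N(L))
    (h1 : X ≤ N(L)) (h2 : X ≤ N(T)) (h3 : T ≤ N(X)) (h4 : X ≤ C(A)) (p : IsPGroup 2 X)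
    (h : X ⫽ kr L ⊓ T ⫽ kr L ≤ A ⫽ kr L) : X ≤ A ⊔ kr L := by
  rw [← quo_le_quo_iff (h1.trans N_le_N_kr) (hA.trans N_le_N_kr)]
  intro y hy
  obtain ⟨t, ht, e⟩ := g.inner y ⟨⟨mim_norm h1 hy, mim_norm h2 hy⟩, mim_cent h4 hy⟩ (pg_mem (isPGroup_mim p) hy)
    (le_trans (le_inf ((H18.comm_mono le_rfl (zpowers_le.2 hy)).trans (comm_le_right (mim_norm h3)))
      (comm_le_left ((zpowers_le.2 hy).trans (mim_norm h2)))) h)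
  obtain ⟨y, hy', rfl⟩ := (mem_quo (h1.trans N_le_N_kr)).1 hy
  obtain ⟨t, ht', rfl⟩ := (mem_quo (hT.trans le_N_kr)).1 ht
  rw [← mfun_inv (le_N_kr (hT ht')), ← mfun_mul (inv_mem (le_N_kr (hT ht'))) (N_le_N_kr (h1 hy'))] at e
  exact h ⟨hy, (cs_eq_iff (le_N_kr (hT ht')) (N_le_N_kr (h1 hy'))).2
    (mem_kr_of_cs hL (mul_mem (inv_mem (le_N (hT ht'))) (h1 hy')) e) ▸ ht⟩

theorem Cm.dich [GBF.{u}] {𝒞 : Set G} (h : Cm 𝒜 ℬ H) (s : LS 𝒞 A R H) (hL : IsPComp 2 L H) (hA : ¬ A ≤ kr L)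
    (l : A ≤ gen (𝒜 ∩ ℬ) R) (n : H ≤ N(L)) : gen 𝒜 R ≤ A ⊔ kr L ∨ gen ℬ R ≤ A ⊔ kr L := by
  obtain ⟨K, d⟩ := s.ld hL hA
  have hR := s.syl
  have nk := n.trans N_le_N_kr
  have k : ∀ {𝒜 ℬ}, Cm 𝒜 ℬ H → A ≤ gen ℬ R → gen 𝒜 R ⫽ kr L ⊓ (R ⊓ L) ⫽ kr L ≤ A ⫽ kr L → gen 𝒜 R ≤ A ⊔ kr L :=
    fun h l => inn_of d.gt hL.perfect inf_le_right (s.norm hL) (gen_le.trans (hR.le.trans n))
      (gen_le.trans (norm_inf le_N (hR.le.trans n))) (inf_le_left.trans (h.a.nml_gen hR.le).norm)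
      ((h.c R hR.le hR.pgroup).trans (C_anti l)) (hR.pgroup.to_le gen_le)
  have k2 : ∀ {𝒜}, SCl 2 𝒜 H → L ⫽ kr L ⊓ N((R ⊓ L) ⫽ kr L) ≤ N(gen 𝒜 R ⫽ kr L ⊓ (R ⊓ L) ⫽ kr L) := fun a => by
    rw [a.mim_gen_syl nk hR, ← (a.mim nk).gen_eq_inf (hR.mim nk).pgroup (hR.mim nk).le (mim_mono inf_le_left)]
    exact (a.mim nk).norm_gen (mim_mono (inf_le_left.trans hR.le)) (inf_le_left.trans (mim_mono hL.le)) inf_le_right
  refine Or.imp (k h (l.trans (gen_mono' fun _ h => h.2))) (k h.symm (l.trans (gen_mono' fun _ h => h.1))) ?_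
  rcases d.alt with bt | ⟨-, e, -⟩
  · exact bt_cc bt inf_le_right inf_le_right (k2 h.a) (k2 h.b)
      (cent_mono (mim_cent (h.c R hR.le hR.pgroup)) inf_le_left inf_le_left)
  · exact Or.inl (inf_le_right.trans e.le)

theorem thA_aux [G0.{u}] [ZD.{u}] [GBF.{u}] (n : ℕ) : ∀ {G : Type u} [Group G] [Finite G] {𝒜 ℬ : Set G}
    {H : Subgroup G}, Nat.card H + Nat.card (gen 𝒜 H) + Nat.card (gen ℬ H) = n → Cm 𝒜 ℬ H →
    ⁅gen 𝒜 H, gen ℬ H⁆ ≤ gen (𝒜 ∩ ℬ) H ⊔ oQ 2 H := by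
  induction n using Nat.strong_induction_on with | _ n ih => ?_
  intro G _ _ 𝒜 ℬ H e h
  subst e
  obtain ⟨R, hR⟩ := exists_isSyl 2 H
  have q : ∀ {N}, N ⊴ H → N ≠ ⊥ → (∀ x ∈ gen 𝒜 R, ∀ y ∈ gen ℬ R, x⁻¹ * y ∈ N → x ∈ ℬ) →
      ⁅gen 𝒜 H, gen ℬ H⁆ ≤ gen (𝒜 ∩ ℬ) H ⊔ qpre N (oQ 2 (H ⫽ N)) := fun {N} hN h0 k =>
    h.quo hR hN k (ih _ (by
      rw [← mim_gen hN.norm, ← mim_gen hN.norm]
      exact add_lt_add_of_lt_of_le (add_lt_add_of_lt_of_le (card_quo_lt hN h0) card_mim_le) card_mim_le) rfl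
      (h.mim hN.norm))
  by_cases hO : oQ 2 H = ⊥
  swap
  · have := q ⟨oQ_le 2 H, nO⟩ hO fun x hx y hy e => by
      obtain rfl := inv_mul_eq_one.1 (mem_bot.1 (pg_inf_od hR.pgroup od_oQ ▸
        mem_inf.2 ⟨mul_mem (inv_mem (gen_le hx)) (gen_le hy), e⟩))
      exact h.b.mem_of_gen hR.pgroup hR.le hy
    rwa [oQ_quo_oQ, qpre_bot] at this
  have nA : gen 𝒜 H ⊴ H := h.a.nml_gen le_rfl
  have nB : gen ℬ H ⊴ H := h.b.nml_gen le_rfl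
  have nC : gen (𝒜 ∩ ℬ) H ⊴ H := h.inter.nml_gen le_rfl
  have nM := nC.sup ⟨oQ_le 2 H, nO⟩
  by_cases hV : gen (𝒜 ∩ ℬ) (oP 2 H) = ⊥
  swap
  · have nV := h.inter.nml_gen' ⟨oP_le 2 H, le_normalizer_oP 2 H⟩
    have l : gen (𝒜 ∩ ℬ) (oP 2 H) ≤ gen ℬ R := (gen_mono' fun _ h => h.2).trans (gen_mono hR.oP_le)
    have c : gen 𝒜 H ≤ C(gen (𝒜 ∩ ℬ) (oP 2 H)) := h.a.gen_le_of_nml hR le_rfl (norm_C nV.norm)
      ((h.c R hR.le hR.pgroup).trans (C_anti l))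
    have := le_inf (q nV hV fun x hx y hy e => h.b.mem_of_gen hR.pgroup hR.le (by
      simpa using mul_mem hy (inv_mem (l e)))) ((comm_le_left (nB.le.trans nA.norm)).trans c)
    rw [Nrm2.modular (nC.nrm2 (nml_qpre nV ⟨oQ_le 2 _, nO⟩).le) ((gen_mono' fun _ h => h.1).trans c)] at this
    exact this.trans (sup_le le_sup_left ((cent_qpre nV ((oP_pgroup 2 H).to_le gen_le)).trans
      (sup_le_sup_right (gen_mono (oP_le 2 H)) _)))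
  by_cases h0 : gen (𝒜 ∩ ℬ) R = ⊥
  · exact (pf ⟨h.a, h.b, fun x a b => gen_eq_bot.1 (h.inter.gen_eq_bot_of_syl hR le_rfl h0) x ⟨a, b⟩⟩).trans
      le_sup_right
  by_cases eH : H = gen 𝒜 H ⊔ gen ℬ H
  swap
  · have n := nA.sup nB
    have := ih _ (by
      rw [gen_eq_of_le le_sup_left n.le, gen_eq_of_le le_sup_right n.le]
      exact Nat.add_lt_add_right (Nat.add_lt_add_right (card_lt (n.le.lt_of_ne' eH)) _) _) rfl (h.mono n.le)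
    rw [gen_eq_of_le le_sup_left n.le, gen_eq_of_le le_sup_right n.le] at this
    exact this.trans (sup_le_sup (gen_mono n.le) (H17.Subn.of_normal n.le n.norm).oQ_le_oQ)
  obtain ⟨𝒞, A, L, s, hL, hA, l⟩ := h.loc hR hO hV h0
  have la : A ≤ gen 𝒜 R := l.trans (gen_mono' fun _ h => h.1)
  have lb : A ≤ gen ℬ R := l.trans (gen_mono' fun _ h => h.2)
  have n : H ≤ N(L) := eH.le.trans (sup_le (gen_le_N s hL hA h.a ((h.c R hR.le hR.pgroup).trans (C_anti lb)))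
    (gen_le_N s hL hA h.b ((h.symm.c R hR.le hR.pgroup).trans (C_anti la))))
  have lL : L ≤ gen (𝒜 ∩ ℬ) H := ((comm_eq_or hL.pqs (s.norm hL)).resolve_right hA).ge.trans
    ((H18.comm_mono (l.trans (gen_mono hR.le)) le_rfl).trans (comm_le_left (hL.le.trans nC.norm)))
  have k : ∀ {𝒜' ℬ'}, Cm 𝒜' ℬ' H → A ≤ gen 𝒜' R → gen (𝒜' ∩ ℬ') H = gen (𝒜 ∩ ℬ) H →
      Nat.card (gen 𝒜' H) + Nat.card (gen ℬ' H) = Nat.card (gen 𝒜 H) + Nat.card (gen ℬ H) →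
      gen 𝒜' R ≤ A ⊔ kr L → ⁅gen 𝒜' H, gen ℬ' H⁆ ≤ gen (𝒜 ∩ ℬ) H ⊔ oQ 2 H := fun {𝒜' ℬ'} h la e1 e2 e3 => by
    have a := scl_nml h.a (n.trans N_le_N_kr)
    have lt : gen (𝒜' ∩ kr L) H < gen 𝒜' H := lt_of_le_of_ne (gen_mono' fun _ h => h.1) fun e =>
      hA (la.trans ((gen_mono hR.le).trans (e.ge.trans (gen_le_iff.2 fun _ h _ => h.2))))
    have := ih _ (by have := card_lt lt; omega) rfl (⟨a, h.b, fun P hP p =>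
      (gen_mono' fun _ h => h.1).trans (h.c P hP p)⟩ : Cm (𝒜' ∩ kr L) ℬ' H)
    refine (H18.comm_mono (h.a.gen_le_of_nml (X := L ⊔ gen (𝒜' ∩ kr L) H) hR le_rfl
      (norm_sup n (a.nml_gen le_rfl).norm) ?_) le_rfl).trans (comm_sup_le
        ((comm_le_left (gen_le.trans n)).trans (lL.trans le_sup_left))
        (this.trans (sup_le_sup_right (e1 ▸ gen_mono' fun _ h => ⟨h.1.1, h.2⟩) _))
        (hL.le.trans nM.norm) (gen_le.trans nM.norm))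
    have := le_inf le_rfl (e3.trans (sup_le ((s.inn hL).trans (sup_le_sup_left inf_le_right _)) le_sup_right))
    rw [Nrm2.modular_left (Or.inl (inf_le_right.trans le_N_kr)) (inf_le_left.trans la)] at this
    exact this.trans (sup_le_sup inf_le_right fun x hx =>
      mem_gen_of ⟨h.a.mem_of_gen hR.pgroup hR.le hx.1, hx.2⟩ (hR.le (gen_le hx.1)))
  rcases h.dich s hL hA l n with e | e
  · exact k h la rfl rfl e
  · exact H18.comm_comm.le.trans (k h.symm lb (by rw [Set.inter_comm]) (add_comm _ _) e)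

/-- Goldschmidt's Theorem A -/
theorem thA [G0.{u}] [ZD.{u}] [GBF.{u}] (h : Cm 𝒜 ℬ H) : ⁅gen 𝒜 H, gen ℬ H⁆ ≤ gen (𝒜 ∩ ℬ) H ⊔ oQ 2 H :=
  thA_aux _ rfl h

theorem s2767 [G0.{u}] [ZD.{u}] [GBF.{u}] (S : Sylow 2 G) (S₁ S₂ : Subgroup G)
    (h₁ : IsStronglyClosed S₁ (S : Subgroup G)) (h₂ : IsStronglyClosed S₂ (S : Subgroup G))
    (hc : ∀ a ∈ S₁, ∀ b ∈ S₂, a * b = b * a) :
    ⁅normalClosure (S₁ : Set G), normalClosure (S₂ : Set G)⁆ ≤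
      normalClosure ((S₁ ⊓ S₂ : Subgroup G) : Set G) ⊔ pPrimeCore 2 G := by
  have hS := isSyl_sylow S
  have h := cm_of (scl_cl hS h₁) (scl_cl hS h₂) hS (by rw [gen_cl hS h₁, gen_cl hS h₂]; exact cent_iff.2 hc)
  have := thA h
  rw [gen_cl_top, gen_cl_top, oQ_top] at this
  refine this.trans (sup_le_sup_right (h.inter.gen_le_of_nml hS le_rfl norm_of_normal (gen_le_iff.2 fun x hx xS =>
    subset_normalClosure ?_)) _)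
  exact mem_inf.2 ⟨mem_of_cl h₁ hx.1 xS, mem_of_cl h₂ hx.2 xS⟩

end H120
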