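import Cfsg.Agent.H20.ThA

/-! A perfect subgroup centralizing a strongly closed `2`-subgroup `T` centralizes `⟨T^G⟩` modulo `O(G)`
(`H120.thC`, `s1173`), under the hypotheses `G0`, `ZD`, `GBF`. -/

set_option autoImplicit false
set_option linter.unusedSectionVars false
set_option linter.unusedVariables false

namespace H120
open Subgroup Cfsg H18 H4.Gs H20.G3
open H17 hiding Subn card_cj card_mul_relIndex cj cj_bot cj_cj_inv cj_fit cj_inf cj_inv_cj cj_mono cj_mul cj_one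
  cj_sup conj_mem_cj elem_iff elem_zpowers fit_le fit_top le_phi mem_cj mim_cj mim_fit_le phi phi_le
open scoped commutatorElement

universe u
variable {G : Type u} [Group G] [Finite G] {𝒜 ℬ 𝒯 : Set G}
  {A B D E H J K L M N P Q R S T U V W X Y Z : Subgroup G} {a b c e g k t w x y z : G}

/-- the `2`-elements of perfect subgroups centralizing `𝒯 ∩ R` for a Sylow subgroup `R` -/
def Gd (𝒯 : Set G) (H : Subgroup G) : Set G :=
  {x | IsPGroup 2 (zpowers x) ∧ ∃ R D, IsSyl 2 R H ∧ ⁅D, D⁆ = D ∧ D ≤ H ⊓ C(gen 𝒯 R) ∧ x ∈ D}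

/-- the statement for `H` -/
def CP (𝒯 : Set G) (H : Subgroup G) : Prop :=
  ∀ R D, IsSyl 2 R H → ⁅D, D⁆ = D → D ≤ H ⊓ C(gen 𝒯 R) → ⁅D, gen 𝒯 H⁆ ≤ oQ 2 H

section
variable (hs : SCl 2 𝒯 H) (hx : x ∈ Gd 𝒯 H)
include hs hx

theorem conjT (hQ : IsPGroup 2 Q) (l : Q ≤ H ⊓ C1(x)) : ∃ D, ⁅D, D⁆ = D ∧ D ≤ H ⊓ C(gen 𝒯 Q) ∧ x ∈ D := by
  obtain ⟨-, R, D, hR, hD, l', m⟩ := hx
  have t : gen 𝒯 R ≤ H ⊓ C1(x) := le_inf (gen_le.trans hR.le) (le_C1_iff.2 (l' m).2)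
  obtain ⟨R', hR', e⟩ := exists_isSyl_ge (hR.pgroup.to_le gen_le) t
  have e' := hs.gen_eq hR le_rfl hR'.pgroup (hR'.le.trans inf_le_left) e
  obtain ⟨c, hc, k⟩ := hR'.exists_le_cj hQ l
  refine ⟨cj c D, perf_cj hD c, le_inf (cj_le_of_mem (l'.trans inf_le_left) hc.1)
    (cent_mono ((cj_cent_iff (g := c)).2 (l'.trans inf_le_right)) le_rfl ?_),
    conj_eq_self_of_C1 hc.2 ▸ conj_mem_cj m⟩
  rw [← e', hs.cj_gen (hR'.le.trans inf_le_left) hc.1]; exact gen_mono k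

theorem card_max (hQ : IsSyl 2 Q (H ⊓ C1(x))) (hP : IsPGroup 2 P) (l : P ≤ H) :
    Nat.card (gen 𝒯 P) ≤ Nat.card (gen 𝒯 Q) := by
  obtain ⟨-, R, D, hR, hD, l', m⟩ := hx
  have := hs.card_gen_le hQ inf_le_left (hR.pgroup.to_le gen_le)
    (le_inf (gen_le.trans hR.le) (le_C1_iff.2 (l' m).2) : gen 𝒯 R ≤ H ⊓ C1(x))
  rw [gen_gen] at this
  exact (hs.card_gen_le hR le_rfl hP l).trans this

variable (ih : ∀ M ≤ H, ¬ H ≤ M → CP 𝒯 M) (hV : gen 𝒯 (oP 2 H) = ⊥)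
include ih hV

theorem star (P : Subgroup G) : P ≤ H ⊓ C1(x) → IsPGroup 2 P → gen 𝒯 P = P → P ≠ ⊥ →
    ⁅zpowers x, gen 𝒯 (H ⊓ N(P))⁆ ≤ oQ 2 (H ⊓ N(P)) := by
  induction P using WellFoundedGT.induction with | ind P ih2 => ?_
  intro l p e h0
  have xH : x ∈ H := by obtain ⟨-, R, D, -, -, l, m⟩ := hx; exact (l m).1
  have xP : x ∈ C(P) := le_C1_iff.1 (l.trans inf_le_right)
  obtain ⟨Q, hQ, lQ⟩ := exists_isSyl_ge (isPGroup_sup (cent_norm (zpowers_le.2 xP)) hx.1 p) (H := H ⊓ C1(x) ⊓ N(P))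
    (sup_le (zpowers_le.2 ⟨⟨xH, C1_self⟩, C_le_N xP⟩) (le_inf l le_N))
  obtain ⟨Q', hQ', l'⟩ := exists_isSyl_ge hQ.pgroup (hQ.le.trans inf_le_left)
  obtain ⟨Qs, hQs, ls⟩ := exists_isSyl_ge hQ.pgroup (H := H ⊓ N(P)) (hQ.le.trans (inf_le_inf_right _ inf_le_left))
  have PT : P ≤ gen 𝒯 Q := e.ge.trans (gen_mono (le_sup_right.trans lQ))
  have key : gen 𝒯 Q = gen 𝒯 Qs := by
    rcases PT.eq_or_lt with k | k
    · have : P = gen 𝒯 Q' := by
        by_contra ne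
        have lt := lt_normalizer_of_pgroup (hQ'.pgroup.to_le gen_le) ((PT.trans (gen_mono l')).lt_of_ne ne)
        rw [hs.gen_inf hQ'.pgroup (hQ'.le.trans inf_le_left), hQ.eq_of_le hQ'.pgroup.to_inf_left
          (le_inf l' (hQ.le.trans inf_le_right)) (inf_le_inf_right _ hQ'.le), ← k] at lt
        exact lt.false
      refine eq_of_card_ge (gen_mono ls) ?_
      rw [← k, this]
      exact card_max hs hx hQ' hQs.pgroup (hQs.le.trans inf_le_left)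
    · by_contra ne
      have lt := lt_normalizer_of_pgroup (hQs.pgroup.to_le gen_le) ((gen_mono ls).lt_of_ne ne)
      have s := ih2 _ k (gen_le.trans (hQ.le.trans inf_le_left)) (hQ.pgroup.to_le gen_le) gen_gen (ne_bot_of_gt k)
      rw [hs.gen_inf hQs.pgroup (hQs.le.trans inf_le_left)] at lt
      have c : ⁅zpowers x, gen 𝒯 (Qs ⊓ N(gen 𝒯 Q))⁆ = ⊥ := le_bot_iff.1 ((le_inf (comm_le_of_le
        (le_sup_left.trans (lQ.trans ls)) (gen_le.trans inf_le_left)) ((H18.comm_mono le_rfl (gen_mono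
        (inf_le_inf_right _ (hQs.le.trans inf_le_left)))).trans s)).trans (pg_inf_od hQs.pgroup od_oQ).le)
      have : Qs ⊓ C1(x) = Q := hQ.eq_of_le hQs.pgroup.to_inf_left (le_inf ls (hQ.le.trans
        (inf_le_left.trans inf_le_right))) fun y hy => ⟨⟨(hQs.le hy.1).1, hy.2⟩, (hQs.le hy.1).2⟩
      exact lt.not_ge (gen_le_iff.2 fun y a b => mem_gen_of a (this.le
        ⟨b.1, zpowers_le_C_iff.1 (comm_eq_bot_iff.1 c) (mem_gen_of a b)⟩))
  obtain ⟨D, hD, lD, m⟩ := conjT hs hx hQ.pgroup (hQ.le.trans inf_le_left)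
  refine (H18.comm_mono (zpowers_le.2 m) le_rfl).trans (ih _ inf_le_left (fun k => h0 ?_) Qs D hQs hD
    (le_inf (le_inf (lD.trans inf_le_left) (cent_norm (lD.trans (inf_le_right.trans (C_anti PT)))))
      (key ▸ lD.trans inf_le_right)))
  exact le_bot_iff.1 (hV ▸ e.ge.trans (gen_mono (le_oP (l.trans inf_le_left) (k.trans inf_le_right) p)))

theorem cent_gd (hP : IsPGroup 2 P) (l : P ≤ H) (m : x ∈ P) : gen 𝒯 P ≤ C1(x) := by
  by_contra ne
  have p := hP.to_le (gen_le (𝒜 := 𝒯))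
  have h0 := inf_centralizer_ne_bot p hx.1 ((zpowers_le.2 m).trans (hs.nml_gen l).norm) fun e => ne (e ▸ bot_le)
  rw [C_zpowers] at h0
  have lt := lt_normalizer_of_pgroup p (inf_lt_left.2 ne)
  have s := star hs hx ih hV (gen 𝒯 P ⊓ C1(x)) (inf_le_inf_right _ (gen_le.trans l)) p.to_inf_left
    (by rw [hs.gen_inf hP l, gen_gen]) h0
  have c := le_bot_iff.1 ((le_inf (comm_le_of_le (zpowers_le.2 m) (inf_le_left.trans gen_le)) ((H18.comm_mono le_rfl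
    ((hs.gen_inf hP l).le.trans (gen_mono (inf_le_inf_right _ l)))).trans s)).trans (pg_inf_od hP od_oQ).le)
  exact lt.not_ge (le_inf inf_le_left (zpowers_le_C_iff.1 (comm_eq_bot_iff.1 c)))

theorem mem_pr (hP : IsPGroup 2 P) (l : P ≤ H) (m : x ∈ P) : x ∈ pr (H ⊓ C(gen 𝒯 P)) := by
  obtain ⟨D, hD, lD, m⟩ := conjT hs hx (hP.to_le gen_le) (le_inf (gen_le.trans l) (cent_gd hs hx ih hV hP l m))
  rw [gen_gen] at lD
  exact le_pr lD hD m

end

theorem scl_gd (hs : SCl 2 𝒯 H) (ih : ∀ M ≤ H, ¬ H ≤ M → CP 𝒯 M) (hV : gen 𝒯 (oP 2 H) = ⊥) : SCl 2 (Gd 𝒯 H) H where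
  pel x hx _ := isPGroup_iff_forall.1 hx.1 x (mem_zpowers x)
  one := have ⟨R, hR⟩ := exists_isSyl 2 H
    ⟨pg_zp (mul_one 1), R, ⊥, hR, commutator_bot_left _, bot_le, one_mem _⟩
  conj x hx _ g hg := by
    obtain ⟨p, R, D, hR, hD, l, m⟩ := hx
    refine ⟨pg_conj g p, cj g R, cj g D, hR.cj_of_mem_normalizer (le_N hg), perf_cj hD g,
      le_inf (cj_le_of_mem (l.trans inf_le_left) hg) ?_, conj_mem_cj m⟩
    rw [← hs.cj_gen hR.le hg]; exact cj_cent_iff.2 (l.trans inf_le_right)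
  mul P hP p x hx xP y hy yP := have ⟨R, hR, l⟩ := exists_isSyl_ge p hP
    ⟨pg_mem p (mul_mem xP yP), R, _, hR, pr_perf, pr_le, mul_mem (mem_pr hs hx ih hV hR.pgroup hR.le (l xP))
      (mem_pr hs hy ih hV hR.pgroup hR.le (l yP))⟩

theorem thC_aux [G0.{u}] [ZD.{u}] [GBF.{u}] (n : ℕ) : ∀ {G : Type u} [Group G] [Finite G] {𝒯 : Set G}
    {H : Subgroup G}, Nat.card H = n → SCl 2 𝒯 H → CP 𝒯 H := by
  induction n using Nat.strong_induction_on with | _ n ih => ?_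
  intro G _ _ 𝒯 H e hs R D hR hD l
  subst e
  have DH := l.trans inf_le_left
  have q : ∀ {N}, N ⊴ H → N ≠ ⊥ → ⁅D, gen 𝒯 H⁆ ≤ qpre N (oQ 2 (H ⫽ N)) := fun {N} hN h0 => by
    have n := hN.norm
    have := ih _ (card_quo_lt hN h0) rfl (hs.mim n) (R ⫽ N) (D ⫽ N) (hR.mim n)
      (by rw [← mim_comm (DH.trans n) (DH.trans n), hD]) (le_inf (mim_mono DH) (by
        rw [← hs.mim_gen_syl n hR]; exact mim_cent (l.trans inf_le_right)))
    rwa [← mim_gen n, ← mim_comm (DH.trans n) (gen_le.trans n),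
      mim_le_iff ((comm_le_of_le DH gen_le).trans n)] at this
  by_cases hO : oQ 2 H = ⊥
  swap
  · have := q ⟨oQ_le 2 H, nO⟩ hO
    rwa [oQ_quo_oQ, qpre_bot] at this
  by_cases hV : gen 𝒯 (oP 2 H) = ⊥
  swap
  · have nV := hs.nml_gen' ⟨oP_le 2 H, le_normalizer_oP 2 H⟩
    have c : D ≤ C(gen 𝒯 (oP 2 H)) := l.trans (inf_le_right.trans (C_anti (gen_mono hR.oP_le)))
    have := (le_inf (q nV hV) ((H18.comm_mono c le_rfl).trans (comm_le_left (gen_le.trans (norm_C nV.norm))))).trans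
      (cent_qpre nV ((oP_pgroup 2 H).to_le gen_le))
    rw [hO, sup_bot_eq, H18.comm_comm] at this
    rw [hO, H18.comm_comm]
    exact commutator_le_of_perfect hD (by simp) (by simp) (comm_eq_bot_iff.2 (this.trans (cent_symm c))).le
  have ih' : ∀ M ≤ H, ¬ H ≤ M → CP 𝒯 M := fun M hM k =>
    ih _ (card_lt (hM.lt_of_ne fun e => k e.ge)) rfl (hs.mono hM)
  have s := scl_gd hs ih' hV
  have l1 : gen (Gd 𝒯 H) R ≤ pr (H ⊓ C(gen 𝒯 R)) := gen_le_iff.2 fun x hx m => mem_pr hs hx ih' hV hR.pgroup hR.le m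
  have h := cm_of s hs hR (l1.trans (pr_le.trans inf_le_right))
  by_cases h0 : gen (Gd 𝒯 H ∩ 𝒯) R = ⊥
  · obtain ⟨P, hP⟩ := exists_isSyl 2 D
    refine (H18.comm_mono (perf_le hD hP (DH.trans (s.nml_gen le_rfl).norm) fun x hx => mem_gen_of
      ⟨pg_mem hP.pgroup hx, R, D, hR, hD, l, hP.le hx⟩ (DH (hP.le hx))) le_rfl).trans (pf ⟨s, hs, fun x a b =>
      gen_eq_bot.1 (h.inter.gen_eq_bot_of_syl hR le_rfl h0) x ⟨a, b⟩⟩)
  obtain ⟨𝒞, A, L, ls, hL, hA, k⟩ := h.loc hR hO (le_bot_iff.1 (hV ▸ gen_mono' fun _ h => h.2)) h0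
  have c : pr (H ⊓ C(gen 𝒯 R)) ≤ H ⊓ C(A) :=
    pr_le.trans (inf_le_inf_left _ (C_anti (k.trans (gen_mono' fun _ h => h.2))))
  have n := c.trans (ls_cent ls hL hA)
  have p : ⁅pr (H ⊓ C(gen 𝒯 R)) ⫽ kr L, pr (H ⊓ C(gen 𝒯 R)) ⫽ kr L⁆ = pr (H ⊓ C(gen 𝒯 R)) ⫽ kr L := by
    rw [← mim_comm (n.trans N_le_N_kr) (n.trans N_le_N_kr), pr_perf]
  have c' := mim_cent (f := coset (kr L)) (c.trans inf_le_right)
  obtain ⟨K, d⟩ := ls.ld hL hA
  refine (hA (k.trans ((gen_mono' fun _ h => h.1).trans (l1.trans (le_kr_of_quo hL.perfect n ?_))))).elim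
  rcases d.alt with bt | ⟨-, e, -⟩
  · exact bt_perf bt p (mim_norm n) c'
  · have n' : pr (H ⊓ C(gen 𝒯 R)) ⫽ kr L ≤ N((R ⊓ L) ⫽ kr L) := by rw [e]; exact cent_norm c'
    exact gt_perf d.gt p (mim_norm n) c' n' fun y hy _ => (comm_le_left ((zpowers_le.2 hy).trans n')).trans e.le

theorem thC [G0.{u}] [ZD.{u}] [GBF.{u}] (hs : SCl 2 𝒯 H) (hR : IsSyl 2 R H) (hD : ⁅D, D⁆ = D) (h1 : D ≤ H)
    (h2 : D ≤ C(gen 𝒯 R)) : ⁅D, gen 𝒯 H⁆ ≤ oQ 2 H := thC_aux _ rfl hs R D hR hD (le_inf h1 h2)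

theorem map_iInf_derived (X : Subgroup G) : (⨅ n : ℕ, derivedSeries X n).map X.subtype = pr X := by
  obtain ⟨_, ⟨m, rfl⟩, hm⟩ := WellFounded.has_min (wellFounded_lt (α := Subgroup X)) (Set.range (derivedSeries X))
    ⟨_, 0, rfl⟩
  have l : ∀ n, derivedSeries X m ≤ derivedSeries X n := fun n => by
    rcases le_total n m with e | e
    · exact derivedSeries_antitone _ e
    · exact ((derivedSeries_antitone _ e).eq_or_lt.resolve_right (hm _ ⟨n, rfl⟩)).ge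
  have k : ∀ n, pr X ≤ (derivedSeries X n).map X.subtype := fun n => by
    induction n with
    | zero => exact fun x hx => ⟨⟨x, pr_le hx⟩, trivial, rfl⟩
    | succ n ih => rw [derivedSeries_succ, map_commutator]; exact pr_perf.ge.trans (der_mono ih)
  rw [le_antisymm (iInf_le _ m) (le_iInf l)]
  refine le_antisymm (le_pr (map_subtype_le _) ?_) (k m)
  rw [← map_commutator, ← derivedSeries_succ, le_antisymm (derivedSeries_antitone _ m.le_succ) (l _)]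

theorem s1173 [G0.{u}] [ZD.{u}] [GBF.{u}] (hO : oddCore G = ⊥) (S : Sylow 2 G) (T : Subgroup G)
    (hT : IsStronglyClosed T (S : Subgroup G)) :
    ((⨅ n : ℕ, derivedSeries ↥(centralizer (T : Set G)) n).map (centralizer (T : Set G)).subtype).Normal := by
  have hS := isSyl_sylow S
  have c := thC (scl_cl hS hT) hS (pr_perf (X := C(T))) le_top (by rw [gen_cl hS hT]; exact pr_le)
  rw [gen_cl_top, oQ_top, show pPrimeCore 2 G = ⊥ from hO, le_bot_iff, comm_eq_bot_iff] at c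
  rw [map_iInf_derived]
  refine normalizer_eq_top_iff.1 (eq_top_iff.2 fun g _ => mem_N_of_cj_le (le_pr ?_ (perf_cj pr_perf g)))
  exact (cj_le_of_mem_N c (norm_C norm_of_normal (mem_top g))).trans (C_anti fun x hx => subset_normalClosure hx)

end H120
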