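import Cfsg.Agent.H20.Tp3
import Cfsg.Agent.H29.Trans

/-! Overgroups of `Ω(U) ⊗ Ω(W)` in `Ω(U ⊗ W)`, `q` odd, `dim U ≥ 5`, part 1: the structure `TO` and
`TO.nl_or` (a non-trivial element of the long level gives the whole group). -/

set_option autoImplicit false
set_option linter.unusedSectionVars false

namespace H20.To

open Module H11 H11.PForm H29 H20.Pl

variable {F U W V : Type*} [Field F] [AddCommGroup U] [Module F U] [AddCommGroup W] [Module F W]
  [AddCommGroup V] [Module F V] [FiniteDimensional F U] [FiniteDimensional F W]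
  [FiniteDimensional F V] {A : PForm (orthP F) U} {T : PForm (orthP F) W} {S : PForm (orthP F) V}
  {H : Subgroup S.Isom} {t : U →ₗ[F] W →ₗ[F] V} {c : U →ₗ[F] V →ₗ[F] W} {e e' u v : U}
  {f f' p w x y z : W} {σ σ' : W →ₗ[F] W}

theorem oe (hf : T.q f = 0) (hz : T.h f z = 0) (x : W) : (T.eich f z (T.q z)).1 x =
    x + T.h f x • z - (T.h z x + T.q z * T.h f x) • f := by
  simpa using eich_apply (.of_q ((T.orth_sing _).2 hf) hz) x

theorem oe' (hf : T.q f = 0) (hz : T.h f z = 0) (x : W) : (T.eich f z (T.q z))⁻¹.1 x =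
    x - T.h f x • z + (T.h z x - T.q z * T.h f x) • f := by
  rw [← orth_eich_neg hf hz, oe hf (by simp [hz]), orth_q_neg]
  simp only [map_neg, LinearMap.neg_apply]
  module

theorem hyp (hT : T.Nondeg) (hf : T.q f = 0) (h0 : f ≠ 0) : ∃ f', T.q f' = 0 ∧ T.h f f' = 1 :=
  let ⟨f', h⟩ := hT.exists_isHyp ((T.orth_sing _).2 hf) h0
  ⟨f', (T.orth_sing _).1 h.sing_f, h.h_ef⟩

theorem ex_sing [Finite F] (h3 : 3 ≤ finrank F W) : ∃ f, f ≠ 0 ∧ T.q f = 0 :=
  let ⟨f, _, a, b⟩ := iso3_orth T ⊤ (by simpa using h3); ⟨f, a, (T.orth_sing _).1 b⟩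

theorem ex_perp (hT : T.Nondeg) (l : List W) (hl : l.length < finrank F W)
    (hd : ∀ w, ∃ y, (∀ a ∈ l, T.h a y = 0) ∧ ∀ z, (∀ a ∈ l, T.h z a = 0) → T.h z y = T.h z w) :
    ∃ y, T.q y ≠ 0 ∧ ∀ a ∈ l, T.h a y = 0 := by
  by_contra! h
  have h1 : ∀ y, (∀ a ∈ l, T.h a y = 0) → T.q y = 0 := fun y hy => by_contra fun e =>
    (h y e).elim fun a ha => ha.2 (hy a ha.1)
  obtain ⟨z, -, z0, z1⟩ := exists_mem_ker_notMem (l.map fun x => T.h x) ⊤ (⊥ : Submodule F W) (by simpa)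
  replace z1 : ∀ a ∈ l, T.h a z = 0 := by simpa using z1
  refine z0 (hT z fun w => ?_)
  obtain ⟨y, y1, y2⟩ := hd w
  rw [← y2 z fun a ha => T.h_swap_zero (z1 a ha)]
  simpa [orth_q_add, h1 z z1, h1 y y1] using h1 (z + y) fun a ha => by simp [z1 a ha, y1 a ha]

theorem ex_ns2 (hT : T.Nondeg) (h3 : 3 ≤ finrank F W) (hf : T.q f = 0) (hf' : T.q f' = 0)
    (h : T.h f f' = 1) : ∃ x, T.q x ≠ 0 ∧ T.h f x = 0 ∧ T.h f' x = 0 := by
  simpa using ex_perp hT [f, f'] h3 fun w => ⟨w - T.h f' w • f - T.h f w • f', by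
    simp [orth_h_self, hf, hf', h, os f f'], by simp +contextual⟩

theorem ex_ns3 (h2 : (2 : F) ≠ 0) (hT : T.Nondeg) (h3 : 4 ≤ finrank F W) (hf : T.q f = 0)
    (hf' : T.q f' = 0) (h : T.h f f' = 1) (hx : T.q x ≠ 0) (a1 : T.h f x = 0) (a2 : T.h f' x = 0) :
    ∃ y, T.q y ≠ 0 ∧ T.h f y = 0 ∧ T.h f' y = 0 ∧ T.h x y = 0 := by
  simpa using ex_perp hT [f, f', x] h3 fun w =>
    ⟨w - T.h f' w • f - T.h f w • f' - (T.h x w / (2 * T.q x)) • x, by
      simp [orth_h_self, hf, hf', h, os f f', a1, a2, os f x, os f' x, h2, hx], by simp +contextual⟩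

theorem q_hyp (hf : T.q f = 0) (hf' : T.q f' = 0) (h : T.h f f' = 1) (a1 : T.h f x = 0)
    (a2 : T.h f' x = 0) : T.q (f + x - T.q x • f') = 0 := by
  simp [sub_eq_add_neg, orth_q_add, orth_q_neg, orth_q_smul, hf, hf', h, a1, os f' x, a2]

theorem skew_zero [Finite F] (h2 : (2 : F) ≠ 0) (hT : T.Nondeg) (h3 : 3 ≤ finrank F W)
    (hs : ∀ a b, T.h (σ a) b = -T.h a (σ b)) (h : ∀ f, f ≠ 0 → T.q f = 0 → σ f ∈ F ∙ f) : σ = 0 := by
  have k : ∀ f f' (a : F), σ f = a • f → T.q f' = 0 → T.h f f' ≠ 0 → σ f' = -a • f' := by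
    intro f f' a h1 h4 h5
    obtain ⟨b, hb⟩ := Submodule.mem_span_singleton.1 (h f' (by rintro rfl; simp at h5) h4)
    have := hs f f'
    simp only [h1, ← hb, map_smul, LinearMap.smul_apply, smul_eq_mul, RingHom.id_apply] at this
    rw [← hb, show b = -a from mul_right_cancel₀ h5 (by linear_combination this)]
  obtain ⟨f, f0, hf⟩ := ex_sing (T := T) h3
  obtain ⟨f', hf', h1⟩ := hyp hT hf f0
  obtain ⟨x, hx, a1, a2⟩ := ex_ns2 hT h3 hf hf' h1
  obtain ⟨a, ha⟩ := Submodule.mem_span_singleton.1 (h f f0 hf)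
  have b1 := k f f' a ha.symm hf' (by simp [h1])
  have b2 : ∀ x, T.h f x = 0 → T.h f' x = 0 → σ (f + x - T.q x • f') = - -a • (f + x - T.q x • f') :=
    fun x a1 a2 => k f' _ _ b1 (q_hyp hf hf' h1 a1 a2) (by simp [os f f', h1, a2, orth_h_self, hf'])
  have b3 := congrArg (T.h f') ((b2 x a1 a2).symm.trans (k f _ a ha.symm (q_hyp hf hf' h1 a1 a2)
    (by simp [h1, a1, orth_h_self, hf, hx])))
  simp only [map_smul, map_add, map_sub, os f f', h1, a2, orth_h_self, hf', smul_eq_mul] at b3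
  obtain rfl : a = 0 := mul_left_cancel₀ h2 (by linear_combination b3)
  ext w
  have := b2 (w - T.h f' w • f - T.h f w • f') (by simp [orth_h_self, hf, h1])
    (by simp [orth_h_self, hf', h1, os f f'])
  simpa [← ha, b1] using this

theorem sym_scal [Finite F] (h2 : (2 : F) ≠ 0) (hT : T.Nondeg) (h3 : 3 ≤ finrank F W)
    (hq : (∃ c : F, c ≠ 0 ∧ c ^ 2 ≠ 1) ∨ 4 ≤ finrank F W) (hs : ∀ a b, T.h a (σ b) = T.h b (σ a))
    (h : ∀ f, T.q f = 0 → T.h f (σ f) = 0) : ∃ s : F, ∀ w, σ w = s • w := by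
  have k : ∀ f f', T.q f = 0 → T.q f' = 0 → T.h f f' = 1 → ∀ x, T.h f x = 0 → T.h f' x = 0 →
      T.h x (σ x) = 2 * T.q x * T.h f (σ f') ∧ T.h f (σ x) = T.q x * T.h f' (σ x) := by
    intro f f' hf hf' h1 x a1 a2
    have b1 := h _ (q_hyp hf hf' h1 a1 a2)
    have b2 := h _ (q_hyp hf hf' h1 (x := -x) (by simp [a1]) (by simp [a2]))
    simp only [map_add, map_sub, map_smul, map_neg, LinearMap.add_apply, LinearMap.sub_apply,
      LinearMap.smul_apply, LinearMap.neg_apply, smul_eq_mul, RingHom.id_apply, h f hf, h f' hf',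
      hs x f, hs x f', hs f' f, orth_q_neg] at b1 b2
    exact ⟨mul_left_cancel₀ h2 (by linear_combination b1 + b2),
      mul_left_cancel₀ (mul_ne_zero h2 h2) (by linear_combination b1 - b2)⟩
  have k' : ∀ f f', T.q f = 0 → T.q f' = 0 → T.h f f' = 1 → ∀ x, T.h f x = 0 → T.h f' x = 0 →
      T.h f (σ x) = 0 := by
    intro f f' hf hf' h1 x a1 a2
    have b1 := (k f f' hf hf' h1 x a1 a2).2
    by_cases hx : T.q x = 0
    · simp [b1, hx]
    rcases hq with ⟨s, s0, s1⟩ | hq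
    · have b2 := (k f f' hf hf' h1 (s • x) (by simp [a1]) (by simp [a2])).2
      simp only [map_smul, orth_q_smul, smul_eq_mul] at b2
      exact mul_left_cancel₀ (mul_ne_zero s0 (sub_ne_zero.2 s1)) (by
        linear_combination s ^ 3 * b1 - b2)
    obtain ⟨y, hy, c1, c2, c3⟩ := ex_ns3 h2 hT hq hf hf' h1 hx a1 a2
    have b2 := (k f f' hf hf' h1 (x + y) (by simp [a1, c1]) (by simp [a2, c2])).2
    have b3 := (k f f' hf hf' h1 (x + -y) (by simp [a1, c1]) (by simp [a2, c2])).2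
    simp only [map_add, map_neg, orth_q_add, orth_q_neg, c3] at b2 b3
    have : T.h f' (σ x) = 0 := mul_left_cancel₀ (mul_ne_zero h2 hy) (by
      linear_combination 2 * b1 - b2 - b3)
    simp [b1, this]
  obtain ⟨f, f0, hf⟩ := ex_sing (T := T) h3
  obtain ⟨f', hf', h1⟩ := hyp hT hf f0
  have k2 : ∀ w, T.h w (σ w) = T.h f (σ f') * T.h w w := fun w => by
    obtain ⟨α, β, x, a1, a2, rfl⟩ : ∃ (α β : F) (x : W), T.h f x = 0 ∧ T.h f' x = 0 ∧
        w = α • f + β • f' + x :=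
      ⟨T.h f' w, T.h f w, w - T.h f' w • f - T.h f w • f', by simp [orth_h_self, hf, h1],
        by simp [orth_h_self, hf', h1, os f f'], by abel⟩
    have b1 := (k f f' hf hf' h1 x a1 a2).1
    have b2 := k' f f' hf hf' h1 x a1 a2
    have b3 := k' f' f hf' hf (by rw [os, h1]) x a2 a1
    simp only [map_add, map_smul, LinearMap.add_apply, LinearMap.smul_apply, smul_eq_mul,
      RingHom.id_apply, h f hf, h f' hf', hs x f, hs x f', hs f' f, b1, b2, b3, orth_h_self, hf, hf', h1,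
      a1, a2, os f f', os f x, os f' x]
    ring
  refine ⟨T.h f (σ f'), fun w => hT.ext_right fun a => mul_left_cancel₀ h2 ?_⟩
  have := k2 (a + w)
  simp only [map_add, LinearMap.add_apply, k2, hs w a, os a w, map_smul, smul_eq_mul] at this ⊢
  linear_combination this

/-- the bivector `f ∧ p` -/
def wd (T : PForm (orthP F) W) (f : W) : W →ₗ[F] W →ₗ[F] W :=
  LinearMap.mk₂ F (fun p x => T.h f x • p - T.h p x • f) (fun _ _ _ => by simp; module)
    (fun _ _ _ => by simp; module) (fun _ _ _ => by simp; module) (fun _ _ _ => by simp; module)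

theorem wd_apply (f p x : W) : wd T f p x = T.h f x • p - T.h p x • f := rfl

/-- an overgroup of `Ω(U) ⊗ Ω(W)` -/
structure TO [Finite F] (A : PForm (orthP F) U) (T : PForm (orthP F) W) (t : U →ₗ[F] W →ₗ[F] V)
    (c : U →ₗ[F] V →ₗ[F] W) (H : Subgroup S.Isom) : Prop where
  two : (2 : F) ≠ 0
  nd : S.Nondeg
  ndU : A.Nondeg
  ndW : T.Nondeg
  ct : ∀ v u w, c v (t u w) = A.h v u • w
  ext : ∀ M : AddSubgroup V, (∀ u w, t u w ∈ M) → ∀ x, x ∈ M
  hh : ∀ u w x, S.h (t u w) x = T.h w (c u x)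
  hU : ∀ γ ∈ A.E, ∃ g ∈ H, ∀ u w, g.1 (t u w) = t (γ.1 u) w
  hW : ∀ ρ ∈ T.E, ∃ g ∈ H, ∀ u w, g.1 (t u w) = t u (ρ.1 w)
  five : 5 ≤ finrank F U
  hb : 3 ≤ finrank F W
  lt : finrank F W < finrank F U
  hq : (∃ c : F, c ≠ 0 ∧ c ^ 2 ≠ 1) ∨ 4 ≤ finrank F W
  h4 : ∀ f s, T.q f = 0 → T.q s = 0 → T.h f s = 0 → f ≠ 0 → s ∉ F ∙ f →
    ∃ z, T.q z ≠ 0 ∧ T.h f z = 0 ∧ T.h s z = 0

/-- the long level is trivial -/
def NL (A : PForm (orthP F) U) (t : U →ₗ[F] W →ₗ[F] V) (H : Subgroup S.Isom) : Prop :=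
  ∀ e, e ≠ 0 → A.q e = 0 → ∀ k ∈ H, (∀ x, ∃ w, k.1 x = x + t e w) → ∀ x, k.1 x = x

/-- `σ` lies in the long level -/
def LV (t : U →ₗ[F] W →ₗ[F] V) (c : U →ₗ[F] V →ₗ[F] W) (H : Subgroup S.Isom) (e : U)
    (σ : W →ₗ[F] W) : Prop := ∃ k ∈ H, ∀ x, k.1 x = x + t e (σ (c e x))

namespace TO
variable [Finite F] (N : TO A T t c H)
include N

theorem lext {M : Type*} [AddCommGroup M] [Module F M] {f g : V →ₗ[F] M}
    (h : ∀ u w, f (t u w) = g (t u w)) (x : V) : f x = g x :=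
  sub_eq_zero.1 (N.ext (f - g).toAddMonoidHom.ker (fun u w => sub_eq_zero.2 (h u w)) x)

theorem tt (u v : U) (w y : W) : S.h (t u w) (t v y) = A.h u v * T.h w y := by simp [N.hh, N.ct]

theorem tq (u : U) (w : W) : S.q (t u w) = 2 * A.q u * T.q w := mul_left_cancel₀ N.two (by
  rw [← orth_h_self, N.tt, orth_h_self, orth_h_self]; ring)

theorem cU {g : S.Isom} {γ : A.Isom} (e : ∀ u w, g.1 (t u w) = t (γ.1 u) w) (v : U) (x : V) :
    c (γ.1 v) (g.1 x) = c v x :=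
  N.lext (f := c (γ.1 v) ∘ₗ g.1) (fun u w => by simp [e, N.ct]) x

theorem cW {g : S.Isom} {ρ : T.Isom} (e : ∀ u w, g.1 (t u w) = t u (ρ.1 w)) (v : U) (x : V) :
    c v (g.1 x) = ρ.1 (c v x) :=
  N.lext (f := c v ∘ₗ g.1) (g := ρ.1 ∘ₗ c v) (fun u w => by simp [e, N.ct]) x

theorem mv (h0 : e ≠ 0) (he : A.q e = 0) (h0' : e' ≠ 0) (he' : A.q e' = 0) :
    ∃ γ : A.Isom, γ.1 e = e' ∧ ∃ g ∈ H, ∀ u w, g.1 (t u w) = t (γ.1 u) w :=
  let ⟨γ, a, b⟩ := exists_E_vec N.ndU (iso3_orth A) N.five h0 h0' (by simp [he, he'])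
  ⟨γ, b, N.hU γ a⟩

theorem exU (u v : U) : ∃ y, A.q y ≠ 0 ∧ A.h u y = 0 ∧ A.h v y = 0 := by
  obtain ⟨y, a, b⟩ := exists_ns_dim N.ndU (A.perp (pl F u v)) (by
    have := N.ndU.finrank_perp (pl F u v); have := finrank_pl (F := F) u v; have := N.five; omega)
  exact ⟨y, b, A.mem_perp_pair.1 a⟩

theorem LV.mv (h : LV t c H e σ) (h0 : e ≠ 0) (he : A.q e = 0) (h0' : e' ≠ 0) (he' : A.q e' = 0) :
    LV t c H e' σ := by
  obtain ⟨k, hk, a⟩ := h
  obtain ⟨γ, rfl, g, hg, b⟩ := N.mv h0 he h0' he'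
  refine ⟨g * k * g⁻¹, H.mul_mem (H.mul_mem hg hk) (H.inv_mem hg), fun x => ?_⟩
  obtain ⟨x, rfl⟩ := g.1.surjective x
  simp [a, b, N.cU b]

/-- the long level -/
def Lam (h0 : e ≠ 0) (he : A.q e = 0) : Submodule F (W →ₗ[F] W) where
  carrier := {σ | ∀ s : F, LV t c H e (s • σ)}
  add_mem' := fun h1 h2 s => by
    obtain ⟨k, hk, a⟩ := h1 s
    obtain ⟨l, hl, b⟩ := h2 s
    exact ⟨l * k, H.mul_mem hl hk, fun x => by simp [a, b, N.ct, orth_h_self, he, add_assoc]⟩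
  zero_mem' := fun s => ⟨1, H.one_mem, by simp⟩
  smul_mem' := fun a σ h s => by simpa [smul_smul] using h (s * a)

theorem mem_Lam (h0 : e ≠ 0) (he : A.q e = 0) (h : LV t c H e σ) : σ ∈ N.Lam h0 he := fun s => by
  let B : AddSubgroup F := .ofSub {s | LV t c H e (s • σ)} ⟨0, 1, H.one_mem, by simp⟩ (by
    rintro a ⟨k, hk, h1⟩ b ⟨l, hl, h2⟩
    exact ⟨l⁻¹ * k, H.mul_mem (H.inv_mem hl) hk, fun x => l.1.injective (by
      rw [isom_mul_apply, isom_apply_inv_self]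
      simp [h1, h2, N.ct, orth_h_self, he, add_smul, neg_smul]; abel)⟩)
  refine mem_of_sq B one_ne_zero (fun s => ?_) s
  obtain rfl | hs := eq_or_ne s 0
  · simp
  obtain ⟨k, hk, a⟩ := LV.mv N h h0 he (smul_ne_zero hs h0) (by simp [orth_q_smul, he])
  exact ⟨k, hk, fun x => by simp [a, smul_smul]⟩

theorem skew (h0 : e ≠ 0) (he : A.q e = 0) (h : LV t c H e σ) (a b : W) :
    T.h (σ a) b = -T.h a (σ b) := by
  obtain ⟨k, -, h⟩ := h
  obtain ⟨η, hη⟩ := N.ndU.exists_h_eq_one h0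
  have := isom_h k (t η a) (t η b)
  simp only [h, N.ct, hη, one_smul, map_add, LinearMap.add_apply, N.tt, os e η, orth_h_self, he] at this
  linear_combination this

theorem lam_conj {h0 : e ≠ 0} {he : A.q e = 0} (h : σ ∈ N.Lam h0 he) {ρ : T.Isom} (hρ : ρ ∈ T.E) :
    (ρ.1 : W →ₗ[F] W) ∘ₗ σ ∘ₗ (ρ⁻¹.1 : W →ₗ[F] W) ∈ N.Lam h0 he := fun s => by
  obtain ⟨k, hk, a⟩ := h s
  obtain ⟨g, hg, b⟩ := N.hW ρ hρ
  refine ⟨g * k * g⁻¹, H.mul_mem (H.mul_mem hg hk) (H.inv_mem hg), fun x => ?_⟩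
  obtain ⟨x, rfl⟩ := g.1.surjective x
  simp [a, b, N.cW b]

theorem lam_wd {h0 : e ≠ 0} {he : A.q e = 0} (h : σ ∈ N.Lam h0 he) (f0 : f ≠ 0) (hf : T.q f = 0)
    (h1 : σ f ∉ F ∙ f) (hp : T.h f p = 0) : wd T f p ∈ N.Lam h0 he := by
  have sk := N.skew h0 he (by simpa using h 1)
  have a0 : ∀ a, T.h a (σ a) = 0 := fun a => mul_left_cancel₀ N.two (by
    linear_combination sk a a + os (T := T) (σ a) a)
  let P := (N.Lam h0 he).comap (wd T f)
  have a1 : ∀ z, T.h f z = 0 → T.q z • σ f - T.h (σ f) z • z ∈ P := fun z hz => by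
    refine (P.smul_mem_iff (neg_ne_zero.2 N.two)).1 ?_
    have := sub_mem (add_mem (N.lam_conj h (T.eich_mem_E f z (T.q z)))
      (N.lam_conj h (T.E.inv_mem (T.eich_mem_E f z (T.q z))))) (Submodule.smul_mem _ (2 : F) h)
    convert this using 1
    simp only [P, Submodule.mem_comap]
    congr! 1
    ext x
    simp only [wd_apply, LinearMap.comp_apply, LinearEquiv.coe_coe, inv_inv, oe hf hz, oe' hf hz,
      LinearMap.sub_apply, LinearMap.add_apply, LinearMap.smul_apply, map_add, map_sub, map_smul,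
      smul_eq_mul, RingHom.id_apply, a0, sk]
    rw [show T.h z (σ f) = -T.h f (σ z) by rw [os, sk]]
    module
  have a2 : σ f ∈ P := by
    by_cases h2 : T.q (σ f) = 0
    · obtain ⟨z, z1, z2, z3⟩ := N.h4 f _ hf h2 (a0 f) f0 h1
      exact (P.smul_mem_iff z1).1 (by simpa [z3] using a1 z z2)
    · refine (P.smul_mem_iff (neg_ne_zero.2 h2)).1 ?_
      convert a1 _ (a0 f) using 1
      rw [orth_h_self]; module
  have a3 : ∀ z, T.h f z = 0 → T.h (σ f) z ≠ 0 → z ∈ P := fun z h1 h2 =>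
    (P.smul_mem_iff h2).1 (by simpa using sub_mem (P.smul_mem (T.q z) a2) (a1 z h1))
  obtain ⟨r, r1, r2⟩ := N.ndW.exists_perp_of_notMem' h1 1
  rw [mem_perp_singleton] at r1
  change p ∈ P
  by_cases h2 : T.h (σ f) p = 0
  · simpa using sub_mem (a3 (p + r) (by simp [hp, r1]) (by simp [h2, r2])) (a3 r r1 (by simp [r2]))
  · exact a3 p hp h2

/-- all bivectors through `f` lie in the long level -/
def LF (f : W) : Prop := ∀ e (h0 : e ≠ 0) (he : A.q e = 0) p, T.h f p = 0 → wd T f p ∈ N.Lam h0 he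

theorem LF.eich (h : N.LF f) (h0 : e ≠ 0) (he : A.q e = 0) (hp : T.h f p = 0) :
    S.eich (t e f) (t e p) (S.q (t e p)) ∈ H := by
  obtain ⟨k, hk, a⟩ := h e h0 he p hp 1
  exact (isom_ext fun x => by
    rw [oe (T := S) (f := t e f) (z := t e p) (by simp [N.tq, he]) (by simp [N.tt, hp])]
    simp [a, N.hh, wd_apply, N.tq, he, add_sub_assoc] : k = S.eich (t e f) (t e p) (S.q (t e p))) ▸ hk

theorem LF.mv (h : N.LF f) (hf : T.q f = 0) (hf' : T.q f' = 0) (h1 : T.h f f' ≠ 0) : N.LF f' := by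
  intro e h0 he p
  have f0 : f ≠ 0 := by rintro rfl; simp at h1
  obtain ⟨g, hg, h2⟩ := hyp N.ndW hf f0
  obtain ⟨x, hx, a1, -⟩ := ex_ns2 N.ndW N.hb hf hg h2
  refine N.lam_wd (h e h0 he x a1) (by rintro rfl; simp at h1) hf' fun m => ?_
  obtain ⟨a, ha⟩ := Submodule.mem_span_singleton.1 m
  have b1 := congrArg (T.h f) ha
  have b2 := congrArg (T.h x) ha
  simp [wd_apply, a1, orth_h_self, hf, h1, os f x] at b1 b2
  simp [b1, h1, hx, N.two] at b2

theorem LF.full (h : N.LF f) (hf : T.q f = 0) (f0 : f ≠ 0) (h0 : e ≠ 0) (he : A.q e = 0) :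
    Full H (t e f) := by
  have sg : ∀ e f, T.q f = 0 → S.Sing (t e f) := fun e f hf => (S.orth_sing _).2 (by simp [N.tq, hf])
  have m : ∀ {e f} (hf : T.q f = 0) {v}, S.h (t e f) v = 0 → S.eich (t e f) v (S.q v) ∈ H →
      v ∈ BSet H (sg e f hf) := fun hf _ a b => ⟨_, .of_q (sg _ _ hf) a, b⟩
  have b1 : ∀ f (hf : T.q f = 0), f ≠ 0 → N.LF f → ∀ e, e ≠ 0 → A.q e = 0 → ∀ u,
      t u f ∈ BSet H (sg e f hf) := by
    intro f hf f0 h e h0 he
    obtain ⟨f', hf', h1⟩ := hyp N.ndW hf f0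
    obtain ⟨p, hp, a1, -⟩ := ex_ns2 N.ndW N.hb hf hf' h1
    have c0 := m hf (by simp [N.tt, a1]) (LF.eich N h h0 he a1)
    have c1 : ∀ e', A.q e' = 0 → A.h e e' ≠ 0 → t e' f ∈ BSet H (sg e f hf) := fun e' he' h2 => by
      have c2 : T.h f ((2 * T.q p * A.h e e')⁻¹ • p) = 0 := by simp [a1]
      have := sub_mem c0 (BSet_map (hu' := sg e f hf) c0 (LF.eich N h (by rintro rfl; simp at h2) he' c2)
        (eich_apply_of_perp_perp (by simp [N.tt, orth_h_self, hf]) (by simp [N.tt, os f p, a1])))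
      rw [oe (by simp [N.tq, hf]) (by simp [N.tt, a1])] at this
      convert this using 1
      simp only [N.tt, a1, map_smul, LinearMap.smul_apply, orth_h_self, os e e', smul_eq_mul,
        RingHom.id_apply]
      have := N.two
      match_scalars <;> field_simp <;> ring
    have c2 : ∀ u, A.h e u ≠ 0 → t u f ∈ BSet H (sg e f hf) := fun u hu => by
      have := (eich_add_smul (.of_mem (sg e f hf) (zero_mem _)) (A.q u / A.h e u)).2
      simp only [zero_add, orthP_ε, one_mul, RingHom.id_apply, sub_self, eich_zero] at this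
      simpa using add_mem (c1 (u - (A.q u / A.h e u) • e) (by
        simp [sub_eq_add_neg, orth_q_add, orth_q_neg, orth_q_smul, he, os e u, hu])
        (by simpa [orth_h_self, he])) (m hf (v := (A.q u / A.h e u) • t e f)
        (by simp [N.tt, orth_h_self, he]) (by simp [orth_q_smul, N.tq, he, this]))
    intro u
    obtain ⟨e', -, h2⟩ := hyp N.ndU he h0
    by_cases hu : A.h e u = 0
    · simpa using sub_mem (c2 (u + e') (by simp [hu, h2])) (c2 e' (by simp [h2]))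
    · exact c2 u hu
  obtain ⟨e', he', h1⟩ := hyp N.ndU he h0
  have h0' : e' ≠ 0 := by rintro rfl; simp at h1
  obtain ⟨f', hf', h2⟩ := hyp N.ndW hf f0
  let B := BSet H (sg e f hf)
  have b2 : ∀ g, T.q g = 0 → T.h f g ≠ 0 → ∀ u, A.h e u = 0 → t u g ∈ B := fun g hg h3 => by
    have g0 : g ≠ 0 := by rintro rfl; simp at h3
    have c1 : ∀ u, A.h e u = 0 → A.h e' u = 0 → t u g ∈ B := fun u a1 a2 => by
      obtain ⟨a, c, hk⟩ := b1 g hg g0 (LF.mv N h hf hg h3) e h0 he ((T.h f g)⁻¹ • u)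
      have := sub_mem (BSet_map (hu' := sg e f hf) (b1 f hf f0 h e h0 he e') hk
        (eich_apply_of_perp_perp (by simp [N.tt, orth_h_self, he]) (by simp [N.tt, os e u, a1])))
        (b1 f hf f0 h e h0 he e')
      rw [eich_apply c, c.orth_eq] at this
      simpa [N.tt, N.tq, hg, h1, os e' u, a2, os f g, smul_smul, h3, orth_q_smul] using this
    obtain ⟨y, y0, y1, y2⟩ := N.exU e e'
    have c2 : ∀ s : F, s • t e g ∈ B := fun s => by
      have c3 : A.h e ((s / (2 * A.q y)) • y) = 0 := by simp [y1]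
      obtain ⟨k, hk, a⟩ := N.hU _ (A.eich_mem_E e _ (A.q ((s / (2 * A.q y)) • y)))
      have := sub_mem (c1 y y1 y2) (BSet_map (hu' := sg e f hf) (c1 y y1 y2) hk (by
        rw [a, oe he c3]; simp [orth_h_self, he, os e y, y1]))
      simpa [a, oe he c3, y1, orth_h_self, N.two, y0] using this
    intro u hu
    simpa using add_mem (c1 (u - A.h e' u • e) (by simp [hu, orth_h_self, he]) (by simp [os e e', h1]))
      (c2 (A.h e' u))
  have b3 : ∀ u, A.h e u = 0 → ∀ w, t u w ∈ B := fun u hu => by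
    have c1 : ∀ w, T.h f w ≠ 0 → t u w ∈ B := fun w hw => by
      simpa using add_mem (b2 (w - (T.q w / T.h f w) • f) (by
        simp [sub_eq_add_neg, orth_q_add, orth_q_neg, orth_q_smul, hf, os f w, hw])
        (by simpa [orth_h_self, hf]) u hu) (b1 f hf f0 h e h0 he ((T.q w / T.h f w) • u))
    intro w
    by_cases hw : T.h f w = 0
    · simpa using sub_mem (c1 (w + f') (by simp [hw, h2])) (c1 f' (by simp [h2]))
    · exact c1 w hw
  have b4 : ∀ w, T.h f w = 0 → t e' w ∈ B := fun w hw => by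
    have c1 := b3 e (by simp [orth_h_self, he]) f'
    have := add_mem (sub_mem (BSet_map (hu' := sg e f hf) c1 (LF.eich N h h0' he' hw)
      (eich_apply_of_perp_perp (by simp [N.tt, orth_h_self, hf]) (by simp [N.tt, os f w, hw]))) c1)
      (b1 f hf f0 h e h0 he (T.h w f' • e'))
    rw [oe (by simp [N.tq, hf]) (by simp [N.tt, hw])] at this
    convert this using 1
    simp only [N.tt, N.tq, he', os e e', h1, h2, map_smul, LinearMap.smul_apply]
    module
  refine full_of_BSet (sg e f hf) (fun x hx => ?_) fun a ha => by simp [show a = 0 from ha, eich_zero]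
  have := N.ext (B.comap (LinearMap.id - (S.h (t e f)).smulRight (t e' f') : V →ₗ[F] V).toAddMonoidHom)
    (fun u w => by
      change t u w - S.h (t e f) (t u w) • t e' f' ∈ B
      convert add_mem (b3 (u - A.h e u • e') (by simp [h1]) w)
        (b4 (A.h e u • (w - T.h f w • f')) (by simp [h2])) using 1
      simp only [N.tt, map_sub, map_smul, LinearMap.sub_apply, LinearMap.smul_apply]
      module) x
  replace this : x - S.h (t e f) x • t e' f' ∈ B := this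
  simpa [hx] using this

theorem nl_or : S.E ≤ H ∨ NL A t H := by
  refine or_iff_not_imp_right.2 fun h => ?_
  unfold NL at h
  push Not at h
  obtain ⟨e, h0, he, k, hk, h1, x, h2⟩ := h
  obtain ⟨η, hη', hη⟩ := hyp N.ndU he h0
  let σ : W →ₗ[F] W := c η ∘ₗ ((k.1 : V →ₗ[F] V) - .id) ∘ₗ t η
  have a1 : ∀ x, k.1 x = x + t e (σ (c e x)) := fun x => by
    have : k.1 (x - t η (c e x)) = x - t η (c e x) := N.nd.ext_right fun y => by
      obtain ⟨y, rfl⟩ := k.1.surjective y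
      obtain ⟨a, e⟩ := h1 y
      rw [isom_h, e, map_add, LinearMap.add_apply, N.hh]
      simp [N.ct, hη]
    obtain ⟨a, e1⟩ := h1 (t η (c e x))
    have e2 : σ (c e x) = a := by simp [σ, e1, N.ct, os e η, hη]
    rw [e2]
    linear_combination (norm := (simp only [map_sub]; module)) this + e1
  obtain ⟨f, f0, hf, h3⟩ : ∃ f, f ≠ 0 ∧ T.q f = 0 ∧ σ f ∉ F ∙ f := by
    by_contra! h
    exact h2 (by simp [a1, skew_zero N.two N.ndW N.hb (N.skew h0 he ⟨k, hk, a1⟩) h])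
  have h4 : N.LF f := fun e' h0' he' p =>
    N.lam_wd (N.mem_Lam h0' he' (LV.mv N ⟨k, hk, a1⟩ h0 he h0' he')) f0 hf h3
  obtain ⟨f', hf', h5⟩ := hyp N.ndW hf f0
  exact S.E_le_iff.2 fun x y a _ => full_all_of_pair N.nd ((S.orth_sing _).2 (by simp [N.tq, hf]))
    ((S.orth_sing _).2 (by simp [N.tq, hf'])) (LF.full N h4 hf f0 h0 he)
    (LF.full N (LF.mv N h4 hf hf' (by simp [h5])) hf' (by rintro rfl; simp at h5) (by rintro rfl; simp at hη) hη')
    (by simp [N.tt, hη, h5]) x y a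

end TO

end H20.To
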