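import Cfsg.Agent.H20.To1

/-! Overgroups of `Ω(U) ⊗ Ω(W)` in `Ω(U ⊗ W)`, part 2: with trivial long level the short levels are
scalar (`TO.lvR`), and elements mapping `e ⊗ W` to `e' ⊗ W` preserve the tensor structure
(`TO.f1`, `TO.f2`, `TO.f3`). -/

set_option autoImplicit false
set_option linter.unusedSectionVars false

namespace H20.To

open Module H11 H11.PForm H29 H20.Pl

variable {F U W V : Type*} [Field F] [AddCommGroup U] [Module F U] [AddCommGroup W] [Module F W]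
  [AddCommGroup V] [Module F V] [FiniteDimensional F U] [FiniteDimensional F W]
  [FiniteDimensional F V] {A : PForm (orthP F) U} {T : PForm (orthP F) W} {S : PForm (orthP F) V}
  {H : Subgroup S.Isom} {t : U →ₗ[F] W →ₗ[F] V} {c : U →ₗ[F] V →ₗ[F] W} {e e' u v y z : U}
  {w : W} {σ ρ : W →ₗ[F] W} {φ φ' : V →ₗ[F] W} {g k : S.Isom} {x : V}

theorem comm_scal [Finite F] (h2 : (2 : F) ≠ 0) (hT : T.Nondeg) (h3 : 3 ≤ finrank F W)
    (hq : (∃ c : F, c ≠ 0 ∧ c ^ 2 ≠ 1) ∨ 4 ≤ finrank F W) (Φ : Submodule F (End F W))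
    (hc : ∀ G ∈ Φ, ∀ ρ ∈ T.E, (ρ.1 : W →ₗ[F] W) ∘ₗ G ∘ₗ (ρ⁻¹.1 : W →ₗ[F] W) ∈ Φ)
    (hs : ∀ G ∈ Φ, ∀ a b, T.h a (G b) = T.h b (G a))
    (hm : ∀ G ∈ Φ, ∀ G' ∈ Φ, ∀ w, G (G' w) = G' (G w)) {σ : End F W} (hG : σ ∈ Φ) :
    ∃ s : F, ∀ w, σ w = s • w := by
  refine sym_scal h2 hT h3 hq (hs _ hG) fun f hf => by_contra fun h => ?_
  have f0 : f ≠ 0 := by rintro rfl; simp at h
  obtain ⟨f', hf', h1⟩ := hyp hT hf f0
  obtain ⟨x, hx, a1, a2⟩ := ex_ns2 hT h3 hf hf' h1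
  obtain ⟨p, ep⟩ : ∃ p : End F W, p = (T.h f).smulRight f := ⟨_, rfl⟩
  obtain ⟨D, eD⟩ : ∃ D : W →ₗ[F] End F W, D = wd T f := ⟨_, rfl⟩
  have e1 : ∀ z, T.h f z = 0 →
      (T.q z ^ 2 * T.h f (σ f)) • p - T.q z • (p * σ + σ * p) - D z * σ * D z ∈ Φ := fun z hz => by
    refine (Φ.smul_mem_iff h2).1 ?_
    convert sub_mem (add_mem (hc _ hG _ (T.eich_mem_E f z (T.q z)))
      (hc _ hG _ (T.E.inv_mem (T.eich_mem_E f z (T.q z))))) (Φ.smul_mem (2 : F) hG) using 1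
    ext x
    simp only [ep, eD, wd_apply, LinearMap.comp_apply, LinearEquiv.coe_coe, inv_inv, oe hf hz, oe' hf hz,
      LinearMap.sub_apply, LinearMap.add_apply, LinearMap.smul_apply, map_add, map_sub, map_smul,
      smul_eq_mul, End.mul_apply, LinearMap.smulRight_apply]
    module
  have e2 : p ∈ Φ := by
    rcases hq with ⟨s, s0, s1⟩ | hq
    · refine (Φ.smul_mem_iff (mul_ne_zero (mul_ne_zero (pow_ne_zero 2 s0) (sub_ne_zero.2 s1))
        (mul_ne_zero (pow_ne_zero 2 hx) h))).1 ?_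
      convert sub_mem (e1 (s • x) (by simp [a1])) (Φ.smul_mem (s ^ 2) (e1 x a1)) using 1
      simp only [orth_q_smul, map_smul, smul_mul_assoc, mul_smul_comm]
      module
    obtain ⟨y, hy, c1, -, c3⟩ := ex_ns3 h2 hT hq hf hf' h1 hx a1 a2
    refine (Φ.smul_mem_iff (mul_ne_zero (mul_ne_zero (mul_ne_zero h2 h2) (mul_ne_zero hx hy)) h)).1 ?_
    convert sub_mem (add_mem (e1 (x + y) (by simp [a1, c1])) (e1 (x - y) (by simp [a1, c1])))
      (Φ.smul_mem 2 (add_mem (e1 x a1) (e1 y c1))) using 1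
    simp only [orth_q_add, orth_q_sub, c3, map_add, map_sub, mul_add, add_mul, mul_sub, sub_mul]
    module
  have := hm _ e2 _ (hc _ e2 _ (T.eich_mem_E f' x (T.q x))) f
  simp only [ep, LinearMap.comp_apply, LinearEquiv.coe_coe, oe hf' a2, oe' hf' a2] at this
  simp [orth_h_self, hf, os f f', os f x, h1, a1, hx, f0] at this

/-- `φ` is a level of `H` at `v ⊗ W` -/
def TLv (t : U →ₗ[F] W →ₗ[F] V) (c : U →ₗ[F] V →ₗ[F] W) (H : Subgroup S.Isom) (v : U)
    (φ : V →ₗ[F] W) : Prop :=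
  ∃ k ∈ H, (∀ w, k.1 (t v w) = t v w) ∧ ∀ x, c v x = 0 → k.1 x = x + t v (φ x)

theorem TLv.congr (h : TLv t c H v φ) (e : ∀ x, c v x = 0 → φ' x = φ x) : TLv t c H v φ' :=
  let ⟨k, a, b, d⟩ := h
  ⟨k, a, b, fun x hx => by rw [d x hx, e x hx]⟩

theorem TLv.sub (h : TLv t c H v φ) (h' : TLv t c H v φ') : TLv t c H v (φ - φ') := by
  obtain ⟨k, a, b, d⟩ := h
  obtain ⟨k', a', b', d'⟩ := h'
  refine ⟨k'⁻¹ * k, H.mul_mem (H.inv_mem a') a, fun s => k'.1.injective (by simp [b, b']),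
    fun x hx => k'.1.injective ?_⟩
  rw [isom_mul_apply, isom_apply_inv_self, map_add, b', d x hx, d' x hx]
  simp

theorem TLv.zero : TLv t c H v 0 := ⟨1, H.one_mem, by simp, by simp⟩

theorem TLv.add (h : TLv t c H v φ) (h' : TLv t c H v φ') : TLv t c H v (φ + φ') := by
  simpa using h.sub (TLv.zero.sub h')

/-- `k` preserves the tensor structure -/
def Ten (t : U →ₗ[F] W →ₗ[F] V) (k : S.Isom) : Prop :=
  ∃ ρ : W →ₗ[F] W, ∀ y, ∃ y', ∀ w, k.1 (t y w) = t y' (ρ w)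

theorem Ten.mul (h : Ten t g) (h' : Ten t k) : Ten t (g * k) :=
  let ⟨ρ, a⟩ := h
  let ⟨ρ', b⟩ := h'
  ⟨ρ ∘ₗ ρ', fun y => let ⟨y', b⟩ := b y; let ⟨y'', a⟩ := a y'; ⟨y'', fun w => by simp [a, b]⟩⟩

theorem Ten.inv [Finite F] (h : Ten t g) : Ten t g⁻¹ := by
  haveI : Finite V := Module.finite_of_finite F
  haveI : Finite S.Isom := Finite.of_injective (fun g : S.Isom => (g.1 : V → V))
    fun _ _ e => isom_ext (congrFun e)
  let M : Submonoid S.Isom := ⟨⟨{g | Ten t g}, Ten.mul⟩, .id, fun y => ⟨y, by simp⟩⟩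
  exact Submonoid.powers_le (P := M).2 h
    (mem_powers_iff_mem_zpowers.2 (Subgroup.inv_mem _ (Subgroup.mem_zpowers g)))

/-- the long root element of the pair `e`, `v` -/
def nn (t : U →ₗ[F] W →ₗ[F] V) (c : U →ₗ[F] V →ₗ[F] W) (e v : U) : End F V :=
  t e ∘ₗ c v - t v ∘ₗ c e

theorem nn_apply (x : V) : nn t c e v x = t e (c v x) - t v (c e x) := rfl

/-- the conjugate of `nn` -/
def mm (t : U →ₗ[F] W →ₗ[F] V) (c : U →ₗ[F] V →ₗ[F] W) (g : S.Isom) (e v : U) : End F V :=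
  (g.1 : V →ₗ[F] V) ∘ₗ nn t c e v ∘ₗ (g⁻¹.1 : V →ₗ[F] V)

theorem mm_apply (x : V) : mm t c g e v x = g.1 (nn t c e v (g⁻¹.1 x)) := rfl

/-- a basis of a totally singular line -/
structure TP (A : PForm (orthP F) U) (e v : U) : Prop where
  qe : A.q e = 0
  qv : A.q v = 0
  h : A.h e v = 0
  d1 : ∃ y, A.h e y = 1 ∧ A.h v y = 0
  d2 : ∃ y, A.h e y = 0 ∧ A.h v y = 1

theorem TP.ne (h : TP A e v) : e ≠ 0 := by
  rintro rfl; simpa using h.d1

namespace TO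
variable [Finite F] (N : TO A T t c H)
include N

theorem inj (hv : v ≠ 0) (e : t v w = 0) : w = 0 := by
  obtain ⟨y, hy⟩ := N.ndU.exists_h_eq_one hv
  simpa [N.ct, os v y, hy] using congrArg (c y) e

theorem inj' (hv : v ≠ 0) : Function.Injective (t v) :=
  (injective_iff_map_eq_zero _).2 fun _ => N.inj hv

theorem inj2 (hw : w ≠ 0) (e : t v w = 0) : v = 0 :=
  N.ndU.eq_zero' fun y => by simpa [N.ct, hw] using congrArg (c y) e

theorem exW : ∃ w, w ≠ 0 ∧ T.q w ≠ 0 :=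
  let ⟨w, h⟩ := Tp.ex_ns0 N.two N.ndW N.hb
  ⟨w, by rintro rfl; simp at h, fun e => by simp [orth_h_self, e] at h⟩

theorem eq_t {η : U} (hη : A.h z η = 1) (e : ∀ y, A.h z y = 0 → c y x = 0) :
    x = t z (c η x) := sub_eq_zero.1 (N.nd.eq_zero' (N.ext (S.h.flip _).toAddMonoidHom.ker fun y w => by
  have := e (y - A.h y z • η) (by simp [hη, os y z])
  simp only [map_sub, map_smul, LinearMap.sub_apply, LinearMap.smul_apply, sub_eq_zero] at this
  simp [N.hh, N.ct, this]))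

theorem cfix (e : ∀ w, k.1 (t z w) = t z w) (x : V) : c z (k.1 x) = c z x :=
  N.ndW.ext_right fun w => by rw [← N.hh, ← N.hh, ← isom_h k _ x, e]

theorem conj (hf : TLv t c H v φ) (hg : g ∈ H)
    (e : ∀ w, g.1 (t v w) = t v (ρ w)) (hρ : Function.Surjective ρ) :
    TLv t c H v (ρ ∘ₗ φ ∘ₗ (g⁻¹.1 : V →ₗ[F] V)) := by
  obtain ⟨k, a, b, d⟩ := hf
  refine ⟨g * k * g⁻¹, H.mul_mem (H.mul_mem hg a) (H.inv_mem hg), fun u => by
    obtain ⟨u, rfl⟩ := hρ u
    rw [← e]; simp [b], fun x hx => ?_⟩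
  rw [isom_mul_apply, isom_mul_apply, d _ (N.ndW.eq_zero' fun w => by
    rw [← N.hh, ← isom_h_left, e, N.hh, hx, map_zero]), map_add, e, isom_apply_inv_self]
  rfl

theorem comp (hf : TLv t c H v φ) (hg : g ∈ H) (e : ∀ w, g.1 (t v w) = t v w) :
    TLv t c H v (φ ∘ₗ (g.1 : V →ₗ[F] V)) :=
  N.conj hf (H.inv_mem hg) (ρ := .id) (fun u => g.1.injective (by simp [e])) Function.surjective_id

theorem hE (he : A.q e = 0) (hy : A.h e y = 0) :
    ∃ g ∈ H, ∀ x, g.1 x = x + t y (c e x) - t e (c y x + A.q y • c e x) := by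
  obtain ⟨g, hg, a⟩ := N.hU _ (A.eich_mem_E e y (A.q y))
  refine ⟨g, hg, N.lext (f := (g.1 : V →ₗ[F] V)) (g := .id + t y ∘ₗ c e - t e ∘ₗ (c y + A.q y • c e))
    fun u w => ?_⟩
  simp [a, oe he hy, N.ct, smul_smul, add_smul]

theorem lv_id (he : A.q e = 0) (h : A.h e y = 0) : TLv t c H e (c y) := by
  obtain ⟨g, hg, a⟩ := N.hE (y := -y) he (by simp [h])
  exact ⟨g, hg, fun w => by simp [a, N.ct, orth_h_self, he, os e y, h], fun x hx => by simp [a, hx]⟩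

theorem lv0 (hf : TLv t c H e φ) (h0 : e ≠ 0) (he : A.q e = 0) (w : W) : φ (t e w) = 0 := by
  obtain ⟨k, -, b, d⟩ := hf
  have := d (t e w) (by simp [N.ct, orth_h_self, he])
  rw [b, left_eq_add] at this
  exact N.inj h0 this

theorem sp (P : Submodule F U) (h1 : e ∈ P)
    (h : ∀ y, A.q y = 0 → A.h e y = 0 → y ∉ F ∙ e → y ∈ P) (hy : A.h e y = 0) : y ∈ P :=
  span_sing_perp N.ndU (iso3_orth A) (F ∙ e) (by
    have := finrank_span_one_le (F := F) e; have := N.five; omega) P.toAddSubgroup (fun y a b => by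
      by_cases m : y ∈ F ∙ e
      · exact (Submodule.span_singleton_le_iff_mem _ _).2 h1 m
      · exact h y ((A.orth_sing _).1 b) (A.mem_perp_singleton.1 a) m) y (A.mem_perp_singleton.2 hy)

theorem dec (h0 : e ≠ 0) {L : W →ₗ[F] V} (hρ : ρ w ≠ 0) (h1 : ∀ w, c e (L w) = 0)
    (h : ∀ v, A.q v = 0 → A.h e v = 0 → v ∉ F ∙ e → ∃ s : F, ∀ w, c v (L w) = s • ρ w) :
    ∃ y, A.h e y = 0 ∧ ∃ ψ : W →ₗ[F] W, ∀ w, L w = t y (ρ w) + t e (ψ w) := by
  obtain ⟨θ, hθ⟩ := ex_one' (F := F) hρ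
  obtain ⟨y, hy⟩ := N.ndU.exists_h_eq (θ ∘ₗ c.flip (L w))
  obtain ⟨η, hη⟩ := N.ndU.exists_h_eq_one h0
  refine ⟨y, by simp [os y e, hy, h1], c η ∘ₗ (L - t y ∘ₗ ρ), fun a =>
    sub_eq_iff_eq_add'.1 (N.eq_t hη fun v hv => ?_)⟩
  obtain ⟨s, hs⟩ := Submodule.mem_span_singleton.1 (N.sp ((F ∙ ρ).comap (c.compl₂ L))
    (Submodule.mem_span_singleton.2 ⟨0, LinearMap.ext fun w => by simp [h1]⟩) (fun v a b d =>
      let ⟨s, hs⟩ := h v a b d
      Submodule.mem_span_singleton.2 ⟨s, LinearMap.ext fun w => by simp [hs]⟩) hv)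
  replace hs : ∀ w, c v (L w) = s • ρ w := fun w => (LinearMap.congr_fun hs w).symm
  simp [hs, N.ct, os y v, hy, hθ]

variable (hN : NL A t H)
include hN

theorem comm (h0 : e ≠ 0) (he : A.q e = 0) (hf : TLv t c H e φ) (hf' : TLv t c H e φ') {x x' : V}
    (h1 : c e x = 0) (h2 : c e x' = 0) (h3 : ∀ d, T.h w (φ d) = S.h x d)
    (h4 : ∀ d, T.h w (φ' d) = S.h x' d) : φ x' = φ' x := by
  obtain ⟨k, hk, b, d⟩ := hf
  obtain ⟨l, hl, b', d'⟩ := hf'
  have e0 : ∀ {k : S.Isom} {φ : V →ₗ[F] W}, (∀ w, k.1 (t e w) = t e w) →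
      (∀ x, c e x = 0 → k.1 x = x + t e (φ x)) → ∀ x v, c e v = 0 →
      S.h v (k.1 x - x) = -T.h (φ v) (c e x) := fun {k φ} b d x v hv => by
    have := isom_h k v x
    rw [d v hv, map_add, LinearMap.add_apply, N.hh, N.cfix b] at this
    rw [map_sub]
    linear_combination this
  have e1 : ∀ x, ((l * k)⁻¹ * (k * l)).1 x = x + t e (φ (l.1 x - x) - φ' (k.1 x - x)) := fun x =>
    (l * k).1.injective (by
      have a1 := d (l.1 x - x) (by simp [N.cfix b'])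
      have a2 := d' (k.1 x - x) (by simp [N.cfix b])
      rw [← isom_mul_apply, mul_inv_cancel_left, map_add]
      simp only [isom_mul_apply, b, b', map_sub (t e), map_sub k.1, map_sub l.1] at a1 a2 ⊢
      linear_combination (norm := module) a1 - a2)
  have hs := hN e h0 he _ (H.mul_mem (H.inv_mem (H.mul_mem hl hk)) (H.mul_mem hk hl))
    fun x => ⟨_, e1 x⟩
  obtain ⟨η, hη⟩ := N.ndU.exists_h_eq_one h0
  refine N.ndW.ext_left fun a => ?_
  have := congrArg (T.h w) (N.inj h0 (left_eq_add.1 ((hs _).symm.trans (e1 (t η a)))))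
  rw [map_sub, h3, h4, e0 b' d' _ _ h1, e0 b d _ _ h2] at this
  simp only [N.ct, hη, one_smul, map_zero] at this
  linear_combination this

theorem sa (h0 : e ≠ 0) (he : A.q e = 0) (hf : TLv t c H e φ) (hy : A.h e y = 0) (a w : W) :
    T.h a (φ (t y w)) = T.h w (φ (t y a)) := by
  obtain ⟨x, hx⟩ := N.nd.exists_h_eq (T.h w ∘ₗ φ)
  rw [N.comm hN h0 he hf (N.lv_id he hy) (x := x) (w := w) (N.ndW.eq_zero' fun b => by
    rw [← N.hh, os, hx]; simp [N.lv0 hf h0 he]) (by simp [N.ct, hy]) (fun d => by simp [hx])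
    fun d => (N.hh _ _ _).symm, ← N.hh, os x, hx]
  rfl

theorem lvR (h0 : e ≠ 0) (he : A.q e = 0) (hf : TLv t c H e φ) (hy : A.h e y = 0) :
    ∃ s : F, ∀ w, φ (t y w) = s • w := by
  suffices ∀ y, A.q y = 0 → A.h e y = 0 → y ∉ F ∙ e → ∃ s : F, ∀ w, φ (t y w) = s • w by
    obtain ⟨s, hs⟩ := Submodule.mem_span_singleton.1 (N.sp ((F ∙ LinearMap.id).comap (t.compr₂ φ))
      (Submodule.mem_span_singleton.2 ⟨0, LinearMap.ext fun w => by simp [N.lv0 hf h0 he]⟩)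
      (fun v a b d => let ⟨s, hs⟩ := this v a b d
        Submodule.mem_span_singleton.2 ⟨s, LinearMap.ext fun w => by simp [hs]⟩) hy)
    exact ⟨s, fun w => (LinearMap.congr_fun hs w).symm⟩
  intro y hq hy h1
  obtain ⟨y', a1, a2, a3⟩ := exists_sing_perp_not_perp N.ndU (iso3_orth A) (F ∙ e) (by
    have := finrank_span_one_le (F := F) e; have := N.five; omega) h1
  rw [mem_perp_singleton] at a1
  rw [orth_sing] at a2
  let Φ : Submodule F (End F W) :=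
    { carrier := {G | ∀ s : F, TLv t c H e (s • G ∘ₗ c y)}
      add_mem' := fun a b s => ((a s).add (b s)).congr fun x _ => by simp
      zero_mem' := fun s => TLv.zero.congr fun x _ => by simp
      smul_mem' := fun r G a s => (a (s * r)).congr fun x _ => by simp [smul_smul] }
  have b1 : ∀ G ∈ Φ, ∀ a b, T.h a (G b) = T.h b (G a) := fun G hG a b => by
    simpa [N.ct, os y' y, a3] using N.sa hN h0 he (hG 1) a1 a b
  obtain ⟨z, z0, z1, z2⟩ := N.exU e y'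
  obtain ⟨g, hg, b2⟩ := N.hU _ (A.eich_mem_E y' z (A.q z))
  obtain ⟨u, u0, u1, u2⟩ := N.exU e y
  refine comm_scal N.two N.ndW N.hb N.hq Φ (fun G hG r hr s => ?_) b1 (fun G hG G' hG' w => ?_)
    (σ := φ ∘ₗ t y) fun s => ?_
  · obtain ⟨k, hk, b⟩ := N.hW r hr
    exact (N.conj (hG s) hk (ρ := (r.1 : W →ₗ[F] W)) (b e) r.1.surjective).congr fun x _ => by
      obtain ⟨x, rfl⟩ := k.1.surjective x
      simp [N.cW b]
  · have b3 : TLv t c H e (G' ∘ₗ c ((A.eich y' z (A.q z)).1 y)) :=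
      (N.conj (hG' 1) hg (ρ := .id) (fun w => by simp [b2, oe a2 z2, os e y', os e z, a1, z1])
        Function.surjective_id).congr fun x _ => by
          obtain ⟨x, rfl⟩ := g.1.surjective x
          simp [N.cU b2]
    have := N.comm hN h0 he (hG 1) b3 (w := w) (x := t y (G w))
      (x' := t ((A.eich y' z (A.q z)).1 y) (G' w)) (by simp [N.ct, hy])
      (by simp [N.ct, oe a2 z2, hy, a1, z1]) (fun d => by simp [N.hh, b1 G hG w, os (G w)])
      fun d => by simp [N.hh, b1 G' hG' w, os (G' w)]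
    have b4 : A.h y ((A.eich y' z (A.q z)).1 y) ≠ 0 := by
      simp only [oe a2 z2, map_add, map_sub, map_smul, orth_h_self, hq, os y' y, os z y, smul_eq_mul]
      convert neg_ne_zero.2 (mul_ne_zero z0 (pow_ne_zero 2 a3)) using 1
      ring
    simp only [one_smul, LinearMap.comp_apply, N.ct, os y, map_smul] at this
    exact smul_right_injective _ b4 this
  let B : AddSubgroup F := .ofSub {s | TLv t c H e (s • (φ ∘ₗ t y) ∘ₗ c y)}
    ⟨0, TLv.zero.congr fun x _ => by simp⟩ fun a ha b hb =>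
      (TLv.sub ha hb).congr fun x _ => by simp [add_smul, sub_eq_add_neg]
  refine mem_of_sq B (neg_ne_zero.2 (mul_ne_zero N.two u0)) (fun r => ?_) s
  obtain ⟨k, hk, c1⟩ := N.hE (y := r • u) hq (by simp [u2])
  obtain ⟨l, hl, c2⟩ := N.hE (y := -r • u) hq (by simp [u2])
  exact ((((N.comp hf hk fun w => by simp [c1, N.ct, os e, hy, u1]).add
    (N.comp hf hl fun w => by simp [c2, N.ct, os e, hy, u1])).sub hf).sub hf).congr fun x _ => by
      simp only [LinearMap.sub_apply, LinearMap.add_apply, LinearMap.smul_apply, LinearMap.comp_apply,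
        LinearEquiv.coe_coe, c1, c2, orth_q_smul, map_add, map_sub, map_smul]
      module

theorem lvR' (h0 : e ≠ 0) (he : A.q e = 0) (hk : k ∈ H) (h1 : ∀ w, k.1 (t e w) = t e w)
    (h2 : ∀ x, c e x = 0 → ∃ a, k.1 x = x + t e a) (hy : A.h e y = 0) :
    ∃ s : F, ∀ w, k.1 (t y w) = t y w + s • t e w := by
  obtain ⟨η, hη⟩ := N.ndU.exists_h_eq_one h0
  have a : ∀ x, c e x = 0 → k.1 x = x + t e ((c η ∘ₗ ((k.1 : V →ₗ[F] V) - .id)) x) := fun x hx => by
    obtain ⟨a, ha⟩ := h2 x hx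
    simp [ha, N.ct, os e η, hη]
  obtain ⟨s, hs⟩ := N.lvR hN h0 he ⟨k, hk, h1, a⟩ hy
  exact ⟨s, fun w => by rw [a _ (by simp [N.ct, hy]), hs, map_smul]⟩

theorem sim (hu : A.q u ≠ 0) (h : ∀ w, k.1 (t u w) = t v (ρ w) + t e (σ w)) (h1 : A.h e v = 0)
    (he : A.q e = 0) : ∃ α : F, α * A.q v = A.q u ∧ ∀ a b, T.h (ρ a) (ρ b) = α * T.h a b := by
  have a1 : ∀ a b, A.q v * T.h (ρ a) (ρ b) = A.q u * T.h a b := fun a b => mul_left_cancel₀ N.two (by
    have := isom_h k (t u a) (t u b)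
    simp only [h, map_add, LinearMap.add_apply, N.tt, A.orth_h_self, he, h1, os e v] at this
    linear_combination this)
  obtain ⟨w, hw⟩ := Tp.ex_ns0 N.two N.ndW N.hb
  have a2 : A.q v ≠ 0 := fun e => by simpa [e, hu, hw] using a1 w w
  exact ⟨A.q u / A.q v, div_mul_cancel₀ _ a2, fun a b => by field_simp; linear_combination a1 a b⟩

theorem f1a (h0 : e ≠ 0) (he : A.q e = 0) (hk : k ∈ H) (h : ∀ w, k.1 (t e w) = t e (ρ w))
    (hy : A.h e y = 0) : ∃ y', ∀ w, k.1 (t y w) = t y' (ρ w) := by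
  have r1 : Function.Injective ρ := (injective_iff_map_eq_zero _).2 fun w hw =>
    N.inj h0 (k.1.injective (by rw [h, hw]; simp))
  let r := LinearEquiv.ofInjectiveEndo ρ r1
  have r2 : Function.Surjective ρ := r.surjective
  obtain ⟨w₀, w0, w1⟩ := N.exW
  have a0 : ∀ x, c e x = 0 → c e (k.1 x) = 0 := fun x hx => N.ndW.eq_zero' fun w => by
    obtain ⟨w, rfl⟩ := r2 w
    rw [← N.hh, ← h, isom_h, N.hh, hx, map_zero]
  have a1 : ∀ y, A.h e y = 0 → ∃ y₁, A.h e y₁ = 0 ∧ ∃ ψ : W →ₗ[F] W,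
      ∀ w, k.1 (t y w) = t y₁ (ρ w) + t e (ψ w) := fun y hy =>
    N.dec h0 (L := (k.1 : V →ₗ[F] V) ∘ₗ t y) (w := w₀) (fun e => w0 (r1 (by simp [e])))
      (fun w => a0 _ (by simp [N.ct, hy])) fun v _ hv _ => by
        obtain ⟨s, hs⟩ := N.lvR hN h0 he (N.conj (N.lv_id he hv) (H.inv_mem hk)
          (ρ := (r.symm : W →ₗ[F] W)) (fun w => k.1.injective (by
            rw [isom_apply_inv_self, h]; exact congrArg _ (r.apply_symm_apply w).symm))
          r.symm.surjective) hy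
        exact ⟨s, fun w => by
          have := congrArg r (hs w)
          simp only [LinearMap.comp_apply, LinearEquiv.coe_coe, inv_inv, r.apply_symm_apply, map_smul] at this
          exact this⟩
  refine (N.sp ((LinearMap.range (t.compl₂ ρ)).comap (t.compr₂ (k.1 : V →ₗ[F] V)))
    ⟨e, LinearMap.ext fun w => (h w).symm⟩ (fun y hq hy _ => ?_) hy).imp
    fun y' a w => (LinearMap.congr_fun a w).symm
  obtain ⟨u, u0, u1, u2⟩ := N.exU e y
  obtain ⟨y₁, b1, ψ, b2⟩ := a1 y hy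
  obtain ⟨u₁, c1, χ, c2⟩ := a1 u u1
  obtain ⟨α, d1, d2⟩ := N.sim hN u0 c2 c1 he
  have α0 : α ≠ 0 := by rintro rfl; exact u0 (by simpa using d1.symm)
  have hw : T.h w₀ w₀ ≠ 0 := by simp [orth_h_self, w1, N.two]
  have d3 : A.q y₁ = 0 := by
    simpa [b2, N.tt, A.orth_h_self, he, b1, os e y₁, hq, d2, α0, hw, N.two] using
      isom_h k (t y w₀) (t y w₀)
  have d4 : A.h y₁ u₁ = 0 := by
    simpa [b2, c2, N.tt, A.orth_h_self, he, b1, c1, os e y₁, u2, d2, α0, hw] using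
      isom_h k (t y w₀) (t u w₀)
  have d5 : ∀ {y y₁ : U} {ψ : W →ₗ[F] W}, (∀ w, k.1 (t y w) = t y₁ (ρ w) + t e (ψ w)) → ∀ x, c e x = 0 →
      ρ (c y (k⁻¹.1 x)) = α • c y₁ x := fun b x hx => N.ndW.ext_right fun w => by
    obtain ⟨w, rfl⟩ := r2 w
    rw [d2, ← N.hh, ← isom_h_left, b]
    simp [N.hh, hx]
  obtain ⟨g, hg, e1⟩ := N.hE hq u2
  obtain ⟨l, hl, e2⟩ := N.hE (y := α • u₁) d3 (by simp [d4])
  have e3 : ∀ w, l.1 (t e w) = t e w := fun w => by simp [e2, N.ct, os e, b1, c1]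
  have e4 : ∀ x, c e x = 0 → (k * g * k⁻¹).1 x =
      l.1 x + t e (χ (c y (k⁻¹.1 x)) - ψ (c u (k⁻¹.1 x) + A.q u • c y (k⁻¹.1 x))) := fun x hx => by
    simp only [isom_mul_apply, e1, e2, map_add, map_sub, map_smul, isom_apply_inv_self, b2, c2,
      d5 b2 x hx, d5 c2 x hx, orth_q_smul, ← d1, LinearMap.smul_apply]
    module
  obtain ⟨s, hs⟩ := N.lvR' hN h0 he (H.mul_mem (H.inv_mem hl) (H.mul_mem (H.mul_mem hk hg)
    (H.inv_mem hk))) (fun w => l.1.injective (by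
      obtain ⟨w, rfl⟩ := r2 w
      rw [e3, ← h]
      simp [e1, N.ct, os e, hy, u1])) (fun x hx => ⟨_, l.1.injective (by
      rw [isom_mul_apply, isom_apply_inv_self, e4 x hx, map_add l.1, e3])⟩) c1
  have e5 : ∀ w, c y (k⁻¹.1 (t u₁ w)) = 0 := fun w => r1 (by
    rw [d5 b2 _ (by simp [N.ct, c1])]; simp [N.ct, d4])
  refine ⟨y₁ - (s / (2 * A.q u)) • e, LinearMap.ext fun w => ?_⟩
  have e6 := congrArg l.1 (hs (ρ w))
  rw [isom_mul_apply, isom_apply_inv_self, e4 _ (by simp [N.ct, c1]), map_add l.1, map_smul l.1, e3, e5,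
    show c u (k⁻¹.1 (t u₁ (ρ w))) = (2 * A.q u) • w from r1 (by
      rw [d5 c2 _ (by simp [N.ct, c1])]; simp [N.ct, orth_h_self, ← d1, smul_smul]; ring_nf),
    add_right_inj] at e6
  have := N.two
  simp only [map_zero, smul_zero, add_zero, zero_sub, map_neg, map_smul] at e6
  simp only [LinearMap.compl₂_apply, LinearMap.compr₂_apply, LinearEquiv.coe_coe, b2, map_sub, map_smul,
    LinearMap.sub_apply, LinearMap.smul_apply]
  refine smul_right_injective _ (mul_ne_zero N.two u0) ?_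
  simp only [smul_sub, smul_add, smul_smul, mul_div_cancel₀ _ (mul_ne_zero N.two u0)]
  linear_combination (norm := module) e6

theorem f1 (h0 : e ≠ 0) (he : A.q e = 0) (he' : A.q e' = 0) (hk : k ∈ H)
    (h : ∀ w, k.1 (t e w) = t e' (ρ w)) (y : U) : ∃ y', ∀ w, k.1 (t y w) = t y' (ρ w) := by
  obtain ⟨w₀, w0, w1⟩ := N.exW
  have main : ∀ e e', e ≠ 0 → A.q e = 0 → A.q e' = 0 → (∀ w, k.1 (t e w) = t e' (ρ w)) → ∀ y, A.h e y = 0 →
      ∃ y', ∀ w, k.1 (t y w) = t y' (ρ w) := fun e e' h0 he he' h y hy => by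
    obtain ⟨γ, rfl, g, hg, a⟩ := N.mv h0 he (fun e0 => w0 (N.inj h0 (k.1.injective (by
      simp [h, e0])))) he'
    obtain ⟨y', b⟩ := N.f1a hN h0 he (H.mul_mem (H.inv_mem hg) hk) (ρ := ρ) (fun w => g.1.injective (by
      simp [h, a])) hy
    exact ⟨γ.1 y', fun w => by rw [← a, ← b, isom_mul_apply, isom_apply_inv_self]⟩
  obtain ⟨v, v1, v0, v2⟩ := iso3_orth A (A.perp (pl F e y)) (by
    have := N.ndU.finrank_perp (pl F e y); have := finrank_pl (F := F) e y; have := N.five; omega)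
  rw [A.mem_perp_pair] at v1
  rw [orth_sing] at v2
  obtain ⟨v', b⟩ := main e e' h0 he he' h v v1.1
  obtain ⟨w, hw⟩ := LinearMap.injective_iff_surjective.1 ((injective_iff_map_eq_zero ρ).2 fun w hw =>
    N.inj h0 (k.1.injective (by rw [h, hw]; simp))) w₀
  exact main v v' v0 v2 (by simpa [b, N.tq, v2, hw, w1, N.two] using orth_isom_q k (t v w)) b y
    (A.h_swap_zero v1.2)

theorem f2 (h0 : e ≠ 0) (he : A.q e = 0) (he' : A.q e' = 0) (hk : k ∈ H)
    (h : ∀ w, ∃ a, k.1 (t e w) = t e' a) : Ten t k := by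
  obtain ⟨w₀, w0, -⟩ := N.exW
  obtain ⟨η, hη⟩ := N.ndU.exists_h_eq_one (x := e') (by
    rintro rfl
    exact (h w₀).elim fun a ha => w0 (N.inj h0 (k.1.injective (by simp [ha]))))
  exact ⟨c η ∘ₗ (k.1 : V →ₗ[F] V) ∘ₗ t e, N.f1 hN h0 he he' hk fun w => by
    obtain ⟨a, ha⟩ := h w
    simp [ha, N.ct, os e' η, hη]⟩

theorem f3 (h0 : e ≠ 0) (he : A.q e = 0) (h0' : e' ≠ 0) (he' : A.q e' = 0) (hv : A.h e v = 0)
    (hk : k ∈ H) (h : ∀ w, ∃ a b, t e' w = k.1 (t e a + t v b)) : Ten t k := by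
  obtain ⟨u, u0, u1, u2⟩ := N.exU e v
  obtain ⟨r, hr, e1⟩ := N.hE he u1
  choose f hf using N.f1 hN h0' he' he' (H.mul_mem (H.mul_mem hk hr) (H.inv_mem hk)) (ρ := .id) fun w => by
    obtain ⟨a, b, h⟩ := h w
    simp [h, e1, N.ct, orth_h_self, he, hv, os e u, os v u, u1, u2]
  have a1 : ∀ y w, t (f (f y) - (2 : F) • f y + y) w =
      k.1 (t e ((-2 * A.q u) • c e (k⁻¹.1 (t y w)))) := fun y w => by
    have b1 := hf y w
    have b2 := hf (f y) w
    simp only [LinearMap.id_apply] at b1 b2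
    simp only [map_add, map_sub, map_smul, LinearMap.add_apply, LinearMap.sub_apply,
      LinearMap.smul_apply]
    rw [← b2, ← b1]
    obtain ⟨x, hx⟩ := k.1.surjective (t y w)
    simp only [← hx, isom_mul_apply, isom_inv_apply_self, e1, map_add, map_sub, map_smul, N.ct,
      orth_h_self, he, u1, os e u]
    module
  obtain ⟨w₀, w0, w1⟩ := N.exW
  obtain ⟨y, hy⟩ : ∃ y, f (f y) - (2 : F) • f y + y ≠ 0 := by
    by_contra! h
    obtain ⟨η, hη⟩ := N.ndU.exists_h_eq_one h0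
    have := N.lext (f := c e ∘ₗ (k⁻¹.1 : V →ₗ[F] V)) (g := 0) (fun y w => by
      simpa [h, N.two, u0] using N.inj h0 (k.1.injective ((a1 y w).symm.trans (by simp [h]))))
      (k.1 (t η w₀))
    simp [N.ct, hη, w0] at this
  have a2 := congrArg S.q (a1 y w₀)
  rw [orth_isom_q, N.tq, N.tq, he] at a2
  simpa using (N.f2 hN hy (by simpa [w1, N.two] using a2) he
    (H.inv_mem hk) fun w => ⟨_, by rw [a1, isom_inv_apply_self]⟩).inv

end TO

end H20.To
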