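import Cfsg.Agent.H20.To2

/-! Overgroups of `Ω(U) ⊗ Ω(W)` in `Ω(U ⊗ W)`, part 3: the algebra of two quadratic elements (`Pr`),
Dickson's lemma (`dk`), the maximal intersection argument for long root elements and `TO.dich`. -/

set_option autoImplicit false
set_option linter.unusedSectionVars false

namespace H20.To

open Module H11 H11.PForm H29 H20.Pl Polynomial
open scoped MatrixGroups Matrix

section
variable {F R : Type*} [Field F] [Ring R] [Algebra F R] {n m a a' b b' : R}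

/-- four traces commute with `m` -/
def Tr (n m b b' : R) : Prop := Commute (n * m + m * n) b' ∧ Commute m (b + b') ∧
  Commute m (n * b - b' * n) ∧ Commute m (m * b - b' * m) ∧ Commute m (n * m * b + b' * m * n)

/-- `a'` is the formal adjoint of `a` -/
def Pr (n m a a' : R) : Prop := ∀ b b', Tr n m b b' → Tr n m (a * b) (b' * a')

theorem cg (h : Commute m a) (e : b = a) : Commute m b := e ▸ h

theorem Pr.mul (h : Pr n m a a') (h' : Pr n m b b') : Pr n m (a * b) (b' * a') := fun x y e => by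
  simpa only [mul_assoc] using h _ _ (h' x y e)

theorem Pr.one : Pr n m 1 1 := fun x y e => by simpa using e

theorem Pr.lin (h : Pr n m a a') (s : F) : Pr n m (1 + s • a) (1 + s • a') := fun x y e => by
  obtain ⟨a1, a2, a3, a4, a5⟩ := h x y e
  obtain ⟨b1, b2, b3, b4, b5⟩ := e
  refine ⟨cg (b1.add_right (a1.smul_right s)) ?_, cg (b2.add_right (a2.smul_right s)) ?_,
    cg (b3.add_right (a3.smul_right s)) ?_, cg (b4.add_right (a4.smul_right s)) ?_,
    cg (b5.add_right (a5.smul_right s)) ?_⟩ <;>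
  · simp only [mul_add, add_mul, one_mul, mul_one, smul_mul_assoc, mul_smul_comm, smul_add, smul_sub]
    try abel

variable (hn : n * n = 0) (hm : m * m = 0)
include hn hm

theorem cm : Commute (n * m + m * n) n ∧ Commute (n * m + m * n) m :=
  ⟨by unfold Commute SemiconjBy; linear_combination (norm := noncomm_ring) m * hn - hn * m,
    by unfold Commute SemiconjBy; linear_combination (norm := noncomm_ring) n * hm - hm * n⟩

theorem pr_n : Pr n m n (-n) := fun b b' ⟨a1, a2, a3, _, a5⟩ =>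
  have c := (cm hn hm).2.symm
  ⟨a1.mul_right (cm hn hm).1.neg_right, cg a3 (by noncomm_ring), cg (.zero_right m)
    (by linear_combination (norm := noncomm_ring) hn * b + b' * hn), cg ((c.mul_right a2).sub_right a5)
    (by linear_combination (norm := noncomm_ring) -a1.eq), cg (c.mul_right a3)
    (by linear_combination (norm := noncomm_ring) b' * m * hn - m * hn * b + a1.eq * n)⟩

theorem pr_m : Pr n m m (-m) := fun b b' ⟨a1, _, _, a4, a5⟩ =>
  ⟨a1.mul_right (cm hn hm).2.neg_right, cg a4 (by noncomm_ring), cg a5 (by noncomm_ring),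
    cg (.zero_right m) (by linear_combination (norm := noncomm_ring) hm * b + b' * hm),
    cg (.zero_right m) (by linear_combination (norm := noncomm_ring) n * hm * b - b' * hm * n)⟩

theorem Pr.comm (h : Pr n m a a') : Commute m (a + a') := by
  simpa using (h 1 1 ⟨.one_right _, (Commute.one_right m).add_right (.one_right m), by simp, by simp,
    by simpa using (cm hn hm).2.symm⟩).2.1

end

variable {F U W V : Type*} [Field F] [AddCommGroup U] [Module F U] [AddCommGroup W] [Module F W]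
  [AddCommGroup V] [Module F V] [FiniteDimensional F U] [FiniteDimensional F W]
  [FiniteDimensional F V] {A : PForm (orthP F) U} {T : PForm (orthP F) W} {S : PForm (orthP F) V}
  {H : Subgroup S.Isom} {t : U →ₗ[F] W →ₗ[F] V} {c : U →ₗ[F] V →ₗ[F] W} {e e' u v v' y z : U}
  {w : W} {ρ : W →ₗ[F] W} {g k : S.Isom} {x : V} {X Y D : Submodule F V} {d : ℕ}

theorem dk [Finite F] (h2 : (2 : F) ≠ 0) {n m : V →ₗ[F] V} (hX : X ≠ ⊥) (hn : ∀ x ∈ X, n x = 0)
    (hm : ∀ x, m (m x) = 0) (hM : ∀ x ∈ X, (n ∘ₗ m) x ∈ X) (hi : ∀ x ∈ X, n (m x) = 0 → x = 0)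
    (hg : g ∈ H) (hk : k ∈ H) (eg : ∀ x, g.1 x = x + n x) (ek : ∀ x, k.1 x = x + m x) :
    ∃ x ∈ X, x ≠ 0 ∧ ((∃ s : F, s ≠ 0 ∧ n (m x) = s • x) ∨ ∃ g ∈ H, g.1 x ∈ X ∧ g.1 x ∉ F ∙ x) := by
  haveI := Submodule.nontrivial_iff_ne_bot.2 hX
  obtain ⟨f, f1, f2, ι, i1, i2, i3⟩ := Tp.ex_simple ((n ∘ₗ m).restrict hM)
  haveI := Fact.mk f1
  haveI := (AdjoinRoot.powerBasis' f2).finite
  haveI : Finite (AdjoinRoot f) := Module.finite_of_finite F
  generalize AdjoinRoot.root f = θ at i2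
  replace i2 : ∀ l, n (m (ι l)) = ι (θ * l) := fun l => congrArg Subtype.val (i2 l)
  replace i3 : ∀ l, ι l = 0 → l = 0 := fun l h => by_contra fun h0 =>
    i1 (by simpa [h0] using i3 l h l⁻¹)
  have i4 : (ι 1 : V) ≠ 0 := by simpa using i1
  have t0 : θ ≠ 0 := fun h => i4 (hi _ (ι 1).2 (by simp [i2, h]))
  refine ⟨ι 1, (ι 1).2, i4, or_iff_not_imp_left.2 fun hs => ?_⟩
  suffices ∃ g ∈ H, g.1 (ι 1) = ι θ by
    obtain ⟨g, hg, e⟩ := this
    refine ⟨g, hg, e ▸ (ι θ).2, fun h => hs ?_⟩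
    obtain ⟨s, h⟩ := Submodule.mem_span_singleton.1 h
    exact ⟨s, fun s0 => t0 (i3 _ (by simpa [s0, e] using h.symm)), by rw [i2, mul_one, h, e]⟩
  let L : Subgroup SL(2, AdjoinRoot f) :=
    { carrier := {B | ∃ g ∈ H, ∀ p : Fin 2 → AdjoinRoot f, g.1 (ι (p 0) + m (ι (p 1))) =
        ι ((B.1 *ᵥ p) 0) + m (ι ((B.1 *ᵥ p) 1))}
      mul_mem' := by
        rintro B C ⟨g, hg, a1⟩ ⟨k, hk, b1⟩
        exact ⟨g * k, H.mul_mem hg hk, fun p => by
          rw [isom_mul_apply, b1, a1, Matrix.mulVec_mulVec, Matrix.SpecialLinearGroup.coe_mul]⟩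
      one_mem' := ⟨1, H.one_mem, by simp⟩
      inv_mem' := by
        rintro B ⟨g, hg, a1⟩
        refine ⟨g⁻¹, H.inv_mem hg, fun p => g.1.injective ?_⟩
        rw [isom_apply_inv_self, a1, Matrix.mulVec_mulVec, ← Matrix.SpecialLinearGroup.coe_mul,
          mul_inv_cancel, Matrix.SpecialLinearGroup.coe_one, Matrix.one_mulVec] }
  have l1 : ∀ B : SL(2, AdjoinRoot f), B.1 = !![1, 0; 1, 1] → B ∈ L := fun B e => ⟨k, hk, fun p => by
    simp [e, ek, hm, Matrix.mulVec, dotProduct]; abel⟩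
  have l2 : ∀ B : SL(2, AdjoinRoot f), B.1 = !![1, θ; 0, 1] → B ∈ L := fun B e => ⟨g, hg, fun p => by
    simp [e, eg, hn, i2, Matrix.mulVec, dotProduct]; abel⟩
  suffices ∃ B ∈ L, B.1 0 0 = θ ∧ B.1 1 0 = 0 by
    obtain ⟨B, ⟨g, hg, e⟩, a1, a2⟩ := this
    exact ⟨g, hg, by simpa [Matrix.mulVec, dotProduct, a1, a2] using e ![1, 0]⟩
  by_cases h3 : θ ^ 2 = -1
  · obtain ⟨a, ea⟩ : ∃ a : SL(2, AdjoinRoot f), a.1 = !![1, 0; 1, 1] :=
      ⟨⟨_, by simp [Matrix.det_fin_two]⟩, rfl⟩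
    obtain ⟨b, eb⟩ : ∃ b : SL(2, AdjoinRoot f), b.1 = !![1, θ; 0, 1] :=
      ⟨⟨_, by simp [Matrix.det_fin_two]⟩, rfl⟩
    refine ⟨a * b⁻¹ * a⁻¹ * b * a, L.mul_mem (L.mul_mem (L.mul_mem (L.mul_mem (l1 a ea) (L.inv_mem
      (l2 b eb))) (L.inv_mem (l1 a ea))) (l2 b eb)) (l1 a ea), ?_, ?_⟩ <;>
    · simp [ea, eb, Matrix.adjugate_fin_two]
      linear_combination h3
  let K := Subfield.closure {θ}
  haveI := Fintype.ofFinite K
  let lam : K := ⟨θ, Subfield.subset_closure rfl⟩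
  have top := ((Cfsg.Agent.S0801.result (F := K) (fun h => h2 ((algebraMap F (AdjoinRoot f)).injective
    (by rw [map_ofNat, map_zero]; exact congrArg Subtype.val h))) lam
    (fun h => t0 (congrArg Subtype.val h)) (eq_top_iff.2 fun z _ => by
      obtain ⟨y, hy, e⟩ : z.1 ∈ (Subfield.closure {lam}).map K.subtype := by
        rw [RingHom.map_field_closure, Set.image_singleton]; exact z.2
      exact (Subtype.ext e : y = z) ▸ hy)).resolve_right
      fun c => h3 (congrArg Subtype.val c.2.1)).1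
  have le : L.comap (Matrix.SpecialLinearGroup.map K.subtype) = ⊤ :=
    eq_top_iff.2 (top ▸ (Subgroup.closure_le _).2 fun B hB => by
      rcases hB with hB | hB
      · exact l1 _ (by ext i j; fin_cases i <;> fin_cases j <;> simp [hB])
      · exact l2 _ (by ext i j; fin_cases i <;> fin_cases j <;> simp [hB, lam]))
  exact ⟨_, (le.ge trivial : (⟨!![lam, 0; 0, lam⁻¹], by
    simp [Matrix.det_fin_two, mul_inv_cancel₀ (show lam ≠ 0 from fun h => t0 (congrArg Subtype.val h))]⟩ :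
      SL(2, K)) ∈ _), rfl, rfl⟩

theorem mm_one : mm t c (1 : S.Isom) e v = nn t c e v := rfl

theorem mem_mm : x ∈ LinearMap.range (mm t c g e v) ↔ g⁻¹.1 x ∈ LinearMap.range (nn t c e v) :=
  ⟨by rintro ⟨y, rfl⟩; exact ⟨g⁻¹.1 y, by simp [mm_apply]⟩,
    fun ⟨y, h⟩ => ⟨g.1 y, by simp [mm_apply, h]⟩⟩

theorem rb {a b : F} (h : a • e + b • v ≠ 0) :
    ∃ a' b' : F, nn t c e v = nn t c (a • e + b • v) (a' • e + b' • v) := by
  by_cases ha : a = 0
  · have hb : b ≠ 0 := by rintro rfl; simp [ha] at h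
    exact ⟨-b⁻¹, 0, LinearMap.ext fun x => by simp [nn_apply, ha, smul_smul, hb, neg_add_eq_sub]⟩
  · refine ⟨0, a⁻¹, LinearMap.ext fun x => ?_⟩
    simp only [nn_apply, map_add, map_smul, LinearMap.add_apply, LinearMap.smul_apply]
    match_scalars <;> field_simp <;> ring

/-- members meeting in dimension at least `d` are related by the tensor structure -/
def Mx (A : PForm (orthP F) U) (t : U →ₗ[F] W →ₗ[F] V) (c : U →ₗ[F] V →ₗ[F] W) (H : Subgroup S.Isom)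
    (d : ℕ) : Prop := ∀ g ∈ H, ∀ e v e' v', TP A e v → TP A e' v' →
  d ≤ finrank F ↥(LinearMap.range (nn t c e v) ⊓ LinearMap.range (mm t c g e' v')) → Ten t g

theorem Mx.nml (hM : Mx A t c H (d + 1)) (p : TP A e v) (hg : g ∈ H)
    (h1 : D ≤ LinearMap.range (mm t c g e v)) (hd : d ≤ finrank F D) (hk : k ∈ H)
    (h3 : ∀ y ∈ D, k.1 y = y) (hx : x ∈ LinearMap.range (mm t c g e v))
    (hx' : k.1 x ∈ LinearMap.range (mm t c g e v)) (hxD : x ∉ D) : Ten t (g⁻¹ * k * g) := by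
  refine hM _ (H.mul_mem (H.mul_mem (H.inv_mem hg) hk) hg) _ _ _ _ p p
    ((hd.trans_eq (g⁻¹.1.finrank_map_eq D).symm).trans_lt (Submodule.finrank_lt_finrank_of_lt
      (lt_of_le_of_ne ?_ fun e' => hxD ?_)))
  · rintro _ ⟨y, hy, rfl⟩
    refine ⟨mem_mm.1 (h1 hy), mem_mm.2 ?_⟩
    rw [← h3 y hy]
    simpa using mem_mm.1 (h1 hy)
  obtain ⟨y, hy, a⟩ := e'.ge (show g⁻¹.1 (k.1 x) ∈ _ from
    ⟨mem_mm.1 hx', mem_mm.2 (by simpa using mem_mm.1 hx)⟩)
  rwa [← k.1.injective ((h3 y hy).trans (g⁻¹.1.injective a))]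

namespace TO
variable [Finite F] (N : TO A T t c H)
include N

theorem tp (h0 : e ≠ 0) (he : A.q e = 0) (hv : A.q v = 0) (h : A.h e v = 0) (h1 : v ∉ F ∙ e) :
    TP A e v := by
  obtain ⟨y, a, b⟩ := N.ndU.exists_perp_of_notMem' h1 1
  rw [mem_perp_singleton] at a
  obtain ⟨z, hz⟩ := N.ndU.exists_h_eq_one h0
  exact ⟨he, hv, h, ⟨z - A.h v z • y, by simp [a, hz], by simp [b]⟩, y, a, b⟩

theorem mem_nn (p : TP A e v) : x ∈ LinearMap.range (nn t c e v) ↔ ∃ a b, x = t e a + t v b := by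
  obtain ⟨y, a1, a2⟩ := p.d1
  obtain ⟨z, b1, b2⟩ := p.d2
  exact ⟨by rintro ⟨x, rfl⟩; exact ⟨c v x, -c e x, by simp [nn_apply, sub_eq_add_neg]⟩, by
    rintro ⟨a, b, rfl⟩
    exact ⟨t z a - t y b, by simp [nn_apply, N.ct, a1, a2, b1, b2]⟩⟩

theorem mm_mm (p : TP A e v) (x : V) : mm t c g e v (mm t c g e v x) = 0 := by
  simp [mm_apply, nn_apply, N.ct, orth_h_self, p.qe, p.qv, p.h, os e v]

theorem mm_sk (x y : V) : S.h (mm t c g e v x) y = -S.h x (mm t c g e v y) := by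
  rw [mm_apply, mm_apply, isom_h_left, isom_h_right g, os _ (g⁻¹.1 x)]
  simp only [nn_apply, map_sub, LinearMap.sub_apply, N.hh, os (c v _)]
  ring

theorem mm_q (p : TP A e v) (x : V) : S.q (mm t c g e v x) = 0 := mul_left_cancel₀ N.two (by
  rw [← orth_h_self, N.mm_sk, N.mm_mm p]; simp)

theorem hm (hg : g ∈ H) (p : TP A e v) (s : F) : ∃ k ∈ H, ∀ x, k.1 x = x + s • mm t c g e v x := by
  obtain ⟨k, hk, a⟩ := N.hE (y := -s • v) p.qe (by simp [p.h])
  refine ⟨g * k * g⁻¹, H.mul_mem (H.mul_mem hg hk) (H.inv_mem hg), fun x => ?_⟩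
  simp only [isom_mul_apply, a, mm_apply, nn_apply, orth_q_smul, p.qv, map_add, map_sub, map_smul,
    LinearMap.smul_apply, isom_apply_inv_self]
  module

theorem surj (h0 : e ≠ 0) (h : ∀ w, k.1 (t e w) = t e' (ρ w)) : Function.Surjective ρ :=
  LinearMap.injective_iff_surjective.1 ((injective_iff_map_eq_zero ρ).2 fun w hw =>
    N.inj h0 (k.1.injective (by rw [h, hw]; simp)))

variable (hN : NL A t H)
include hN

theorem iv (hg : g ∈ H) (p : TP A e v) (ek : ∀ x, k.1 x = x + mm t c g e v x) (h : Ten t k) :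
    Ten t g := by
  obtain ⟨ρ, h⟩ := h
  choose f hf using h
  obtain ⟨w₀, w0, w1⟩ := N.exW
  obtain ⟨η, hη, hη'⟩ := p.d2
  have a1 : ∀ y w, mm t c g e v (t y w) = t (f y) (ρ w) - t y w := fun y w => by simp [← hf, ek]
  by_cases hs : ∃ s : F, ∀ w, ρ w = s • w
  · obtain ⟨s, hs⟩ := hs
    have a2 : ∀ y w, mm t c g e v (t y w) = t (s • f y - y) w := fun y w => by simp [a1, hs]
    obtain ⟨y, hy⟩ : ∃ y, s • f y - y ≠ 0 := by
      by_contra! h
      have := N.lext (f := mm t c g e v) (g := 0) (fun y w => by simp [a2, h]) (g.1 (t η w₀))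
      exact w0 (N.inj p.ne (by simpa [mm_apply, nn_apply, N.ct, hη, hη'] using this))
    have a3 := N.mm_q (g := g) p (t y w₀)
    rw [a2, N.tq] at a3
    exact N.f3 hN p.ne p.qe hy (by simpa [N.two, w1] using a3) p.h hg fun w =>
      ⟨_, _, by rw [← a2, mm_apply, nn_apply, sub_eq_add_neg, ← map_neg]⟩
  exfalso
  obtain ⟨w, hw⟩ : ∃ w, ρ w ∉ F ∙ w := by
    by_contra! h
    exact hs (Tp.scal N.two N.ndW N.hb fun w _ => h w)
  obtain ⟨θ, b1, b2⟩ := ex_sep hw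
  obtain ⟨θ', b3, b4⟩ : ∃ θ' : Dual F W, θ' w = 1 ∧ θ' (ρ w) = 0 :=
    let ⟨θ', h⟩ := ex_one' (F := F) (w := w) (by rintro rfl; simp at hw)
    ⟨θ' - θ' (ρ w) • θ, by simp [h, b1], by simp [b2]⟩
  have a2 : ∀ (θ : Dual F W) y, θ (ρ (ρ w)) • f (f y) - (2 * θ (ρ w)) • f y + θ w • y = 0 := fun θ y =>
    N.ndU.eq_zero' fun z => by
      have := congrArg (fun x => θ (c z x)) (N.mm_mm (g := g) p (t y w))
      simp only [a1, map_sub, N.ct, map_smul, smul_eq_mul, map_zero, map_add] at this ⊢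
      linear_combination this
  have a3 : θ' (ρ (ρ w)) ≠ 0 := fun h => p.ne (by simpa [h, b3, b4] using a2 θ' e)
  obtain ⟨μ, hμ⟩ : ∃ μ : W →ₗ[F] W, μ = -(θ (ρ (ρ w)) / (2 * θ' (ρ (ρ w)))) • ρ - .id := ⟨_, rfl⟩
  have a4 : ∀ y a, mm t c g e v (t y a) = t y (μ a) := fun y a => by
    have c1 := a2 θ y
    have c2 := a2 θ' y
    rw [b1, b2] at c1
    rw [b3, b4] at c2
    have : f y = -(θ (ρ (ρ w)) / (2 * θ' (ρ (ρ w)))) • y :=
      smul_right_injective _ (mul_ne_zero N.two a3) (by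
        simp only [smul_smul, mul_neg, mul_div_cancel₀ _ (mul_ne_zero N.two a3)]
        linear_combination (norm := module) θ (ρ (ρ w)) • c2 - θ' (ρ (ρ w)) • c1)
    simp [a1, this, hμ]
  have a5 : ∀ a b, T.h (μ a) b = -T.h a (μ b) := fun a b => by
    simpa [a4, N.tt, hη'] using N.mm_sk (g := g) (e := e) (v := v) (t v a) (t η b)
  have a6 : ∀ a, T.h a (μ a) = 0 := fun a => mul_left_cancel₀ N.two (by
    linear_combination a5 a a + os (T := T) (μ a) a)
  obtain ⟨w', hw'⟩ := N.ndW.exists_h_eq_one (x := μ w) fun h => by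
    simpa [hμ, b3, b4] using congrArg θ' h
  let L := (t.flip (μ w)).coprod (t.flip (μ w'))
  have a7 := (Submodule.finrank_mono (show LinearMap.range L ≤
      LinearMap.range ((g.1 : V →ₗ[F] V) ∘ₗ (t e).coprod (t v)) by
    have : ∀ y a, t y (μ a) ∈ LinearMap.range ((g.1 : V →ₗ[F] V) ∘ₗ (t e).coprod (t v)) := fun y a =>
      ⟨(_, _), by rw [← a4, mm_apply, nn_apply, sub_eq_add_neg, ← map_neg]; rfl⟩
    rintro _ ⟨q, rfl⟩
    exact add_mem (this _ _) (this _ _))).trans (LinearMap.finrank_range_le _)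
  rw [LinearMap.finrank_range_of_inj ((injective_iff_map_eq_zero _).2 fun q hq => by
    refine Prod.ext (N.ndU.eq_zero' fun z => ?_) (N.ndU.eq_zero' fun z => ?_)
    · simpa [L, N.ct, a6, os (μ w) w', hw'] using congrArg (fun x => T.h w' (c z x)) hq
    · simpa [L, N.ct, a6, neg_eq_iff_eq_neg.1 ((a5 w w').symm.trans hw')] using
        congrArg (fun x => T.h w (c z x)) hq), finrank_prod, finrank_prod] at a7
  have := N.lt
  omega

theorem core (hM : Mx A t c H (d + 1)) (p : TP A e v) (hg : g ∈ H) (p' : TP A e' v') (hn : ¬ Ten t g)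
    (hd : d ≤ finrank F ↥(LinearMap.range (nn t c e v) ⊓ LinearMap.range (mm t c g e' v'))) :
    LinearMap.range (nn t c e v) ⊓ LinearMap.range (mm t c g e' v') = ⊥ ∧
      ∃ s : F, s ≠ 0 ∧ ∀ w, nn t c e v (mm t c g e' v' (t e w)) = s • t e w := by
  obtain ⟨m, em⟩ : ∃ m, m = mm t c g e' v' := ⟨_, rfl⟩
  obtain ⟨n, en⟩ : ∃ n, n = nn t c e v := ⟨_, rfl⟩
  obtain ⟨X, eX⟩ : ∃ X, X = LinearMap.range n := ⟨_, rfl⟩
  obtain ⟨Y, eY⟩ : ∃ Y, Y = LinearMap.range m := ⟨_, rfl⟩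
  rw [← em, ← en, ← eX, ← eY] at hd ⊢
  have m1 : ∀ x, m x ∈ Y := fun x => eY ▸ ⟨_, rfl⟩
  have n1 : ∀ x, n x ∈ X := fun x => eX ▸ ⟨_, rfl⟩
  have m0 : ∀ x ∈ Y, m x = 0 := by rw [eY, em]; rintro _ ⟨w, rfl⟩; exact N.mm_mm p' w
  have n0 : ∀ x ∈ X, n x = 0 := by rw [eX, en]; rintro _ ⟨w, rfl⟩; exact N.mm_mm (g := 1) p w
  have m2 : m * m = 0 := LinearMap.ext fun x => m0 _ (m1 x)
  have n2 : n * n = 0 := LinearMap.ext fun x => n0 _ (n1 x)
  have ns : ∀ x y, S.h (n x) y = -S.h x (n y) := en ▸ N.mm_sk (g := 1)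
  have hn' : ∀ s : F, ∃ k ∈ H, ∀ x, k.1 x = x + s • n x := en ▸ N.hm H.one_mem p
  have hm' : ∀ s : F, ∃ k ∈ H, ∀ x, k.1 x = x + s • m x := em ▸ N.hm hg p'
  have mX : ∀ {x}, x ∈ X ↔ ∃ a b, x = t e a + t v b := by rw [eX, en]; exact N.mem_nn p
  have nX : ∀ k ∈ H, (∀ y ∈ X ⊓ Y, k.1 y = y) → ∀ x ∈ X, k.1 x ∈ X → x ∉ Y → Ten t k := by
    intro k hk h1 x h2 h3 h4
    rw [eX, en, ← mm_one (S := S)] at h2 h3
    simpa using hM.nml p H.one_mem (by rw [eX, en]; exact inf_le_left) hd hk h1 h2 h3 fun a => h4 a.2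
  have i1 : ∀ x ∈ X, m x ∈ X → x ∈ Y := fun x hx h => by_contra fun h' => by
    obtain ⟨k, hk, e⟩ := hm' 1
    exact hn (N.iv hN hg p' (by simpa [em] using e) (nX k hk (fun y hy => by simp [e, m0 y hy.2]) x hx
      (by simpa [e] using X.add_mem hx h) h'))
  have i2 : ∀ x ∈ Y, n x ∈ Y → x ∈ X := fun x hx h => by_contra fun h' => by
    obtain ⟨k, hk, e⟩ := hn' 1
    refine hn (by simpa using (N.iv hN (H.inv_mem hg) p (fun x => by simp [e, en, mm_apply])
      (hM.nml p' hg (by rw [eY, em]; exact inf_le_right) hd hk (fun y hy => by simp [e, n0 y hy.1])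
      (em ▸ eY ▸ hx) (em ▸ eY ▸ (by simpa [e] using Y.add_mem hx h)) fun a => h' a.1)).inv)
  have j3 : ∀ x ∈ X ⊔ Y, n x = 0 → x ∈ X := fun x hx h => by
    obtain ⟨a, ha, b, hb, rfl⟩ := Submodule.mem_sup.1 hx
    rw [map_add, n0 a ha, zero_add] at h
    exact X.add_mem ha (i2 b hb (h ▸ Y.zero_mem))
  obtain ⟨w₀, w0, w1⟩ := N.exW
  have hw : T.h w₀ w₀ ≠ 0 := by simp [orth_h_self, w1, N.two]
  have z0 : ∀ a a' : End F V, Pr n m a a' → (∀ x, (a + a') x ∈ X) → ∀ y, (∀ w, ∃ x, (a + a') x = t y w) →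
      y = 0 := fun a a' h h1 y h2 => by_contra fun y0 => by
    have b1 : ∀ w, t y w ∈ X := fun w => (h2 w).elim fun x hx => hx ▸ h1 x
    refine hn (N.f3 hN p'.ne p'.qe y0 ?_ p'.h hg fun w => ?_)
    · obtain ⟨x, hx⟩ := eX ▸ b1 w₀
      have := N.mm_q (g := 1) p x
      rw [mm_one, ← en, hx, N.tq] at this
      simpa [N.two, w1] using this
    obtain ⟨x, hx⟩ := h2 w
    obtain ⟨a, b, e⟩ := (N.mem_nn p').1 (mem_mm.1 (em ▸ eY ▸ i1 _ (b1 w) (by
      rw [← hx, ← End.mul_apply, (h.comm n2 m2).eq]; exact h1 _)))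
    exact ⟨a, b, by rw [← e, isom_apply_inv_self]⟩
  let G : Subgroup S.Isom :=
    { carrier := {k | k ∈ H ∧ (∀ x ∈ X ⊓ Y, k.1 x = x) ∧ (∀ x, k.1 x - x ∈ X ⊔ Y) ∧
        Pr n m (k.1 : V →ₗ[F] V) (k⁻¹.1 : V →ₗ[F] V) ∧ Pr n m (k⁻¹.1 : V →ₗ[F] V) (k.1 : V →ₗ[F] V)}
      mul_mem' := fun {k l} a b => ⟨H.mul_mem a.1 b.1, fun x hx => by simp [a.2.1 x hx, b.2.1 x hx],
        fun x => by simpa using add_mem (a.2.2.1 (l.1 x)) (b.2.2.1 x),
        mul_inv_rev k l ▸ a.2.2.2.1.mul b.2.2.2.1, mul_inv_rev k l ▸ b.2.2.2.2.mul a.2.2.2.2⟩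
      one_mem' := ⟨H.one_mem, by simp, by simp, Pr.one, Pr.one⟩
      inv_mem' := fun {k} a => ⟨H.inv_mem a.1, fun x hx => k.1.injective (by simp [a.2.1 x hx]),
        fun x => by simpa using neg_mem (a.2.2.1 (k⁻¹.1 x)), a.2.2.2.2, a.2.2.2.1⟩ }
  obtain ⟨y₁, p1, p2⟩ := p.d1
  obtain ⟨y₂, p3, p4⟩ := p.d2
  have key : ∀ k ∈ G, ∀ x ∈ X, x ∉ Y → k.1 x ∈ X → ∃ s : F, ∀ x ∈ X, k.1 x = s • x := by
    intro k ⟨hk, k1, k2, k3, k4⟩ x hx h1 h2
    obtain ⟨ρ, h⟩ := nX k hk k1 x hx h2 h1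
    choose f hf using h
    obtain ⟨u, u0, u1, u2⟩ := N.exU e v
    obtain ⟨α, a1, a2⟩ := N.sim hN u0 (e := 0) (σ := 0) (by simpa using hf u) (by simp) A.orth_q_zero
    have a3 : ∀ y z, A.h y z = 0 → A.h (f y) (f z) = 0 := fun y z h => by
      simpa [hf, N.tt, a2, hw, h, show α ≠ 0 by rintro rfl; exact u0 (by simpa using a1.symm)] using
        isom_h k (t y w₀) (t z w₀)
    have a4 : ∀ y x, ρ (c y (k⁻¹.1 x)) = α • c (f y) x := fun y x => N.ndW.ext_right fun w => by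
      obtain ⟨w, rfl⟩ := N.surj p.ne (hf e) w
      rw [a2, ← N.hh, ← isom_h_left, hf]
      simp [N.hh]
    have a5 : ∀ x, k.1 (n (k⁻¹.1 x)) = α • nn t c (f e) (f v) x := fun x => by
      simp only [en, nn_apply, map_sub, hf, a4, smul_sub, map_smul]
    have a6 : ∀ x ∈ X, k.1 x ∈ X := by
      obtain ⟨η, w, b1⟩ : ∃ η w, T.h w (c η (k.1 x)) ≠ 0 := by
        by_contra! h
        refine h1 ((map_eq_zero_iff _ k.1.injective).1 (N.nd.eq_zero' (N.lext (f := S.h.flip _) (g := 0)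
          fun η w => (N.hh _ _ _).trans (h η w))) ▸ Y.zero_mem)
      obtain ⟨a, b, b2⟩ := mX.1 h2
      obtain ⟨a', b', b3⟩ := mX.1 hx
      have b4 : T.h w a • e + T.h w b • v = T.h w (ρ a') • f e + T.h w (ρ b') • f v :=
        N.ndU.ext_right fun z => by
          have := congrArg (fun x => T.h w (c z x)) (b2.symm.trans (congrArg k.1 b3))
          simp only [map_add, hf, N.ct, map_smul, smul_eq_mul] at this ⊢
          linear_combination this
      have b5 : T.h w a • e + T.h w b • v ≠ 0 := fun h => b1 (by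
        have := congrArg (A.h η) h
        simp only [map_add, b2, N.ct, map_smul, smul_eq_mul, map_zero] at this ⊢
        linear_combination this)
      obtain ⟨r, r', c1⟩ := rb (t := t) (c := c) b5
      obtain ⟨s, s', c2⟩ := rb (t := t) (c := c) (b4 ▸ b5)
      have c3 : A.h (T.h w a • e + T.h w b • v) (s • f e + s' • f v) = 0 := by
        simp [b4, a3, orth_h_self, p.qe, p.qv, p.h, os e v]
      have c4 : A.h (T.h w a • e + T.h w b • v) (r • e + r' • v) = 0 := by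
        simp [orth_h_self, p.qe, p.qv, p.h, os e v]
      have c5 : A.h (T.h w a • e + T.h w b • v) (T.h w a • e + T.h w b • v) = 0 := by
        simp [orth_h_self, p.qe, p.qv, p.h, os e v]
      have c6 : ∀ w', t (T.h w a • e + T.h w b • v) w' ∈ X := fun w' =>
        mX.2 ⟨T.h w a • w', T.h w b • w', by simp⟩
      rw [← b4] at c2
      rw [← en] at c1
      generalize T.h w a • e + T.h w b • v = e₀ at *
      generalize s • f e + s' • f v = v₁ at *
      generalize r • e + r' • v = v₀ at *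
      have c7 : ∀ x, n (k.1 (n (k⁻¹.1 x))) = -(α * A.h v₀ v₁) • t e₀ (c e₀ x) := fun x => by
        rw [a5, c2, c1]
        simp [nn_apply, N.ct, c3, c5, os e₀ v₀, c4, smul_smul]
      have c8 : ∀ x, k.1 (n (k⁻¹.1 (n x))) = -(α * A.h v₀ v₁) • t e₀ (c e₀ x) := fun x => by
        rw [a5, c2, c1]
        simp [nn_apply, N.ct, c3, c5, os e₀ v₁, c4, smul_smul, os v₀ v₁]
      obtain ⟨η', c9⟩ := N.ndU.exists_h_eq_one b5
      have := z0 _ _ ((pr_n n2 m2).mul (k3.mul ((pr_n n2 m2).mul k4))) (fun x => by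
        simp only [LinearMap.add_apply, End.mul_apply, LinearMap.neg_apply, map_neg, neg_neg,
            LinearEquiv.coe_coe, c7, c8]
        exact add_mem (X.smul_mem _ (c6 _)) (X.smul_mem _ (c6 _)))
        ((-(2 * (α * A.h v₀ v₁))) • e₀) fun w => ⟨t η' w, by
          simp only [LinearMap.add_apply, End.mul_apply, LinearMap.neg_apply, map_neg, neg_neg,
            LinearEquiv.coe_coe, c7, c8, N.ct, c9, map_smul, LinearMap.smul_apply]
          module⟩
      simp only [smul_eq_zero, neg_eq_zero, mul_eq_zero (a := (2 : F)), N.two, b5, false_or,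
        or_false] at this
      intro x hx
      obtain ⟨y, rfl⟩ := eX ▸ hx
      exact j3 _ (by simpa using add_mem (k2 (n y)) (Submodule.mem_sup_left hx))
        (by simpa [this] using c7 (k.1 y))
    have a7 := Submodule.eq_of_le_of_finrank_eq (show X.map (k.1 : V →ₗ[F] V) ≤ X by
      rintro _ ⟨x, hx, rfl⟩; exact a6 x hx) (k.1.finrank_map_eq X)
    have a8 : ∀ w, A.h u (f u) • ρ w = (2 * A.q u) • w := fun w => by
      have b1 : n (t u w) = 0 := by simp [en, nn_apply, N.ct, u1, u2]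
      obtain ⟨a, b, h⟩ := mX.1 (j3 _ (k2 (t u w)) (by
        rw [map_sub, b1, sub_zero]
        refine N.nd.eq_zero' fun y => ?_
        obtain ⟨z, hz, e⟩ := a7.ge (n1 y)
        obtain ⟨z, rfl⟩ := eX ▸ hz
        rw [← neg_eq_zero, ← ns, ← e, LinearEquiv.coe_coe, isom_h, ns, b1, map_zero, neg_zero]))
      simpa [hf, N.ct, os e u, os v u, u1, u2, orth_h_self, sub_eq_zero] using congrArg (c u) h
    have a9 : A.h u (f u) ≠ 0 := fun h => by simpa [h, N.two, u0, w0] using (a8 w₀).symm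
    obtain ⟨f', hf'⟩ : ∃ f' : U → U, ∀ y w, k.1 (t y w) = t (f' y) w :=
      ⟨fun y => (2 * A.q u / A.h u (f u)) • f y, fun y w => by
        rw [hf, map_smul, LinearMap.smul_apply, ← map_smul]
        exact congrArg _ (smul_right_injective _ a9 (by simp [a8, smul_smul, mul_div_cancel₀ _ a9]))⟩
    have b1 : ∀ y w, n (t y w) = t (A.h v y • e - A.h e y • v) w := fun y w => by
      simp [en, nn_apply, N.ct]
    have b2 : ∀ x, k.1 (n (k.1 x)) = n x := N.lext (f := (k.1 : V →ₗ[F] V) ∘ₗ n ∘ₗ (k.1 : V →ₗ[F] V))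
      fun y w => by
        have := z0 _ _ (k3.mul (pr_n n2 m2)) (fun x => by
          simpa using add_mem (a6 _ (n1 x)) (neg_mem (n1 _)))
          (f' (A.h v (f' y) • e - A.h e (f' y) • v) - (A.h v y • e - A.h e y • v)) fun w =>
            ⟨k.1 (t y w), by
              rw [map_sub t, LinearMap.sub_apply, ← hf', ← b1, ← b1, ← hf']; simp [sub_eq_add_neg]⟩
        simp only [LinearMap.comp_apply, LinearEquiv.coe_coe, hf', b1, sub_eq_zero.1 this]
    have b3 : ∀ x y, S.h (k.1 (n x)) y + S.h x (k.1 (n y)) = 0 := fun x y => by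
      obtain ⟨y, rfl⟩ := k.1.surjective y
      rw [isom_h, b2, ns, neg_add_cancel]
    have b4 : ∀ y, t y w₀ ∈ X → f' y = A.h y₁ (f' y) • e + A.h y₂ (f' y) • v := fun y hy => by
      obtain ⟨a, b, h⟩ := mX.1 (a6 _ hy)
      have c1 := congrArg (c y₁) h
      have c2 := congrArg (c y₂) h
      simp only [hf', N.ct, map_add, os e, os v, p1, p2, p3, p4, one_smul, zero_smul, add_zero,
        zero_add] at c1 c2
      exact sub_eq_zero.1 (N.inj2 w0 (by simp [← hf', h, ← c1, ← c2]))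
    have b5 := b3 (t y₂ w₀) (t y₂ w₀)
    have b6 := b3 (t y₁ w₀) (t y₁ w₀)
    have b7 := b3 (t y₁ w₀) (t y₂ w₀)
    simp only [b1, p1, p2, p3, p4, one_smul, zero_smul, sub_zero, zero_sub, map_neg, LinearMap.neg_apply,
      hf', N.tt, os y₁ (f' _), os y₂ (f' _)] at b5 b6 b7
    have b8 := b4 e (mX.2 ⟨w₀, 0, by simp⟩)
    have b9 := b4 v (mX.2 ⟨0, w₀, by simp⟩)
    rw [show A.h y₂ (f' e) = 0 from mul_left_cancel₀ (mul_ne_zero N.two hw) (by linear_combination b5)]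
      at b8
    rw [show A.h y₁ (f' v) = 0 from mul_left_cancel₀ (mul_ne_zero N.two hw) (by linear_combination -b6),
      show A.h y₂ (f' v) = A.h y₁ (f' e) from mul_left_cancel₀ hw (by linear_combination -b7)] at b9
    generalize A.h y₁ (f' e) = s at b8 b9
    refine ⟨s, fun x hx => ?_⟩
    obtain ⟨a, b, rfl⟩ := mX.1 hx
    simp [hf', b8, b9]
  have gen : ∀ l : End F V, l * l = 0 → Pr n m l (-l) → (∀ x ∈ X ⊓ Y, l x = 0) → (∀ x, l x ∈ X ⊔ Y) →
      ∀ s : F, (∃ k ∈ H, ∀ x, k.1 x = x + s • l x) → ∃ k ∈ G, ∀ x, k.1 x = x + s • l x := by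
    rintro l l2 l3 l4 l5 s ⟨k, hk, e⟩
    have l0 : ∀ x, l (l x) = 0 := fun x => LinearMap.congr_fun l2 x
    have a1 : (k.1 : V →ₗ[F] V) = 1 + s • l := LinearMap.ext e
    have a2 : (k⁻¹.1 : V →ₗ[F] V) = 1 + -s • l := LinearMap.ext fun x => k.1.injective (by
      rw [LinearEquiv.coe_coe, isom_apply_inv_self]; simp [e, l0])
    refine ⟨k, ⟨hk, fun x hx => by simp [e, l4 x hx], fun x => by
      simpa [e] using Submodule.smul_mem _ s (l5 x), ?_, ?_⟩, e⟩ <;> rw [a1, a2]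
    · simpa using l3.lin s
    · simpa using l3.lin (-s)
  have gn := fun s => gen n n2 (pr_n n2 m2) (fun x hx => n0 x hx.1)
    (fun x => Submodule.mem_sup_left (n1 x)) s (hn' s)
  have gm := fun s => gen m m2 (pr_m n2 m2) (fun x hx => m0 x hx.2)
    (fun x => Submodule.mem_sup_right (m1 x)) s (hm' s)
  have j1 : ∀ x ∈ Y.map n, x ∈ X := by rintro _ ⟨y, -, rfl⟩; exact n1 y
  have j2 : ∀ x ∈ Y.map n, x ∈ Y → x = 0 := by rintro _ ⟨y, hy, rfl⟩ h; exact n0 y (i2 y hy h)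
  obtain ⟨a, ha, ea⟩ := gn 1
  obtain ⟨b, hb, eb⟩ := gm 1
  obtain ⟨x, hx, x0, ⟨s, s0, h1⟩ | ⟨k, hk, h1, h2⟩⟩ := dk N.two (X := Y.map n) (n := n) (m := m)
    (fun h => hn (by
      simpa using (N.f3 hN p.ne p.qe p'.ne p'.qe p.h (H.inv_mem hg) fun w => by
        have b : g.1 (t e' w) ∈ Y :=
          eY ▸ em ▸ mem_mm.2 ((N.mem_nn p').2 ⟨w, 0, by simp⟩)
        obtain ⟨a, b, e⟩ := mX.1 (i2 _ b (by
          rw [show n _ = 0 from h.le ⟨_, b, rfl⟩]; exact Y.zero_mem))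
        exact ⟨a, b, by rw [← e, isom_inv_apply_self]⟩).inv))
    (fun x hx => n0 x (j1 x hx)) (fun x => m0 _ (m1 x)) (fun x _ => ⟨_, m1 x, rfl⟩)
    (fun x hx h => j2 x hx (i1 x (j1 x hx) (i2 _ (m1 x) (h ▸ Y.zero_mem)))) ha hb
    (by simpa using ea) (by simpa using eb)
  swap
  · obtain ⟨s, hs⟩ := key k hk x (j1 x hx) (x0 ∘ j2 x hx) (j1 _ h1)
    exact absurd (Submodule.mem_span_singleton.2 ⟨s, (hs x (j1 x hx)).symm⟩) h2
  obtain ⟨b, hb, eb⟩ := gm (-s⁻¹)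
  have hw := G.mul_mem (G.mul_mem ha hb) ha
  have c1 : (a * b * a).1 x = -s⁻¹ • m x := by
    simp [ea, eb, n0 x (j1 x hx), h1, smul_smul, s0]
  have c2 : (a * b * a * (a * b * a)).1 x = -x := by
    rw [isom_mul_apply, c1]
    simp [ea, eb, n0 x (j1 x hx), h1, smul_smul, s0, m0 _ (m1 x)]
  obtain ⟨r, hr⟩ := key _ (G.mul_mem hw hw) x (j1 x hx) (x0 ∘ j2 x hx) (c2 ▸ X.neg_mem (j1 x hx))
  obtain rfl : r = -1 := smul_left_injective F x0 (by simpa using (hr x (j1 x hx)).symm.trans c2)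
  have c3 : X ⊓ Y = ⊥ := eq_bot_iff.2 fun y hy => by
    have := hr y hy.1
    rw [(G.mul_mem hw hw).2.1 y hy] at this
    exact (smul_eq_zero.1 (by linear_combination (norm := module) this :
      (2 : F) • y = 0)).resolve_left N.two
  refine ⟨c3, s, s0, fun w => ?_⟩
  obtain ⟨y, ey⟩ : ∃ y, y = t e w := ⟨_, rfl⟩
  have hy : y ∈ X := mX.2 ⟨w, 0, by simp [ey]⟩
  rw [← ey]
  have c4 : y - s⁻¹ • n (m y) ∈ X := X.sub_mem hy (X.smul_mem _ (n1 _))
  have c5 : y - s⁻¹ • n (m y) = 0 := c3.le ⟨c4, i1 _ c4 (by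
    refine (X.smul_mem_iff (mul_ne_zero N.two (inv_ne_zero s0))).1 ?_
    have := hr y hy
    have d1 : (a * b * a).1 y = y - s⁻¹ • n (m y) - s⁻¹ • m y := by simp [ea, eb, n0 y hy]; abel
    have d2 : ∀ x, n (n x) = 0 := fun x => n0 _ (n1 x)
    have d3 : ∀ x, m (m x) = 0 := fun x => m0 _ (m1 x)
    rw [isom_mul_apply, d1] at this
    simp only [isom_mul_apply, ea, eb, n0 y hy, map_add, map_sub, map_smul, d2, d3, map_zero] at this
    convert add_mem (add_mem (X.smul_mem 2 hy) (X.smul_mem (-4 * s⁻¹) (n1 (m y))))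
      (X.smul_mem (2 * s⁻¹ * s⁻¹) (n1 (m (n (m y))))) using 1
    simp only [map_sub, map_smul]
    linear_combination (norm := module) -this)⟩
  simpa [smul_smul, s0] using (congrArg (s • ·) (sub_eq_zero.1 c5)).symm

theorem step (hM : Mx A t c H (d + 1)) : Mx A t c H d := by
  intro g hg e v e' v' p p' hd
  by_contra hn
  rw [(N.core hN hM p hg p' hn hd).1, finrank_bot] at hd
  obtain rfl : d = 0 := by omega
  have a1 : ∀ v, TP A e v → (∀ w, c e (mm t c g e' v' (t e w)) = 0) ∧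
      ∃ s : F, s ≠ 0 ∧ ∀ w, c v (mm t c g e' v' (t e w)) = s • w := fun v p => by
    obtain ⟨-, s, s0, h⟩ := N.core hN hM p hg p' hn (Nat.zero_le _)
    obtain ⟨y₁, p1, p2⟩ := p.d1
    obtain ⟨y₂, p3, p4⟩ := p.d2
    exact ⟨fun w => by simpa [nn_apply, N.ct, os e, os v, p3, p4] using congrArg (c y₂) (h w), s, s0,
      fun w => by simpa [nn_apply, N.ct, os e, os v, p1, p2] using congrArg (c y₁) (h w)⟩
  obtain ⟨w₀, w0, w1⟩ := N.exW
  obtain ⟨y, b1, ψ, b2⟩ := N.dec p.ne (L := mm t c g e' v' ∘ₗ t e) (ρ := .id) w0 (a1 v p).1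
    fun v a b d => (a1 v (N.tp p.ne p.qe a b d)).2.imp fun _ h => h.2
  replace b2 : ∀ w, mm t c g e' v' (t e w) = t y w + t e (ψ w) := b2
  have b3 : A.q y = 0 := by
    simpa [b2, orth_q_add, N.tq, N.tt, p.qe, os e y, b1, N.two, w1] using N.mm_q (g := g) p' (t e w₀)
  obtain ⟨u, p, h⟩ : ∃ u, TP A e u ∧ A.h u y = 0 := by
    by_cases m : y ∈ F ∙ e
    · obtain ⟨a, rfl⟩ := Submodule.mem_span_singleton.1 m
      exact ⟨v, p, by simp [os e v, p.h]⟩
    · exact ⟨y, N.tp p.ne p.qe b3 b1 m, by simp [orth_h_self, b3]⟩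
  obtain ⟨-, s, s0, b4⟩ := a1 u p
  simpa [b2, N.ct, h, os e u, p.h, s0, w0] using (b4 w₀).symm

omit hN in
theorem dich : S.E ≤ H ∨ ∀ g ∈ H, ∀ u, ∃ u', ∀ x, (∃ w, t u w = x) ↔ ∃ w, t u' w = g.1 x :=
  N.nl_or.imp_right fun hN g hg u => by
    have hM : Mx A t c H 0 := Nat.decreasingInduction' (P := Mx A t c H) (fun _ _ _ => N.step hN)
      (Nat.zero_le (finrank F V + 1)) fun _ _ _ _ _ _ _ _ hd =>
        (Nat.not_succ_le_self _ (hd.trans (Submodule.finrank_le _))).elim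
    have := N.five
    obtain ⟨e, h0, he⟩ := ex_sing (T := A) (by omega)
    obtain ⟨v, v1, v2, v3⟩ := (iso3_orth A).exists_notMem (A.perp (F ∙ e)) (F ∙ e) (by
      have := finrank_span_one_le (F := F) e; have := N.ndU.finrank_perp (F ∙ e); omega)
    have p := N.tp h0 he ((A.orth_sing _).1 v3) (A.mem_perp_singleton.1 v1) v2
    obtain ⟨ρ, h⟩ := hM g hg _ _ _ _ p p (Nat.zero_le _)
    obtain ⟨u', a⟩ := h u
    obtain ⟨e', b⟩ := h e
    refine ⟨u', fun x => ⟨by rintro ⟨w, rfl⟩; exact ⟨_, (a w).symm⟩, fun ⟨w, h⟩ => ?_⟩⟩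
    obtain ⟨w, rfl⟩ := N.surj h0 b w
    exact ⟨w, g.1.injective ((a w).trans h)⟩

end TO

end H20.To
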