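import Cfsg.Agent.H20.Tp3
import Cfsg.Agent.H20.Pl6

/-! Maximality of `Sp_a(q) ⊗ O_b(q)` in `Sp_ab(q)`, `q` odd, `a, b ≥ 3`, `(q, b) ≠ (3, 3)`:
`sp_ten'`. -/

set_option autoImplicit false
set_option linter.unusedSectionVars false

namespace H20.Tp

open Module H11 H11.PForm H29 H20.Pl Matrix Cfsg.Geo
open scoped Kronecker

theorem sp_ten' {F : Type*} [Field F] [Fintype F] {m a b : ℕ} (hq : Odd (Fintype.card F)) (ha : 3 ≤ a)
    (hb : 3 ≤ b) (hex : ¬ (Fintype.card F = 3 ∧ b = 3)) (e : (Fin m ⊕ Fin m) ≃ Fin a × Fin b)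
    (P : GL (Fin m ⊕ Fin m) F) (f₁ : (Fin a → F) → (Fin a → F) → F) (f₂ : (Fin b → F) → (Fin b → F) → F)
    (h₁ : IsSymplecticForm f₁) (h₂ : IsSymmetricForm f₂)
    (h : IsTensorFormStructure id (Cfsg.sympForm m F) f₁ f₂ e P) :
    IsMaximalIn (Cfsg.spGL m F) (tensorProductSubgroup a b e P ⊓ Cfsg.spGL m F) := by
  have hc : m + m = a * b := by simpa using Fintype.card_congr e
  have hm : 9 ≤ m + m := by nlinarith
  have hB := big_sp ((hf_J (F := F) m).symp (alt_J m)) (by simp; omega) (by simp; omega)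
  have h1 : ¬ _ ≤ tensorProductSubgroup a b e P := fun hle => hB.not_kr (T := coordT e P) (by omega)
    (by omega) (by nlinarith) fun g hg => kr_self e P g (hle hg)
  rw [← spGL_iso] at h1
  rw [spGL_eq] at h1 ⊢
  haveI : Nonempty (Fin a) := ⟨⟨0, by omega⟩⟩
  haveI : Nonempty (Fin b) := ⟨⟨0, by omega⟩⟩
  have hS := stdSymp_nondeg (F := F) m
  have h2 := two_ne_zero_of_odd hq
  obtain ⟨s, s0, hs⟩ := h
  set S := stdSymp m F
  let T := reT (Equiv.prodComm _ _) (coordT e P)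
  let A := sympS (s • bilinOf h₁.bilinear) fun x => by simp [h₁.alternating]
  let B := symmS h2 (bilinOf h₂.bilinear) ⟨fun x y => by simp [h₂.symm x y]⟩
  let t : (Fin a → F) →ₗ[F] (Fin b → F) →ₗ[F] (Fin m ⊕ Fin m → F) := tp.compr₂ T.toLinearMap
  let c : (Fin a → F) →ₗ[F] (Fin m ⊕ Fin m → F) →ₗ[F] (Fin b → F) := (ct ∘ₗ A.h).compl₂ T.symm.toLinearMap
  have ht : ∀ u w, t u w = T (tp u w) := fun _ _ => rfl
  have ht' : ∀ u w, t u w = coordT e P (tp w u) := fun u w =>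
    congrArg (coordT e P) (funext fun p => mul_comm _ _)
  have b1 : ∀ v u w, c v (t u w) = A.h v u • w := fun z w u => by simp [c, ht]
  have b2 : ∀ M : AddSubgroup _, (∀ u w, t u w ∈ M) → ∀ x, x ∈ M := fun M hM x => by
    obtain ⟨x, rfl⟩ := T.surjective x
    rw [← Finset.univ_sum_single x, map_sum]
    refine sum_mem fun p _ => ?_
    have := hM (Pi.single p.2 1) (x p • Pi.single p.1 1)
    rwa [ht, map_smul, tp_single, ← Pi.single_smul, smul_eq_mul, mul_one] at this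
  have b3 : ∀ u w u' w', S.h (t u w) (t u' w') = A.h u u' * B.h w w' := fun u w u' w' => by
    rw [ht', ht']
    refine ((stdSymp_h _ _ _).trans (hs (tp w u) (tp w' u'))).trans
      ((congrArg _ (fm_kron (σ := RingHom.id F) _ _ u u' w w')).trans ?_)
    rw [← eq_fm_of_bilin h₁.bilinear, ← eq_fm_of_bilin h₂.bilinear, ← mul_assoc]; rfl
  have b4 : ∀ u w x, S.h (t u w) x = B.h w (c u x) := fun u w x => sub_eq_zero.1
    (b2 (S.h (t u w) - B.h w ∘ₗ c u).toAddMonoidHom.ker (fun w' u' => by simp [b1, b3]) x)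
  refine isMaximalIn_of_not_le _ h1 fun H hH => ?_
  have key : ∀ (γ : A.Isom) (ρ : B.Isom), ∃ g ∈ H, ∀ u w, g.1 (t u w) = t (γ.1 u) (ρ.1 w) := by
    intro γ ρ
    let g := glEquiv (ΦU (coordT e P) (kronU (toGL A γ) (toGL B ρ)))
    have a3 : ∀ u w, g (t u w) = t (γ.1 u) (ρ.1 w) := fun u w => by
      rw [ht', ht']
      exact (Φ_mulVec _ _ _).trans (congrArg _ ((kron_mulVec_tp _ _ _ _).trans (by
        rw [toGL_mulVec, toGL_mulVec])))
    let k : S.Isom := ⟨g, symp_isIsom fun x y => sub_eq_zero.1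
      (b2 (S.h (g x) ∘ₗ g.toLinearMap - S.h x).toAddMonoidHom.ker (fun u' w' => b2
        (S.h.flip (g (t u' w')) ∘ₗ g.toLinearMap - S.h.flip (t u' w')).toAddMonoidHom.ker (fun y x => by
          change S.h (g _) (g _) - S.h _ _ = 0
          rw [a3, a3, b3, b3, isom_h, isom_h, sub_self]) x) y)⟩
    exact ⟨k, hH k (hS.symp_E_eq_top ▸ trivial)
      (mem_tensorProductSubgroup.2 ⟨_, _, ext_mulVec fun x => toGL_mulVec _ _ _⟩), a3⟩
  refine (TQ.dich (A := A) (T := B) (t := t) (c := c) ⟨h2, hS, fun x hx => ?_, fun x hx => ?_, b1, b2,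
    b4, fun γ => key γ 1, fun ρ => key 1 ρ, by simpa, by simpa, ?_⟩).imp_right
    fun h => Kr.le (Kr.swap (T := T) ?_)
  · exact by_contra fun h0 => (h₁.nondegenerate x h0).2.elim fun y hy => hy
      ((mul_eq_zero.1 (hx y)).resolve_left s0)
  · exact by_contra fun h0 => (h₂.nondegenerate x h0).2.elim fun y hy => hy (hx y)
  · by_cases h : b = 3
    · exact .inl (exists_sq_ne_one (by
        have := Fintype.one_lt_card (α := F)
        obtain ⟨r, hr⟩ := hq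
        rw [Nat.card_eq_fintype_card]
        omega))
    · exact .inr (by simp; omega)
  rintro _ ⟨k, hk, rfl⟩
  obtain ⟨g, eg⟩ := (ΦU T).surjective (toGL S k)
  have c1 : ∀ x, T ((g⁻¹ : GL _ F).1 *ᵥ x) = k⁻¹.1 (T x) := fun x => by
    rw [← Φ_mulVec, ← coe_ΦU, map_inv, eg, ← map_inv, toGL_mulVec]
  obtain ⟨α, β, e⟩ := nml_kron (g := g) fun X => eq_kron_of_pure fun w u => by
    obtain ⟨w', h3⟩ := h _ (H.inv_mem hk) w
    obtain ⟨v, hv⟩ := (h3 _).1 ⟨u, rfl⟩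
    rw [ht, ht, ← c1, T.injective.eq_iff] at hv
    obtain ⟨y, hy⟩ := (h3 (T (cjA g (X ⊗ₖ 1) *ᵥ tp w u))).2 ⟨X *ᵥ v, by
      rw [← c1, ← mulVec_inv_mulVec g (tp w u), cjA_mulVec, inv_mulVec_mulVec, ← hv, kron_mulVec_tp,
        one_mulVec, ht]⟩
    exact ⟨y, T.injective hy⟩
  exact ⟨α, β, eg ▸ congrArg _ (Units.ext e)⟩

end H20.Tp
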