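import Cfsg.Agent.H20.To3
import Cfsg.Agent.H20.Tp4

/-! Maximality of `O_a(q) ⊗ O_b(q)` in `Ω_ab(q)`, `q` odd, `a ≠ b`: `oo_ten`. -/

set_option autoImplicit false
set_option linter.unusedSectionVars false

namespace H20.To

open Module H11 H11.PForm H29 H20.Pl Matrix Cfsg.Geo
open scoped Kronecker

section
variable {F U V : Type*} [Field F] [AddCommGroup U] [Module F U] [AddCommGroup V] [Module F V]
  [FiniteDimensional F U] {A : PForm (orthP F) U} {S : PForm (orthP F) V} {H : Subgroup S.Isom}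

theorem lift_E (h2 : (2 : F) ≠ 0) {I : Type*} (a : U → I → V)
    (h : ∀ γ : A.Isom, ∃ g : S.Isom, g * g ∈ H ∧ ∀ u i, g.1 (a u i) = a (γ.1 u) i) :
    ∀ γ ∈ A.E, ∃ g ∈ H, ∀ u i, g.1 (a u i) = a (γ.1 u) i := by
  let K : Subgroup A.Isom :=
    { carrier := {γ | ∃ g ∈ H, ∀ u i, g.1 (a u i) = a (γ.1 u) i}
      mul_mem' := fun ⟨g, hg, b⟩ ⟨k, hk, c⟩ => ⟨g * k, H.mul_mem hg hk, by simp [b, c]⟩
      one_mem' := ⟨1, H.one_mem, by simp⟩
      inv_mem' := fun ⟨g, hg, b⟩ => ⟨g⁻¹, H.inv_mem hg, fun u i => g.1.injective (by simp [b])⟩ }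
  refine (A.E_le_iff (K := K)).2 fun e v r hc => ?_
  obtain ⟨g, hg, b⟩ := h (A.eich e ((2 : F)⁻¹ • v) (A.q ((2 : F)⁻¹ • v)))
  have c : A.ECond e ((2 : F)⁻¹ • v) (A.q ((2 : F)⁻¹ • v)) := .of_q hc.sing (by simp [hc.perp])
  refine ⟨_, hg, fun u i => ?_⟩
  rw [isom_mul_apply, b, b, ← isom_mul_apply, eich_mul c c, ← orth_q_add, ← add_smul, ← two_mul,
    mul_inv_cancel₀ h2, one_smul, hc.orth_eq]

theorem h4_of (hA : A.Nondeg) (h : 5 ≤ finrank F U ∨ ¬ A.HasTS 2) (f s : U) (hf : A.q f = 0)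
    (hs : A.q s = 0) (h1 : A.h f s = 0) (f0 : f ≠ 0) (h2 : s ∉ F ∙ f) :
    ∃ z, A.q z ≠ 0 ∧ A.h f z = 0 ∧ A.h s z = 0 := by
  rcases h with h | h
  · obtain ⟨y, a, b⟩ := exists_ns_dim hA (A.perp (pl F f s)) (by
      have := hA.finrank_perp (pl F f s); have := finrank_pl (F := F) f s; omega)
    exact ⟨y, b, A.mem_perp_pair.1 a⟩
  refine absurd ⟨pl F f s, orth_ts fun x hx => ?_, ?_⟩ h
  · obtain ⟨a, b, rfl⟩ := mem_pl.1 hx
    simp [orth_q_add, orth_q_smul, hf, hs, h1]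
  have := finrank_span_eq_card ((LinearIndependent.pair_iff' f0).2
    fun a e => h2 (Submodule.mem_span_singleton.2 ⟨a, e⟩))
  rwa [Matrix.range_cons_cons_empty] at this

end

theorem oo_kr {F : Type*} [Field F] [Fintype F] {ι κ μ : Type} [Fintype ι] [DecidableEq ι] [Fintype κ]
    [DecidableEq κ] [Fintype μ] [DecidableEq μ] (hq : Odd (Fintype.card F)) {S : PForm (orthP F) (ι → F)}
    {A : PForm (orthP F) (μ → F)} {B : PForm (orthP F) (κ → F)} (hS : S.Nondeg) (hA : A.Nondeg)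
    (hB : B.Nondeg) (T : (κ × μ → F) ≃ₗ[F] (ι → F))
    (b3 : ∀ u w u' w', S.h (T (tp u w)) (T (tp u' w')) = A.h u u' * B.h w w')
    (h5 : 5 ≤ Fintype.card μ) (h3 : 3 ≤ Fintype.card κ) (hl : Fintype.card κ < Fintype.card μ)
    (hex : ¬ (Fintype.card F = 3 ∧ Fintype.card κ = 3)) (h4 : Fintype.card κ = 4 → ¬ B.HasTS 2)
    (H : Subgroup S.Isom) (hH : ∀ g ∈ S.E, (∃ a b, toGL S g = ΦU T (kronU a b)) → g ∈ H) :
    S.E ≤ H ∨ Kr (H.map (toGL S)) T := by
  haveI : Nonempty κ := Fintype.card_pos_iff.1 (by omega)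
  haveI : Nonempty μ := Fintype.card_pos_iff.1 (by omega)
  have h2 := two_ne_zero_of_odd hq
  let t : (μ → F) →ₗ[F] (κ → F) →ₗ[F] (ι → F) := tp.compr₂ T.toLinearMap
  let c : (μ → F) →ₗ[F] (ι → F) →ₗ[F] (κ → F) := (ct ∘ₗ A.h).compl₂ T.symm.toLinearMap
  have ht : ∀ u w, t u w = T (tp u w) := fun _ _ => rfl
  replace b3 : ∀ u w u' w', S.h (t u w) (t u' w') = A.h u u' * B.h w w' := b3
  have b1 : ∀ v u w, c v (t u w) = A.h v u • w := fun z w u => by simp [c, ht]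
  have b2 : ∀ M : AddSubgroup _, (∀ u w, t u w ∈ M) → ∀ x, x ∈ M := fun M hM x => by
    obtain ⟨x, rfl⟩ := T.surjective x
    rw [← Finset.univ_sum_single x, map_sum]
    refine sum_mem fun p _ => ?_
    have := hM (Pi.single p.2 1) (x p • Pi.single p.1 1)
    rwa [ht, map_smul, tp_single, ← Pi.single_smul, smul_eq_mul, mul_one] at this
  have b4 : ∀ u w x, S.h (t u w) x = B.h w (c u x) := fun u w x => sub_eq_zero.1
    (b2 (S.h (t u w) - B.h w ∘ₗ c u).toAddMonoidHom.ker (fun w' u' => by simp [b1, b3]) x)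
  have hn : 3 ≤ finrank F (ι → F) := by
    rw [← T.finrank_eq, finrank_fintype_fun_eq_card, Fintype.card_prod]; nlinarith
  obtain ⟨e, e0, he⟩ := ex_sing (T := S) hn
  obtain ⟨f, Hy⟩ := hS.exists_isHyp ((S.orth_sing _).2 he) e0
  have key : ∀ (γ : A.Isom) (ρ : B.Isom), ∃ g : S.Isom, g * g ∈ H ∧
      ∀ u w, g.1 (t u w) = t (γ.1 u) (ρ.1 w) := by
    intro γ ρ
    let g := glEquiv (ΦU T (kronU (toGL B ρ) (toGL A γ)))
    have a3 : ∀ u w, g (t u w) = t (γ.1 u) (ρ.1 w) := fun u w =>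
      (Φ_mulVec _ _ _).trans (congrArg _ ((kron_mulVec_tp _ _ _ _).trans (by
        rw [toGL_mulVec, toGL_mulVec])))
    have a4 : ∀ x y, S.h (g x) (g y) = S.h x y := fun x y => sub_eq_zero.1
      (b2 (S.h (g x) ∘ₗ g.toLinearMap - S.h x).toAddMonoidHom.ker (fun u' w' => b2
        (S.h.flip (g (t u' w')) ∘ₗ g.toLinearMap - S.h.flip (t u' w')).toAddMonoidHom.ker (fun y x => by
          change S.h (g _) (g _) - S.h _ _ = 0
          rw [a3, a3, b3, b3, isom_h, isom_h, sub_self]) x) y)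
    let k : S.Isom := ⟨g, orth_isIsom (f := g.toLinearMap) fun x => mul_left_cancel₀ h2 (by
      rw [← orth_h_self, ← orth_h_self]; exact a4 x x)⟩
    have a5 : toGL S k = ΦU T (kronU (toGL B ρ) (toGL A γ)) :=
      Units.ext (ext_mulVec fun x => toGL_mulVec _ _ _)
    exact ⟨k, hH _ ((hS.mem_E_iff hn Hy _).2 (by simp [Int.units_mul_self])) ⟨toGL B ρ * toGL B ρ,
      toGL A γ * toGL A γ, by
        rw [map_mul, a5, ← map_mul]
        exact congrArg _ (Units.ext (mul_kronecker_mul _ _ _ _).symm)⟩, a3⟩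
  refine (TO.dich (A := A) (T := B) (t := t) (c := c) ⟨h2, hS, hA, hB, b1, b2, b4,
    lift_E h2 (fun u w => t u w) fun γ => key γ 1, fun ρ hρ =>
      (lift_E h2 (fun w u => t u w) (fun ρ => (key 1 ρ).imp fun _ h => ⟨h.1, fun w u => h.2 u w⟩) ρ
        hρ).imp fun _ h => ⟨h.1, fun u w => h.2 w u⟩, by simpa, by simpa, by simpa, ?_,
    h4_of hB ?_⟩).imp_right fun h => ?_
  · by_cases h : Fintype.card κ = 3
    · exact .inl (exists_sq_ne_one (by
        have := Fintype.one_lt_card (α := F)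
        obtain ⟨r, hr⟩ := hq
        rw [Nat.card_eq_fintype_card]
        omega))
    · exact .inr (by simp; omega)
  · refine or_iff_not_imp_left.2 fun h h' => ?_
    have := h'.two_mul_le hB
    simp only [finrank_fintype_fun_eq_card] at h this
    exact h4 (by omega) h'
  rintro _ ⟨k, hk, rfl⟩
  obtain ⟨g, eg⟩ := (ΦU T).surjective (toGL S k)
  have c1 : ∀ x, T ((g⁻¹ : GL _ F).1 *ᵥ x) = k⁻¹.1 (T x) := fun x => by
    rw [← Φ_mulVec, ← coe_ΦU, map_inv, eg, ← map_inv, toGL_mulVec]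
  obtain ⟨α, β, e⟩ := nml_kron (g := g) fun X => eq_kron_of_pure fun w u => by
    obtain ⟨w', h3⟩ := h _ (H.inv_mem hk) w
    obtain ⟨v, hv⟩ := (h3 _).1 ⟨u, rfl⟩
    rw [ht, ht, ← c1, T.injective.eq_iff] at hv
    obtain ⟨y, hy⟩ := (h3 (T (cjA g (X ⊗ₖ 1) *ᵥ tp w u))).2 ⟨X *ᵥ v, by
      rw [← c1, ← mulVec_inv_mulVec g (tp w u), cjA_mulVec, inv_mulVec_mulVec, ← hv, kron_mulVec_tp,
        one_mulVec, ht]⟩
    exact ⟨y, T.injective hy⟩
  exact ⟨α, β, eg ▸ congrArg _ (Units.ext e)⟩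

theorem oo_ten {F : Type*} [Field F] [Fintype F] {ι : Type} [Fintype ι] [DecidableEq ι]
    (hq : Odd (Fintype.card F)) {Q : (ι → F) → F} (hQ : IsNondegenerateQuadraticForm Q) {a b : ℕ}
    (ha : 3 ≤ a) (hb : 3 ≤ b) (hab : a < b ∧ 5 ≤ b ∧ a ≠ 4 ∨ b < a ∧ b ≠ 3)
    (hex : ¬ (Fintype.card F = 3 ∧ a = 3)) (e : ι ≃ Fin a × Fin b) (P : GL ι F)
    {f₁ : (Fin a → F) → (Fin a → F) → F} {f₂ : (Fin b → F) → (Fin b → F) → F}
    (h₁ : IsSymmetricForm f₁) (h₂ : IsSymmetricForm f₂)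
    (hm : b = 4 → ¬ IsPlusTypeOn (fun v => f₂ v v) ⊤)
    (hT : IsTensorFormStructure id (QuadraticMap.polar Q) f₁ f₂ e P) :
    IsMaximalIn (omegaGL Q) (tensorProductSubgroup a b e P ⊓ omegaGL Q) := by
  have hc : Fintype.card ι = a * b := by simp [Fintype.card_congr e]
  have hn : 7 ≤ Fintype.card ι := by nlinarith
  have h1 : ¬ omegaGL Q ≤ tensorProductSubgroup a b e P := fun hle => (big_omega hQ hn).not_kr
    (T := coordT e P) (by omega) (by omega) (by nlinarith) fun g hg => kr_self e P g (hle hg)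
  have hS := quadOf_nondeg hQ
  have e1 := omegaGL_eq _ hS hn
  rw [coe_quadOf] at e1
  rw [e1] at h1 ⊢
  have h2 := two_ne_zero_of_odd hq
  obtain ⟨s, s0, hs⟩ := hT
  let A := symmS h2 (s • bilinOf h₁.bilinear) ⟨fun x y => by simp [h₁.symm x y]⟩
  let B := symmS h2 (bilinOf h₂.bilinear) ⟨fun x y => by simp [h₂.symm x y]⟩
  have hA : A.Nondeg := fun x hx => by_contra fun h0 => (h₁.nondegenerate x h0).2.elim fun y hy => hy
    ((mul_eq_zero.1 (hx y)).resolve_left s0)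
  have hB : B.Nondeg := fun x hx => by_contra fun h0 => (h₂.nondegenerate x h0).2.elim fun y hy =>
    hy (hx y)
  have b3 : ∀ w u w' u', (orthS (quadOf hQ)).h (coordT e P (tp w u)) (coordT e P (tp w' u')) =
      A.h u u' * B.h w w' := fun w u w' u' => by
    refine (hs (tp w u) (tp w' u')).trans ((congrArg _ (fm_kron (σ := RingHom.id F) _ _ u u' w w')).trans ?_)
    rw [← eq_fm_of_bilin h₁.bilinear, ← eq_fm_of_bilin h₂.bilinear, ← mul_assoc]; rfl
  refine isMaximalIn_of_not_le _ h1 fun H hH => ?_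
  generalize orthS (quadOf hQ) = S at *
  rcases hab with hab | hab
  · exact (oo_kr hq hS hB hA (coordT e P) (fun u w u' w' => (b3 u w u' w').trans (mul_comm _ _))
      (by simpa using hab.2.1) (by simpa) (by simpa using hab.1) (by simpa using hex)
      (fun h => absurd (by simpa using h) hab.2.2) H fun g hg ⟨α, β, h⟩ =>
        hH g hg (mem_tensorProductSubgroup.2 ⟨α, β, congrArg Units.val h⟩)).imp_right Kr.le
  let T := reT (Equiv.prodComm _ _) (coordT e P)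
  have ht : ∀ u w, T (tp u w) = coordT e P (tp w u) :=
    fun u w => congrArg (coordT e P) (funext fun p => mul_comm _ _)
  refine (oo_kr hq hS hA hB T (fun u w u' w' => by rw [ht, ht, b3])
    (by simp; omega) (by simpa) (by simpa using hab.1) (by simp [hab.2]) (fun h ⟨X, h3, h4⟩ => ?_) H
    fun g hg ⟨α, β, h⟩ => hH g hg (mem_tensorProductSubgroup.2 ⟨β, α, ?_⟩)).imp_right
    fun h => Kr.le (Kr.swap (T := T) h)
  · have h : b = 4 := by simpa using h
    refine hm h ⟨X, le_top, fun x hx => ?_, by simp [h4, h]⟩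
    simpa [B, symmS, h2] using orth_ts_iff.1 h3 x hx
  rw [h, coe_ΦU, Φ_reT]
  congr 1
  ext i j
  exact mul_comm _ _

end H20.To
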