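import Cfsg.Agent.H20.Pl4
import Cfsg.Agent.H29.Ten

/-! Overgroups of `Sp(U) ⊗ O(W)` in `Sp(U ⊗ W)`, `q` odd, `dim U ≥ 3`, part 1: the structure `TQ`,
and `TQ.nl_or` (a non-scalar element of the long level gives the whole group). -/

set_option autoImplicit false
set_option linter.unusedSectionVars false

namespace H20.Tp

open Module H11 H11.PForm H29 H20.Pl

variable {F U W V : Type*} [Field F] [AddCommGroup U] [Module F U] [AddCommGroup W] [Module F W]
  [AddCommGroup V] [Module F V] [FiniteDimensional F U] [FiniteDimensional F W]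
  [FiniteDimensional F V] {A : PForm (sympP F) U} {T : PForm (orthP F) W} {S : PForm (sympP F) V}
  {H : Subgroup S.Isom} {t : U →ₗ[F] W →ₗ[F] V} {c : U →ₗ[F] V →ₗ[F] W} {u u' v : U} {w y z : W}

theorem ex_ns0 (h2 : (2 : F) ≠ 0) (hT : T.Nondeg) (h3 : 3 ≤ finrank F W) : ∃ a, T.h a a ≠ 0 :=
  let ⟨a, _, h⟩ := ex_ns_dim h2 hT ⊤ (by rw [finrank_top]; omega); ⟨a, h⟩

theorem scal (h2 : (2 : F) ≠ 0) (hT : T.Nondeg) (h3 : 3 ≤ finrank F W) {ρ : W →ₗ[F] W}
    (h : ∀ w, T.h w w ≠ 0 → ρ w ∈ F ∙ w) : ∃ s : F, ∀ w, ρ w = s • w := by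
  obtain ⟨d, hd⟩ := ex_ns0 h2 hT h3
  obtain ⟨a, e⟩ := Submodule.mem_span_singleton.1 (h d hd)
  have := irr h2 hT (.inr h3) (LinearMap.ker (ρ - a • LinearMap.id)) (y := d) (by simp [← e])
    (by rintro rfl; simp at hd) fun y hy z h1 h4 => by
      obtain ⟨s, s0, s1⟩ : ∃ s : F, s ≠ 0 ∧ T.h (y + s • z) (y + s • z) ≠ 0 := by
        by_contra! h3
        have a1 := h3 1 one_ne_zero
        have a2 := h3 (-1) (by simp)
        simp only [map_add, map_smul, LinearMap.add_apply, LinearMap.smul_apply, os z y,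
          smul_eq_mul, RingHom.id_apply] at a1 a2
        exact mul_ne_zero (mul_ne_zero h2 h2) h4 (by linear_combination a1 - a2)
      obtain ⟨b, e1⟩ := Submodule.mem_span_singleton.1 (h z h1)
      obtain ⟨b', e2⟩ := Submodule.mem_span_singleton.1 (h _ s1)
      have hy' : ρ y = a • y := sub_eq_zero.1 hy
      rw [map_add, map_smul, hy', ← e1] at e2
      by_cases h5 : b = b'
      · have : (a - b) • y = 0 := by subst h5; linear_combination (norm := module) -e2
        rw [← sub_eq_zero.1 ((smul_eq_zero.1 this).resolve_right (by rintro rfl; simp at h4))] at e1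
        simp [← e1]
      · refine (Submodule.smul_mem_iff _ (mul_ne_zero s0 (sub_ne_zero.2 h5))).1 ?_
        convert Submodule.smul_mem _ (b' - a) hy using 1
        linear_combination (norm := module) -e2
  exact ⟨a, fun w => sub_eq_zero.1 (Submodule.eq_top_iff'.1 this w)⟩

theorem rf (h2 : (2 : F) ≠ 0) (z x : W) : (T.refl z).1 x = x - (2 / T.h z z * T.h z x) • z := by
  rw [refl_apply, orth_h_self, div_mul_cancel_left₀ h2]

/-- an overgroup of `Sp(U) ⊗ O(W)` -/
structure TQ [Finite F] (A : PForm (sympP F) U) (T : PForm (orthP F) W) (t : U →ₗ[F] W →ₗ[F] V)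
    (c : U →ₗ[F] V →ₗ[F] W) (H : Subgroup S.Isom) : Prop where
  two : (2 : F) ≠ 0
  nd : S.Nondeg
  ndU : A.Nondeg
  ndW : T.Nondeg
  ct : ∀ v u w, c v (t u w) = A.h v u • w
  ext : ∀ M : AddSubgroup V, (∀ u w, t u w ∈ M) → ∀ x, x ∈ M
  hh : ∀ u w x, S.h (t u w) x = T.h w (c u x)
  hU : ∀ γ : A.Isom, ∃ g ∈ H, ∀ u w, g.1 (t u w) = t (γ.1 u) w
  hW : ∀ ρ : T.Isom, ∃ g ∈ H, ∀ u w, g.1 (t u w) = t u (ρ.1 w)
  three : 3 ≤ finrank F U
  hb : 3 ≤ finrank F W
  hq : (∃ c : F, c ≠ 0 ∧ c ^ 2 ≠ 1) ∨ 4 ≤ finrank F W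

/-- the long level is scalar -/
def NL (t : U →ₗ[F] W →ₗ[F] V) (c : U →ₗ[F] V →ₗ[F] W) (H : Subgroup S.Isom) : Prop :=
  ∀ u, u ≠ 0 → ∀ k ∈ H, (∀ x, ∃ w, k.1 x = x + t u w) → ∃ s : F, ∀ x, k.1 x = x + s • t u (c u x)

namespace TQ
variable [Finite F] (N : TQ A T t c H)
include N

theorem lext {M : Type*} [AddCommGroup M] [Module F M] {f g : V →ₗ[F] M}
    (h : ∀ u w, f (t u w) = g (t u w)) (x : V) : f x = g x :=
  sub_eq_zero.1 (N.ext (f - g).toAddMonoidHom.ker (fun u w => sub_eq_zero.2 (h u w)) x)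

theorem tt (u v : U) (w y : W) : S.h (t u w) (t v y) = A.h u v * T.h w y := by simp [N.hh, N.ct]

theorem hT (u : U) (s : F) : ∃ g ∈ H, ∀ x, g.1 x = x + s • t u (c u x) := by
  obtain ⟨g, hg, e⟩ := N.hU (A.eich u 0 s)
  exact ⟨g, hg, N.lext (f := g.1) (g := .id + s • t u ∘ₗ c u) fun v w => by
    simp [e, symp_transv_apply, N.ct, smul_smul]⟩

theorem cU {g : S.Isom} {γ : A.Isom} (e : ∀ u w, g.1 (t u w) = t (γ.1 u) w) (v : U) (x : V) :
    c (γ.1 v) (g.1 x) = c v x :=
  N.lext (f := c (γ.1 v) ∘ₗ g.1) (fun u w => by simp [e, N.ct]) x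

theorem hR (z : W) : ∃ g ∈ H, (∀ u w, g.1 (t u w) = t u ((T.refl z).1 w)) ∧
    ∀ v x, c v (g.1 x) = (T.refl z).1 (c v x) := by
  obtain ⟨g, hg, e⟩ := N.hW (T.refl z)
  exact ⟨g, hg, e, fun v => N.lext (f := c v ∘ₗ g.1) (g := (T.refl z).1 ∘ₗ c v) fun u w => by
    simp [e, N.ct]⟩

theorem mv (hu : u ≠ 0) (hv : v ≠ 0) : ∃ g ∈ H, ∀ w, g.1 (t u w) = t v w := by
  obtain ⟨γ, e⟩ := N.ndU.witt_vec hu hv trivial
  obtain ⟨g, hg, e'⟩ := N.hU γ
  exact ⟨g, hg, fun w => by rw [e', e]⟩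

theorem tf (hu : u ≠ 0) (h : TF H (t u w)) (v : U) : TF H (t v w) := by
  obtain rfl | hv := eq_or_ne v 0
  · simpa using h.smul 0
  · obtain ⟨g, hg, e⟩ := N.mv hu hv
    exact e w ▸ h.map hg

theorem fin (hu : A.h u u' = 1) (hw : T.h w w ≠ 0) (h : TF H (t u w)) (h0 : y ≠ 0) (h1 : T.h w y = 0)
    {a : F} (ha : S.eich (t u w) (t u y) a ∈ H) : S.E ≤ H := by
  have u0 : u ≠ 0 := by rintro rfl; simp at hu
  have hu' : A.h u' u = -1 := by rw [hs, hu]
  have b1 : S.h (t u w) ((T.h w w)⁻¹ • t u' w) = 1 := by simp [N.tt, hw, hu]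
  have b2 := (N.tf u0 h u').smul (T.h w w)⁻¹
  have b3 : ∀ x, T.h w x = 0 → t u x ∈ YS b1 h b2 := fun x => irr_perp N.two N.ndW N.hq hw
    ((YS b1 h b2).comap (t u)) (mem_YS b1 h b2 (by simp [N.tt, h1]) (by simp [N.tt, h1]) ha) h0 h1
    fun y hy z c1 c2 c3 => by
      obtain ⟨g, hg, e, -⟩ := N.hR z
      have c4 : ∀ v, g.1 (t v w) = t v w := fun v => by simp [e, rf N.two, os w z, c1]
      rw [Submodule.mem_comap] at hy ⊢
      have c5 : ∀ v, g⁻¹.1 (t v w) = t v w := fun v => g.1.injective (by rw [isom_apply_inv_self, c4])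
      have := Submodule.sub_mem _ hy (YS_map hy hg (by rw [c5]; exact left_mem)
        (by rw [map_smul, c5]; exact right_mem))
      simp only [e, rf N.two, map_sub, map_smul, sub_sub_cancel] at this
      exact (Submodule.smul_mem_iff _ (mul_ne_zero (div_ne_zero N.two c2) c3)).1 this
  have b4 : ∀ x, T.h w x = 0 → t u' x ∈ YS b1 h b2 := fun x hx => by
    obtain ⟨g, hg, e⟩ := N.hU (A.eich (u' - u) 0 1)
    have e1 : ∀ x, g.1 (t u' x) = t u x := fun x => by simp [e, symp_transv_apply, h0, hu, Pl.h0]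
    have := YS_map (b3 x hx) (H.inv_mem hg) (mem_pl.2 ⟨2, -T.h w w, by
      simp only [inv_inv, e, symp_transv_apply, map_sub, LinearMap.sub_apply, hu', Pl.h0, map_add,
        map_smul, LinearMap.add_apply, LinearMap.smul_apply, smul_smul]
      match_scalars <;> field_simp <;> ring⟩) (by
        rw [inv_inv, map_smul, e1]; exact Submodule.smul_mem _ _ left_mem)
    rwa [show g⁻¹.1 (t u x) = t u' x by rw [← e1, isom_inv_apply_self]] at this
  have b5 : ∀ x, T.h w x = 0 → ∀ v, t v x ∈ YS b1 h b2 := fun x hx v => by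
    have m : ∀ v, A.h u v = 1 → v ∉ F ∙ u := fun v e m => by
      obtain ⟨a, rfl⟩ := Submodule.mem_span_singleton.1 m
      simp [Pl.h0] at e
    have hv : A.h u (v + (1 - A.h u v) • u') = 1 := by simp [hu]
    obtain ⟨γ, g1, g2⟩ := N.ndU.witt_fix (F ∙ u) (m _ hu) (m _ hv) trivial fun z hz => by
      obtain ⟨a, rfl⟩ := Submodule.mem_span_singleton.1 hz
      simp [hu]
    obtain ⟨g, hg, e⟩ := N.hU γ
    have := eich_conj ((b4 x hx).2.2 _ left_mem) hg
    rw [e, e, g1 _ (Submodule.mem_span_singleton_self u), g2] at this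
    simpa using Submodule.sub_mem _ (mem_YS b1 h b2 (by simp [N.tt, hx]) (by simp [N.tt, hx]) this)
      (Submodule.smul_mem _ (1 - A.h u v) (b4 x hx))
  have b6 : ∀ v, A.h u v = 0 → A.h u' v = 0 → t v w ∈ YS b1 h b2 := fun v c1 c2 =>
    mem_YS b1 h b2 (by simp [N.tt, c1]) (by simp [N.tt, c2]) (h.short N.two (N.tf u0 h v)
      (by simpa using N.tf u0 h (u + v)) (by simp [N.tt, c1]))
  refine E_le_of_YS N.nd N.two b1 h b2 fun x a1 a2 => ?_
  have := N.ext ((YS b1 h b2).comap (LinearMap.id + (S.h ((T.h w w)⁻¹ • t u' w)).smulRight (t u w) -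
    (S.h (t u w)).smulRight ((T.h w w)⁻¹ • t u' w))).toAddSubgroup (fun v a => by
      convert Submodule.add_mem _ (b5 (a - ((T.h w w)⁻¹ * T.h w a) • w) (by simp; field_simp; ring) v)
        (Submodule.smul_mem _ ((T.h w w)⁻¹ * T.h w a) (b6 (v + A.h u' v • u - A.h u v • u')
          (by simp [hu, Pl.h0]) (by simp [hu', Pl.h0]))) using 1
      simp only [Submodule.mem_toAddSubgroup, Submodule.mem_comap]
      congr! 1
      simp only [LinearMap.sub_apply, LinearMap.add_apply, LinearMap.id_apply, map_smul, map_sub,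
        map_add, LinearMap.smulRight_apply, LinearMap.smul_apply, N.tt, RingHom.id_apply, smul_eq_mul]
      module) x
  simp only [Submodule.mem_toAddSubgroup, Submodule.mem_comap, LinearMap.sub_apply,
    LinearMap.add_apply, LinearMap.smulRight_apply, a1, a2] at this
  simpa using this

/-- the symmetric tensors `w y` in `H` -/
def LS (u : U) (w : W) : Submodule F W where
  carrier := {y | ∀ c : F, S.eich (t u w) (t u (c • y)) 0 ∈ H}
  add_mem' := fun h1 h2 c => by
    simpa [N.tt, Pl.h0] using seich_mul (by simp [N.tt, Pl.h0]) (by simp [N.tt, Pl.h0]) (h1 c) (h2 c)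
  zero_mem' := fun c => by simp [eich_zero]
  smul_mem' := fun a v h c => by simpa [smul_smul] using h (c * a)

theorem LS_refl (hy : y ∈ N.LS u w) (h1 : T.h w z = 0) (h2 : T.h z z ≠ 0) (h3 : T.h z y ≠ 0) :
    z ∈ N.LS u w := fun s => by
  obtain ⟨g, hg, e, -⟩ := N.hR z
  have a1 := hy (s / (2 / T.h z z * T.h z y))
  have a2 := eich_conj a1 hg
  simp only [e, rf N.two, os w z, h1, mul_zero, zero_smul, sub_zero] at a2
  convert seich_mul (by simp [N.tt, Pl.h0]) (by simp [N.tt, Pl.h0]) a1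
    (seich_inv (by simp [N.tt, Pl.h0]) a2) using 2
  · simp only [map_smul, map_sub, smul_eq_mul]
    match_scalars <;> field_simp [N.two] <;> ring
  · simp [N.tt, Pl.h0]

theorem LS_symm (hy : y ∈ N.LS u w) : w ∈ N.LS u y := fun c => by
  have := hy c
  rw [map_smul, eich_symm (by simp [N.tt, Pl.h0]), eich_smul (sec (by simp [N.tt, Pl.h0]) 0)] at this
  simpa using this

theorem of_LS (hu : u ≠ 0) (hw : T.h w w ≠ 0) (h0 : y ≠ 0) (h1 : T.h w y = 0) (hy : y ∈ N.LS u w) :
    S.E ≤ H := by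
  have b1 : ∀ w y, T.h w w ≠ 0 → y ≠ 0 → T.h w y = 0 → y ∈ N.LS u w → ∀ x, T.h w x = 0 →
      x ∈ N.LS u w := fun w y a1 a2 a3 a4 x =>
    irr_perp N.two N.ndW N.hq a1 _ a4 a2 a3 fun y hy z => N.LS_refl hy
  have := le_finrank_ker_h T w
  have := N.hb
  obtain ⟨v, v1, v2⟩ := orth_exists_q_eq_mem (nd_perp N.ndW hw) (by omega) (-T.q w)
  rw [mem_perp_singleton] at v1
  replace v2 : T.h v v = -T.h w w := by simp [orth_h_self, v2]
  obtain ⟨d, d1, d2⟩ := orth_exists_q_ne_mem (N.ndW.restrict_perp (U := pl F w v)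
    ((T.restrict_nondeg_iff' _).2 fun x hx h => by
      obtain ⟨a, b, rfl⟩ := mem_pl.1 hx
      have a1 := h w left_mem
      have a2 := h v right_mem
      simp only [map_add, map_smul, LinearMap.add_apply, LinearMap.smul_apply, smul_eq_mul, v1, v2,
        os w v, RingHom.id_apply, mul_zero, add_zero, zero_add, mul_eq_zero, hw, or_false,
        neg_eq_zero] at a1 a2
      simp [a1, a2])) (by
    have := N.ndW.finrank_perp (pl F w v)
    have := finrank_pl w v (F := F)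
    omega)
  rw [mem_perp_pair] at d1
  replace d2 : T.h d d ≠ 0 := by simpa [orth_h_self, N.two] using d2
  have b2 := N.LS_symm (b1 d w d2 (by rintro rfl; simp at hw) (T.h_swap_zero d1.1)
    (N.LS_symm (b1 w y hw h0 h1 hy d d1.1)) (w + v) (by simp [os w d, os v d, d1]))
  have b3 := N.LS_refl b2 (z := (2 : F) • d + (w + v)) (by simp [d1, v1, v2, os w v])
    (by simp [d1, v1, v2, os w v, os w d, os v d, d2, N.two]) (by simp [d1, d2, N.two])
  have b4 : TF H (t u (w + v)) := fun a => by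
    have := (N.LS _ _).sub_mem b3 ((N.LS _ _).smul_mem 2 b2) (a / 2)
    rwa [add_sub_cancel_left, map_smul, eich_self, mul_div_cancel₀ _ N.two] at this
  obtain ⟨g, hg, e, -⟩ := N.hR v
  have b5 : TF H (t u (w - v)) := by
    convert b4.map hg using 1
    simp only [e, rf N.two, map_add, map_sub, map_smul, os w v, v1, v2]
    match_scalars <;> field_simp <;> ring
  obtain ⟨u', hu'⟩ := N.ndU.exists_h_eq_one hu
  have b6 : A.h u' u * T.h (w - v) (w + v) ≠ 0 := by
    simp [v1, v2, os w v, ← two_mul, N.two, hw, hs u u', hu']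
  have b7 := (N.tf hu b5 u').add b4 (by rwa [N.tt]) 1
  have b8 := ((N.tf hu b5 (u' - u)).add b7 (by
    rw [one_smul, map_add, N.tt, N.tt, show T.h (w - v) (w - v) = 0 by simp [v1, v2, os w v]]
    simpa [Pl.h0] using b6) (-1)).smul 2⁻¹
  refine N.fin hu' hw ?_ h0 h1 (by simpa using hy 1)
  convert b8 using 1
  simp only [map_add, map_sub, LinearMap.sub_apply]
  match_scalars <;> field_simp [N.two] <;> ring

theorem nl_or : S.E ≤ H ∨ NL t c H := by
  refine or_iff_not_imp_right.2 fun h => ?_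
  unfold NL at h
  push Not at h
  obtain ⟨u, hu, k, hk, h1, h2⟩ := h
  obtain ⟨η, hη⟩ := N.ndU.exists_h_eq_one hu
  let σ : W →ₗ[F] W := c η ∘ₗ (.id - (k.1 : V →ₗ[F] V)) ∘ₗ t η
  have a1 : ∀ x, k.1 x = x + t u (σ (c u x)) := fun x => by
    have : k.1 (x - t η (c u x)) = x - t η (c u x) := N.nd.ext_right fun y => by
      obtain ⟨y, rfl⟩ := k.1.surjective y
      obtain ⟨a, e⟩ := h1 y
      rw [isom_h, e, map_add, LinearMap.add_apply, N.hh]
      simp [N.ct, hη]
    obtain ⟨a, e⟩ := h1 (t η (c u x))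
    have e1 : σ (c u x) = a := by simp [σ, e, N.ct, hs u η, hη]
    rw [e1]
    linear_combination (norm := (simp only [map_sub]; module)) this + e
  have a2 : ∀ a b, T.h (σ a) b = T.h a (σ b) := fun a b => by
    have := isom_h k (t η a) (t η b)
    simp only [a1, N.ct, hη, one_smul, map_add, LinearMap.add_apply, N.tt, hs u η, Pl.h0] at this
    linear_combination this
  obtain ⟨w, hw, h3⟩ : ∃ w, T.h w w ≠ 0 ∧ σ w ∉ F ∙ w := by
    by_contra! h
    obtain ⟨s, hs⟩ := scal N.two N.ndW N.hb h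
    exact (h2 s).elim fun x hx => hx (by simp [a1, hs])
  obtain ⟨g, hg, e, e'⟩ := N.hR w
  let y := (2 / T.h w w) • (σ w - (T.h w (σ w) / T.h w w) • w)
  have a3 : S.eich (t u w) (t u y) 0 ∈ H := by
    refine (H.mul_mem_cancel_right (H.mul_mem (H.mul_mem hg hk) (H.inv_mem hg))).1
      ((isom_ext fun x => ?_ : k = S.eich (t u w) (t u y) 0 * (g * k * g⁻¹)) ▸ hk)
    obtain ⟨x, rfl⟩ := g.1.surjective x
    rw [isom_mul_apply, eich_apply (sec (by simp [N.tt, Pl.h0]) 0), N.hh, N.hh]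
    simp only [isom_mul_apply, isom_inv_apply_self, a1, map_add, e, e', N.ct, Pl.h0, rf N.two, map_sub,
      map_smul, y, LinearMap.sub_apply, LinearMap.smul_apply, smul_eq_mul, RingHom.id_apply, sympP_ε,
      a2 w, zero_smul, map_zero]
    match_scalars <;> field_simp <;> ring
  refine N.of_LS hu hw (y := y) (fun h => h3 ?_) (by simp [y, hw]) fun s => ?_
  · rw [sub_eq_zero.1 ((smul_eq_zero.1 h).resolve_left (div_ne_zero N.two hw))]
    exact Submodule.smul_mem _ _ (Submodule.mem_span_singleton_self w)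
  let B : AddSubgroup F :=
    { carrier := {s | S.eich (t u w) (t u (s • y)) 0 ∈ H}
      add_mem' := fun h1 h2 => by
        simpa [N.tt, Pl.h0, add_smul] using
          seich_mul (by simp [N.tt, Pl.h0]) (by simp [N.tt, Pl.h0]) h1 h2
      zero_mem' := by simp [eich_zero]
      neg_mem' := fun h1 => by simpa using seich_inv (by simp [N.tt, Pl.h0]) h1 }
  refine mem_of_sq B one_ne_zero (fun s => ?_) s
  obtain rfl | hs := eq_or_ne s 0
  · simp
  obtain ⟨g, hg, e⟩ := N.mv hu (smul_ne_zero hs hu)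
  have := eich_conj a3 hg
  rw [e, e, map_smul, LinearMap.smul_apply, eich_smul (sec (by simp [N.tt, Pl.h0]) 0)] at this
  change S.eich _ _ _ ∈ H
  simpa [smul_smul] using this

end TQ

end H20.Tp
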