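import Cfsg.Agent.H20.Tp1

/-! Overgroups of `Sp(U) ⊗ O(W)` in `Sp(U ⊗ W)`, part 2: with scalar long level, the short levels
`TLv` are scalar (`TQ.lvR`), elements fixing `u ⊗ W` pointwise lie in `Sp(U) ⊗ 1` (`TQ.fixC`),
`TQ.nmlN` and `TQ.nmlS`. -/

set_option autoImplicit false
set_option linter.unusedSectionVars false

namespace H20.Tp

open Module H11 H11.PForm H29 H20.Pl

variable {F U W V : Type*} [Field F] [AddCommGroup U] [Module F U] [AddCommGroup W] [Module F W]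
  [AddCommGroup V] [Module F V] [FiniteDimensional F U] [FiniteDimensional F W]
  [FiniteDimensional F V] {A : PForm (sympP F) U} {T : PForm (orthP F) W} {S : PForm (sympP F) V}
  {H : Subgroup S.Isom} {t : U →ₗ[F] W →ₗ[F] V} {c : U →ₗ[F] V →ₗ[F] W} {u v y z : U} {w : W}
  {φ φ' : V →ₗ[F] W} {g k : S.Isom} {x : V}

/-- `φ` is a level of `H` at `v ⊗ W` -/
def TLv (t : U →ₗ[F] W →ₗ[F] V) (c : U →ₗ[F] V →ₗ[F] W) (H : Subgroup S.Isom) (v : U)
    (φ : V →ₗ[F] W) : Prop :=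
  ∃ k ∈ H, (∀ w, k.1 (t v w) = t v w) ∧ ∀ x, c v x = 0 → k.1 x = x + t v (φ x)

theorem TLv.congr (h : TLv t c H v φ) (e : ∀ x, c v x = 0 → φ' x = φ x) : TLv t c H v φ' :=
  let ⟨k, a, b, d⟩ := h
  ⟨k, a, b, fun x hx => by rw [d x hx, e x hx]⟩

theorem TLv.sub (h : TLv t c H v φ) (h' : TLv t c H v φ') : TLv t c H v (φ - φ') := by
  obtain ⟨k, a, b, d⟩ := h
  obtain ⟨k', a', b', d'⟩ := h'
  refine ⟨k'⁻¹ * k, H.mul_mem (H.inv_mem a') a, fun s => k'.1.injective (by simp [b, b']),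
    fun x hx => k'.1.injective ?_⟩
  rw [isom_mul_apply, isom_apply_inv_self, map_add, b', d x hx, d' x hx]
  simp

/-- the conjugate of `t v ∘ c v` -/
def mm (t : U →ₗ[F] W →ₗ[F] V) (c : U →ₗ[F] V →ₗ[F] W) (g : S.Isom) (v : U) : V →ₗ[F] V :=
  (g.1 : V →ₗ[F] V) ∘ₗ t v ∘ₗ c v ∘ₗ (g⁻¹.1 : V →ₗ[F] V)

theorem mm_apply (x : V) : mm t c g v x = g.1 (t v (c v (g⁻¹.1 x))) := rfl

theorem nm (h : A.h y v = 1) (h0 : A.h y z = 0) : v ∉ F ∙ z := fun m => by
  obtain ⟨a, rfl⟩ := Submodule.mem_span_singleton.1 m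
  simp [h0] at h

namespace TQ
variable [Finite F] (N : TQ A T t c H)
include N

theorem inj (hv : v ≠ 0) (e : t v w = 0) : w = 0 := by
  obtain ⟨y, hy⟩ := N.ndU.exists_h_eq_one hv
  simpa [N.ct, hs v y, hy] using congrArg (c y) e

theorem inj' (hv : v ≠ 0) : Function.Injective (t v) :=
  (injective_iff_map_eq_zero _).2 fun _ => N.inj hv

theorem inj2 (hw : w ≠ 0) (e : t v w = 0) : v = 0 :=
  N.ndU.eq_zero' fun y => by simpa [N.ct, hw] using congrArg (c y) e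

theorem eq_t {η : U} (hη : A.h η z = 1) (e : ∀ y, A.h z y = 0 → c y x = 0) :
    x = t z (c η x) := sub_eq_zero.1 (N.nd.eq_zero' (N.ext (S.h.flip _).toAddMonoidHom.ker fun y w => by
  have := e (y - A.h y z • η) (by simp [hs η z, hη, hs y z])
  simp only [map_sub, map_smul, LinearMap.sub_apply, LinearMap.smul_apply, sub_eq_zero] at this
  simp [N.hh, N.ct, this]))

theorem cfix (e : ∀ w, k.1 (t z w) = t z w) (x : V) : c z (k.1 x) = c z x :=
  N.ndW.ext_right fun w => by rw [← N.hh, ← N.hh, ← isom_h k _ x, e]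

theorem conj (hf : TLv t c H v φ) (hg : g ∈ H) {ρ : W →ₗ[F] W}
    (e : ∀ w, g.1 (t v w) = t v (ρ w)) (hρ : Function.Surjective ρ) :
    TLv t c H v (ρ ∘ₗ φ ∘ₗ (g⁻¹.1 : V →ₗ[F] V)) := by
  obtain ⟨k, a, b, d⟩ := hf
  refine ⟨g * k * g⁻¹, H.mul_mem (H.mul_mem hg a) (H.inv_mem hg), fun u => by
    obtain ⟨u, rfl⟩ := hρ u
    rw [← e]; simp [b], fun x hx => ?_⟩
  rw [isom_mul_apply, isom_mul_apply, d _ (N.ndW.eq_zero' fun w => by
    rw [← N.hh, ← isom_h_left, e, N.hh, hx, map_zero]), map_add, e, isom_apply_inv_self]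
  rfl

theorem comp (hf : TLv t c H v φ) (hg : g ∈ H) (e : ∀ w, g.1 (t v w) = t v w) :
    TLv t c H v (φ ∘ₗ (g.1 : V →ₗ[F] V)) :=
  N.conj hf (H.inv_mem hg) (ρ := .id) (fun u => g.1.injective (by simp [e])) Function.surjective_id

theorem lv_id (h : A.h v y = 0) : TLv t c H v (c y) := by
  obtain ⟨g, hg, e⟩ := N.hT (v + y) 1
  obtain ⟨k, hk, e'⟩ := N.hT y (-1)
  exact ⟨g * k, H.mul_mem hg hk, fun w => by simp [e, e', N.ct, h0, A.h_swap_zero h],
    fun x hx => by simp [e, e', N.ct, h0, h, hx]; abel⟩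

theorem lv0 (hf : TLv t c H v φ) (hv : v ≠ 0) (w : W) : φ (t v w) = 0 := by
  obtain ⟨k, -, b, d⟩ := hf
  have := d (t v w) (by simp [N.ct, h0])
  rw [b, left_eq_add] at this
  exact N.inj hv this

theorem hm (hg : g ∈ H) (v : U) (s : F) : ∃ k ∈ H, ∀ x, k.1 x = x + s • mm t c g v x := by
  obtain ⟨k, hk, e⟩ := N.hT v s
  exact ⟨g * k * g⁻¹, H.mul_mem (H.mul_mem hg hk) (H.inv_mem hg), fun x => by simp [e, mm_apply]⟩

theorem mm_t (w : W) : mm t c g v (g.1 (t v w)) = 0 := by simp [mm_apply, N.ct, h0]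

variable (hN : NL t c H)
include hN

theorem comm (hz : z ≠ 0) (hf : TLv t c H z φ) (hf' : TLv t c H z φ') : ∃ s : F, ∀ w x x', c z x = 0 →
    c z x' = 0 → (∀ d, T.h w (φ d) = S.h x d) → (∀ d, T.h w (φ' d) = S.h x' d) →
    φ x' - φ' x = s • w := by
  obtain ⟨k, hk, b, d⟩ := hf
  obtain ⟨l, hl, b', d'⟩ := hf'
  have e : ∀ {k : S.Isom} {φ : V →ₗ[F] W}, (∀ w, k.1 (t z w) = t z w) →
      (∀ x, c z x = 0 → k.1 x = x + t z (φ x)) → ∀ x v, c z v = 0 →
      S.h v (k.1 x - x) = -T.h (φ v) (c z x) := fun {k φ} b d x v hv => by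
    have := isom_h k v x
    rw [d v hv, map_add, LinearMap.add_apply, N.hh, N.cfix b] at this
    rw [map_sub]
    linear_combination this
  have e1 : ∀ x, ((l * k)⁻¹ * (k * l)).1 x = x + t z (φ (l.1 x - x) - φ' (k.1 x - x)) := fun x =>
    (l * k).1.injective (by
      have a1 := d (l.1 x - x) (by simp [N.cfix b'])
      have a2 := d' (k.1 x - x) (by simp [N.cfix b])
      rw [← isom_mul_apply, mul_inv_cancel_left, map_add]
      simp only [isom_mul_apply, b, b', map_sub (t z), map_sub k.1, map_sub l.1] at a1 a2 ⊢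
      linear_combination (norm := module) a1 - a2)
  obtain ⟨s, hs⟩ := hN z hz _ (H.mul_mem (H.inv_mem (H.mul_mem hl hk)) (H.mul_mem hk hl))
    fun x => ⟨_, e1 x⟩
  obtain ⟨η, hη⟩ := N.ndU.exists_h_eq_one hz
  refine ⟨s, fun w x x' h1 h2 h3 h4 => N.ndW.ext_left fun a => ?_⟩
  have := congrArg (T.h w) (N.inj' hz (add_left_cancel ((e1 (t η a)).symm.trans
    ((hs _).trans (by rw [← map_smul])))))
  rw [map_sub, h3, h4, e b' d' _ _ h1, e b d _ _ h2] at this
  simp only [N.ct, hη, one_smul, map_sub, map_smul, LinearMap.sub_apply, LinearMap.smul_apply,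
    smul_eq_mul, RingHom.id_apply] at this ⊢
  linear_combination this

theorem lvR (hz : z ≠ 0) (hf : TLv t c H z φ) (hy : A.h z y = 0) : ∃ s : F, ∀ w, φ (t y w) = s • w := by
  by_cases h1 : y ∈ F ∙ z
  · obtain ⟨a, rfl⟩ := Submodule.mem_span_singleton.1 h1
    exact ⟨0, fun w => by simp [N.lv0 hf hz]⟩
  obtain ⟨y', y1, y2⟩ := N.ndU.exists_perp_of_notMem' h1 1
  rw [mem_perp_singleton] at y1
  obtain ⟨γ, g1, g2⟩ := N.ndU.witt_fix (F ∙ z) h1 (nm y2 (A.h_swap_zero hy)) trivial fun x hx => by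
    obtain ⟨a, rfl⟩ := Submodule.mem_span_singleton.1 hx
    simp [hy, y1]
  obtain ⟨g, hg, e⟩ := N.hU γ
  obtain ⟨s, h2⟩ := N.comm hN hz hf (N.lv_id hy)
  have a1 : ∀ a w, T.h a (φ (t y w)) + T.h w (φ (t y a)) = s * T.h a w := fun a w => by
    obtain ⟨x, hx⟩ := N.nd.exists_h_eq (T.h w ∘ₗ φ)
    have := congrArg (T.h a) (h2 w x (t y w) (N.ndW.eq_zero' fun b => by
      rw [← N.hh, hs, hx]; simp [N.lv0 hf hz]) (by simp [N.ct, hy]) (fun d => by simp [hx])
      fun d => (N.hh _ _ _).symm)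
    rw [map_sub, ← N.hh, hs x, hx] at this
    simpa using this
  obtain ⟨k, hk, ek⟩ := N.hT y 1
  have a2 : TLv t c H z ((φ ∘ₗ t y) ∘ₗ c y) :=
    ((N.comp hf hk fun w => by simp [ek, N.ct, A.h_swap_zero hy]).sub hf).congr fun x _ => by simp [ek]
  refine scal N.two N.ndW N.hb (ρ := φ ∘ₗ t y) fun w hw => ?_
  obtain ⟨p, hp⟩ : ∃ p, p = (2 / T.h w w) • (φ (t y w) - (s / 2) • w) := ⟨_, rfl⟩
  have a3 : T.h w (φ (t y w)) = s / 2 * T.h w w := by
    have := N.two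
    field_simp
    linear_combination a1 w w
  have p0 : T.h w p = 0 := by simp [hp, a3]
  let D := (T.h w).smulRight p - (T.h p).smulRight w
  obtain ⟨r, hr, e1, e2⟩ := N.hR w
  have a4 : TLv t c H z (D ∘ₗ c y) := (a2.sub (N.conj a2 hr (ρ := ((T.refl w).1 : W →ₗ[F] W)) (e1 z)
    (T.refl w).1.surjective)).congr fun x _ => by
      obtain ⟨x, rfl⟩ := r.1.surjective x
      have := N.two
      have a5 : T.h w (φ (t y (c y x))) = s * T.h w (c y x) - T.h (φ (t y w)) (c y x) := by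
        linear_combination a1 w (c y x) - os (T := T) (φ (t y w)) (c y x)
      simp only [D, hp, LinearMap.comp_apply, LinearMap.sub_apply, LinearEquiv.coe_coe, e2,
        isom_inv_apply_self, rf N.two, LinearMap.smulRight_apply, map_sub, map_smul, a5,
        LinearMap.smul_apply, smul_eq_mul, RingHom.id_apply, os w (φ (t y w)), a3]
      match_scalars <;> field_simp <;> ring
  have a5 : TLv t c H z (D ∘ₗ c y') := (N.conj a4 hg (ρ := .id) (fun w => by
    rw [e, g1 z (Submodule.mem_span_singleton_self z)]; rfl) Function.surjective_id).congr fun x _ => by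
      obtain ⟨x, rfl⟩ := g.1.surjective x
      simp [← g2, N.cU e]
  obtain ⟨s', h3⟩ := N.comm hN hz a4 a5
  have a6 : ∀ a, D (D a) = -(s' / 2) • a := fun a => by
    have := h3 a (t y (-D a)) (t y' (-D a)) (by simp [N.ct, hy]) (by simp [N.ct, y1])
      (fun d => by simp [N.hh, D, os a]; ring) fun d => by simp [N.hh, D, os a]; ring
    simp only [LinearMap.comp_apply, N.ct, y2, hs y y', map_neg, map_smul] at this
    refine smul_right_injective _ N.two ?_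
    simp only [smul_smul, mul_neg, mul_div_cancel₀ _ N.two]
    linear_combination (norm := module) -this
  obtain ⟨a, a0, a7, a8⟩ := ex_ker2 N.hb (T.h w) (T.h p)
  have a9 : -(s' / 2) = 0 := by simpa [D, a7, a8, a0] using (a6 a).symm
  have w0 : w ≠ 0 := by rintro rfl; simp at hw
  have b1 : T.h p p = 0 := by simpa [a9, D, p0, os w p, hw, w0] using a6 w
  have b2 : p = 0 := by_contra fun h => by
    obtain ⟨b, hb⟩ := N.ndW.exists_h_eq_one h
    simpa [a9, D, p0, os w p, hw, h, hb, b1] using a6 b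
  rw [b2, eq_comm, smul_eq_zero, sub_eq_zero] at hp
  exact Submodule.mem_span_singleton.2 ⟨_, (hp.resolve_left (div_ne_zero N.two hw)).symm⟩

theorem fixC (hz : z ≠ 0) (hk : k ∈ H) (e : ∀ w, k.1 (t z w) = t z w) (y : U) :
    ∃ y', ∀ w, k.1 (t y w) = t y' w := by
  obtain ⟨w₀, hw₀⟩ := ex_ns0 N.two N.ndW N.hb
  replace hw₀ : w₀ ≠ 0 := by rintro rfl; simp at hw₀
  have main : ∀ z k, z ≠ 0 → k ∈ H → (∀ w, k.1 (t z w) = t z w) → ∀ y, A.h z y = 0 →
      ∃ y', ∀ w, k.1 (t y w) = t y' w := by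
    intro z k hz hk e y hy
    by_cases h1 : y ∈ F ∙ z
    · obtain ⟨a, rfl⟩ := Submodule.mem_span_singleton.1 h1
      exact ⟨a • z, fun w => by simp [e]⟩
    obtain ⟨θ, hθ⟩ := ex_one' (F := F) hw₀
    obtain ⟨y₁, hy₁⟩ := N.ndU.exists_h_eq (-θ ∘ₗ c.flip (k.1 (t y w₀)))
    have a1 : ∀ v, A.h z v = 0 → ∀ w, c v (k.1 (t y w) - t y₁ w) = 0 := fun v hv w => by
      obtain ⟨s, h⟩ := N.lvR hN hz (N.comp (N.lv_id hv) hk e) hy
      replace h : ∀ w, c v (k.1 (t y w)) = s • w := h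
      simp [h, N.ct, hs y₁ v, hy₁, hθ]
    have a2 : A.h z y₁ = 0 := by simp [hs y₁ z, hy₁, N.cfix e, N.ct, hy]
    obtain ⟨η, hη⟩ := N.ndU.exists_h_eq_one hz
    let ψ := c (-η) ∘ₗ ((k.1 : V →ₗ[F] V) ∘ₗ t y - t y₁)
    have a3 : ∀ w, k.1 (t y w) = t y₁ w + t z (ψ w) := fun w =>
      sub_eq_iff_eq_add'.1 (N.eq_t (by simp [hs z η, hη]) fun v hv => a1 v hv w)
    obtain ⟨r, r1, r2⟩ := N.ndU.exists_perp_of_notMem' (U := F ∙ z) (u := y₁) (fun m => by
      obtain ⟨a, rfl⟩ := Submodule.mem_span_singleton.1 m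
      obtain ⟨r, r1, r2⟩ := N.ndU.exists_perp_of_notMem h1 1
      have : t y w₀ = t z (a • w₀ + ψ w₀) := k.1.injective (by rw [e, a3]; simp)
      simpa [N.ct, r2, hw₀, A.h_swap_zero (A.mem_perp_singleton.1 r1)] using congrArg (c r) this) 1
    obtain ⟨g, hg, e1⟩ := N.hm hk y 1
    obtain ⟨g', hg', e2⟩ := N.hT y₁ (-1)
    have a4 : ∀ x, c z x = 0 → c y (k⁻¹.1 x) = c y₁ x := fun x hx => N.ndW.ext_right fun w => by
      rw [← N.hh, ← isom_h_left, a3]; simp [N.hh, hx]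
    obtain ⟨s, h⟩ := N.lvR hN hz (φ := ψ ∘ₗ c y₁) ⟨g * g', H.mul_mem hg hg', fun w => by
      rw [isom_mul_apply, e1, mm_apply, a4 _ (by simp [e2, h0, N.ct, a2]), e2]
      simp [N.ct, A.h_swap_zero a2],
      fun x hx => by
        rw [isom_mul_apply, e1, mm_apply, a4 _ (by simp [e2, hx, N.ct, a2]), a3, e2]
        simp [N.ct, h0]⟩ (A.mem_perp_singleton.1 r1)
    exact ⟨y₁ + s • z, fun w => by simpa [a3, N.ct, r2] using congrArg (t z) (h w)⟩
  obtain ⟨v, v0, v1, v2⟩ := ex_ker2 N.three (A.h z) (A.h y)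
  obtain ⟨v', h1⟩ := main z k hz hk e v v1
  obtain ⟨γ, hγ⟩ := N.ndU.witt_vec v0 (u' := v') (by
    rintro rfl; exact v0 (N.inj2 hw₀ (by simpa using h1 w₀))) trivial
  obtain ⟨g, hg, e1⟩ := N.hU γ
  obtain ⟨y', h2⟩ := main v (g⁻¹ * k) v0 (H.mul_mem (H.inv_mem hg) hk) (fun w => by
    rw [isom_mul_apply, h1, ← hγ, ← e1, isom_inv_apply_self]) y (A.h_swap_zero v2)
  exact ⟨γ.1 y', fun w => by rw [← e1, ← h2, isom_mul_apply, isom_apply_inv_self]⟩

theorem simil (hu : u ≠ 0) (hk : k ∈ H) {ρ : W →ₗ[F] W} (e : ∀ w, k.1 (t u w) = t u (ρ w)) :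
    ∃ s : F, s ≠ 0 ∧ ∀ a b, T.h (ρ a) (ρ b) = s * T.h a b := by
  obtain ⟨g, hg, e1⟩ := N.hm hk u 1
  obtain ⟨s, h⟩ := hN u hu g hg fun x => ⟨_, by rw [e1, mm_apply, e, one_smul]⟩
  obtain ⟨η, hη⟩ := N.ndU.exists_h_eq_one hu
  have a1 : ∀ b, ρ b = s • c u (k.1 (t η b)) := fun b => N.inj' hu (by
    simpa [e1, mm_apply, N.ct, hη, e] using h (k.1 (t η b)))
  obtain ⟨w, hw⟩ := ex_ns0 N.two N.ndW N.hb
  refine ⟨s, fun h => ?_, fun a b => by
    rw [a1 b, map_smul, ← N.hh, ← e, isom_h, N.tt, hη, one_mul, smul_eq_mul]⟩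
  have := e w
  rw [a1, h, zero_smul, map_zero, map_eq_zero_iff _ k.1.injective] at this
  simp [N.inj hu this] at hw

theorem nmlN (hu : u ≠ 0) (hk : k ∈ H) (e : ∀ x, c u x = 0 → ∃ w, k.1 x = x + t u w) :
    ∃ s : F, ∀ w, k.1 (t u w) = s • t u w := by
  obtain ⟨η, hη⟩ := N.ndU.exists_h_eq_one hu
  let ρ := c (-η) ∘ₗ (k.1 : V →ₗ[F] V) ∘ₗ t u
  have a1 : ∀ w, k.1 (t u w) = t u (ρ w) := fun w => by
    obtain ⟨a, h⟩ := e (t u w) (by simp [N.ct, h0])
    simp [ρ, h, N.ct, hs u η, hη, add_comm]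
  obtain ⟨s, s0, h1⟩ := N.simil hN hu hk a1
  obtain ⟨y, -, y1, y2⟩ := exists_mem_ker_notMem [A.h u] ⊤ (F ∙ u) (by
    have := finrank_span_one_le (F := F) u; have := N.three; simp; omega)
  replace y2 : A.h u y = 0 := by simpa using y2
  obtain ⟨v, v1, v2⟩ := N.ndU.exists_perp_of_notMem y1 1
  replace v1 := A.h_swap_zero (A.mem_perp_singleton.1 v1)
  obtain ⟨a, ha⟩ := scal N.two N.ndW N.hb (ρ := ρ) fun w hw => by
    obtain ⟨r, hr, e1, -⟩ := N.hR w
    obtain ⟨r', hr', e2, e3⟩ := N.hR (ρ w)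
    have b1 : ∀ a, (k⁻¹ * r' * k * r).1 (t u a) = t u a := fun a => k.1.injective (by
      simp only [isom_mul_apply, isom_apply_inv_self, e1, a1, e2, rf N.two, map_sub, map_smul, h1,
        smul_eq_mul]
      match_scalars <;> field_simp <;> ring)
    obtain ⟨y', h2⟩ := N.fixC hN hu (H.mul_mem (H.mul_mem (H.mul_mem (H.inv_mem hk) hr') hk) hr) b1 y
    have b2 : ∀ y, A.h u y = 0 → ∀ a, c v (k.1 (t y a)) = A.h v y • a := fun y hy a => by
      obtain ⟨b, h⟩ := e (t y a) (by simp [N.ct, hy])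
      simp [h, N.ct, v1]
    have w0 : w ≠ 0 := by rintro rfl; simp at hw
    have b3 : ∀ a, (T.refl (ρ w)).1 ((T.refl w).1 a) = A.h v y' • a := fun a => by
      rw [← b2 y' (by
        simpa [N.ct, y2, w0] using (congrArg (c u) (h2 w)).symm.trans (N.cfix b1 (t y w))), ← h2]
      simp only [isom_mul_apply, isom_apply_inv_self, e1, e3, b2 y y2, v2, one_smul]
    obtain ⟨a, a0, a2, a3⟩ := ex_ker2 N.hb (T.h w) (T.h (ρ w))
    have b4 := b3 w
    rw [show A.h v y' = 1 from smul_left_injective F a0 (by simpa [rf N.two, a2, a3] using (b3 a).symm),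
      rf N.two, rf N.two w, div_mul_cancel₀ _ hw] at b4
    generalize 2 / T.h (ρ w) (ρ w) * T.h (ρ w) (w - (2 : F) • w) = ν at b4
    have b5 : ν ≠ 0 := fun h => smul_ne_zero N.two w0 (by
      subst h; linear_combination (norm := module) -b4)
    refine (Submodule.smul_mem_iff _ b5).1 (Submodule.mem_span_singleton.2 ⟨-2, ?_⟩)
    linear_combination (norm := module) b4
  exact ⟨a, fun w => by rw [a1, ha, map_smul]⟩

theorem nmlS (hg : g ∈ H) (hv : v ≠ 0) (hz : z ≠ 0) (e : ∀ w, ∃ a, mm t c g v (t z w) = t z a)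
    (w₁ : W) : mm t c g v (t z w₁) = 0 := by
  set m := mm t c g v
  have m2 : ∀ x, m (m x) = 0 := fun x => N.mm_t _
  obtain ⟨η, hη⟩ := N.ndU.exists_h_eq_one hz
  obtain ⟨μ, a1⟩ : ∃ μ : W →ₗ[F] W, ∀ w, m (t z w) = t z (μ w) := ⟨c (-η) ∘ₗ m ∘ₗ t z, fun w => by
    obtain ⟨a, h⟩ := e w
    simp [h, N.ct, hs z η, hη]⟩
  have a2 : ∀ w, μ (μ w) = 0 := fun w => N.inj hz (by rw [← a1, ← a1, m2])
  obtain ⟨τ, hτ, e1⟩ := N.hm hg v 1
  have a3 : ∀ w, τ.1 (t z w) = t z ((.id + μ : W →ₗ[F] W) w) := fun w => by simp [e1, m, ← a1]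
  obtain ⟨s, -, h1⟩ := N.simil hN hz hτ a3
  by_contra h2
  replace h2 : μ w₁ ≠ 0 := fun h => h2 (by simp [a1, h])
  obtain rfl : s = 1 := by_contra fun h => h2 (N.ndW _ fun b => by
    have b1 := h1 (μ w₁) b
    have b2 := h1 (μ w₁) (μ b)
    simp only [LinearMap.add_apply, LinearMap.id_apply, a2, add_zero, map_add] at b1 b2
    have b3 : T.h (μ w₁) (μ b) = 0 := mul_left_cancel₀ (sub_ne_zero.2 h) (by linear_combination -b2)
    exact mul_left_cancel₀ (sub_ne_zero.2 h) (by linear_combination b3 - b1))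
  obtain ⟨r, hr, e2⟩ := N.hW (mkIsom N.ndW (.id + μ) (orth_isIsom fun x =>
    mul_left_cancel₀ N.two (by rw [← orth_h_self, ← orth_h_self, h1, one_mul])))
  have a4 : ∀ y, ∃ y', ∀ w, m (t y w) = t y' (w + μ w) - t y w := fun y => by
    obtain ⟨y', h⟩ := N.fixC hN hz (H.mul_mem (H.inv_mem hr) hτ) (fun w => r.1.injective (by
      rw [isom_mul_apply, isom_apply_inv_self, a3, e2]; rfl)) y
    exact ⟨y', fun w => eq_sub_of_add_eq' (by simpa [e1, e2] using congrArg r.1 (h w))⟩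
  have a5 : ∀ y w, m (t y w) = t y (μ w) := fun y w => by
    obtain ⟨y', b1⟩ := a4 y
    obtain ⟨y'', b2⟩ := a4 y'
    have b3 := fun w => (m2 _).symm.trans (congrArg m (b1 w))
    simp only [map_sub, b1, b2, map_add μ, a2] at b3
    have b4 : y'' - (2 : F) • y' + y = 0 := N.inj2 h2 (by
      have := b3 (μ w₁)
      simp only [a2, map_add, map_sub, map_smul, LinearMap.add_apply, LinearMap.sub_apply,
        LinearMap.smul_apply, map_zero] at this ⊢
      linear_combination (norm := module) -this)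
    have b5 : y' - y = 0 := N.inj2 (smul_ne_zero N.two h2) (by
      have := b3 w₁
      rw [show y'' = (2 : F) • y' - y by linear_combination (norm := module) b4] at this
      simp only [map_add, map_sub, map_smul, LinearMap.sub_apply, LinearMap.smul_apply,
        map_zero] at this ⊢
      linear_combination (norm := module) -this)
    simp [b1, sub_eq_zero.1 b5]
  have rk : ∀ y, y ≠ 0 → finrank F ((LinearMap.range (t y)).map (g.1 : V →ₗ[F] V)) = finrank F W :=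
    fun y hy => by rw [LinearEquiv.finrank_map_eq, LinearMap.finrank_range_of_inj (N.inj' hy)]
  have a6 : ∀ y w, t y (μ w) ∈ (LinearMap.range (t v)).map (g.1 : V →ₗ[F] V) := fun y w =>
    a5 y w ▸ ⟨_, ⟨_, rfl⟩, rfl⟩
  let L := (t z ∘ₗ (LinearMap.range μ).subtype).coprod (t η ∘ₗ (LinearMap.range μ).subtype)
  obtain ⟨y, y0, y1, y2⟩ := ex_ker2 N.three (A.h z) (A.h η)
  have a7 : ∀ p, c z (L p) = p.2 ∧ c η (L p) = -p.1 := fun p => by simp [L, N.ct, h0, hη, hs z η]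
  have a8 := Submodule.finrank_lt_finrank_of_lt (lt_of_le_of_ne (show LinearMap.range L ≤ _ by
    rintro _ ⟨⟨⟨_, a, rfl⟩, _, b, rfl⟩, rfl⟩
    exact add_mem (a6 z a) (a6 η b)) fun h => by
      obtain ⟨⟨p, q⟩, hp⟩ := h.ge (a6 y w₁)
      have := a7 (p, q)
      simp only [hp, N.ct, y1, y2, zero_smul, neg_eq_zero, ZeroMemClass.coe_eq_zero,
        eq_comm (a := (0 : W))] at this
      exact y0 (N.inj2 h2 (by simpa [L, this.1, this.2] using hp.symm)))
  rw [rk v hv, LinearMap.finrank_range_of_inj ((injective_iff_map_eq_zero _).2 fun p hp => by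
    have := a7 p
    simp only [hp, map_zero, neg_eq_zero, ZeroMemClass.coe_eq_zero, eq_comm (a := (0 : W))] at this
    exact Prod.ext this.2 this.1), finrank_prod] at a8
  obtain ⟨w, w1, hw⟩ := ex_ns_dim N.two N.ndW (T.perp (LinearMap.range μ)) (by
    have := N.ndW.finrank_perp (LinearMap.range μ); omega)
  obtain ⟨r, hr, e3, -⟩ := N.hR w
  have b1 : ∀ x, r.1 (m x) = m x := N.lext (f := (r.1 : V →ₗ[F] V) ∘ₗ m) fun y a => by
    simp [a5, e3, rf N.two, T.h_swap_zero (w1 _ ⟨a, rfl⟩)]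
  obtain ⟨v', hv'⟩ := N.ndU.exists_h_eq_one hv
  have b2 := N.fixC hN hv (H.mul_mem (H.mul_mem (H.inv_mem hg) hr) hg) fun a => g.1.injective (by
    simpa [m, mm_apply, N.ct, hv'] using b1 (g.1 (t v' a)))
  choose f hf using b2
  obtain ⟨y, hy⟩ : ∃ y, f y - y ≠ 0 := by
    by_contra! h
    have := N.lext (f := (g⁻¹ * r * g).1) (g := .id) (fun y a => by
      rw [← sub_eq_zero.1 (h y)]; exact (hf _ a).trans (by simp [sub_eq_zero.1 (h y)])) (g⁻¹.1 (t z w))
    simp only [LinearEquiv.coe_coe, isom_mul_apply, isom_apply_inv_self, LinearMap.id_apply,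
      EmbeddingLike.apply_eq_iff_eq, e3, rf N.two, div_mul_cancel₀ _ hw, (N.inj' hz).eq_iff,
      sub_eq_self, smul_eq_zero, N.two, false_or] at this
    simp [this] at hw
  have b3 := Submodule.eq_of_le_of_finrank_le (S₂ := LinearMap.range (t.flip w))
    (S₁ := (LinearMap.range (t (f y - y))).map (g.1 : V →ₗ[F] V)) (by
      rintro _ ⟨_, ⟨a, rfl⟩, rfl⟩
      have := N.ext ((LinearMap.range (t.flip w)).comap ((r.1 : V →ₗ[F] V) - .id)).toAddSubgroup
        (fun y a => ⟨-(2 / T.h w w * T.h w a) • y, by simp [e3, rf N.two]⟩) (g.1 (t y a))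
      simpa [← hf] using this) (by
      rw [rk _ hy, ← rk v hv]
      refine (LinearMap.finrank_range_le _).trans ?_
      rw [← LinearMap.finrank_range_of_inj (f := t.flip (μ w₁))
        ((injective_iff_map_eq_zero _).2 fun y => N.inj2 h2)]
      exact Submodule.finrank_mono (by rintro _ ⟨y, rfl⟩; exact a6 y w₁))
  obtain ⟨_, ⟨a, rfl⟩, c1⟩ := b3.ge ⟨z, rfl⟩
  obtain ⟨_, ⟨b, rfl⟩, c2⟩ := b3.ge ⟨η, rfl⟩
  have := N.tt z η w w
  rw [LinearMap.flip_apply] at c1 c2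
  rw [← c1, ← c2, LinearEquiv.coe_coe, isom_h, N.tt, h0, hη] at this
  exact hw (by simpa using this.symm)

end TQ

end H20.Tp
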