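import Cfsg.Agent.H20.Tp2
import Cfsg.Agent.S0801

/-! Overgroups of `Sp(U) ⊗ O(W)` in `Sp(U ⊗ W)`, part 3: two quadratic elements and Dickson's lemma
(`dk`), the maximal intersection argument for the images of `u ⊗ W` and `TQ.dich`. -/

set_option autoImplicit false
set_option linter.unusedSectionVars false

namespace H20.Tp

open Module H11 H11.PForm H29 H20.Pl Polynomial
open scoped MatrixGroups Matrix

variable {F U W V : Type*} [Field F] [AddCommGroup U] [Module F U] [AddCommGroup W] [Module F W]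
  [AddCommGroup V] [Module F V] [FiniteDimensional F U] [FiniteDimensional F W]
  [FiniteDimensional F V] {A : PForm (sympP F) U} {T : PForm (orthP F) W} {S : PForm (sympP F) V}
  {H : Subgroup S.Isom} {t : U →ₗ[F] W →ₗ[F] V} {c : U →ₗ[F] V →ₗ[F] W} {u v y z : U} {w : W}
  {g k : S.Isom} {x : V} {X Y D : Submodule F V} {d : ℕ}

theorem ex_simple [Nontrivial V] (M : End F V) : ∃ f : F[X], Irreducible f ∧ f.Monic ∧
    ∃ ι : AdjoinRoot f →ₗ[F] V, ι 1 ≠ 0 ∧ (∀ l, M (ι l) = ι (AdjoinRoot.root f * l)) ∧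
      ∀ l, ι l = 0 → ∀ l', ι (l' * l) = 0 := by
  have hM := LinearMap.isIntegral M
  obtain ⟨f, f1, f2, q, e⟩ := exists_monic_irreducible_factor _ (minpoly.not_isUnit F M)
  have q0 : q ≠ 0 := by rintro rfl; exact minpoly.ne_zero hM (by simpa using e)
  obtain ⟨x, hx⟩ : ∃ x, aeval M q x ≠ 0 := by
    by_contra! h
    have := natDegree_le_natDegree (minpoly.degree_le_of_ne_zero F M q0 (LinearMap.ext h))
    rw [e, natDegree_mul f1.ne_zero q0] at this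
    have := f2.natDegree_pos
    omega
  have h1 : aeval M f (aeval M q x) = 0 := by
    rw [← End.mul_apply, ← map_mul, ← e, minpoly.aeval]; rfl
  let ι := LinearMap.applyₗ (aeval M q x) ∘ₗ (aeval M).toLinearMap ∘ₗ AdjoinRoot.modByMonicHom f1
  have h2 : ∀ p, ι (AdjoinRoot.mk f p) = aeval M p (aeval M q x) := fun p => by
    conv_rhs => rw [← modByMonic_add_div p f, mul_comm, map_add, map_mul]
    simp [ι, h1]
  refine ⟨f, f2, f1, ι, fun h => hx (by simpa [h] using (h2 1).symm), fun l => ?_, fun l h l' => ?_⟩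
  · obtain ⟨p, rfl⟩ := AdjoinRoot.mk_surjective l
    rw [← AdjoinRoot.mk_X, ← map_mul, h2, h2]; simp
  · obtain ⟨p, rfl⟩ := AdjoinRoot.mk_surjective l
    obtain ⟨p', rfl⟩ := AdjoinRoot.mk_surjective l'
    rw [h2] at h
    rw [← map_mul, h2, map_mul, End.mul_apply, h, map_zero]

theorem dk [Finite F] (h2 : (2 : F) ≠ 0) {n m : V →ₗ[F] V} (hX : X ≠ ⊥) (hn : ∀ x ∈ X, n x = 0)
    (hm : ∀ x, m (m x) = 0) (hM : ∀ x ∈ X, (n ∘ₗ m) x ∈ X) (hi : ∀ x ∈ X, n (m x) = 0 → x = 0)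
    (hg : g ∈ H) (hk : k ∈ H) (eg : ∀ x, g.1 x = x + n x) (ek : ∀ x, k.1 x = x + m x) :
    ∃ x ∈ X, x ≠ 0 ∧ ((∃ s : F, s ≠ 0 ∧ n (m x) = s • x) ∨ ∃ g ∈ H, g.1 x ∈ X ∧ g.1 x ∉ F ∙ x) := by
  haveI := Submodule.nontrivial_iff_ne_bot.2 hX
  obtain ⟨f, f1, f2, ι, i1, i2, i3⟩ := ex_simple ((n ∘ₗ m).restrict hM)
  haveI := Fact.mk f1
  haveI := (AdjoinRoot.powerBasis' f2).finite
  haveI : Finite (AdjoinRoot f) := Module.finite_of_finite F
  generalize AdjoinRoot.root f = θ at i2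
  replace i2 : ∀ l, n (m (ι l)) = ι (θ * l) := fun l => congrArg Subtype.val (i2 l)
  replace i3 : ∀ l, ι l = 0 → l = 0 := fun l h => by_contra fun h0 =>
    i1 (by simpa [h0] using i3 l h l⁻¹)
  have i4 : (ι 1 : V) ≠ 0 := by simpa using i1
  have t0 : θ ≠ 0 := fun h => i4 (hi _ (ι 1).2 (by simp [i2, h]))
  refine ⟨ι 1, (ι 1).2, i4, or_iff_not_imp_left.2 fun hs => ?_⟩
  suffices ∃ g ∈ H, g.1 (ι 1) = ι θ by
    obtain ⟨g, hg, e⟩ := this
    refine ⟨g, hg, e ▸ (ι θ).2, fun h => hs ?_⟩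
    obtain ⟨s, h⟩ := Submodule.mem_span_singleton.1 h
    exact ⟨s, fun s0 => t0 (i3 _ (by simpa [s0, e] using h.symm)), by rw [i2, mul_one, h, e]⟩
  let L : Subgroup SL(2, AdjoinRoot f) :=
    { carrier := {B | ∃ g ∈ H, ∀ p : Fin 2 → AdjoinRoot f, g.1 (ι (p 0) + m (ι (p 1))) =
        ι ((B.1 *ᵥ p) 0) + m (ι ((B.1 *ᵥ p) 1))}
      mul_mem' := by
        rintro B C ⟨g, hg, a1⟩ ⟨k, hk, b1⟩
        exact ⟨g * k, H.mul_mem hg hk, fun p => by
          rw [isom_mul_apply, b1, a1, Matrix.mulVec_mulVec, Matrix.SpecialLinearGroup.coe_mul]⟩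
      one_mem' := ⟨1, H.one_mem, by simp⟩
      inv_mem' := by
        rintro B ⟨g, hg, a1⟩
        refine ⟨g⁻¹, H.inv_mem hg, fun p => g.1.injective ?_⟩
        rw [isom_apply_inv_self, a1, Matrix.mulVec_mulVec, ← Matrix.SpecialLinearGroup.coe_mul,
          mul_inv_cancel, Matrix.SpecialLinearGroup.coe_one, Matrix.one_mulVec] }
  have l1 : ∀ B : SL(2, AdjoinRoot f), B.1 = !![1, 0; 1, 1] → B ∈ L := fun B e => ⟨k, hk, fun p => by
    simp [e, ek, hm, Matrix.mulVec, dotProduct]; abel⟩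
  have l2 : ∀ B : SL(2, AdjoinRoot f), B.1 = !![1, θ; 0, 1] → B ∈ L := fun B e => ⟨g, hg, fun p => by
    simp [e, eg, hn, i2, Matrix.mulVec, dotProduct]; abel⟩
  suffices ∃ B ∈ L, B.1 0 0 = θ ∧ B.1 1 0 = 0 by
    obtain ⟨B, ⟨g, hg, e⟩, a1, a2⟩ := this
    exact ⟨g, hg, by simpa [Matrix.mulVec, dotProduct, a1, a2] using e ![1, 0]⟩
  by_cases h3 : θ ^ 2 = -1
  · obtain ⟨a, ea⟩ : ∃ a : SL(2, AdjoinRoot f), a.1 = !![1, 0; 1, 1] :=
      ⟨⟨_, by simp [Matrix.det_fin_two]⟩, rfl⟩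
    obtain ⟨b, eb⟩ : ∃ b : SL(2, AdjoinRoot f), b.1 = !![1, θ; 0, 1] :=
      ⟨⟨_, by simp [Matrix.det_fin_two]⟩, rfl⟩
    refine ⟨a * b⁻¹ * a⁻¹ * b * a, L.mul_mem (L.mul_mem (L.mul_mem (L.mul_mem (l1 a ea) (L.inv_mem
      (l2 b eb))) (L.inv_mem (l1 a ea))) (l2 b eb)) (l1 a ea), ?_, ?_⟩ <;>
    · simp [ea, eb, Matrix.adjugate_fin_two]
      linear_combination h3
  let K := Subfield.closure {θ}
  haveI := Fintype.ofFinite K
  let lam : K := ⟨θ, Subfield.subset_closure rfl⟩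
  have top := ((Cfsg.Agent.S0801.result (F := K) (fun h => h2 ((algebraMap F (AdjoinRoot f)).injective
    (by rw [map_ofNat, map_zero]; exact congrArg Subtype.val h))) lam
    (fun h => t0 (congrArg Subtype.val h)) (eq_top_iff.2 fun z _ => by
      obtain ⟨y, hy, e⟩ : z.1 ∈ (Subfield.closure {lam}).map K.subtype := by
        rw [RingHom.map_field_closure, Set.image_singleton]; exact z.2
      exact (Subtype.ext e : y = z) ▸ hy)).resolve_right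
      fun c => h3 (congrArg Subtype.val c.2.1)).1
  have le : L.comap (Matrix.SpecialLinearGroup.map K.subtype) = ⊤ :=
    eq_top_iff.2 (top ▸ (Subgroup.closure_le _).2 fun B hB => by
      rcases hB with hB | hB
      · exact l1 _ (by ext i j; fin_cases i <;> fin_cases j <;> simp [hB])
      · exact l2 _ (by ext i j; fin_cases i <;> fin_cases j <;> simp [hB, lam]))
  exact ⟨_, (le.ge trivial : (⟨!![lam, 0; 0, lam⁻¹], by
    simp [Matrix.det_fin_two, mul_inv_cancel₀ (show lam ≠ 0 from fun h => t0 (congrArg Subtype.val h))]⟩ :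
      SL(2, K)) ∈ _), rfl, rfl⟩

/-- images of the subspaces `v ⊗ W` -/
def Mb (t : U →ₗ[F] W →ₗ[F] V) (H : Subgroup S.Isom) (X : Submodule F V) : Prop :=
  ∃ g ∈ H, ∃ v, v ≠ 0 ∧ X = (LinearMap.range (t v)).map (g.1 : V →ₗ[F] V)

/-- distinct members meet in dimension at most `d` -/
def Mx (t : U →ₗ[F] W →ₗ[F] V) (H : Subgroup S.Isom) (d : ℕ) : Prop :=
  ∀ X Y, Mb t H X → Mb t H Y → d < finrank F (X ⊓ Y : Submodule F V) → X = Y

theorem mb_t (hv : v ≠ 0) : Mb t H (LinearMap.range (t v)) :=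
  ⟨1, H.one_mem, v, hv, (Submodule.map_id _).symm⟩

theorem Mb.map (h : Mb t H X) (hg : g ∈ H) : Mb t H (X.map (g.1 : V →ₗ[F] V)) := by
  obtain ⟨k, hk, w, hw, rfl⟩ := h
  exact ⟨g * k, H.mul_mem hg hk, w, hw, (Submodule.map_comp _ _ _).symm⟩

theorem Mx.nml (hM : Mx t H d) (hX : Mb t H X) (hY : Mb t H Y) (h1 : D ≤ X) (h2 : D ≤ Y)
    (hd : d ≤ finrank F D) (hg : g ∈ H) (h3 : ∀ y ∈ D, g.1 y = y) (hx : x ∈ X) (hx' : g.1 x ∈ Y)
    (hxD : x ∉ D) : X.map (g.1 : V →ₗ[F] V) = Y :=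
  hM _ _ (hX.map hg) hY (hd.trans_lt (Submodule.finrank_lt_finrank_of_lt (lt_of_le_of_ne
    (le_inf (fun y hy => ⟨y, h1 hy, h3 y hy⟩) h2) fun e' => hxD (by
      have a : g.1 x ∈ D := e' ▸ ⟨⟨x, hx, rfl⟩, hx'⟩
      exact g.1.injective (h3 _ a) ▸ a))))

namespace TQ
variable [Finite F] (N : TQ A T t c H)
include N

theorem rk (hX : Mb t H X) : finrank F X = finrank F W := by
  obtain ⟨g, -, w, hw, rfl⟩ := hX
  rw [LinearEquiv.finrank_map_eq, LinearMap.finrank_range_of_inj (N.inj' hw)]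

theorem mm_h (x y : V) : S.h x (mm t c g v y) = -T.h (c v (g⁻¹.1 x)) (c v (g⁻¹.1 y)) := by
  rw [mm_apply, isom_h_right, hs, N.hh, os]

variable (hN : NL t c H)
include hN

theorem std (hg : g ∈ H) (hv : v ≠ 0) (hz : z ≠ 0) (e : ∀ w, mm t c g v (t z w) = 0) :
    ∃ y, (LinearMap.range (t v)).map (g.1 : V →ₗ[F] V) = LinearMap.range (t y) := by
  obtain ⟨k, hk, e1⟩ := N.hm hg v 1
  choose f hf using N.fixC hN hz hk fun w => by simp [e1, e]
  have a1 : ∀ y w, mm t c g v (t y w) = t (f y - y) w := fun y w => by simp [← hf, e1]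
  obtain ⟨y, hy⟩ : ∃ y, f y - y ≠ 0 := by
    by_contra! h
    obtain ⟨v', hv'⟩ := N.ndU.exists_h_eq_one hv
    obtain ⟨w, hw⟩ := ex_ns0 N.two N.ndW N.hb
    have := N.lext (f := mm t c g v) (g := 0) (fun y w => by simp [a1, h]) (g.1 (t v' w))
    simp only [mm_apply, isom_inv_apply_self, N.ct, hv', one_smul, LinearMap.zero_apply,
      EmbeddingLike.map_eq_zero_iff] at this
    simp [N.inj hv this] at hw
  exact ⟨_, (Submodule.eq_of_le_of_finrank_eq (by rintro _ ⟨w, rfl⟩; exact ⟨_, ⟨_, rfl⟩, a1 y w⟩)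
    (by rw [N.rk (mb_t hy), N.rk ((mb_t hv).map hg)])).symm⟩

theorem core (hM : Mx t H d) (hu : u ≠ 0) (hg : g ∈ H) (hv : v ≠ 0)
    (eY : Y = (LinearMap.range (t v)).map (g.1 : V →ₗ[F] V)) (hn : ∀ y, Y ≠ LinearMap.range (t y))
    (hd : d ≤ finrank F ↥(LinearMap.range (t u) ⊓ Y)) : LinearMap.range (t u) ⊓ Y = ⊥ ∧
      ∃ s : F, s ≠ 0 ∧ ∀ w, c u (mm t c g v (t u w)) = s • w := by
  have hY : Mb t H Y := ⟨g, hg, v, hv, eY⟩
  have hX := mb_t (t := t) (H := H) hu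
  obtain ⟨m, em⟩ : ∃ m, m = mm t c g v := ⟨_, rfl⟩
  obtain ⟨n, en⟩ : ∃ n, n = t u ∘ₗ c u := ⟨_, rfl⟩
  have n0 : ∀ w, n (t u w) = 0 := fun w => by simp [en, N.ct, h0]
  have m1 : ∀ x, m x ∈ Y := fun x => eY ▸ em ▸ ⟨_, ⟨_, rfl⟩, rfl⟩
  have m0 : ∀ x ∈ Y, m x = 0 := by
    rw [eY, em]; rintro _ ⟨_, ⟨w, rfl⟩, rfl⟩; exact N.mm_t w
  have hn' : ∀ s : F, ∃ k ∈ H, ∀ x, k.1 x = x + s • n x := en ▸ N.hT u
  have hm' : ∀ s : F, ∃ k ∈ H, ∀ x, k.1 x = x + s • m x := em ▸ N.hm hg v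
  rw [← em]
  obtain ⟨X, eX⟩ : ∃ X, X = LinearMap.range (t u) := ⟨_, rfl⟩
  rw [← eX] at hX hd ⊢
  have n1 : ∀ x, n x ∈ X := fun x => eX ▸ en ▸ ⟨_, rfl⟩
  replace n0 : ∀ x ∈ X, n x = 0 := by rw [eX]; rintro _ ⟨w, rfl⟩; exact n0 w
  have tX : ∀ w, t u w ∈ X := fun w => eX ▸ ⟨_, rfl⟩
  have i1 : ∀ x ∈ X, m x ∈ X → x ∈ Y := fun x hx h => by_contra fun h' => by
    obtain ⟨k, hk, e⟩ := hm' 1
    have := hM.nml hX hX inf_le_left inf_le_left hd hk (fun y hy => by simp [e, m0 y hy.2]) hx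
      (by simpa [e] using X.add_mem hx h) fun a => h' a.2
    exact (N.std hN hg hv hu (N.nmlS hN hg hv hu fun w => by
      obtain ⟨a, ha⟩ := eX ▸ X.sub_mem (this.le ⟨_, tX w, rfl⟩) (tX w)
      exact ⟨a, by simpa [e, em] using ha.symm⟩)).elim fun y hy => hn y (eY ▸ hy)
  have i2 : ∀ x ∈ Y, n x ∈ Y → x ∈ X := fun x hx h => by_contra fun h' => by
    obtain ⟨k, hk, e⟩ := hn' 1
    have := hM.nml hY hY inf_le_right inf_le_right hd hk (fun y hy => by simp [e, n0 y hy.1]) hx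
      (by simpa [e] using Y.add_mem hx h) fun a => h' a.1
    have a1 := N.nmlS hN (H.inv_mem hg) hu hv fun w => by
      have b : g.1 (t v w) ∈ Y := eY ▸ ⟨_, ⟨_, rfl⟩, rfl⟩
      obtain ⟨_, ⟨a, rfl⟩, ha⟩ := eY ▸ Y.sub_mem (this.le ⟨_, b, rfl⟩) b
      exact ⟨a, g.1.injective (by simpa [e, en, mm_apply] using ha.symm)⟩
    refine (N.std hN hg hv hu fun w => ?_).elim fun y hy => hn y (eY ▸ hy)
    rw [mm_apply, N.ndW.eq_zero' (y := c v _) fun a => by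
      rw [← N.hh, ← isom_h_left, hs, N.hh, N.inj hu (w := c u (g.1 (t v a)))
        (by simpa [mm_apply] using a1 a)]; simp]
    simp
  let G : Subgroup S.Isom :=
    { carrier := {k | k ∈ H ∧ (∀ x ∈ X ⊓ Y, k.1 x = x) ∧ ∀ x, k.1 x - x ∈ X ⊔ Y}
      mul_mem' := fun {k l} a b => ⟨H.mul_mem a.1 b.1, fun x hx => by simp [a.2.1 x hx, b.2.1 x hx],
        fun x => by simpa using add_mem (a.2.2 (l.1 x)) (b.2.2 x)⟩
      one_mem' := ⟨H.one_mem, by simp, by simp⟩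
      inv_mem' := fun {k} a => ⟨H.inv_mem a.1, fun x hx => k.1.injective (by simp [a.2.1 x hx]),
        fun x => by simpa using neg_mem (a.2.2 (k⁻¹.1 x))⟩ }
  have key : ∀ k ∈ G, ∀ x ∈ X, x ∉ Y → k.1 x ∈ X → ∃ s : F, ∀ x ∈ X, k.1 x = s • x := by
    intro k hk x hx h1 h2
    have := hM.nml hX hX inf_le_left inf_le_left hd hk.1 hk.2.1 hx h2 fun a => h1 a.2
    obtain ⟨s, hs⟩ := N.nmlN hN hu hk.1 fun x hx => by
      obtain ⟨a, ha, b, hb, e⟩ := Submodule.mem_sup.1 (hk.2.2 x)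
      have a1 : c u (k.1 x) = 0 := N.ndW.eq_zero' fun w => by
        obtain ⟨y, hy, e⟩ := this.ge (tX w)
        obtain ⟨w', rfl⟩ := eX ▸ hy
        rw [← N.hh, ← e, LinearEquiv.coe_coe, isom_h, N.hh, hx, map_zero]
      have a2 := congrArg n e
      rw [map_add, n0 a ha, zero_add, show n (k.1 x - x) = 0 by simp [en, a1, hx]] at a2
      obtain ⟨w, hw⟩ := eX ▸ X.add_mem ha (i2 b hb (a2 ▸ Y.zero_mem))
      exact ⟨w, by rw [hw, e, add_sub_cancel]⟩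
    exact ⟨s, by rw [eX]; rintro _ ⟨w, rfl⟩; exact hs w⟩
  have gn : ∀ s : F, ∃ k ∈ G, ∀ x, k.1 x = x + s • n x := fun s =>
    let ⟨k, hk, e⟩ := hn' s
    ⟨k, ⟨hk, fun x hx => by simp [e, n0 x hx.1],
      fun x => by simpa [e] using Submodule.mem_sup_left (X.smul_mem s (n1 x))⟩, e⟩
  have gm : ∀ s : F, ∃ k ∈ G, ∀ x, k.1 x = x + s • m x := fun s =>
    let ⟨k, hk, e⟩ := hm' s
    ⟨k, ⟨hk, fun x hx => by simp [e, m0 x hx.2],
      fun x => by simpa [e] using Submodule.mem_sup_right (Y.smul_mem s (m1 x))⟩, e⟩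
  have j1 : ∀ x ∈ Y.map n, x ∈ X := by rintro _ ⟨y, -, rfl⟩; exact n1 y
  have j2 : ∀ x ∈ Y.map n, x ∈ Y → x = 0 := by rintro _ ⟨y, hy, rfl⟩ h; exact n0 y (i2 y hy h)
  obtain ⟨a, ha, ea⟩ := gn 1
  obtain ⟨b, hb, eb⟩ := gm 1
  obtain ⟨x, hx, x0, ⟨s, s0, h1⟩ | ⟨k, hk, h1, h2⟩⟩ := dk N.two (X := Y.map n) (n := n) (m := m)
    (fun h => hn u (eX ▸ Submodule.eq_of_le_of_finrank_eq (fun y hy => i2 y hy (by
      rw [show n y = 0 from h.le ⟨y, hy, rfl⟩]; exact Y.zero_mem)) (by rw [N.rk hX, N.rk hY])))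
    (fun x hx => n0 x (j1 x hx)) (fun x => m0 _ (m1 x)) (fun x _ => ⟨_, m1 x, rfl⟩)
    (fun x hx h => j2 x hx (i1 x (j1 x hx) (i2 _ (m1 x) (h ▸ Y.zero_mem)))) ha hb
    (by simpa using ea) (by simpa using eb)
  swap
  · obtain ⟨s, hs⟩ := key k hk x (j1 x hx) (x0 ∘ j2 x hx) (j1 _ h1)
    exact absurd (Submodule.mem_span_singleton.2 ⟨s, (hs x (j1 x hx)).symm⟩) h2
  obtain ⟨b, hb, eb⟩ := gm (-s⁻¹)
  have hw := G.mul_mem (G.mul_mem ha hb) ha
  have c1 : (a * b * a).1 x = -s⁻¹ • m x := by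
    simp [ea, eb, n0 x (j1 x hx), h1, smul_smul, s0]
  have c2 : (a * b * a * (a * b * a)).1 x = -x := by
    rw [isom_mul_apply, c1]
    simp [ea, eb, n0 x (j1 x hx), h1, smul_smul, s0, m0 _ (m1 x)]
  obtain ⟨r, hr⟩ := key _ (G.mul_mem hw hw) x (j1 x hx) (x0 ∘ j2 x hx) (c2 ▸ X.neg_mem (j1 x hx))
  obtain rfl : r = -1 := smul_left_injective F x0 (by simpa using (hr x (j1 x hx)).symm.trans c2)
  have c3 : X ⊓ Y = ⊥ := eq_bot_iff.2 fun y hy => by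
    have := hr y hy.1
    rw [(G.mul_mem hw hw).2.1 y hy] at this
    exact (smul_eq_zero.1 (by linear_combination (norm := module) this :
      (2 : F) • y = 0)).resolve_left N.two
  refine ⟨c3, s, s0, fun w => N.inj' hu ?_⟩
  have c4 := (hM.nml hX hY inf_le_left inf_le_right hd hw.1 hw.2.1 (j1 x hx)
    (c1 ▸ Y.smul_mem _ (m1 x)) fun a => x0 (j2 x hx a.2)).le ⟨_, tX w, rfl⟩
  have c5 : t u w - s⁻¹ • n (m (t u w)) = 0 := c3.le ⟨X.sub_mem (tX w) (X.smul_mem _ (n1 _)), by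
    convert Y.add_mem c4 (Y.smul_mem s⁻¹ (m1 (t u w))) using 1
    simp [ea, eb, n0 _ (tX w)]
    abel⟩
  simpa [en, smul_smul, s0] using (congrArg (s • ·) (sub_eq_zero.1 c5)).symm

theorem step (hM : Mx t H (d + 1)) : Mx t H d := by
  have main : ∀ u X, u ≠ 0 → Mb t H X →
      d < finrank F ↥(LinearMap.range (t u) ⊓ X) → X = LinearMap.range (t u) := by
    intro u X hu hX hd
    have h1 : LinearMap.range (t u) ⊓ X ≠ ⊥ := fun e => by rw [e, finrank_bot] at hd; omega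
    obtain ⟨y, rfl⟩ : ∃ y, X = LinearMap.range (t y) := by
      by_contra! h
      obtain ⟨g, hg, v, hv, e⟩ := hX
      exact h1 (N.core hN hM hu hg hv e h hd).1
    obtain ⟨_, ⟨⟨w, rfl⟩, w', e⟩, hz⟩ := Submodule.exists_mem_ne_zero_of_ne_bot h1
    obtain ⟨a, rfl⟩ := Submodule.mem_span_singleton.1 (by_contra fun m : y ∉ F ∙ u => by
      obtain ⟨r, r1, r2⟩ := N.ndU.exists_perp_of_notMem m 1
      have := congrArg (c r) e
      simp only [N.ct, r2, A.h_swap_zero (A.mem_perp_singleton.1 r1), one_smul, zero_smul] at this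
      simp [← e, this] at hz)
    exact Submodule.eq_of_le_of_finrank_eq (by rintro _ ⟨w, rfl⟩; exact ⟨a • w, by simp⟩)
      (by rw [N.rk hX, N.rk (mb_t hu)])
  rintro X _ hX ⟨g, hg, w, hw, rfl⟩ hd
  have e : (X.map (g⁻¹.1 : V →ₗ[F] V)).map (g.1 : V →ₗ[F] V) = X := Submodule.ext fun x =>
    ⟨by rintro ⟨_, ⟨y, hy, rfl⟩, rfl⟩; simpa, fun hx => ⟨_, ⟨x, hx, rfl⟩, by simp⟩⟩
  rw [← main w _ hw (hX.map (H.inv_mem hg)), e]
  rwa [← g.1.finrank_map_eq, Submodule.map_inf _ g.1.injective, e, inf_comm]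

theorem pure (hX : Mb t H X) : ∃ y, X = LinearMap.range (t y) := by
  have hM : Mx t H 0 := Nat.decreasingInduction' (P := Mx t H) (fun _ _ _ => N.step hN)
    (Nat.zero_le (finrank F V)) fun X Y _ _ hd => (hd.not_ge (Submodule.finrank_le _)).elim
  by_contra! h
  obtain ⟨g, hg, v, hv, e⟩ := hX
  obtain ⟨w, hw⟩ := ex_ns0 N.two N.ndW N.hb
  obtain ⟨u, -, hu, h1⟩ := iso3_orth (symmS N.two (S.h.compl₁₂ (t.flip w) (mm t c g v ∘ₗ t.flip w))
    ⟨fun x y => (N.mm_h _ _).trans ((congrArg _ (os _ _)).trans (N.mm_h _ _).symm)⟩) ⊤ (by simpa using N.three)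
  obtain ⟨-, s, s0, h2⟩ := N.core hN hM hu hg hv e h (Nat.zero_le _)
  simp [orth_sing, N.hh, h2, s0, hw, N.two] at h1

omit hN in
theorem dich : S.E ≤ H ∨ ∀ g ∈ H, ∀ u, ∃ u', ∀ x, (∃ w, t u w = x) ↔ ∃ w, t u' w = g.1 x :=
  N.nl_or.imp_right fun hN g hg u => by
    by_cases hu : u = 0
    · exact ⟨0, fun x => by simp [hu, eq_comm (a := (0 : V))]⟩
    obtain ⟨u', e⟩ := N.pure hN ((mb_t hu).map hg)
    refine ⟨u', fun x => Iff.trans ?_ (SetLike.ext_iff.1 e (g.1 x))⟩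
    simp [Submodule.mem_map_equiv]

end TQ

end H20.Tp
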